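import Mathlib
import Cfsg.Agent.Max.Om2
import Cfsg.Agent.Herm.Iso
import Cfsg.Agent.Herm.Matrix

/-!
# Subgroups of unitary groups containing Eichler transformations
-/

set_option autoImplicit false

namespace Cfsg.Agent.Max

open Module Herm

variable {F V : Type*} [Field F] [AddCommGroup V] [Module F V] [FiniteDimensional F V]
  {σ : F →+* F} {B : V →ₛₗ[σ] V →ₗ[F] F} {hB : HF B} {M : Subgroup (UG B)}

/-- The vectors `v ⊥ u` such that `M` contains some Eichler transformation `eich u v l`. -/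
def UA (hB : HF B) (M : Subgroup (UG B)) (u : V) : AddSubgroup V where
  carrier := {v | B u v = 0 ∧ ∃ l, l + σ l = B v v ∧ hB.eich u v l ∈ M}
  zero_mem' := ⟨by simp, 0, by simp, by
    by_cases hu : B u u = 0
    · simp [hB.eich_zero hu]
    · rw [hB.eich_of_not fun h => hu h.1]
      exact one_mem M⟩
  neg_mem' {v} := fun ⟨h1, l, h2, h3⟩ => ⟨by simp [h1], σ l, by simp [hB.invol, ← h2, add_comm], by
    by_cases hu : B u u = 0
    · rw [← hB.eich_inv hu h1 h2]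
      exact inv_mem h3
    · rw [hB.eich_of_not fun h => hu h.1]
      exact one_mem M⟩
  add_mem' {v w} := fun ⟨h1, l, h2, h3⟩ ⟨h4, m, h5, h6⟩ => ⟨by simp [h1, h4], _,
    hB.trace_add h2 h5, by
    by_cases hu : B u u = 0
    · rw [← hB.eich_mul hu h1 h2 h4 h5]
      exact mul_mem h3 h6
    · rw [hB.eich_of_not fun h => hu h.1]
      exact one_mem M⟩

theorem UA.map {u v : V} (h : v ∈ UA hB M u) {g : UG B} (hg : g ∈ M) :
    g.1 v ∈ UA hB M (g.1 u) := by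
  obtain ⟨h1, l, h2, h3⟩ := h
  refine ⟨by simp [h1], l, by simp [h2], ?_⟩
  rw [← hB.eich_conj]
  exact mul_mem (mul_mem hg h3) (inv_mem hg)

theorem UA.map_fix {u v : V} (h : v ∈ UA hB M u) {g : UG B} (hg : g ∈ M) (e : g.1 u = u) :
    g.1 v ∈ UA hB M u := e ▸ UA.map h hg

theorem UA.of_forall {u v : V} (h : B u v = 0) (h' : ∀ l, hB.eich u v l ∈ M) : v ∈ UA hB M u :=
  let ⟨l, hl⟩ := hB.toInv.exists_trace (hB.fix v); ⟨h, l, hl, h' l⟩

theorem UA.self {u : V} (hu : B u u = 0) (c : F) : c • u ∈ UA hB M u :=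
  ⟨by simp [hu], σ c - c, by simp [hu, hB.invol], by
    have := hB.eich_add_smul (v := 0) (l := σ c - c) hu (by simp) (by simp [hB.invol]) c
    rw [zero_add] at this
    simp [this, hB.eich_zero hu]⟩

theorem UA.of_smul {u v : V} (hu : B u u = 0) {a : F} (ha : a ≠ 0) (h : v ∈ UA hB M (a • u)) :
    σ a • v ∈ UA hB M u := by
  obtain ⟨h1, l, h2, h3⟩ := h
  have h4 : B u v = 0 := by simpa [ha] using h1
  refine ⟨by simp [h4], a * σ a * l, ?_, by rwa [← hB.eich_smul_left hu h4 h2]⟩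
  simp only [map_mul, hB.invol, b_smul_left, map_smul, smul_eq_mul, ← h2]
  ring

theorem UA.map_smul {u v : V} (hu : B u u = 0) (h : v ∈ UA hB M u) {g : UG B} (hg : g ∈ M) {a : F}
    (ha : a ≠ 0) (e : g.1 u = a • u) : σ a • g.1 v ∈ UA hB M u :=
  UA.of_smul hu ha (e ▸ UA.map h hg)

/-- The vectors all of whose multiples lie in `UA`. -/
def UE (hB : HF B) (M : Subgroup (UG B)) (u : V) : Submodule F V where
  carrier := {v | ∀ c : F, c • v ∈ UA hB M u}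
  zero_mem' c := by simp
  smul_mem' a v hv c := by rw [smul_smul]; exact hv _
  add_mem' hv hw c := by rw [smul_add]; exact add_mem (hv c) (hw c)

theorem UE.ua {u v : V} (h : v ∈ UE hB M u) : v ∈ UA hB M u := by simpa using h 1

theorem UE.orth {u v : V} (h : v ∈ UE hB M u) : B u v = 0 := (UE.ua h).1

theorem UE.map {u v : V} (h : v ∈ UE hB M u) {g : UG B} (hg : g ∈ M) :
    g.1 v ∈ UE hB M (g.1 u) := fun c => by rw [← _root_.map_smul]; exact UA.map (h c) hg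

theorem UE.map_fix {u v : V} (h : v ∈ UE hB M u) {g : UG B} (hg : g ∈ M) (e : g.1 u = u) :
    g.1 v ∈ UE hB M u := e ▸ UE.map h hg

theorem UE.self {u : V} (hu : B u u = 0) : u ∈ UE hB M u := UA.self hu

theorem UE.grow {x y u b : V} (hy : y ∈ UE hB M x) (hu : B u u = 0) (hb : b ∈ UA hB M u)
    (h1 : B u x = 0) (h2 : B b x = 0) : ∃ l, (B b y - l * B u y) • u - B u y • b ∈ UE hB M x := by
  obtain ⟨h3, l, h4, h5⟩ := hb
  have := (UE hB M x).sub_mem (UE.map_fix hy h5 (hB.eich_apply_of_orth l h1 h2)) hy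
  rw [hB.eich_apply hu h3 h4] at this
  exact ⟨l, by convert this using 1; abel⟩

/-- `M` contains the full group of transvections with centre `u`. -/
def UT (hB : HF B) (M : Subgroup (UG B)) (u : V) : Prop := B u u = 0 ∧ ∀ s, hB.qr u s ∈ M

theorem UT.map {u : V} (h : UT hB M u) {g : UG B} (hg : g ∈ M) : UT hB M (g.1 u) :=
  ⟨by simp [h.1], fun s => by
    rw [← hB.qr_conj]
    exact mul_mem (mul_mem hg (h.2 s)) (inv_mem hg)⟩

theorem UT.smul {u : V} (h : UT hB M u) (a : F) : UT hB M (a • u) :=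
  ⟨by simp [h.1], fun s => by
    by_cases ha : a = 0
    · simp [ha]
    · rw [hB.qr_smul _ _ _ ha]
      exact h.2 _⟩

theorem UT.add {u x : V} (h : UT hB M u) (hx : UT hB M x) {s : F} (hs : s + σ s = 0) :
    UT hB M (x + (s * B u x) • u) := hB.tv_apply h.1 hs x ▸ hx.map (h.2 s)

theorem UT.grow {x y u : V} (h : UT hB M u) (hy : y ∈ UE hB M x) (h1 : B u x = 0)
    (h2 : B u y ≠ 0) : u ∈ UE hB M x := by
  obtain ⟨s, hs0, hs⟩ := hB.toInv.exists_skew
  have := (UE hB M x).sub_mem (UE.map_fix hy (h.2 s) (hB.qr_apply_of_orth s h1)) hy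
  rwa [hB.tv_apply h.1 hs, add_sub_cancel_left,
    (UE hB M x).smul_mem_iff (mul_ne_zero hs0 h2)] at this

theorem UT.of_comm {u v w : V} (hu : B u u = 0) (hv : v ∈ UA hB M u) (hw : w ∈ UE hB M u)
    (h : B v w ≠ 0) : UT hB M u := ⟨hu, fun s => by
  by_cases hs : s + σ s = 0
  swap
  · rw [hB.qr_of_not (by simpa [hu] using hs)]
    exact one_mem M
  obtain ⟨b, hb⟩ := hB.toInv.exists_sub hs
  obtain ⟨h1, l, h2, h3⟩ := hv
  obtain ⟨h4, m, h5, h6⟩ := hw (σ b / B v w)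
  have := hB.eich_commutator hu h1 h2 h4 h5
  rw [b_smul_left, b_smul_right, ← hB.symm v w, ← map_mul, div_mul_cancel₀ _ h, hB.invol,
    hb] at this
  rw [← this]
  exact mul_mem (mul_mem (mul_mem h3 h6) (inv_mem h3)) (inv_mem h6)⟩

theorem UT.eich_mem {u v : V} (h : UT hB M u) (hv : v ∈ UA hB M u) (l : F) :
    hB.eich u v l ∈ M := by
  by_cases hl : l + σ l = B v v
  swap
  · rw [hB.eich_of_not fun e => hl e.2.2]
    exact one_mem M
  obtain ⟨h1, m, h2, h3⟩ := hv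
  have := hB.eich_mul (w := 0) (m := l - m) h.1 h1 h2 (by simp) (by
    simp only [map_sub, map_zero]; linear_combination hl - h2)
  have h4 := mul_mem h3 (h.2 (-(l - m)))
  rw [← hB.eich_zero h.1, this] at h4
  simpa using h4

/-- `M` contains the full unipotent radical of the stabiliser of the isotropic point `u`. -/
def UP (hB : HF B) (M : Subgroup (UG B)) (u : V) : Prop :=
  B u u = 0 ∧ ∀ v, B u v = 0 → v ∈ UA hB M u

theorem UP.ue {u v : V} (h : UP hB M u) (hv : B u v = 0) : v ∈ UE hB M u :=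
  fun c => h.2 _ (by simp [hv])

theorem UP.ut (hn : 3 ≤ finrank F V) {u : V} (h : UP hB M u) : UT hB M u := by
  obtain ⟨v, hv, w, hw, e⟩ : ∃ v ∈ perp B (F ∙ u), ∃ w ∈ perp B (F ∙ u), B v w ≠ 0 := by
    by_contra hc
    push Not at hc
    have h1 := hB.two_mul_finrank_le (W := perp B (F ∙ u)) hc
    have h2 := hB.finrank_perp_add (F ∙ u)
    have h3 := finrank_span_one_le (F := F) u
    omega
  exact UT.of_comm h.1 (h.2 v (mem_perp_singleton.mp hv)) (h.ue (mem_perp_singleton.mp hw)) e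

theorem UP.mem (hn : 3 ≤ finrank F V) {u : V} (h : UP hB M u) (v : V) (l : F) :
    hB.eich u v l ∈ M := by
  by_cases hv : B u v = 0
  · exact (h.ut hn).eich_mem (h.2 v hv) l
  · rw [hB.eich_of_not fun e => hv e.2.1]
    exact one_mem M

theorem UP.map {u : V} (h : UP hB M u) {g : UG B} (hg : g ∈ M) : UP hB M (g.1 u) :=
  ⟨by simp [h.1], fun v hv => by
    have := UA.map (h.2 ((g⁻¹).1 v) (by rwa [UG.b_inv_right])) hg
    rwa [UG.apply_inv_self] at this⟩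

theorem UP.of_smul {u : V} {a : F} (ha : a ≠ 0) (h : UP hB M (a • u)) : UP hB M u := by
  have hu : B u u = 0 := by simpa [ha] using h.1
  refine ⟨hu, fun v hv => ?_⟩
  have := UA.of_smul hu ha (h.2 ((σ a)⁻¹ • v) (by simp [hv]))
  rwa [smul_smul, mul_inv_cancel₀ (by simpa using ha), one_smul] at this

theorem exists_qr_coef (hB : HF B) (a : V) : ∃ c, c ≠ 0 ∧ c + σ c + c * σ c * B a a = 0 := by
  by_cases ha : B a a = 0
  · obtain ⟨s, hs0, hs⟩ := hB.toInv.exists_skew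
    exact ⟨s, hs0, by simp [ha, hs]⟩
  obtain ⟨t, ht⟩ := hB.ne
  have h0 : t ≠ 0 := by rintro rfl; simp at ht
  have h1 : σ t ≠ 0 := by simpa using h0
  refine ⟨(t / σ t - 1) / B a a, div_ne_zero (sub_ne_zero.mpr fun e => ht ?_) ha, ?_⟩
  · exact ((div_eq_one_iff_eq h1).mp e).symm
  · simp only [map_div₀, map_sub, map_one, hB.invol, hB.fix]
    field_simp
    ring

theorem qr_pair_mem (hB : HF B) {a b : V} (h : B b b = B a a) (c : F) :
    hB.qr a c * hB.qr b (σ c) ∈ SUG B := by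
  by_cases hc : c + σ c + c * σ c * B a a = 0
  · rw [mem_SUG, map_mul, Units.val_mul, hB.detU_qr hc, hB.detU_qr (by
      rw [hB.invol, h]; linear_combination hc), h]
    linear_combination B a a * hc
  · rw [hB.qr_of_not hc, hB.qr_of_not fun e => hc (by
      rw [hB.invol, h] at e; linear_combination e), one_mul]
    exact one_mem _

theorem qr_apply' (hB : HF B) (a : V) (c : F) (x : V) : ∃ k : F, (hB.qr a c).1 x = x + (k * B a x) • a := by
  by_cases hc : c + σ c + c * σ c * B a a = 0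
  · exact ⟨c, hB.qr_apply hc x⟩
  · exact ⟨0, by simp [hB.qr_of_not hc]⟩

theorem qr_mem_sub (hB : HF B) {W : Submodule F V} {a : V} (ha : a ∈ W ∨ a ∈ perp B W) (c : F)
    {x : V} (hx : x ∈ W) : (hB.qr a c).1 x ∈ W := by
  obtain ⟨k, hk⟩ := qr_apply' hB a c x
  rw [hk]
  rcases ha with ha | ha
  · exact W.add_mem hx (W.smul_mem _ ha)
  · simpa [hB.mem_perp'.mp ha x hx] using hx

theorem UE.of_qr {x w a b : V} (hw : w ∈ UE hB M x) (h1 : B a x = 0) (h2 : B b x = 0)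
    (h3 : B b w = 0) (h4 : B a w ≠ 0) (h : ∀ c, hB.qr a c * hB.qr b (σ c) ∈ M) :
    a ∈ UE hB M x := by
  obtain ⟨c, hc0, hc⟩ := exists_qr_coef hB a
  have := (UE hB M x).sub_mem (UE.map_fix hw (h c) (by
    rw [UG.mul_apply, hB.qr_apply_of_orth _ h2, hB.qr_apply_of_orth _ h1])) hw
  rwa [UG.mul_apply, hB.qr_apply_of_orth _ h3, hB.qr_apply hc, add_sub_cancel_left,
    (UE hB M x).smul_mem_iff (mul_ne_zero hc0 h4)] at this

theorem ueich_mem_sub (hB : HF B) {W : Submodule F V} {u v : V}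
    (h : ∀ w ∈ W, ∀ l : F, (B v w - l * B u w) • u - B u w • v ∈ W) (l : F) {x : V} (hx : x ∈ W) :
    (hB.eich u v l).1 x ∈ W := by
  by_cases h1 : B u u = 0 ∧ B u v = 0 ∧ l + σ l = B v v
  · rw [hB.eich_apply h1.1 h1.2.1 h1.2.2, add_sub_assoc]
    exact W.add_mem hx (h x hx l)
  · simpa [hB.eich_of_not h1] using hx

theorem ueich_mem_sub' (hB : HF B) {W : Submodule F V} {u v : V}
    (h : (u ∈ W ∧ v ∈ W) ∨ (u ∈ perp B W ∧ v ∈ perp B W)) (l : F) {x : V} (hx : x ∈ W) :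
    (hB.eich u v l).1 x ∈ W :=
  ueich_mem_sub hB (fun w hw l => by
    rcases h with h | h
    · exact W.sub_mem (W.smul_mem _ h.1) (W.smul_mem _ h.2)
    · simp [hB.mem_perp'.mp h.1 w hw, hB.mem_perp'.mp h.2 w hw]) l hx

variable [Finite F]

theorem un_le_of_pair (hn : 3 ≤ finrank F V) {x f : V} (hx : UP hB M x) (hf : UP hB M f)
    (h : B x f ≠ 0) : SUG B ≤ M := by
  have key : ∀ {x f : V}, UP hB M x → UP hB M f → B x f ≠ 0 → ∀ z, B z z = 0 → B x z ≠ 0 →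
      UP hB M z := fun {x f} hx hf h z hz hxz => by
    obtain ⟨w, l, hw⟩ := hB.eich_trans_opp hx.1 hz hf.1 hxz h
    exact UP.of_smul (div_ne_zero h hxz) (hw ▸ hf.map (hx.mem hn w l))
  rw [← hB.eichGroup_eq (by omega)]
  refine (Subgroup.closure_le _).mpr ?_
  rintro _ ⟨z, v, l, rfl⟩
  by_cases hz : B z z = 0
  swap
  · rw [hB.eich_of_not fun e => hz e.1]
    exact one_mem M
  refine UP.mem hn ?_ v l
  by_cases hxz : B x z = 0
  swap
  · exact key hx hf h z hz hxz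
  by_cases hz' : z ∈ F ∙ x
  · obtain ⟨c, rfl⟩ := Submodule.mem_span_singleton.mp hz'
    by_cases hc : c = 0
    · exact ⟨hz, fun v hv => UA.of_forall hv (by simp [hc])⟩
    · exact UP.of_smul (inv_ne_zero hc) (by rwa [smul_smul, inv_mul_cancel₀ hc, one_smul])
  · obtain ⟨r, h1, h2, h3⟩ := hB.exists_iso_pair (ne_zero_of_b h) hz hxz hz' 1
    have hr := key hx hf h r h1 (by simp [h2])
    exact key hr hx (by simp [hB.one_symm h2]) z hz (by simp [hB.one_symm h3])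

theorem un_le_of_tv (hn : 3 ≤ finrank F V) {x f : V} (hx : UP hB M x) (hf : B f f = 0) {s : F}
    (hs0 : s ≠ 0) (hs : s + σ s = 0) (hm : hB.qr f s ∈ M) (h : B f x ≠ 0) : SUG B ≤ M := by
  refine un_le_of_pair hn hx (hx.map hm) ?_
  rw [hB.tv_apply hf hs, map_add, b_smul_right, hx.1, zero_add]
  exact mul_ne_zero (mul_ne_zero hs0 h) fun e => h (hB.zero_symm e)

theorem un_le_of_ut (hn : 3 ≤ finrank F V) {x f : V} (hx : UP hB M x) (hf : UT hB M f)
    (h : B f x ≠ 0) : SUG B ≤ M :=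
  let ⟨s, hs0, hs⟩ := hB.toInv.exists_skew; un_le_of_tv hn hx hf.1 hs0 hs (hf.2 s) h

omit [Finite F] in
theorem ut_of_stab {W : Submodule F V}
    (hH : ∀ g ∈ SUG B, (∀ v, v ∈ W ↔ g.1 v ∈ W) → g ∈ M) {x : V} (hx : B x x = 0)
    (h : x ∈ W ∨ x ∈ perp B W) : UT hB M x :=
  ⟨hx, fun s => hH _ (hB.tv_mem_SUG hx s) (mem_iff_of_le fun _ => qr_mem_sub hB h s)⟩

omit [Finite F] in
theorem ue_of_stab {W : Submodule F V}
    (hH : ∀ g ∈ SUG B, (∀ v, v ∈ W ↔ g.1 v ∈ W) → g ∈ M) {x v : V} (h : B x v = 0)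
    (h' : (x ∈ W ∧ v ∈ W) ∨ (x ∈ perp B W ∧ v ∈ perp B W)) : v ∈ UE hB M x := fun c =>
  UA.of_forall (by simp [h]) fun l => hH _ (hB.eich_mem_SUG _ _ _) (mem_iff_of_le fun _ =>
    ueich_mem_sub' hB (h'.imp (fun e => ⟨e.1, W.smul_mem _ e.2⟩)
      fun e => ⟨e.1, Submodule.smul_mem _ _ e.2⟩) l)

/-- Parabolic subgroups of unitary groups. -/
theorem un_parab (hB : HF B) (hn : 3 ≤ finrank F V) {W : Submodule F V} (hW : Iso B W)
    (hH : ∀ g ∈ SUG B, (∀ v, v ∈ W ↔ g.1 v ∈ W) → g ∈ M)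
    (hg : ∃ g ∈ M, ¬ ∀ v, v ∈ W ↔ g.1 v ∈ W) : SUG B ≤ M := by
  obtain ⟨g, hg, hg'⟩ := hg
  have h1 : ∀ w ∈ W, UP hB M w := fun w hw => ⟨hW w hw w hw, fun v hv => UA.of_forall hv fun l =>
    hH _ (hB.eich_mem_SUG _ _ _) (mem_iff_of_le fun _ => ueich_mem_sub hB (fun x hx l => by
      simpa [hW w hw x hx] using W.smul_mem _ hw) l)⟩
  obtain ⟨w, hw, hgw⟩ : ∃ v ∈ W, g.1 v ∉ W := by
    by_contra hn
    push Not at hn
    exact hg' (mem_iff_of_le hn)
  have hx := (h1 w hw).map hg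
  by_cases h2 : ∀ v ∈ W, B (g.1 w) v = 0
  swap
  · push Not at h2
    obtain ⟨v, hv, hv'⟩ := h2
    exact un_le_of_pair hn hx (h1 v hv) hv'
  obtain ⟨c, hc1, hc2, hc3⟩ := hB.exists_hyp_partner W hgw hx.1 h2
  exact un_le_of_ut hn hx (ut_of_stab hH hc3 (Or.inr (hB.mem_perp'.mpr hc1)))
    (by simp [hB.one_symm hc2])

/-- Non-degeneracy of a subspace. -/
def NDU (B : V →ₛₗ[σ] V →ₗ[F] F) (W : Submodule F V) : Prop :=
  ∀ w ∈ W, (∀ x ∈ W, B x w = 0) → w = 0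

section ndu
variable {W : Submodule F V} (h : NDU B W)
include h

omit [FiniteDimensional F V] [Finite F] in
theorem NDU.inf_perp : W ⊓ perp B W = ⊥ :=
  (Submodule.eq_bot_iff _).mpr fun w hw => h w hw.1 (mem_perp.mp hw.2)

omit [FiniteDimensional F V] [Finite F] in
theorem NDU.exists_ne {w : V} (hw : w ∈ W) (h0 : w ≠ 0) : ∃ x ∈ W, B x w ≠ 0 := by
  by_contra hc
  push Not at hc
  exact h0 (h w hw hc)

omit [FiniteDimensional F V] [Finite F] in
theorem NDU.le_of {X : Submodule F V} {w : V} (hw : w ∈ W) (h0 : w ≠ 0)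
    (hX : ∀ a ∈ W, B a w ≠ 0 → a ∈ X) : W ≤ X := fun a ha => by
  obtain ⟨x, hx, hx'⟩ := h.exists_ne hw h0
  by_cases h1 : B a w = 0
  · have := X.sub_mem (hX _ (W.add_mem ha hx) (by simpa [h1] using hx')) (hX x hx hx')
    rwa [add_sub_cancel_right] at this
  · exact hX a ha h1

variable (hB)
include hB

omit [FiniteDimensional F V] [Finite F] in
theorem NDU.hf : HF (res B W) := (hB.res_iff W).mpr h.inf_perp

omit [Finite F] in
theorem NDU.perp : NDU B (perp B W) := fun w hw hx => by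
  have : w ∈ W ⊓ Herm.perp B W := ⟨hB.perp_perp W ▸ mem_perp.mpr hx, hw⟩
  rwa [h.inf_perp] at this

omit [Finite F] in
theorem NDU.dec (v : V) : ∃ x ∈ W, ∃ y ∈ Herm.perp B W, x + y = v :=
  Submodule.mem_sup.mp ((hB.isCompl_perp h.inf_perp).sup_eq_top ▸ Submodule.mem_top)

theorem NDU.exists_norm (h1 : 1 ≤ finrank F W) {c : F} (hc : σ c = c) : ∃ b ∈ W, B b b = c := by
  have : Nontrivial W := Module.nontrivial_of_finrank_pos (R := F) (by omega)
  obtain ⟨v, hv⟩ := (h.hf hB).exists_norm_eq hc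
  exact ⟨v, v.2, hv⟩

theorem NDU.exists_iso (h2 : 2 ≤ finrank F W) {X : Submodule F V} (hX : ¬ W ≤ X) :
    ∃ a ∈ W, B a a = 0 ∧ a ∉ X := by
  by_contra hc
  push Not at hc
  obtain ⟨e, he, he0, he1⟩ := herm_exists_iso hB W h2
  refine hX (h.le_of he he0 fun a ha ha' => ?_)
  obtain ⟨k, hk⟩ := hB.exists_iso_sub he1 (x := a) fun e => ha' (hB.zero_symm e)
  simpa using X.add_mem (hc _ (W.sub_mem ha (W.smul_mem k he)) hk) (X.smul_mem k (hc e he he1))

theorem NDU.iso_into (h2 : 2 ≤ finrank F W) {X Y : Submodule F V}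
    (ho : ∀ x ∈ X, ∀ y ∈ Y, B x y = 0) (hs : ∀ a ∈ W, B a a = 0 → a ∈ X ∨ a ∈ Y) :
    W ≤ X ∨ W ≤ Y := by
  by_contra hc
  push Not at hc
  obtain ⟨a, ha, ha1, ha2⟩ := h.exists_iso hB h2 hc.1
  obtain ⟨b, hb, hb1, hb2⟩ := h.exists_iso hB h2 hc.2
  have h1 := (hs a ha ha1).resolve_left ha2
  have h2 := (hs b hb hb1).resolve_right hb2
  have h3 := ho b h2 a h1
  rcases hs _ (W.add_mem ha hb) (by simp [ha1, hb1, h3, hB.zero_symm h3]) with h4 | h4
  · exact ha2 ((X.add_mem_iff_left h2).mp h4)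
  · exact hb2 ((Y.add_mem_iff_right h1).mp h4)

omit [Finite F] in
theorem NDU.exists_hyp {x : V} (hx : x ∈ W) (hx0 : x ≠ 0) (hx1 : B x x = 0) :
    ∃ f ∈ W, B f f = 0 ∧ B x f = 1 ∧ ∃ U ≤ W, NDU B U ∧
      finrank F W ≤ finrank F U + 2 ∧ ∀ c ∈ U, B c x = 0 ∧ B c f = 0 := by
  obtain ⟨⟨f, hf⟩, h1, h2⟩ :=
    (h.hf hB).exists_hyp (x := ⟨x, hx⟩) (fun e => hx0 (congrArg Subtype.val e)) hx1
  simp only [res_apply] at h1 h2
  refine ⟨f, hf, h2, h1, W ⊓ LinearMap.ker (B x) ⊓ LinearMap.ker (B f),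
    inf_le_left.trans inf_le_left, fun w hw h3 => h w hw.1.1 fun a ha => ?_, ?_,
    fun c hc => ⟨hB.zero_symm hc.1.2, hB.zero_symm hc.2⟩⟩
  · have h4 := mem_perp_pair.mp (hB.hyp_proj_mem hx1 h2 h1 a)
    simpa [show B x w = 0 from hw.1.2, show B f w = 0 from hw.2] using h3 _
      ⟨⟨W.sub_mem (W.sub_mem ha (W.smul_mem _ hx)) (W.smul_mem _ hf), h4.1⟩, h4.2⟩
  · have := finrank_le_inf_ker W (B x)
    have := finrank_le_inf_ker (W ⊓ LinearMap.ker (B x)) (B f)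
    omega

end ndu

omit [Finite F] in
theorem ustab_perp {W : Submodule F V} {g : UG B} (h : ∀ v, v ∈ W ↔ g.1 v ∈ W) (v : V) :
    v ∈ perp B W ↔ g.1 v ∈ perp B W := mem_stab.mp (stab_le_stab_perp W (mem_stab.mpr h)) v

theorem UT.exists_ue {W : Submodule F V} (h4 : 4 ≤ finrank F W)
    (hE : ∀ x ∈ W, ∀ v ∈ W, B x v = 0 → v ∈ UE hB M x) {u : V} (hu : UT hB M u)
    (hu' : u ∉ perp B W) : ∃ x ∈ W, x ≠ 0 ∧ B x x = 0 ∧ u ∈ UE hB M x := by
  obtain ⟨y, hy, hy'⟩ : ∃ y ∈ W, B u y ≠ 0 := by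
    by_contra hc
    push Not at hc
    exact hu' (hB.mem_perp'.mpr hc)
  obtain ⟨x, ⟨⟨hx, h1⟩, h2⟩, hx0, hx1⟩ := herm_exists_iso hB
    (W ⊓ LinearMap.ker (B u) ⊓ LinearMap.ker (B y)) (by
      have := finrank_le_inf_ker W (B u)
      have := finrank_le_inf_ker (W ⊓ LinearMap.ker (B u)) (B y)
      omega)
  exact ⟨x, hx, hx0, hx1, hu.grow (hE x hx y hy (hB.zero_symm h2)) h1 hy'⟩

/-- Stabilisers of non-degenerate subspaces. -/
theorem un_nondeg (hB : HF B) {W : Submodule F V} (hW : NDU B W) (h4 : 4 ≤ finrank F (perp B W))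
    (hH : ∀ g ∈ SUG B, (∀ v, v ∈ W ↔ g.1 v ∈ W) → g ∈ M)
    (hg : ∃ g ∈ M, (¬ ∀ v, v ∈ W ↔ g.1 v ∈ W) ∧ ¬ ∀ v ∈ perp B W, g.1 v ∈ W) : SUG B ≤ M := by
  obtain ⟨g, hg, hg1, hg2⟩ := hg
  have hn : 3 ≤ finrank F V := by have := Submodule.finrank_le (perp B W); omega
  obtain ⟨u, hu, hu0, hu1, hu2⟩ : ∃ u ∈ perp B W, B u u = 0 ∧ g.1 u ∉ W ∧ g.1 u ∉ perp B W := by
    by_contra hc
    push Not at hc
    rcases (hW.perp hB).iso_into hB (by omega) (X := W.comap (g.1 : V →ₗ[F] V))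
      (Y := (perp B W).comap (g.1 : V →ₗ[F] V)) (fun x hx y hy => by
        rw [← UG.map_b g]
        exact mem_perp.mp hy _ hx) (fun a ha ha0 => or_iff_not_imp_left.mpr (hc a ha ha0)) with h | h
    · exact hg2 h
    · exact hg1 (hB.perp_perp W ▸ ustab_perp (mem_iff_of_le h))
  have hE : ∀ x ∈ perp B W, ∀ v ∈ perp B W, B x v = 0 → v ∈ UE hB M x := fun x hx v hv h =>
    ue_of_stab hH h (Or.inr ⟨hx, hv⟩)
  obtain ⟨x, hx, hx0, hx1, hz⟩ := UT.exists_ue h4 hE ((ut_of_stab hH hu0 (Or.inr hu)).map hg)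
    (by rwa [hB.perp_perp])
  obtain ⟨f, hf, hf1, hf2, U, hU, hU1, hU2, hU3⟩ := (hW.perp hB).exists_hyp hB hx hx0 hx1
  obtain ⟨w, hw, w', hw', e⟩ := hW.dec hB (g.1 u)
  rw [← e] at hz hu2
  have h1 : w ∈ UE hB M x := ((UE hB M x).add_mem_iff_left (hE x hx w' hw' (by
    simpa [hB.mem_perp'.mp hx w hw] using UE.orth hz))).mp hz
  have h2 : W ≤ UE hB M x := hW.le_of hw (by rintro rfl; exact hu2 (by simpa using hw'))
    fun a ha ha' => by
      obtain ⟨b, hb, hb'⟩ := hU1.exists_norm hB (by omega) (hB.fix a)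
      exact UE.of_qr h1 (mem_perp.mp hx a ha) (hU3 b hb).1 (hB.mem_perp'.mp (hU hb) w hw) ha'
        fun c => hH _ (qr_pair_mem hB hb' c) (mem_iff_of_le fun v hv => qr_mem_sub hB (Or.inl ha) c
          (qr_mem_sub hB (Or.inr (hU hb)) _ hv))
  refine un_le_of_ut (hB := hB) hn ⟨hx1, fun y hy => ?_⟩ (ut_of_stab hH hf1 (Or.inr hf))
    (by simp [hB.one_symm hf2])
  obtain ⟨a, ha, b, hb, rfl⟩ := hW.dec hB y
  exact UE.ua ((UE hB M x).add_mem (h2 ha) (hE x hx b hb (by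
    simpa [hB.mem_perp'.mp hx a ha] using hy)))

end Cfsg.Agent.Max
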