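import Mathlib
import Cfsg.Agent.Max.Dec

/-!
# Frames: reduction of the maximality of monomial groups to elements fixing a frame vector
-/

set_option autoImplicit false
set_option linter.unusedSectionVars false

namespace Cfsg.Agent.Max

open Module

theorem dih_conj {G : Type*} [Group G] {t y : G} (ht : t * t = 1) (hy : y * y = 1) (k : ℕ) :
    t * (t * y) ^ k = ((t * y) ^ k)⁻¹ * t ∧ y * (t * y) ^ k = ((t * y) ^ k)⁻¹ * y := by
  have hyi : y⁻¹ = y := inv_eq_of_mul_eq_one_right hy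
  have hti : t⁻¹ = t := inv_eq_of_mul_eq_one_right ht
  have h1 : y * (t * y) * y⁻¹ = (t * y)⁻¹ := by
    rw [_root_.mul_inv_rev, hti, hyi, mul_assoc, mul_assoc, hy, mul_one]
  have h2 : t * (t * y) * t⁻¹ = (t * y)⁻¹ := by
    rw [_root_.mul_inv_rev, hti, hyi, ← mul_assoc, ht, one_mul]
  constructor
  · rw [← inv_pow, ← h2, conj_pow]
    simp
  · rw [← inv_pow, ← h1, conj_pow]
    simp

theorem dih_odd {G : Type*} [Group G] [Finite G] {t y : G} (ht : t * t = 1) (hy : y * y = 1) :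
    Odd (orderOf (t * y)) ∨ ∃ k : ℕ, (t * y) ^ k ≠ 1 ∧ (t * y) ^ k * (t * y) ^ k = 1 ∧
      (t * y) ^ k * t = t * (t * y) ^ k ∧ (t * y) ^ k * y = y * (t * y) ^ k := by
  have hpos := orderOf_pos (t * y)
  rcases Nat.even_or_odd (orderOf (t * y)) with ⟨k, hk⟩ | hk
  · have h1 : (t * y) ^ k * (t * y) ^ k = 1 := by rw [← pow_add, ← hk, pow_orderOf_eq_one]
    have h3 : ((t * y) ^ k)⁻¹ = (t * y) ^ k := inv_eq_of_mul_eq_one_right h1
    have := dih_conj ht hy k
    rw [h3] at this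
    exact .inr ⟨k, pow_ne_one_of_lt_orderOf (by omega) (by omega), h1, this.1.symm, this.2.symm⟩
  · exact .inl hk

/-- Two involutions are conjugate or have a common central involution. -/
theorem dih {G : Type*} [Group G] [Finite G] {M : Subgroup G} {t y : G} (ht : t ∈ M) (hy : y ∈ M)
    (ht2 : t * t = 1) (hy2 : y * y = 1) : (∃ x ∈ M, x * t * x⁻¹ = y) ∨ ∃ c ∈ M, c ≠ 1 ∧
      c * t = t * c ∧ c * y = y * c ∧ ∃ x ∈ M, x * t * x⁻¹ = c * t ∨ x * t * x⁻¹ = c * y := by
  have hm : ∀ k : ℕ, (t * y) ^ k ∈ M := fun k => pow_mem (mul_mem ht hy) k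
  have h1 : ∀ j : ℕ, (t * y) ^ j * t * ((t * y) ^ j)⁻¹ = (t * y) ^ (2 * j) * t := fun j => by
    rw [mul_inv_eq_iff_eq_mul, mul_assoc, (dih_conj ht2 hy2 j).1, two_mul, pow_add]
    group
  have h2 : ∀ j : ℕ, (t * y) ^ (2 * j + 1) * y = (t * y) ^ (2 * j) * t := fun j => by
    rw [pow_succ, mul_assoc, mul_assoc, hy2, mul_one]
  rcases dih_odd ht2 hy2 with ⟨j, hj⟩ | ⟨k, h3, -, h4, h5⟩
  · exact .inl ⟨_, hm j, by rw [h1, ← h2, ← hj, pow_orderOf_eq_one, one_mul]⟩
  · refine .inr ⟨_, hm k, h3, h4, h5, ?_⟩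
    rcases Nat.even_or_odd' k with ⟨j, rfl | rfl⟩
    exacts [⟨_, hm j, .inl (h1 j)⟩, ⟨_, hm j, .inr (by rw [h1, h2])⟩]

variable {F V κ : Type*} [Field F] [AddCommGroup V] [Module F V] [Fintype κ] [DecidableEq κ]
  (e : Basis κ F V)

/-- Frame vectors. -/
def FV (x : V) : Prop := ∃ i, ∀ j, j ≠ i → e.repr x j = 0

/-- The monomial group. -/
def mon : Subgroup (V ≃ₗ[F] V) where
  carrier := {g | ∀ x, FV e x ↔ FV e (g x)}
  mul_mem' ha hb x := (hb x).trans (ha _)
  one_mem' _ := Iff.rfl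
  inv_mem' {g} hg x := by simpa using (hg (g.symm x)).symm

/-- Diagonal matrices. -/
noncomputable def dg : (κ → Fˣ) →* (V ≃ₗ[F] V) where
  toFun c := e.equiv (e.unitsSMul c) (Equiv.refl κ)
  map_one' := e.ext' fun i => by simp [Basis.unitsSMul_apply]
  map_mul' c d := e.ext' fun i => by
    simp [Basis.unitsSMul_apply, Units.smul_def, smul_smul, mul_comm]

/-- Permutation matrices. -/
noncomputable def pm : Equiv.Perm κ →* (V ≃ₗ[F] V) where
  toFun s := e.equiv e s
  map_one' := e.ext' fun i => by simp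
  map_mul' c d := e.ext' fun i => by simp

/-- The sign change on `J`. -/
def sgn (F : Type*) [Field F] (J : Finset κ) : κ → Fˣ := fun i => if i ∈ J then -1 else 1

/-- The sign change on `J`. -/
noncomputable def sg (J : Finset κ) : V ≃ₗ[F] V := dg e (sgn F J)

variable {e}

@[simp] theorem dg_basis (c : κ → Fˣ) (i : κ) : dg e c (e i) = (c i : F) • e i := by
  simp [dg, Basis.unitsSMul_apply, Units.smul_def]

@[simp] theorem pm_basis (s : Equiv.Perm κ) (i : κ) : pm e s (e i) = e (s i) := by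
  simp [pm]

theorem repr_of_basis {g : V ≃ₗ[F] V} {l l' : κ} {a : F}
    (h : ∀ i, e.repr (g (e i)) l = a * e.repr (e i) l') (x : V) :
    e.repr (g x) l = a * e.repr x l' :=
  LinearMap.congr_fun (e.ext (f₁ := e.coord l ∘ₗ (g : V →ₗ[F] V)) (f₂ := a • e.coord l')
    fun i => h i) x

@[simp] theorem repr_dg (c : κ → Fˣ) (x : V) (i : κ) : e.repr (dg e c x) i = c i * e.repr x i :=
  repr_of_basis (fun j => by
    by_cases h : j = i <;> simp [h]) x

theorem repr_pm (s : Equiv.Perm κ) (x : V) (i : κ) : e.repr (pm e s x) i = e.repr x (s.symm i) := by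
  rw [← one_mul (e.repr x _)]
  exact repr_of_basis (fun j => by
    simp [Finsupp.single_apply, Equiv.apply_eq_iff_eq_symm_apply]) x

theorem FV.basis (i : κ) : FV e (e i) := ⟨i, fun j hj => by simp [hj]⟩

theorem FV.smul {x : V} (h : FV e x) (a : F) : FV e (a • x) :=
  h.imp fun i hi j hj => by simp [hi j hj]

theorem FV.eq_zero {x : V} (h : FV e x) {i j : κ} (hi : e.repr x i ≠ 0) (hj : j ≠ i) :
    e.repr x j = 0 := by
  obtain ⟨l, hl⟩ := h
  exact hl j fun e => hi (hl i (e ▸ hj.symm))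

theorem eq_smul_basis {x : V} {i : κ} (h : ∀ j, j ≠ i → e.repr x j = 0) : x = e.repr x i • e i :=
  e.ext_elem fun j => by
    by_cases hj : j = i
    · simp [hj]
    · simp [hj, h j hj]

theorem FV.exists_eq {x : V} (h : FV e x) : ∃ i, ∃ a : F, x = a • e i :=
  h.imp fun _ hi => ⟨_, eq_smul_basis hi⟩

theorem exists_repr_ne {x : V} (h : x ≠ 0) : ∃ i, e.repr x i ≠ 0 := by
  by_contra hc
  push Not at hc
  exact h (e.ext_elem fun i => by simp [hc i])

theorem FV.par {x y : V} (hx : FV e x) (hy : FV e y) {i : κ} (h : e.repr x i ≠ 0)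
    (h' : e.repr y i ≠ 0) : ∃ c : F, y = c • x :=
  ⟨e.repr y i / e.repr x i, e.ext_elem fun j => by
    by_cases hj : j = i
    · simp [hj, h]
    · simp [hx.eq_zero h hj, hy.eq_zero h' hj]⟩

theorem FV.rel {x y z w : V} (hx : FV e x) (hy : FV e y) (hz : FV e z) (hw : FV e w)
    (h : x + y = z + w) (h0 : x ≠ 0) : ∃ c : F, y = c • x ∧ c ≠ 0 ∨ z = c • x ∧ c ≠ 0 ∨
      w = c • x ∧ c ≠ 0 := by
  obtain ⟨i, hi⟩ := exists_repr_ne (e := e) h0
  have h1 : ∀ {v}, FV e v → e.repr v i ≠ 0 → ∃ c : F, v = c • x ∧ c ≠ 0 := fun hv h2 =>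
    (hx.par hv hi h2).imp fun c hc => ⟨hc, by rintro rfl; simp [hc] at h2⟩
  by_cases h2 : e.repr y i = 0
  · by_cases h3 : e.repr z i = 0
    · refine (h1 hw fun h4 => hi ?_).imp fun c hc => .inr (.inr hc)
      simpa [h2, h3, h4] using congrArg (e.repr · i) h
    · exact (h1 hz h3).imp fun c hc => .inr (.inl hc)
  · exact (h1 hy h2).imp fun c hc => .inl hc

theorem mem_mon {g : V ≃ₗ[F] V} (h : ∀ i, FV e (g (e i))) : g ∈ mon e := by
  choose s a hs using fun i => (h i).exists_eq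
  have ha : ∀ i, a i ≠ 0 := fun i h0 => e.ne_zero i (by simpa [h0] using hs i)
  have h1 : Function.Injective s := fun i j hij => by
    by_contra h2
    have : a j • e i = a i • e j := g.injective (by simp [hs, hij, smul_smul, mul_comm])
    simpa [h2, Ne.symm h2, ha] using congrArg (e.repr · i) this
  intro x
  refine ⟨fun hx => ?_, fun hx => ?_⟩
  · obtain ⟨i, c, rfl⟩ := hx.exists_eq
    simpa using (h i).smul c
  · obtain ⟨j, c, hc⟩ := hx.exists_eq
    obtain ⟨i, rfl⟩ := Finite.surjective_of_injective h1 j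
    have : x = (c / a i) • e i := g.injective (by simp [hc, hs, smul_smul, ha])
    exact this ▸ (FV.basis i).smul _

theorem mon_basis {g : V ≃ₗ[F] V} (h : g ∈ mon e) (i : κ) :
    ∃ j, ∃ a : F, a ≠ 0 ∧ g (e i) = a • e j := by
  obtain ⟨j, a, ha⟩ := ((h _).mp (FV.basis i)).exists_eq
  exact ⟨j, a, fun h0 => e.ne_zero i (by simpa [h0] using ha), ha⟩

theorem dg_mem (c : κ → Fˣ) : dg e c ∈ mon e := mem_mon fun i => by simpa using (FV.basis i).smul _

theorem pm_mem (s : Equiv.Perm κ) : pm e s ∈ mon e := mem_mon fun i => by simpa using FV.basis _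

theorem repr_mon {g : V ≃ₗ[F] V} (h : g ∈ mon e) {l l' : κ} {a : F} (ha : g (e l) = a • e l')
    (x : V) : e.repr (g x) l' = a * e.repr x l :=
  repr_of_basis (fun i => by
    by_cases hi : i = l
    · simp [hi, ha]
    · obtain ⟨j, b, hb, hj⟩ := mon_basis h i
      by_cases hj' : j = l'
      · have : a • e i = b • e l := g.injective (by simp [ha, hj, hj', smul_smul, mul_comm])
        exact absurd (by simpa [hi, Ne.symm hi] using (congrArg (e.repr · l) this).symm) hb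
      · simp [hj, hj', hi]) x

theorem mem_mon_iff {g : V ≃ₗ[F] V} : g ∈ mon e ↔ PermD (fun i => F ∙ e i) g := by
  haveI := Module.Finite.of_basis e
  have h : IsDec (fun i => F ∙ e i) fun i => (e.coord i).smulRight (e i) :=
    ⟨fun i x => Submodule.smul_mem _ _ (Submodule.mem_span_singleton_self _),
      fun x => by simpa using e.sum_repr x, fun {i j} hij x hx => by
        obtain ⟨c, rfl⟩ := Submodule.mem_span_singleton.mp hx
        simp [hij]⟩
  refine ⟨fun hg => h.permD_of (fun i => finrank_span_singleton (e.ne_zero i)) one_pos fun i => ?_,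
    fun ⟨s, hs⟩ => mem_mon fun i => ?_⟩
  · obtain ⟨j, a, -, ha⟩ := mon_basis hg i
    refine ⟨j, fun x hx => ?_⟩
    obtain ⟨c, rfl⟩ := Submodule.mem_span_singleton.mp hx
    rw [map_smul, ha]
    exact Submodule.smul_mem _ _ (Submodule.smul_mem _ _ (Submodule.mem_span_singleton_self _))
  · obtain ⟨c, hc⟩ := Submodule.mem_span_singleton.mp
      ((hs i).le ⟨e i, Submodule.mem_span_singleton_self _, rfl⟩)
    exact (show c • e (s i) = g (e i) from hc) ▸ (FV.basis _).smul c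

/-- A monomial involution of rank `r` moves at most `2 r` frame vectors. -/
theorem exists_fixed {c : V ≃ₗ[F] V} (hc : c ∈ mon e) (h2 : c * c = 1) {W : Submodule F V}
    (hW : ∀ x, c x - x ∈ W) : ∃ I : Finset κ, Fintype.card κ ≤ I.card + 2 * finrank F W ∧
      ∀ i ∈ I, c (e i) = e i := by
  classical
  suffices H : (Finset.univ.filter fun i => ¬ c (e i) = e i).card ≤ 2 * finrank F W by
    refine ⟨Finset.univ.filter fun i => c (e i) = e i, ?_, fun i hi => (Finset.mem_filter.mp hi).2⟩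
    have := Finset.card_filter_add_card_filter_not (s := Finset.univ) fun i => c (e i) = e i
    rw [Finset.card_univ] at this
    omega
  haveI := Module.Finite.of_basis e
  choose s a ha hs using mon_basis hc
  have h1 : ∀ i, s (s i) = i := fun i => by
    by_contra h
    have := congrArg (e.repr · i) (LinearEquiv.congr_fun h2 (e i))
    simp [hs, h] at this
  let r := Fintype.equivFin κ
  let A := Finset.univ.filter fun i => ¬ c (e i) = e i ∧ r i ≤ r (s i)
  have h3 : ∀ i ∈ A, e.repr (c (e i) - e i) i ≠ 0 := fun i hi h => by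
    by_cases h' : s i = i
    · refine (Finset.mem_filter.mp hi).2.1 ?_
      rw [hs, h'] at h ⊢
      simp only [map_sub, map_smul, Basis.repr_self, Finsupp.coe_sub, Finsupp.coe_smul, Pi.sub_apply,
        Pi.smul_apply, Finsupp.single_eq_same, smul_eq_mul, mul_one] at h
      rw [sub_eq_zero.mp h, one_smul]
    · simp [hs, h'] at h
  have h4 : LinearIndependent F fun i : A => (⟨c (e i) - e i, hW _⟩ : W) :=
    .of_pairwise_dual_eq_zero_one _ (fun i : A => (e.repr (c (e i) - e i) i)⁻¹ •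
      e.coord i ∘ₗ W.subtype) (fun i j hij => by
        have h5 : (j : κ) ≠ i := fun h => hij (Subtype.ext h.symm)
        have h6 : s j ≠ i := fun h => by
          have h7 := (Finset.mem_filter.mp i.2).2.2
          have h8 := (Finset.mem_filter.mp j.2).2.2
          rw [h] at h8
          rw [← h, h1, h] at h7
          exact h5 (r.injective (le_antisymm h8 h7))
        simp [hs, h5, h6]) fun i => inv_mul_cancel₀ (h3 i i.2)
  have h5 := h4.fintype_card_le_finrank
  rw [Fintype.card_coe] at h5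
  have h6 := Finset.card_image_le (s := A) (f := s)
  refine (Finset.card_le_card (t := A ∪ A.image s) fun i hi => ?_).trans
    ((Finset.card_union_le _ _).trans (b := A.card + (A.image s).card) (by omega))
  replace hi := (Finset.mem_filter.mp hi).2
  rcases le_total (r i) (r (s i)) with h | h
  · exact Finset.mem_union_left _ (Finset.mem_filter.mpr ⟨Finset.mem_univ _, hi, h⟩)
  · refine Finset.mem_union_right _ (Finset.mem_image.mpr ⟨s i, Finset.mem_filter.mpr
      ⟨Finset.mem_univ _, fun h' => hi ?_, by rwa [h1]⟩, h1 i⟩)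
    have : c (c (e i)) = c (e i) := by rw [hs, map_smul, h']
    exact this.symm.trans (LinearEquiv.congr_fun h2 (e i))

theorem exists_mem_not_mem {I s : Finset κ} (h : s.card < I.card) : ∃ i ∈ I, i ∉ s :=
  Finset.exists_mem_notMem_of_card_lt_card h

theorem exists_three_not_mem {I s : Finset κ} (h : s.card + 3 ≤ I.card) : ∃ b ∈ I, ∃ c ∈ I, ∃ d ∈ I,
    b ∉ s ∧ c ∉ s ∧ d ∉ s ∧ b ≠ c ∧ b ≠ d ∧ c ≠ d := by
  obtain ⟨b, hb, h1⟩ := exists_mem_not_mem (I := I) (s := s) (by omega)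
  have h2 := Finset.card_insert_le b s
  obtain ⟨c, hc, h3⟩ := exists_mem_not_mem (I := I) (s := insert b s) (by omega)
  have h4 := Finset.card_insert_le c (insert b s)
  obtain ⟨d, hd, h5⟩ := exists_mem_not_mem (I := I) (s := insert c (insert b s)) (by omega)
  simp only [Finset.mem_insert, not_or] at h3 h5
  exact ⟨b, hb, c, hc, d, hd, h1, h3.2, h5.2.2, Ne.symm h3.1, Ne.symm h5.2.1, Ne.symm h5.1⟩

@[simp] theorem repr_sgn (J : Finset κ) (x : V) (i : κ) :
    e.repr (sg e J x) i = if i ∈ J then -e.repr x i else e.repr x i := by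
  rw [sg, repr_dg, sgn]
  split_ifs <;> simp

theorem sgn_basis (J : Finset κ) (i : κ) :
    sg e J (e i) = if i ∈ J then -e i else e i := by
  rw [sg, dg_basis, sgn]
  split_ifs <;> simp

theorem sg_mem (J : Finset κ) : sg e J ∈ mon e := dg_mem _

theorem sgn_sq (J : Finset κ) : sg e J * sg e J = 1 := by
  rw [sg, ← map_mul, ← map_one (dg e)]
  congr 1
  ext i
  simp only [sgn, Pi.mul_apply]
  split_ifs <;> simp

theorem sgn_sub_mem (J : Finset κ) (x : V) :
    sg e J x - x ∈ Submodule.span F (e '' J) := by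
  rw [Basis.mem_span_image]
  intro i hi
  by_contra h
  simp [repr_sgn, show i ∉ J from h] at hi

/-- `z` is supported on the coordinates in `I`. -/
def Sup (e : Basis κ F V) (I : Finset κ) (z : V ≃ₗ[F] V) : Prop :=
  (∀ x, ∀ i ∉ I, e.repr (z x) i = e.repr x i) ∧ ∀ i ∉ I, z (e i) = e i

theorem Sup.mul {I : Finset κ} {z w : V ≃ₗ[F] V} (h : Sup e I z) (h' : Sup e I w) :
    Sup e I (z * w) :=
  ⟨fun x i hi => (h.1 _ i hi).trans (h'.1 x i hi), fun i hi => by
    rw [LinearEquiv.mul_apply, h'.2 i hi, h.2 i hi]⟩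

theorem Sup.fix {I : Finset κ} {z : V ≃ₗ[F] V} (h : Sup e I z) {x : V}
    (hx : ∀ i ∈ I, e.repr x i = 0) : z x = x := by
  conv_lhs => rw [← e.sum_repr x, map_sum]
  refine (Finset.sum_congr rfl fun i _ => ?_).trans (e.sum_repr x)
  by_cases hi : i ∈ I
  · simp [hx i hi]
  · simp [h.2 i hi]

theorem sup_sgn {I J : Finset κ} (h : J ⊆ I) : Sup e I (sg e J) :=
  ⟨fun x i hi => by rw [repr_sgn, if_neg fun h' => hi (h h')],
    fun i hi => by rw [sgn_basis, if_neg fun h' => hi (h h')]⟩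

theorem sup_swap {I : Finset κ} {a b : κ} (ha : a ∈ I) (hb : b ∈ I) :
    Sup e I (pm e (Equiv.swap a b)) := by
  have : ∀ i ∉ I, Equiv.swap a b i = i := fun i hi =>
    Equiv.swap_apply_of_ne_of_ne (fun h => hi (h ▸ ha)) fun h => hi (h ▸ hb)
  exact ⟨fun x i hi => by rw [repr_pm, Equiv.symm_swap, this i hi], fun i hi => by
    rw [pm_basis, this i hi]⟩

/-- The hypotheses of the reduction theorem. -/
structure Fr (e : Basis κ F V) (M : Subgroup (V ≃ₗ[F] V)) : Prop where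
  two : (2 : F) ≠ 0
  sg2 : ∀ a b, a ≠ b → sg e {a, b} ∈ M
  cyc : ∀ a b c, a ≠ b → a ≠ c → pm e (Equiv.swap a b) * pm e (Equiv.swap a c) ∈ M
  fix : ∀ g ∈ M, ∀ l, (∀ i, i ≠ l → e.repr (g (e l)) i = 0) →
    (∀ i, i ≠ l → e.repr (g (e i)) l = 0) → g ∈ mon e

namespace Fr
variable {M : Subgroup (V ≃ₗ[F] V)} (h : Fr e M) {g : V ≃ₗ[F] V} {I : Finset κ}
include h

theorem neg_ne {x : F} (hx : x ≠ 0) : -x ≠ x := fun e =>
  mul_ne_zero h.two hx (by linear_combination -e)

theorem fix' (hn : 3 ≤ Fintype.card κ) (hg : g ∈ M) {a m : κ}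
    (h1 : ∀ i, i ≠ m → e.repr (g (e a)) i = 0) (h2 : ∀ i, i ≠ a → e.repr (g (e i)) m = 0) :
    g ∈ mon e := by
  by_cases ham : a = m
  · exact h.fix g hg a (ham ▸ h1) (ham ▸ h2)
  obtain ⟨b, -, hb⟩ := exists_mem_not_mem (I := Finset.univ) (s := {a, m})
    (Finset.card_le_two.trans_lt hn)
  simp only [Finset.mem_insert, Finset.mem_singleton, not_or] at hb
  refine (mul_mem_cancel_left (inv_mem (pm_mem (Equiv.swap b m * Equiv.swap b a)))).mp
    (h.fix _ (mul_mem (inv_mem ?_) hg) a (fun i hi => ?_) fun i hi => ?_)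
  · simpa using h.cyc b m a hb.2 hb.1
  · rw [← map_inv, LinearEquiv.mul_apply, repr_pm]
    refine h1 _ fun e => hi ((Equiv.swap b m * Equiv.swap b a).injective (e.trans ?_))
    simp
  · rw [← map_inv, LinearEquiv.mul_apply, repr_pm]
    have : (Equiv.swap b m * Equiv.swap b a)⁻¹.symm a = m := by
      change Equiv.swap b m (Equiv.swap b a a) = m
      simp
    rw [this]
    exact h2 i hi

theorem conj_mon (hg : g ∈ M) {l : κ} (h1 : ∀ a ∈ I, e.repr (g (e a)) l = 0)
    (h2 : ∀ a ∈ I, e.repr (g.symm (e l)) a = 0) {z : V ≃ₗ[F] V} (hz : z ∈ M) (hz' : Sup e I z)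
    {x : V} (hx : FV e (g x)) : FV e (g (z x)) := by
  have h3 : (g * z * g⁻¹) (e l) = e l := by
    change g (z (g.symm (e l))) = _
    rw [hz'.fix h2, g.apply_symm_apply]
  have h4 : ∀ y, e.repr (g (z y - y)) l = 0 := fun y => by
    rw [← e.sum_repr (z y - y), map_sum, map_sum, Finsupp.finset_sum_apply]
    refine Finset.sum_eq_zero fun i _ => ?_
    by_cases hi : i ∈ I
    · simp [h1 i hi]
    · simp [hz'.1 y i hi]
  have := h.fix _ (mul_mem (mul_mem hg hz) (inv_mem hg)) l (fun i hi => by simp [h3, hi])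
    fun i hi => by simpa [hi, sub_eq_zero] using h4 (g.symm (e i))
  simpa using (this _).mp hx

theorem core (hg : g ∈ M) {l : κ} (h1 : ∀ a ∈ I, e.repr (g (e a)) l = 0)
    (h2 : ∀ a ∈ I, e.repr (g.symm (e l)) a = 0) {a k : κ} (ha : a ∈ I)
    (hI : ({a, k} ∩ I).card + 3 ≤ I.card) (hk : k ≠ a) {x : V} (hx : FV e (g x))
    (h0 : e.repr x a ≠ 0) : e.repr x k = 0 := by
  by_contra hk0
  have P := @h.conj_mon _ _ _ _ _ _ _ _ _ _ g I hg l h1 h2
  have R : ∀ {y z w}, FV e (g y) → FV e (g z) → FV e (g w) → x + y = z + w →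
      e.repr y k = e.repr x k → e.repr z k = e.repr x k → e.repr w k = e.repr x k →
      y = x ∨ z = x ∨ w = x := fun {y z w} hy hz hw e1 e2 e3 e4 => by
    have key : ∀ {v} {c : F}, e.repr v k = e.repr x k → g v = c • g x ∧ c ≠ 0 → v = x :=
      fun {v c} e5 e6 => by
        have e7 : v = c • x := g.injective (by rw [e6.1, map_smul])
        have : c = 1 := by simpa [e7, hk0] using e5
        rw [e7, this, one_smul]
    obtain ⟨c, hc⟩ := hx.rel hy hz hw (by rw [← map_add, e1, map_add])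
      (fun e => h0 (by simp [g.map_eq_zero_iff.mp e]))
    exact hc.imp (key e2) (.imp (key e3) (key e4))
  have S : ∀ {i j}, i ∈ I → j ∈ I → i ≠ j → ∀ {y}, FV e (g y) → FV e (g (sg e {i, j} y)) :=
    fun hi hj hij y hy => P (h.sg2 _ _ hij) (sup_sgn (by simp [Finset.insert_subset_iff, hi, hj])) hy
  have A : ∀ b ∈ I, ∀ c ∈ I, ∀ d ∈ I, a ≠ b → a ≠ c → a ≠ d → k ≠ b → k ≠ c → k ≠ d → b ≠ c →
      b ≠ d → c ≠ d → e.repr x c = 0 := fun b hb c hc d hd _ _ _ _ _ _ _ _ _ => by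
    by_contra h3
    rcases R (S ha hb ‹_› (S hc hd ‹_› hx)) (S ha hb ‹_› hx) (S hc hd ‹_› hx)
      (e.ext_elem fun i => by
        simp only [map_add, Finsupp.add_apply, repr_sgn, Finset.mem_insert, Finset.mem_singleton]
        split_ifs with h4 h5
        · rcases h4 with rfl | rfl <;> rcases h5 with rfl | rfl <;> contradiction
        all_goals ring) (by simp [repr_sgn, *]) (by simp [repr_sgn, *]) (by simp [repr_sgn, *])
      with e' | e' | e'
    · exact h.neg_ne h0 (by simpa [‹a ≠ c›, ‹a ≠ d›] using congrArg (e.repr · a) e')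
    · exact h.neg_ne h0 (by simpa using congrArg (e.repr · a) e')
    · exact h.neg_ne h3 (by simpa using congrArg (e.repr · c) e')
  obtain ⟨b, hb, c, hc, d, hd, h3, h4, h5, h6, h7, h8⟩ := exists_three_not_mem hI
  simp only [Finset.mem_inter, Finset.mem_insert, Finset.mem_singleton, hb, hc, hd, and_true,
    not_or] at h3 h4 h5
  have hb0 := A c hc b hb d hd (Ne.symm h4.1) (Ne.symm h3.1) (Ne.symm h5.1) (Ne.symm h4.2)
    (Ne.symm h3.2) (Ne.symm h5.2) h6.symm h8 h7
  have hd0 := A c hc d hd b hb (Ne.symm h4.1) (Ne.symm h5.1) (Ne.symm h3.1) (Ne.symm h4.2)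
    (Ne.symm h5.2) (Ne.symm h3.2) h8 h6.symm h7.symm
  obtain ⟨y, hy⟩ : ∃ y, y = (pm e (Equiv.swap a b) * pm e (Equiv.swap a d)) x := ⟨_, rfl⟩
  have hy1 : FV e (g y) := hy ▸ P (h.cyc a b d (Ne.symm h3.1) (Ne.symm h5.1))
    ((sup_swap ha hb).mul (sup_swap ha hd)) hx
  have hy2 : ∀ i, e.repr y i = e.repr x (Equiv.swap a d (Equiv.swap a b i)) := fun i => by
    simp [hy, repr_pm]
  have hy3 : ∀ i, i ≠ a → i ≠ b → i ≠ d → e.repr y i = e.repr x i := fun i _ _ _ => by
    rw [hy2, Equiv.swap_apply_of_ne_of_ne ‹_› ‹i ≠ b›, Equiv.swap_apply_of_ne_of_ne ‹_› ‹_›]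
  have hy4 : e.repr y a = 0 := by
    rw [hy2, Equiv.swap_apply_left, Equiv.swap_apply_of_ne_of_ne h3.1 h7, hb0]
  have hy5 : e.repr y b = 0 := by rw [hy2, Equiv.swap_apply_right, Equiv.swap_apply_left, hd0]
  have hy6 := hy3 k hk (Ne.symm h3.2) (Ne.symm h5.2)
  rcases R (S ha hb (Ne.symm h3.1) hx) hy1 (S hd hb h7.symm hy1) (e.ext_elem fun i => by
      by_cases h9 : i = a
      · simp [h9, hy4]
      by_cases h10 : i = b
      · simp [h10]
      by_cases h11 : i = d
      · simp [h11, hd0]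
      simp [h9, h10, h11, hy3 i h9 h10 h11]) (by simp [hk, Ne.symm h3.2]) hy6
    (by simp [hy6, Ne.symm h3.2, Ne.symm h5.2]) with e' | e' | e'
  · exact h.neg_ne h0 (by simpa using congrArg (e.repr · a) e')
  · exact h0 (e' ▸ hy4)
  · exact h0 (by simpa [hy4] using congrArg (e.repr · a) e'.symm)

theorem big (hg : g ∈ M) {l : κ} (h1 : ∀ a ∈ I, e.repr (g (e a)) l = 0)
    (h2 : ∀ a ∈ I, e.repr (g.symm (e l)) a = 0) (hI : 5 ≤ I.card) : g ∈ mon e := by
  obtain ⟨a, ha, -⟩ := exists_mem_not_mem (I := I) (s := ∅) (by rw [Finset.card_empty]; omega)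
  have h3 : ∀ m, e.repr (g.symm (e m)) a ≠ 0 → ∃ c : F, c ≠ 0 ∧ e m = c • g (e a) := fun m hm =>
    ⟨_, hm, by
      rw [← map_smul, ← eq_smul_basis fun k hk => h.core hg h1 h2 ha (by
        have := (Finset.card_le_card (Finset.inter_subset_left (s₂ := I))).trans
          (Finset.card_le_two (a := a) (b := k))
        omega) hk (by simpa using FV.basis m) hm, g.apply_symm_apply]⟩
  obtain ⟨m, hm⟩ : ∃ m, e.repr (g.symm (e m)) a ≠ 0 := by
    by_contra hc
    push Not at hc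
    simpa using repr_of_basis (e := e) (g := g.symm) (l := a) (l' := a) (a := 0)
      (by simpa using hc) (g (e a))
  obtain ⟨c, hc, hc'⟩ := h3 m hm
  have h4 : ∀ i, i ≠ m → e.repr (g (e a)) i = 0 := fun i hi => by
    simpa [hi, hc] using congrArg (e.repr · i) hc'
  have h5 : g.symm (e m) = c • e a := by simp [hc']
  refine (inv_mem_iff (x := g)).mp (h.fix' ((show 3 ≤ 5 by omega).trans
    (hI.trans I.card_le_univ)) (inv_mem hg) (a := m) (m := a) (fun i hi => ?_) fun i hi => ?_)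
  · change e.repr (g.symm _) _ = _
    simp [h5, hi]
  · by_contra h6
    obtain ⟨c', -, h7⟩ := h3 i h6
    simpa [h4 i hi] using congrArg (e.repr · i) h7

theorem swap_aux {c s : V ≃ₗ[F] V} (hc : c ∈ mon e) (hs : s ∈ mon e) (H : c * g = g * s) {l : κ}
    {η : F} (hη : η ≠ 0) (h1 : c (e l) = η • e l) (h2 : ∀ a ∈ I, s (e a) = -η • e a) :
    (∀ a ∈ I, e.repr (g (e a)) l = 0) ∧ ∀ a ∈ I, e.repr (g.symm (e l)) a = 0 := by
  have H' : ∀ x, c (g x) = g (s x) := LinearEquiv.congr_fun H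
  refine ⟨fun a ha => ?_, fun a ha => ?_⟩ <;> by_contra h3
  · refine h.neg_ne (mul_ne_zero hη h3) ?_
    have := repr_mon hc h1 (g (e a))
    rw [H', h2 a ha] at this
    simpa using this
  · refine h.neg_ne (mul_ne_zero hη h3) ?_
    have : s (g.symm (e l)) = η • g.symm (e l) := g.injective (by simp [← H', h1])
    rw [← neg_mul, ← repr_mon hs (h2 a ha), this]
    simp

theorem swap (hg : g ∈ M) {c s : V ≃ₗ[F] V} (hc : c ∈ mon e) (hs : s ∈ mon e) (H : c * g = g * s)
    {l : κ} {η : F} (hη : η ≠ 0) (h1 : c (e l) = η • e l) (h2 : ∀ a ∈ I, s (e a) = -η • e a)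
    (hI : 5 ≤ I.card) : g ∈ mon e :=
  have := h.swap_aux hc hs H hη h1 h2
  h.big hg this.1 this.2 hI

theorem cent (hn : 9 ≤ Fintype.card κ) (hg : g ∈ M) {J : Finset κ} {i j : κ} (hi : i ∈ J)
    (hj : j ∉ J) (H : sg e J * g = g * sg e J) : g ∈ mon e := by
  have := J.card_compl
  by_cases h5 : 5 ≤ J.card
  · exact h.swap hg (sg_mem _) (sg_mem _) H (l := j) one_ne_zero (by simp [sgn_basis, hj])
      (fun a ha => by simp [sgn_basis, ha]) h5
  · exact h.swap hg (I := Jᶜ) (sg_mem _) (sg_mem _) H (l := i) (η := -1) (by simp)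
      (by simp [sgn_basis, hi]) (fun a ha => by simp [sgn_basis, Finset.mem_compl.mp ha]) (by omega)

omit h in
theorem exists_fixed_conj {J : Finset κ} (H : g * sg e J * g⁻¹ ∈ mon e) : ∃ I : Finset κ,
    Fintype.card κ ≤ I.card + 2 * J.card ∧ ∀ i ∈ I, (g * sg e J * g⁻¹) (e i) = e i := by
  classical
  obtain ⟨I, h1, h2⟩ := exists_fixed H (W := (Submodule.span F (e '' J)).map (g : V →ₗ[F] V))
    (by rw [show g * sg e J * g⁻¹ * (g * sg e J * g⁻¹) = g * (sg e J * sg e J) * g⁻¹ by group,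
      sgn_sq]; simp) fun x => ⟨_, sgn_sub_mem J (g.symm x), by simp⟩
  refine ⟨I, h1.trans ?_, h2⟩
  rw [LinearEquiv.finrank_map_eq, ← Finset.coe_image]
  have := (finrank_span_finset_le_card (R := F) (J.image e)).trans Finset.card_image_le
  exact Nat.add_le_add_left (Nat.mul_le_mul_left _ this) _

theorem conj_two (hn : 9 ≤ Fintype.card κ) (hg : g ∈ M) {J : Finset κ} (hJ : J.card ≤ 2) {i : κ}
    (hi : i ∈ J) (H : g * sg e J * g⁻¹ ∈ mon e) : g ∈ mon e := by
  obtain ⟨I, h1, h2⟩ := exists_fixed_conj H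
  exact (inv_mem_iff (x := g)).mp (h.swap (I := I) (inv_mem hg) (sg_mem _) H (c := sg e J)
    (by group) (l := i) (η := -1) (by simp) (by simp [sgn_basis, hi])
    (fun a ha => by simpa using h2 a ha) (by omega))

theorem conj_four (hn : 9 ≤ Fintype.card κ) (hg : g ∈ M) {J : Finset κ} (hJ : J.card = 4)
    (H : g * sg e J * g⁻¹ ∈ mon e) : g ∈ mon e := by
  obtain ⟨I, h1, h2⟩ := exists_fixed_conj H
  obtain ⟨l, hl, -⟩ := exists_mem_not_mem (I := I) (s := ∅) (by rw [Finset.card_empty]; omega)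
  have H' : g * sg e J * g⁻¹ * g = g * sg e J := by group
  obtain ⟨h3, h4⟩ := h.swap_aux (I := J) H (sg_mem _) H' one_ne_zero (by simpa using h2 l hl)
    fun a ha => by simp [sgn_basis, ha]
  obtain ⟨a, ha, -⟩ := exists_mem_not_mem (I := J) (s := ∅) (by rw [Finset.card_empty]; omega)
  obtain ⟨m, hm⟩ : ∃ m, e.repr (g.symm (e m)) a ≠ 0 := by
    by_contra hc
    push Not at hc
    simpa using repr_of_basis (e := e) (g := g.symm) (l := a) (l' := a) (a := 0)
      (by simpa using hc) (g (e a))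
  have h5 : sg e J (g.symm (e m)) = -g.symm (e m) := e.ext_elem fun k => by
    by_cases hk : k ∈ J
    · simp [hk]
    · have := h.core hg h3 h4 ha (k := k) (by simp [Finset.insert_inter_of_mem ha, hk, hJ])
        (fun e => hk (e ▸ ha)) (by simpa using FV.basis m) hm
      simp [this]
  have := J.card_compl
  exact h.swap hg (I := Jᶜ) H (sg_mem _) H' (l := m) (η := -1) (by simp)
    (by change g (sg e J (g.symm _)) = _; simp [h5])
    (fun a ha => by simp [sgn_basis, Finset.mem_compl.mp ha]) (by omega)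

theorem sg_mul {J K : Finset κ} (H : Disjoint J K) : sg e J * sg e K = sg e (J ∪ K) :=
  e.ext' fun i => by
    by_cases h1 : i ∈ J <;> by_cases h2 : i ∈ K
    · exact absurd h2 (Finset.disjoint_left.mp H h1)
    all_goals simp [sgn_basis, h1, h2]

omit h in
theorem sg_mul' (J K : Finset κ) : sg e J * sg e K = sg e (symmDiff J K) :=
  e.ext' fun i => by
    by_cases h1 : i ∈ J <;> by_cases h2 : i ∈ K <;> simp [sgn_basis, h1, h2, Finset.mem_symmDiff]

omit h in
theorem conj_sg (hg : g ∈ mon e) (J : Finset κ) :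
    ∃ K : Finset κ, K.card = J.card ∧ g * sg e J * g⁻¹ = sg e K := by
  obtain ⟨s, hs⟩ := mem_mon_iff.mp hg
  refine ⟨J.image s, Finset.card_image_of_injective _ s.injective, ?_⟩
  rw [mul_inv_eq_iff_eq_mul]
  refine e.ext' fun i => ?_
  obtain ⟨c, hc⟩ := Submodule.mem_span_singleton.mp
    ((hs i).le ⟨e i, Submodule.mem_span_singleton_self _, rfl⟩)
  replace hc : g (e i) = c • e (s i) := hc.symm
  by_cases h1 : i ∈ J <;> simp [sgn_basis, h1, hc, s.injective.mem_finset_image]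

/-- The reduction theorem in odd characteristic. -/
theorem le_mon [Finite F] (hn : 9 ≤ Fintype.card κ) : M ≤ mon e := fun g hg => by
  haveI := Module.Finite.of_basis e
  haveI := Module.finite_of_finite F (M := V)
  haveI : Finite (V ≃ₗ[F] V) := Finite.of_injective _ DFunLike.coe_injective
  obtain ⟨a, -, -⟩ := exists_mem_not_mem (I := (Finset.univ : Finset κ)) (s := ∅)
    (by rw [Finset.card_empty, Finset.card_univ]; omega)
  obtain ⟨b, -, c, -, d, -, h1, h2, h3, h4, h5, h6⟩ := exists_three_not_mem (I := Finset.univ) (s := {a})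
    (by rw [Finset.card_singleton, Finset.card_univ]; omega)
  rw [Finset.mem_singleton] at h1 h2 h3
  have hs := h.sg2 a b (Ne.symm h1)
  have hab : ({a, b} : Finset κ).card = 2 := Finset.card_pair (Ne.symm h1)
  have hd : Disjoint ({a, b} : Finset κ) {c, d} := by
    simp [h2, h3, h4.symm, h5.symm]
  obtain ⟨J, hJ⟩ : ∃ J : Finset κ, J = {a, b} ∪ {c, d} := ⟨_, rfl⟩
  have hJ4 : J.card = 4 := by
    rw [hJ, Finset.card_union_of_disjoint hd, hab, Finset.card_pair h6]
  have hy : sg e J ∈ M := hJ ▸ h.sg_mul hd ▸ mul_mem hs (h.sg2 c d h6)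
  have F2 : ∀ x ∈ M, x * sg e {a, b} * x⁻¹ ∈ mon e → x ∈ mon e := fun x hx =>
    h.conj_two hn hx hab.le (i := a) (by simp)
  have F2' : ∀ x ∈ M, x * sg e {a, b} * x⁻¹ ∈ mon e →
      ∃ K : Finset κ, K.card = 2 ∧ x * sg e {a, b} * x⁻¹ = sg e K := fun x hx H =>
    hab ▸ conj_sg (F2 x hx H) _
  have C : ∀ x ∈ M, ∀ K : Finset κ, sg e K ≠ 1 → K.card ≤ 8 → sg e K * x = x * sg e K →
      x ∈ mon e := fun x hx K hK hK' H => by
    obtain ⟨i, hi⟩ : K.Nonempty := Finset.nonempty_iff_ne_empty.mpr fun e' => hK (e.ext' fun i => by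
      simp [e', sgn_basis])
    obtain ⟨j, -, hj⟩ := exists_mem_not_mem (I := Finset.univ) (s := K)
      (by rw [Finset.card_univ]; omega)
    exact h.cent hn hx hi hj H
  have N : ∀ K : Finset κ, 0 < K.card → sg e K ≠ 1 := fun K hK H => by
    obtain ⟨i, hi⟩ := Finset.card_pos.mp hK
    exact h.neg_ne one_ne_zero (by simpa [hi] using congrArg (fun g : V ≃ₗ[F] V => e.repr (g (e i)) i) H)
  have D : ∀ K L : Finset κ, (symmDiff K L).card ≤ K.card + L.card := fun K L =>
    (Finset.card_le_card symmDiff_le_sup).trans (Finset.card_union_le _ _)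
  have hx' : ∀ x, x * (g * sg e {a, b} * g⁻¹) * x⁻¹ = x * g * sg e {a, b} * (x * g)⁻¹ := fun x => by
    group
  rcases dih (mul_mem (mul_mem hg hs) (inv_mem hg)) hy (by
    rw [show g * sg e {a, b} * g⁻¹ * (g * sg e {a, b} * g⁻¹) = g * (sg e {a, b} * sg e {a, b}) * g⁻¹
      by group, sgn_sq]; simp) (sgn_sq J) with ⟨x, hx, H⟩ | ⟨z, hz, h7, h8, h9, x, hx, H | H⟩
  · rw [hx'] at H
    obtain ⟨K, hK, H'⟩ := F2' _ (mul_mem hx hg) (H ▸ sg_mem J)
    have h7 : sg e (symmDiff K J) = 1 := by rw [← sg_mul', ← H', H, sgn_sq]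
    refine absurd h7 (N _ (Finset.card_pos.mpr (Finset.nonempty_iff_ne_empty.mpr fun e' => ?_)))
    rw [← Finset.bot_eq_empty, symmDiff_eq_bot] at e'
    rw [e'] at hK
    omega
  · have hw : g⁻¹ * z * g ∈ M := mul_mem (mul_mem (inv_mem hg) hz) hg
    have h10 : g⁻¹ * z * g ∈ mon e := C _ hw {a, b} (N _ (by omega)) (by omega) (by
      rw [show sg e {a, b} * (g⁻¹ * z * g) = g⁻¹ * (g * sg e {a, b} * g⁻¹ * z) * g by group, ← h8]
      group)
    have h11 : g⁻¹ * x * g * sg e {a, b} * (g⁻¹ * x * g)⁻¹ = g⁻¹ * z * g * sg e {a, b} := by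
      rw [show g⁻¹ * x * g * sg e {a, b} * (g⁻¹ * x * g)⁻¹ =
        g⁻¹ * (x * (g * sg e {a, b} * g⁻¹) * x⁻¹) * g by group, H]
      group
    obtain ⟨K, hK, H'⟩ := F2' _ (mul_mem (mul_mem (inv_mem hg) hx) hg)
      (h11 ▸ mul_mem h10 (sg_mem _))
    have h12 : g * sg e (symmDiff K {a, b}) * g⁻¹ = z := by
      rw [← sg_mul', ← H', h11, mul_assoc _ _ (sg e {a, b}), sgn_sq]
      group
    have h13 := C z hz J (N _ (by omega)) (by omega) h9.symm
    have h14 := D K {a, b}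
    obtain ⟨i, hi⟩ : (symmDiff K {a, b}).Nonempty := Finset.nonempty_iff_ne_empty.mpr fun e' =>
      h7 (by rw [← h12, e', show sg e ∅ = 1 from e.ext' fun i => by simp [sgn_basis]]; simp)
    by_cases h15 : (symmDiff K {a, b}).card ≤ 2
    · exact h.conj_two hn hg h15 hi (h12 ▸ h13)
    refine h.conj_four hn hg ?_ (h12 ▸ h13)
    by_cases h16 : Disjoint K {a, b}
    · rw [h16.symmDiff_eq_sup, Finset.sup_eq_union, Finset.card_union_of_disjoint h16, hK, hab]
    · obtain ⟨j, h17, h18⟩ := Finset.not_disjoint_iff.mp h16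
      have h19 := Finset.card_le_card (show symmDiff K {a, b} ⊆ K.erase j ∪ ({a, b} : Finset κ).erase j
        from fun i hi => by
          rcases Finset.mem_symmDiff.mp hi with ⟨h20, h21⟩ | ⟨h20, h21⟩
          · exact Finset.mem_union_left _ (Finset.mem_erase.mpr ⟨fun e' => h21 (e' ▸ h18), h20⟩)
          · exact Finset.mem_union_right _ (Finset.mem_erase.mpr ⟨fun e' => h21 (e' ▸ h17), h20⟩))
      have h20 := Finset.card_union_le (K.erase j) (({a, b} : Finset κ).erase j)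
      rw [Finset.card_erase_of_mem h17, Finset.card_erase_of_mem h18] at h20
      omega
  · have h13 := C z hz J (N _ (by omega)) (by omega) h9.symm
    rw [hx'] at H
    obtain ⟨K, hK, H'⟩ := F2' _ (mul_mem hx hg) (H ▸ mul_mem h13 (sg_mem J))
    have h12 : sg e (symmDiff K J) = z := by
      rw [← sg_mul', ← H', H, mul_assoc, sgn_sq, mul_one]
    have h14 := D K J
    rw [← h12] at h7 h8
    exact F2 g hg (C _ (mul_mem (mul_mem hg hs) (inv_mem hg)) _ h7 (by omega) h8)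

end Fr

open Polynomial in
theorem exists_avoid {S : Finset F} {ι : Type*} (t : Finset ι) (a b c : ι → F) (d : ι → ℕ)
    (h0 : ∀ i ∈ t, a i ≠ 0 ∨ b i ≠ 0 ∨ c i ≠ 0) (h1 : ∀ i ∈ t, 2 ≤ d i ∨ (a i = 0 ∧ d i = 1))
    (hS : ∑ i ∈ t, d i < S.card) : ∃ x ∈ S, ∀ i ∈ t, a i * x ^ 2 + b i * x + c i ≠ 0 := by
  by_contra hc
  push Not at hc
  have h2 : ∀ i ∈ t, C (a i) * X ^ 2 + C (b i) * X + C (c i) ≠ 0 := fun i hi h => by
    have e2 := congrArg (coeff · 2) h
    have e1 := congrArg (coeff · 1) h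
    have e0 := congrArg (coeff · 0) h
    simp [coeff_X, coeff_C] at e2 e1 e0
    rcases h0 i hi with h | h | h <;> contradiction
  refine Finset.prod_ne_zero_iff.mpr h2 (eq_zero_of_natDegree_lt_card_of_eval_eq_zero' _ S
    (fun x hx => ?_) (((natDegree_prod_le _ _).trans (Finset.sum_le_sum fun i hi => ?_)).trans_lt hS))
  · obtain ⟨i, hi, h⟩ := hc x hx
    rw [eval_prod]
    exact Finset.prod_eq_zero hi (by simpa using h)
  · rcases h1 i hi with h | ⟨h, h'⟩
    · exact natDegree_quadratic_le.trans h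
    · rw [h, h', C_0, zero_mul, zero_add]
      exact natDegree_linear_le

theorem eq_one_of_invol (h2 : (2 : F) = 0) {g : V ≃ₗ[F] V} (hg : g * g = 1) {x : V} (hx : x ≠ 0)
    {c : F} (h : g x = c • x) : g x = x := by
  have h1 : (c * c) • x = (1 : F) • x := by
    simpa [h, smul_smul] using LinearEquiv.congr_fun hg x
  have h3 : (c - 1) ^ 2 = 0 := by
    linear_combination smul_left_injective F hx h1 + (1 - c) * h2
  rw [h, sub_eq_zero.mp (pow_eq_zero_iff two_ne_zero |>.mp h3), one_smul]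

theorem tv_sq (h2 : (2 : F) = 0) {a : V} {φ : Dual F V} (h : φ a = 0) : tv a φ h * tv a φ h = 1 :=
  LinearEquiv.ext fun x => by
    simp [h, add_assoc, ← add_smul, ← two_mul, h2]

theorem T.extract [Finite (V ≃ₗ[F] V)] (h2 : (2 : F) = 0) {M : Subgroup (V ≃ₗ[F] V)} {b r r' : V}
    {ψ η η' : Dual F V} (h : T M b ψ) (h0 : η r = 0) (h0' : η' r' = 0)
    (hy : tv r' η' h0' * tv r η h0 ∈ M) (h1 : ψ r = 0) (h3 : η b = 0) (h4 : η r' = 0)
    (h5 : η' r = 0) (h6 : ψ r' ≠ 0) (h7 : η' b ≠ 0) : T M r η := by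
  have hb := h.1
  rcases dih_odd (tv_sq h2 hb) (tv_sq h2 h0') with ⟨k, hk⟩ | ⟨k, h8, h9, h10, h11⟩
  · have c1 : Commute (tv b ψ hb) (tv r η h0) := LinearEquiv.ext fun x => by
      simp [h1, h3, add_right_comm]
    have c2 : Commute (tv r' η' h0') (tv r η h0) := LinearEquiv.ext fun x => by
      simp [h4, h5, add_right_comm]
    have := pow_mem (mul_mem h.tv_mem hy) (2 * k + 1)
    rw [← mul_assoc, (c1.mul_left c2).mul_pow, ← hk, pow_orderOf_eq_one, one_mul, hk, pow_succ,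
      pow_mul, pow_two, tv_sq h2, one_pow, one_mul] at this
    exact .of_tv this
  have h12 : ∀ x, ψ x = 0 → η' x = 0 → ((tv b ψ hb * tv r' η' h0') ^ k) x = x := fun x e1 e2 => by
    clear h8 h9 h10 h11
    induction k with
    | zero => rfl
    | succ k ih => rw [pow_succ, LinearEquiv.mul_apply]; simpa [e1, e2] using ih
  generalize (tv b ψ hb * tv r' η' h0') ^ k = z at h8 h9 h10 h11 h12
  have key : ∀ {a y : V} {φ : Dual F V} {h : φ a = 0}, z * tv a φ h = tv a φ h * z → φ y ≠ 0 →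
      a ≠ 0 → z a = a := fun {a y φ h} e1 e2 e3 => by
    have : φ y • z a = φ (z y) • a := by simpa using LinearEquiv.congr_fun e1 y
    exact eq_one_of_invol h2 h9 e3 (c := (φ y)⁻¹ * φ (z y))
      (by rw [mul_smul, ← this, smul_smul, inv_mul_cancel₀ e2, one_smul])
  have h13 := key h10 h6 (fun e => h7 (by simp [e]))
  have h14 := key h11 h7 (fun e => h6 (by simp [e]))
  refine absurd (LinearEquiv.ext fun x => ?_) h8
  have := h12 (x - (η' x / η' b) • b - (ψ x / ψ r') • r') (by simp [hb, h6]) (by simp [h0', h7])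
  simpa [h13, h14] using this

/-- The hypotheses of the reduction theorem in characteristic two. -/
structure Fr2 (e : Basis κ F V) (M : Subgroup (V ≃ₗ[F] V)) (S : Finset F) : Prop where
  two : (2 : F) = 0
  ne : ∀ c ∈ S, c ≠ 0
  tau : ∀ a b, a ≠ b → ∀ c ∈ S, T M (e a + c • e b) (e.coord a + c⁻¹ • e.coord b)
  fix : ∀ g ∈ M, ∀ l, (∀ i, i ≠ l → e.repr (g (e l)) i = 0) →
    (∀ i, i ≠ l → e.repr (g (e i)) l = 0) → g ∈ mon e

namespace Fr2
variable {M : Subgroup (V ≃ₗ[F] V)} {S : Finset F} (h : Fr2 e M S) {b : V} {ψ : Dual F V}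
include h

theorem spare (hb : T M b ψ) {l : κ} (h1 : e.repr b l = 0) (h2 : ψ (e l) = 0) :
    tv b ψ hb.1 ∈ mon e :=
  h.fix _ hb.tv_mem l (fun i hi => by simp [h2, hi]) fun i hi => by simp [h1, hi]

omit h in
theorem not_mon {hb : ψ b = 0} (H : tv b ψ hb ∈ mon e) {m i j : κ} (hm : ψ (e m) ≠ 0)
    (hi : i ≠ m) (hj : j ≠ i) (h1 : e.repr b i ≠ 0) :
    e.repr (e m) j + ψ (e m) * e.repr b j = 0 := by
  simpa using ((H _).mp (FV.basis m)).eq_zero (i := i) (by simp [hi, hm, h1]) hj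

theorem of_conj (hn : 4 ≤ Fintype.card κ) (hS : 2 ≤ S.card) {g : V ≃ₗ[F] V} (hg : g ∈ M)
    (H : ∀ b ψ (hb : T M b ψ), tv b ψ hb.1 ∈ mon e) : g ∈ mon e := by
  refine (inv_mem_iff (x := g)).mp (mem_mon fun m => ?_)
  obtain ⟨x, hx⟩ : ∃ x, x = g⁻¹ (e m) := ⟨_, rfl⟩
  have hx1 : FV e (g x) := by simpa [hx] using FV.basis m
  have hx0 : x ≠ 0 := by simpa [hx] using e.ne_zero m
  rw [← hx]
  obtain ⟨a, ha⟩ := exists_repr_ne (e := e) hx0
  refine ⟨a, fun c hc => by_contra fun h0 => ?_⟩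
  obtain ⟨b, -, hb⟩ := exists_mem_not_mem (I := Finset.univ) (s := {a, c})
    (Finset.card_le_two.trans_lt (by rw [Finset.card_univ]; omega))
  obtain ⟨d, -, hd⟩ := exists_mem_not_mem (I := Finset.univ) (s := {a, c, b})
    (Finset.card_le_three.trans_lt (by rw [Finset.card_univ]; omega))
  simp only [Finset.mem_insert, Finset.mem_singleton, not_or] at hb hd
  have A : ∀ {i} j, e.repr x i ≠ 0 → ∃ s ∈ S, e.repr x i + s⁻¹ * e.repr x j ≠ 0 := fun {i} j hi => by
    obtain ⟨s, hs, h1⟩ := exists_avoid (S := S) {()} (fun _ => 0) (fun _ => e.repr x i)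
      (fun _ => e.repr x j) (fun _ => 1) (by simp [hi]) (by simp) (by simp; omega)
    refine ⟨s, hs, fun h2 => h1 () (by simp) ?_⟩
    have := h.ne s hs
    field_simp at h2
    linear_combination h2
  obtain ⟨s, hs, h1⟩ := A b ha
  obtain ⟨t, ht, h2⟩ := A d h0
  have h3 := h.tau a b (Ne.symm hb.1) s hs
  have h4 := h.tau c d (Ne.symm hd.2.1) t ht
  have P : ∀ {v ξ} (hv : T M v ξ) {y}, FV e (g y) → FV e (g (tv v ξ hv.1 y)) := fun hv y hy => by
    simpa using (H _ _ (hv.conj hg) _).mp hy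
  have c1 : Commute (tv _ _ h3.1) (tv _ _ h4.1) := LinearEquiv.ext fun x => by
    simp [hc, hb.2, hd.1, hd.2.2, Ne.symm hc, Ne.symm hb.2, Ne.symm hd.1, Ne.symm hd.2.2,
      add_right_comm]
  have Q : ∀ {z : V ≃ₗ[F] V} {c : F}, z * z = 1 → g (z x) = c • g x ∧ c ≠ 0 → z x = x :=
    fun {z c} e1 e2 => eq_one_of_invol h.two e1 hx0 (c := c) (g.injective (by rw [e2.1, map_smul]))
  obtain ⟨u, e' | e' | e'⟩ := hx1.rel (P h3 (P h4 hx1)) (P h3 hx1) (P h4 hx1) (by
    rw [← map_add, ← map_add]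
    congr 1
    simp [hc, hb.2, hd.1, hd.2.2]
    abel) (by simpa using hx0)
  · have := Q (z := tv _ _ h3.1 * tv _ _ h4.1) (by
      rw [← sq, c1.mul_pow, sq, sq, tv_sq h.two, tv_sq h.two, one_mul]) e'
    exact h1 (by simpa [hc, hb.1, hb.2, hd.1, hd.2.2] using congrArg (e.repr · a) this)
  · exact h1 (by simpa [hb.1] using congrArg (e.repr · a) (Q (tv_sq h.two h3.1) e'))
  · exact h2 (by simpa [hd.2.1] using congrArg (e.repr · c) (Q (tv_sq h.two h4.1) e'))

theorem four [Finite (V ≃ₗ[F] V)] (hn : 5 ≤ Fintype.card κ) (hS : 4 ≤ S.card) (hb : T M b ψ)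
    {a a' c : κ} (h1 : a ≠ a') (h2 : a ≠ c) (h3 : a' ≠ c) (ha : ψ (e a) ≠ 0) (hc : ψ (e c) ≠ 0)
    (h4 : ψ (e a') * e.repr b a ≠ 0 ∨ e.repr b a' ≠ 0) : False := by
  obtain ⟨d, -, hd⟩ := exists_mem_not_mem (I := Finset.univ) (s := {a, a', c})
    (Finset.card_le_three.trans_lt (by rw [Finset.card_univ]; omega))
  obtain ⟨l, -, hl⟩ := exists_mem_not_mem (I := Finset.univ) (s := {a, a', c, d})
    (Finset.card_le_four.trans_lt (by rw [Finset.card_univ]; omega))
  simp only [Finset.mem_insert, Finset.mem_singleton, not_or] at hd hl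
  obtain ⟨t, ht, h5⟩ := exists_avoid (S := S) {()} (fun _ => 0) (fun _ => ψ (e d))
    (fun _ => ψ (e c)) (fun _ => 1) (by simp [hc]) (by simp) (by simp; omega)
  have h6 := h.tau c d (Ne.symm hd.2.2) t ht
  obtain ⟨w, hw⟩ : ∃ w, w = e c + t • e d := ⟨_, rfl⟩
  obtain ⟨ζ, hζ⟩ : ∃ ζ, ζ = e.coord c + t⁻¹ • e.coord d := ⟨_, rfl⟩
  rw [← hw, ← hζ] at h6
  obtain ⟨s, hs, h7⟩ := exists_avoid (S := S) Finset.univ ![0, ψ (e a') * e.repr b a]
    ![ψ (e a'), ψ (e a) * e.repr b a + ψ (e a') * e.repr b a' + ψ w * ζ b]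
    ![ψ (e a), ψ (e a) * e.repr b a'] ![1, 2] (by
      refine Fin.forall_fin_two.mpr ⟨by simp [ha], fun _ => ?_⟩
      exact h4.imp id fun h => .inr (mul_ne_zero ha h)) (by simp) (by simp; omega)
  have h8 := h.tau a a' h1 s hs
  obtain ⟨v, hv⟩ : ∃ v, v = e a + s • e a' := ⟨_, rfl⟩
  obtain ⟨ξ, hξ⟩ : ∃ ξ, ξ = e.coord a + s⁻¹ • e.coord a' := ⟨_, rfl⟩
  rw [← hv, ← hξ] at h8
  have hs0 := h.ne s hs
  have e1 : ψ v ≠ 0 := by simpa [hv, add_comm, mul_comm] using h7 0
  have e2 : ψ w ≠ 0 := by simpa [hw, add_comm, mul_comm] using h5 ()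
  have e3 : ψ v * ξ b + ψ w * ζ b ≠ 0 := fun e' => h7 1 (by simp) (by
    rw [hv, hξ] at e'
    simp at e' ⊢
    field_simp at e'
    linear_combination e')
  have e4 : ξ w = 0 := by simp [hξ, hw, h2, h3, Ne.symm hd.1, Ne.symm hd.2.1]
  have e5 : ζ v = 0 := by simp [hζ, hv, h2.symm, h3.symm, hd.1, hd.2.1]
  have e6 := h8.1
  have e7 := h6.1
  obtain ⟨D, hD⟩ : ∃ D, D * (ψ v * ξ b + ψ w * ζ b) = 1 := ⟨_, inv_mul_cancel₀ e3⟩
  have hD0 : D ≠ 0 := left_ne_zero_of_mul_eq_one hD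
  have h9 : T M (D • (ψ w • v + ψ v • w)) (ζ b • ξ + ξ b • ζ) := hb.extract h.two
    (r' := D • (ξ b • v + ζ b • w)) (η' := ψ v • ξ + ψ w • ζ) (by simp [e4, e5, e6, e7])
    (by simp [e4, e5, e6, e7]) (by
      convert mul_mem h8.tv_mem h6.tv_mem using 1
      ext x
      simp only [LinearEquiv.mul_apply, tv_apply, map_add, map_smul, LinearMap.add_apply,
        LinearMap.smul_apply, smul_eq_mul, e4, e5, e6, e7]
      match_scalars
      · ring
      · linear_combination ξ x * hD + D * ψ w * ξ b * ζ x * h.two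
      · linear_combination ζ x * hD + D * ψ v * ζ b * ξ x * h.two)
    (by simp only [map_add, map_smul, smul_eq_mul]; linear_combination D * ψ v * ψ w * h.two)
    (by simp only [LinearMap.add_apply, LinearMap.smul_apply, smul_eq_mul]
        linear_combination ξ b * ζ b * h.two)
    (by simp [e4, e5, e6, e7]) (by simp [e4, e5, e6, e7])
    (by simpa [hD0, mul_comm, ← mul_add] using e3) (by simpa using e3)
  have h10 := h.spare h9 (l := l) (by simp [hv, hw, hl]) (by simp [hξ, hζ, Ne.symm, hl])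
  have v1 : e.repr v a = 1 ∧ e.repr v a' = s ∧ e.repr v c = 0 ∧ e.repr v d = 0 := by
    simp [hv, h1, h1.symm, h2.symm, h3.symm, hd.1, hd.2.1]
  have v2 : e.repr w a = 0 ∧ e.repr w a' = 0 ∧ e.repr w c = 1 ∧ e.repr w d = t := by
    simp [hw, h2, h3, Ne.symm hd.1, Ne.symm hd.2.1, hd.2.2, Ne.symm hd.2.2]
  have v3 : ξ (e a) = 1 ∧ ξ (e c) = 0 ∧ ζ (e a) = 0 ∧ ζ (e c) = 1 := by
    simp [hξ, hζ, h1.symm, h2, h3, h2.symm, hd.1, hd.2.2]
  by_cases h11 : ζ b = 0
  · have h12 : ξ b ≠ 0 := fun e' => e3 (by simp [e', h11])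
    simpa [v1, v2, v3, h11, h12, hD0, e2, h3, hs0] using not_mon h10 (m := c) (i := a) (j := a')
      (by simp [h11, h12, v3]) h2 h1.symm (by simp [v1, v2, hD0, e2])
  · simpa [v1, v2, v3, h11, hD0, e1, hd.1, h.ne t ht] using not_mon h10 (m := a) (i := c) (j := d)
      (by simp [h11, v3]) h2.symm hd.2.2 (by simp [v1, v2, hD0, e1])

theorem tv_mon [Finite (V ≃ₗ[F] V)] (hn : 5 ≤ Fintype.card κ) (hS : 4 ≤ S.card) (hb : T M b ψ) :
    tv b ψ hb.1 ∈ mon e := by
  by_contra hc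
  have h1 : ∀ l, e.repr b l = 0 → ψ (e l) ≠ 0 := fun l e1 e2 => hc (h.spare hb e1 e2)
  obtain ⟨i, hi⟩ := exists_repr_ne (e := e) (x := b) fun e' => hc (by
    convert one_mem (mon e)
    ext x
    simp [e'])
  obtain ⟨j, hj⟩ : ∃ j, ψ (e j) ≠ 0 := by
    by_contra h2
    push Not at h2
    refine hc ?_
    convert one_mem (mon e)
    ext x
    simp [e.ext (f₂ := 0) h2]
  have h3 : ∀ {a c}, a ≠ c → ψ (e a) ≠ 0 → ψ (e c) ≠ 0 → e.repr b a ≠ 0 → False :=
    fun {a c} hac ha hc' hb' => by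
      obtain ⟨d, -, hd⟩ := exists_mem_not_mem (I := Finset.univ) (s := {a, c})
        (Finset.card_le_two.trans_lt (by rw [Finset.card_univ]; omega))
      simp only [Finset.mem_insert, Finset.mem_singleton, not_or] at hd
      exact h.four hn hS hb (Ne.symm hd.1) hac hd.2 ha hc'
        (or_iff_not_imp_right.mpr fun e' => mul_ne_zero (h1 d (of_not_not e')) hb')
  by_cases h2 : ∃ k, k ≠ j ∧ ψ (e k) ≠ 0
  · obtain ⟨k, hk, hk'⟩ := h2
    by_cases h4 : i = j
    · exact h3 hk.symm hj hk' (h4 ▸ hi)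
    by_cases h5 : i = k
    · exact h3 hk hk' hj (h5 ▸ hi)
    exact h.four hn hS hb (Ne.symm h4) hk.symm h5 hj hk' (.inr hi)
  push Not at h2
  obtain ⟨i, -, k, -, l, -, h4, h5, h6, h7, h8, h9⟩ := exists_three_not_mem (I := Finset.univ) (s := {j})
    (by rw [Finset.card_singleton, Finset.card_univ]; omega)
  rw [Finset.mem_singleton] at h4 h5 h6
  obtain ⟨s, hs, h10⟩ := exists_avoid (S := S) {()} (fun _ => 0) (fun _ => e.repr b i)
    (fun _ => e.repr b k) (fun _ => 1) (by simpa using .inl fun e' => h1 i e' (h2 i h4)) (by simp)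
    (by simp; omega)
  have hs0 := h.ne s hs
  have h11 : e.repr b i + s⁻¹ * e.repr b k ≠ 0 := fun e' => h10 () (by simp) (by
    field_simp at e'
    linear_combination e')
  have := not_mon (h.spare ((h.tau i k h7 s hs).comm hb (by simp [h2 i h4, h2 k h5])) (l := l)
    (by simp [h8.symm, h9.symm]) (h2 l h6)) hj h4 h7.symm (by simp [h7, h11])
  simp [h5, hj, h11, h7.symm, hs0] at this

/-- The reduction theorem in characteristic two. -/
theorem le_mon [Finite F] (hn : 5 ≤ Fintype.card κ) (hS : 4 ≤ S.card) : M ≤ mon e := fun g hg => by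
  haveI := Module.Finite.of_basis e
  haveI := Module.finite_of_finite F (M := V)
  haveI : Finite (V ≃ₗ[F] V) := Finite.of_injective _ DFunLike.coe_injective
  exact h.of_conj (by omega) (by omega) hg fun b ψ hb => h.tv_mon hn hS hb

end Fr2

end Cfsg.Agent.Max
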