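import Mathlib
import Cfsg.Agent.Max.Frame

/-!
# Maximality of decomposition stabilisers in special linear groups
-/

set_option autoImplicit false
set_option linter.unusedSectionVars false

namespace Cfsg.Agent.Max

open Module

variable {F V κ : Type*} [Field F] [AddCommGroup V] [Module F V] [Fintype κ] [DecidableEq κ]
  {e : Basis κ F V} {M : Subgroup (V ≃ₗ[F] V)}

theorem det_dg (c : κ → Fˣ) : LinearEquiv.det (dg e c) = ∏ i, c i := by
  ext
  have := e.det_comp (dg e c : V →ₗ[F] V) e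
  rw [e.det_self, mul_one, show (dg e c : V →ₗ[F] V) ∘ e = e.unitsSMul c from
    funext fun i => by simp [Basis.unitsSMul_apply, Units.smul_def], e.det_unitsSMul_self] at this
  simp [← this]

theorem det_pm (s : Equiv.Perm κ) :
    LinearEquiv.det (pm e s) = Units.map (Int.castRingHom F : ℤ →* F) (Equiv.Perm.sign s) := by
  ext
  have := e.det_comp (pm e s : V →ₗ[F] V) e
  rw [e.det_self, mul_one, show (pm e s : V →ₗ[F] V) ∘ e = e ∘ s from
    funext fun i => by simp, AlternatingMap.map_perm, e.det_self] at this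
  simp [← this, Units.smul_def]

theorem det_sg (J : Finset κ) : LinearEquiv.det (sg e J) = (-1) ^ J.card := by
  simp only [sg, det_dg, sgn, Finset.prod_ite_mem, Finset.univ_inter, Finset.prod_const]

theorem exists_perm_two {i j i' j' : κ} (h : i ≠ j) (h' : i' ≠ j') :
    ∃ s : Equiv.Perm κ, s i = i' ∧ s j = j' := by
  refine ⟨Equiv.swap (Equiv.swap i i' j) j' * Equiv.swap i i', ?_, by simp⟩
  rw [Equiv.Perm.mul_apply, Equiv.swap_apply_left, Equiv.swap_apply_of_ne_of_ne _ h']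
  exact fun e' => h ((Equiv.swap i i').injective ((Equiv.swap_apply_left _ _).trans e'))

/-- Homologies available in `M` up to a correction at the spare index `l`. -/
def Ho (e : Basis κ F V) (M : Subgroup (V ≃ₗ[F] V)) (l : κ) (u : V) (φ : Dual F V) : Prop :=
  φ u = 1 ∧ e.repr u l = 0 ∧ φ (e l) = 0 ∧ ∀ s : F, s ≠ 0 →
    R M ((s - 1) • φ.smulRight u + (s⁻¹ - 1) • (e.coord l).smulRight (e l))

namespace Ho
variable {l : κ} {u x b : V} {φ ξ ψ : Dual F V}

theorem conj (h : Ho e M l u φ) {g : V ≃ₗ[F] V} (hg : g ∈ M) {c : F} (h1 : g (e l) = c • e l)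
    (h2 : ∀ y, e.repr (g y) l = c * e.repr y l) (h3 : ∀ y, ψ (g y) = φ y) : Ho e M l (g u) ψ := by
  have hc : c ≠ 0 := fun h0 => e.ne_zero l (by simpa [h0] using h1)
  refine ⟨(h3 u).trans h.1, by simp [h2, h.2.1], ?_, fun s hs => (h.2.2.2 s hs).conj' hg fun y => by
    simp [h1, h2, h3, smul_smul, mul_comm, mul_left_comm]⟩
  simpa [h1, hc, h.2.2.1] using h3 (e l)

theorem exists_mem (h : Ho e M l u φ) {s : F} (hs : s ≠ 0) : ∃ g ∈ M, g (e l) = s⁻¹ • e l ∧
    (∀ y, e.repr (g y) l = s⁻¹ * e.repr y l) ∧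
    (∀ y, e.repr y l = 0 → g y = y + ((s - 1) * φ y) • u) ∧
    ∀ ξ : Dual F V, ξ (e l) = 0 → ∀ y, (ξ + ((s⁻¹ - 1) * ξ u) • φ) (g y) = ξ y := by
  obtain ⟨g, hg, h1⟩ := h.2.2.2 s hs
  refine ⟨g, hg, by simp [h1, h.2.2.1, sub_smul], fun y => by simp [h1, h.2.1]; ring,
    fun y hy => by simp [h1, hy, smul_smul], fun ξ h2 y => ?_⟩
  simp [h1, h2, h.1, h.2.2.1]
  field_simp
  ring

theorem act (h : Ho e M l u φ) (h' : Ho e M l x ξ) {s : F} (hs : s ≠ 0) :
    Ho e M l (x + ((s - 1) * φ x) • u) (ξ + ((s⁻¹ - 1) * ξ u) • φ) := by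
  obtain ⟨g, hg, h1, h2, h3, h4⟩ := h.exists_mem hs
  exact h3 x h'.2.1 ▸ h'.conj hg h1 h2 (h4 ξ h'.2.2.1)

theorem act_T (h : Ho e M l u φ) (h' : T M b ψ) (h1 : e.repr b l = 0) (h2 : ψ (e l) = 0) {s : F}
    (hs : s ≠ 0) : T M (b + ((s - 1) * φ b) • u) (ψ + ((s⁻¹ - 1) * ψ u) • φ) := by
  obtain ⟨g, hg, -, -, h3, h4⟩ := h.exists_mem hs
  exact h3 b h1 ▸ h'.conj' hg (h4 ψ h2)

theorem smul (h : Ho e M l u φ) {c : F} (hc : c ≠ 0) : Ho e M l (c • u) (c⁻¹ • φ) :=
  ⟨by simp [h.1, hc], by simp [h.2.1], by simp [h.2.2.1], fun s hs =>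
    (h.2.2.2 s hs).congr fun y => by simp [smul_smul, mul_right_comm, hc]⟩

theorem centre (h : Ho e M l u φ) (h' : Ho e M l u ξ) (h3 : ∃ s : F, s ≠ 0 ∧ s ≠ 1) (c : F) :
    T M (c • u) (φ - ξ) := by
  have h1 : ∀ s : F, s ≠ 0 → T M ((s - 1) • u) (φ - ξ) := fun s hs =>
    .of_R ((h.2.2.2 s hs).mul (h'.2.2.2 s⁻¹ (inv_ne_zero hs))) (by simp [h.1, h'.1]) fun y => by
      simp [h.1, h.2.1, h.2.2.1]
      match_scalars <;> field_simp <;> ring
  obtain ⟨s, h4, h5⟩ := h3
  by_cases hc : c + 1 = 0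
  · convert (h1 s h4).add_left (h1 (1 - s) (sub_ne_zero.mpr h5.symm)) using 1
    rw [eq_neg_of_add_eq_zero_left hc]
    module
  · simpa using h1 _ hc

end Ho

section frame
variable (hM : ∀ g, LinearEquiv.det g = 1 → g ∈ mon e → g ∈ M) {l i j : κ} {u b : V}
  {φ ψ : Dual F V}
include hM

theorem ho_basis (h : j ≠ l) : Ho e M l (e j) (e.coord j) :=
  ⟨by simp, by simp [h], by simp [h], fun s hs => ⟨dg e (Pi.mulSingle j (Units.mk0 s hs) *
    Pi.mulSingle l (Units.mk0 s hs)⁻¹), hM _ (by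
      simp [det_dg, Finset.prod_mul_distrib]) (dg_mem _), fun y => e.ext_elem fun i => by
        by_cases h1 : i = j
        · simp [h1, h]
          ring
        by_cases h2 : i = l
        · simp [h2, h.symm]
          ring
        simp [h1, h2]⟩⟩

theorem exists_pm (s : Equiv.Perm κ) (k : κ) : ∃ g ∈ M, g ∈ mon e ∧ (∀ i, i ≠ k → g (e i) = e (s i)) ∧
    ∃ c : F, g (e k) = c • e (s k) :=
  ⟨pm e s * dg e (Pi.mulSingle k (LinearEquiv.det (pm e s))⁻¹), hM _ (by simp [det_dg])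
    (mul_mem (pm_mem _) (dg_mem _)), mul_mem (pm_mem _) (dg_mem _), fun i hi => by simp [hi],
    _, by rw [LinearEquiv.mul_apply, dg_basis, map_smul, pm_basis]⟩

theorem sl_of_elem {c : F} (hij : i ≠ j) (hi : i ≠ l) (hj : j ≠ l) (hc : c ≠ 0)
    (h : T M (c • e i) (e.coord j)) : SLle M := by
  have h1 : ∀ s : F, T M (s • e i) (e.coord j) := fun s => by
    by_cases hs : s = 0
    · simpa [hs] using T.zero_left _
    convert (ho_basis hM hi).act_T h (by simp [hi]) (by simp [hj]) (div_ne_zero hs hc) using 1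
    · simp only [Basis.coord_apply, map_smul, Basis.repr_self, Finsupp.smul_single, smul_eq_mul,
        mul_one, Finsupp.single_eq_same]
      match_scalars
      field_simp
      ring
    · simp [hij]
  refine sl_of_basis (e.reindex (Fintype.equivFin κ)) fun a b hab s => ?_
  obtain ⟨σ, h2, h3⟩ := exists_perm_two hij ((Fintype.equivFin κ).symm.injective.ne hab)
  obtain ⟨g, hg, hg', h4, -⟩ := exists_pm hM σ l
  have := (h1 s).conj' hg (ψ := e.coord (σ j)) fun y => by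
    simpa using repr_mon hg' (a := 1) (by simpa using h4 j hj) y
  convert this using 1
  · simp [h4 i hi, h2]
  · ext y
    simp [h3]

variable (h3 : ∃ s : F, s ≠ 0 ∧ s ≠ 1)
include h3

theorem sl_of_T1 (h : T M b ψ) (h1 : e.repr b l = 0) (h2 : ψ (e l) = 0) (hi : e.repr b i ≠ 0)
    (hi' : ψ (e i) = 0) (h0 : ψ ≠ 0) : SLle M := by
  obtain ⟨s, h4, h5⟩ := h3
  have hil : i ≠ l := fun e' => hi (e' ▸ h1)
  have h6 : T M (((s - 1) * e.repr b i) • e i) ψ := by
    have := (ho_basis hM hil).act_T h h1 h2 h4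
    rw [hi', mul_zero, zero_smul, add_zero] at this
    simpa only [add_sub_cancel_left, Basis.coord_apply] using this.sub_left h
  obtain ⟨j, hj⟩ : ∃ j, ψ (e j) ≠ 0 := by
    by_contra hc
    push Not at hc
    exact h0 (e.ext hc)
  have hjl : j ≠ l := fun e' => hj (e' ▸ h2)
  have hij : i ≠ j := fun e' => hj (e' ▸ hi')
  have h7 : T M (((s - 1) * e.repr b i) • e i) (((s⁻¹ - 1) * ψ (e j)) • e.coord j) := by
    have := (ho_basis hM hjl).act_T h6 (by simp [hil]) h2 h4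
    rw [show e.coord j (((s - 1) * e.repr b i) • e i) = 0 by simp [hij], mul_zero, zero_smul,
      add_zero] at this
    simpa only [add_sub_cancel_left] using this.sub_right h6
  refine sl_of_elem hM hij hil hjl ?_ (by simpa only [smul_smul] using h7.smul_left)
  simp [hi, hj, sub_eq_zero, h5]

theorem sl_of_T2 (h : ∀ c : F, T M (c • b) ψ) (h1 : e.repr b l = 0) (h2 : ψ (e l) = 0) (hb : b ≠ 0)
    (h0 : ψ ≠ 0) : SLle M := by
  obtain ⟨i, hi⟩ := exists_repr_ne (e := e) hb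
  have h' : T M b ψ := by simpa using h 1
  by_cases hi' : ψ (e i) = 0
  · exact sl_of_T1 hM h3 h' h1 h2 hi hi' h0
  obtain ⟨s, h4, h5⟩ := id h3
  have hil : i ≠ l := fun e' => hi (e' ▸ h1)
  have h6 := (ho_basis hM hil).act_T h' h1 h2 h4
  have h7 : (s - 1) * e.repr b i ≠ 0 := mul_ne_zero (sub_ne_zero.mpr h5) hi
  have h8 := h (-((s - 1) * e.repr b i * ψ (e i))⁻¹)
  have h9 := h6.conj h8.tv_mem
  rw [show tv _ _ h8.1 (b + ((s - 1) * e.coord i b) • e i) = ((s - 1) * e.repr b i) • e i by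
    simp only [tv_apply, map_add, h'.1, map_smul, smul_eq_mul, zero_add, Basis.coord_apply]
    match_scalars
    · field_simp
      ring
    · ring] at h9
  refine sl_of_T1 hM h3 h9 (l := l) (i := i) (by simp [hil]) (by simp [h2, hil]) (by simpa using h7)
    (by simpa [h7] using h9.1) fun e' => ?_
  obtain ⟨y, hy⟩ := exists_apply_one h0
  have := LinearMap.congr_fun e' (tv _ _ h8.1 (y + ((s - 1) * e.repr y i) • e i))
  simp only [LinearMap.comp_apply, LinearEquiv.coe_coe, LinearEquiv.symm_apply_apply] at this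
  simp [hy] at this
  field_simp at this
  exact h4 (by linear_combination this)

theorem Ho.sl1 (h : Ho e M l u φ) {k : κ} (hk : k ≠ j) (h1 : e.repr u j * φ (e j) ≠ 0)
    (h2 : φ (e k) ≠ 0) {s : F} (hs : s ≠ 0) (hs' : s ≠ 1)
    (h4 : 1 + (s - 1) * (e.repr u j * φ (e j)) ≠ 0)
    (h5 : (s - 1) * (s⁻¹ - 1) * (e.repr u j * φ (e j)) ≠ 1) : SLle M := by
  have h6 := left_ne_zero_of_mul h1
  have h7 := right_ne_zero_of_mul h1
  have h8 := sub_ne_zero.mpr hs'
  have hj : j ≠ l := fun e' => h6 (e' ▸ h.2.1)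
  have a1 := h.act (ho_basis hM hj) hs
  have a2 := ((ho_basis hM hj).act h (div_ne_zero h4 (mul_ne_zero h8 h1))).smul (mul_ne_zero h8 h7)
  rw [show ((s - 1) * φ (e j)) • (u + (((1 + (s - 1) * (e.repr u j * φ (e j))) / ((s - 1) *
    (e.repr u j * φ (e j))) - 1) * e.coord j u) • e j) = e j + ((s - 1) * φ (e j)) • u by
      simp only [Basis.coord_apply]
      match_scalars <;> field_simp <;> ring] at a2
  refine sl_of_T2 hM h3 (a1.centre a2 h3) a1.2.1 (by rw [LinearMap.sub_apply, a1.2.2.1, a2.2.2.1,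
    sub_zero]) (fun e' => by simpa [e'] using a1.1) fun e' => h5 ?_
  have := LinearMap.congr_fun e' (e k)
  simp [hk] at this
  field_simp at this ⊢
  exact mul_left_cancel₀ h2 (by linear_combination this)

theorem Ho.sl [Finite F] (hq : 5 ≤ Nat.card F) (hn : 4 ≤ Fintype.card κ) (h : Ho e M l u φ)
    (hu : ¬ FV e u) : SLle M := by
  haveI := Fintype.ofFinite F
  have h0 : φ ≠ 0 := fun e' => by simpa [e'] using h.1
  obtain ⟨s, h4, h5⟩ := id h3
  by_contra hc
  have A : ∀ j, e.repr u j ≠ 0 → φ (e j) ≠ 0 := fun j hj hj' => by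
    have hl : j ≠ l := fun e' => hj (e' ▸ h.2.1)
    have a1 := (ho_basis hM hl).act h h4
    refine hc (sl_of_T1 hM h3 (b := ((1 - s⁻¹) * ((s - 1) * e.repr u j)) • e j) (i := j) (.of_R
      ((a1.2.2.2 s h4).mul (h.2.2.2 s⁻¹ (inv_ne_zero h4))) (by simp [hj']) fun y => ?_)
      (by simp [hl]) h.2.2.1 (by simp [hj, sub_eq_zero, h5, h5.symm]) hj' h0)
    simp [h.1, h.2.1, h.2.2.1, hj', hl]
    match_scalars <;> field_simp <;> ring
  have B : ∀ j, φ (e j) ≠ 0 → e.repr u j ≠ 0 := fun j hj hj' => by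
    have hl : j ≠ l := fun e' => hj (e' ▸ h.2.2.1)
    have a1 := (ho_basis hM hl).act h h4
    rw [Basis.coord_apply, hj', mul_zero, zero_smul, add_zero] at a1
    refine hc (sl_of_T2 hM h3 (a1.centre h h3) h.2.1 (by simp [hl]) (fun e' => by simpa [e'] using h.1)
      fun e' => ?_)
    simpa [hj, sub_eq_zero, h5] using LinearMap.congr_fun e' (e j)
  obtain ⟨i, hi⟩ := exists_repr_ne (e := e) (x := u) fun e' => by simpa [e'] using h.1
  obtain ⟨k, hk, hk'⟩ : ∃ k, k ≠ i ∧ e.repr u k ≠ 0 := by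
    by_contra h6
    push Not at h6
    exact hu ⟨i, h6⟩
  by_cases h6 : 6 ≤ Nat.card F
  · have h7 := mul_ne_zero hi (A i hi)
    obtain ⟨s, -, h8⟩ := exists_avoid (S := Finset.univ) Finset.univ
      ![0, 0, 0, e.repr u i * φ (e i)] ![1, 1, e.repr u i * φ (e i), 1 - 2 * (e.repr u i * φ (e i))]
      ![0, -1, 1 - e.repr u i * φ (e i), e.repr u i * φ (e i)] ![1, 1, 1, 2]
      (fun i _ => by fin_cases i <;> simp [hi, A _ hi]) (fun i _ => by fin_cases i <;> simp)
      (by simp [Fin.sum_univ_four, ← Nat.card_eq_fintype_card]; omega)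
    have h9 : s ≠ 0 := by simpa using h8 0
    refine hc (h.sl1 hM h3 hk h7 (A k hk') h9 (fun e' => by simpa [e'] using h8 1)
      (fun e' => h8 2 (by simp) (by simp; linear_combination e')) fun e' => h8 3 (by simp) ?_)
    field_simp at e'
    simp
    linear_combination -e'
  have h5 : (5 : F) = 0 := by
    simpa [← Nat.card_eq_fintype_card, show Nat.card F = 5 by omega] using
      FiniteField.cast_card_eq_zero F
  have h2 : (2 : F) ≠ 0 := fun e' => one_ne_zero (by linear_combination h5 - 2 * e' : (1 : F) = 0)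
  have h33 : (3 : F) ≠ 0 := fun e' => one_ne_zero (by linear_combination 2 * e' - h5 : (1 : F) = 0)
  have C : ∀ {u φ j k}, Ho e M l u φ → k ≠ j → e.repr u j * φ (e j) ≠ 0 → φ (e k) ≠ 0 →
      2 * (e.repr u j * φ (e j)) = 1 := fun {u φ j k} h hk h7 h8 => by
    by_contra h9
    by_cases h10 : e.repr u j * φ (e j) = -1
    · refine hc (h.sl1 hM h3 hk h7 h8 h33 (fun e' => h2 (by linear_combination e'))
        (fun e' => one_ne_zero (by rw [h10] at e'; linear_combination -e' : (1 : F) = 0)) fun e' => ?_)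
      rw [h10, show (3 : F)⁻¹ = 2 from inv_eq_of_mul_eq_one_right (by linear_combination h5)] at e'
      exact h33 (by linear_combination -e')
    · refine hc (h.sl1 hM h3 hk h7 h8 (s := -1) (by simp) (fun e' => h2 (by linear_combination -e'))
        (fun e' => h9 (by linear_combination -e')) fun e' => h10 ?_)
      rw [inv_neg_one] at e'
      linear_combination -e' + e.repr u j * φ (e j) * h5
  have D : ∀ j, e.repr u j ≠ 0 → 2 * (e.repr u j * φ (e j)) = 1 := fun j hj => by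
    by_cases h7 : j = i
    · exact C h (h7 ▸ hk) (mul_ne_zero hj (A j hj)) (A k hk')
    · exact C h (Ne.symm h7) (mul_ne_zero hj (A j hj)) (A i hi)
  obtain ⟨m, -, hm⟩ := exists_mem_not_mem (I := Finset.univ) (s := {i, k, l})
    (Finset.card_le_three.trans_lt (by rw [Finset.card_univ]; omega))
  simp only [Finset.mem_insert, Finset.mem_singleton, not_or] at hm
  have hil : i ≠ l := fun e' => hi (e' ▸ h.2.1)
  have d1 := D i hi
  have d2 := D k hk'
  by_cases h7 : e.repr u m = 0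
  · have h8 : φ (e m) = 0 := by_contra fun e' => B m e' h7
    obtain ⟨g, hg, hg', h9, c, h10⟩ := exists_pm hM (Equiv.swap i m) l
    rw [Equiv.swap_apply_of_ne_of_ne hil.symm (Ne.symm hm.2.2)] at h10
    have h11 : g u = u + e.repr u i • (e m - e i) := e.ext_elem fun j => by
      by_cases e1 : j = l
      · simp [e1, repr_mon hg' h10, h.2.1, hil, hm.2.2]
      have := repr_mon hg' (l' := j) (a := 1) (by
        simpa using h9 (Equiv.swap i m j) fun e' => e1 (by
          rwa [Equiv.swap_apply_eq_iff, Equiv.swap_apply_of_ne_of_ne hil.symm (Ne.symm hm.2.2)]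
            at e')) u
      by_cases e2 : j = i
      · subst e2
        simp [this, h7, hm.1]
      by_cases e3 : j = m
      · subst e3
        simp [this, h7, Ne.symm hm.1]
      simp [this, e2, e3, Equiv.swap_apply_of_ne_of_ne, Ne.symm e2, Ne.symm e3]
    have a1 := h.conj hg h10 (repr_mon hg' h10) (ψ := φ + φ (e i) • (e.coord m - e.coord i))
      fun y => LinearMap.congr_fun (e.ext (f₁ := (φ + φ (e i) • (e.coord m - e.coord i)) ∘ₗ
        (g : V →ₗ[F] V)) (f₂ := φ) fun j => by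
          by_cases e1 : j = l
          · simp [e1, h10, h.2.2.1, hil, hm.2.2]
          by_cases e2 : j = i
          · simp [e2, h9 i hil, h8, hm.1]
          by_cases e3 : j = m
          · simp [e3, h9 m hm.2.2, h8, hm.1]
          simp [h9 j e1, e2, e3, Equiv.swap_apply_of_ne_of_ne]) y
    rw [h11] at a1
    have h12 : (2 : F)⁻¹ = 3 := inv_eq_of_mul_eq_one_right (by linear_combination h5)
    have h13 : e.repr u i * φ (e i) = 3 := by linear_combination 3 * d1 - e.repr u i * φ (e i) * h5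
    have a2 := C (h.act a1 h2) (j := i) hm.1
    simp [h.1, h7, h8, hm.1, Ne.symm hm.1, h12, h13, mul_comm (φ (e i)), A i hi] at a2
    have n1 : (2 : F) - 1 ≠ 0 := fun e' => one_ne_zero (by linear_combination e' : (1 : F) = 0)
    have n2 : (1 : F) + -3 ≠ 0 := fun e' => h2 (by linear_combination -e')
    exact h2 (by linear_combination a2 n1 n2 hi (fun e' => h2 (by linear_combination e')) n2 -
      16 * h13 - 9 * h5)
  · have a1 := C (h.act (ho_basis hM hil) (s := -1) (by simp)) (j := k) (k := m) hm.2.1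
    simp [hk, Ne.symm hk, hm.1, hi, hk', A _ hi, A _ hk', A m h7] at a1
    exact one_ne_zero (by linear_combination a1 (fun e' => h2 (by linear_combination -e')) -
      4 * (e.repr u k * φ (e k)) * d1 - 2 * d2 : (1 : F) = 0)

omit hM h3 in
theorem exists_ne_zero_one [Finite F] (hq : 3 ≤ Nat.card F) : ∃ s : F, s ≠ 0 ∧ s ≠ 1 := by
  classical
  haveI := Fintype.ofFinite F
  obtain ⟨s, -, hs⟩ := exists_mem_not_mem (I := Finset.univ) (s := ({0, 1} : Finset F))
    (Finset.card_le_two.trans_lt (by rwa [Finset.card_univ, ← Nat.card_eq_fintype_card]))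
  exact ⟨s, by simpa using hs⟩

omit h3 in
theorem sl_fix [Finite F] (hq : 5 ≤ Nat.card F) (hn : 4 ≤ Fintype.card κ) (hc : ¬ SLle M) :
    ∀ g ∈ M, ∀ l, (∀ i, i ≠ l → e.repr (g (e l)) i = 0) →
      (∀ i, i ≠ l → e.repr (g (e i)) l = 0) → g ∈ mon e := fun g hg l h1 h2 => mem_mon fun a => by
  by_cases ha : a = l
  · exact ⟨l, ha ▸ h1⟩
  by_contra h4
  exact hc (Ho.sl hM (exists_ne_zero_one (by omega)) hq hn ((ho_basis hM ha).conj hg
    (eq_smul_basis h1) (repr_of_basis fun i => by by_cases hi : i = l <;> simp [hi, h2])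
    (ψ := e.coord a ∘ₗ (g.symm : V →ₗ[F] V)) fun y => by simp) h4)

omit h3 in
theorem sl_fr2 [Finite F] [Fintype F] [DecidableEq F] (hq : 5 ≤ Nat.card F)
    (hn : 4 ≤ Fintype.card κ) (hc : ¬ SLle M) (h2 : (2 : F) = 0) :
    Fr2 e M (Finset.univ.erase 0) := by
  haveI := Module.Finite.of_basis e
  refine ⟨h2, fun c hc => (Finset.mem_erase.mp hc).1, fun a b hab c hc => ?_, sl_fix hM hq hn hc⟩
  have hc0 := (Finset.mem_erase.mp hc).1
  have h3 : (1 : F) + 1 = 0 := by linear_combination h2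
  refine .of_tv (h := by simp [hab, hab.symm, hc0, h3]) (hM _ (det_tv _ _ _) (mem_mon fun i => ?_))
  by_cases h4 : i = a
  · refine ⟨b, fun j hj => ?_⟩
    by_cases h5 : j = a <;> simp [h4, h5, hab, hab.symm, hj, h3]
  by_cases h5 : i = b
  · refine ⟨a, fun j hj => ?_⟩
    by_cases h6 : j = b <;> simp [h5, h6, hab, hab.symm, hj, h3, hc0]
  simpa [h4, h5, Ne.symm h4, Ne.symm h5] using FV.basis i

omit h3 in
theorem sl_frame [Finite F] (hq : 5 ≤ Nat.card F) (hn : 9 ≤ Fintype.card κ)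
    (hg : ∃ g ∈ M, g ∉ mon e) : SLle M := by
  classical
  haveI := Fintype.ofFinite F
  by_contra hc
  obtain ⟨g, hg, hg'⟩ := hg
  by_cases h2 : (2 : F) = 0
  · exact hg' ((sl_fr2 hM hq (by omega) hc h2).le_mon (by omega) (by
      simp [← Nat.card_eq_fintype_card]; omega) hg)
  refine hg' (Fr.le_mon ⟨h2, fun a b hab => hM _ ?_ (sg_mem _), fun a b c h3 h4 => hM _ ?_
    (mul_mem (pm_mem _) (pm_mem _)), sl_fix hM hq (by omega) hc⟩ hn hg)
  · simp [det_sg, Finset.card_pair hab]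
  · simp [det_pm, h3, h4]

end frame

/-- The homology `x ↦ x + (s - 1) φ x • a`. -/
def hom (a : V) (φ : Dual F V) (h : φ a = 1) (s : F) (hs : s ≠ 0) : V ≃ₗ[F] V :=
  .ofLinear (LinearMap.id + ((s - 1) • φ).smulRight a) (LinearMap.id + ((s⁻¹ - 1) • φ).smulRight a)
    (by ext x; simp [h]; match_scalars <;> field_simp <;> ring)
    (by ext x; simp [h]; match_scalars <;> field_simp <;> ring)

theorem hom_apply {a : V} {φ : Dual F V} (h : φ a = 1) {s : F} (hs : s ≠ 0) (x : V) :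
    hom a φ h s hs x = x + ((s - 1) * φ x) • a := rfl

theorem det_hom [FiniteDimensional F V] {a : V} {φ : Dual F V} (h : φ a = 1) {s : F} (hs : s ≠ 0) :
    LinearEquiv.det (hom a φ h s hs) = Units.mk0 s hs := by
  ext
  rw [LinearEquiv.coe_det]
  exact (LinearMap.transvection.det ((s - 1) • φ) a).trans (by simp [h])

section block
variable [FiniteDimensional F V] {D : κ → Submodule F V} {π : κ → V →ₗ[F] V} {m : ℕ}
  (h : IsDec D π) (hm : ∀ i, finrank F (D i) = m) (hm2 : 2 ≤ m)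
  (hM : ∀ g, LinearEquiv.det g = 1 → PermD D g → g ∈ M) {i j : κ} {a b : V} {χ ψ : Dual F V}
include h hM

theorem blk_T (ha : a ∈ D i) (h0 : χ a = 0) : T M a (χ ∘ₗ π i) :=
  .of_tv (h := by simp [h.of_mem ha, h0]) (hM _ (det_tv _ _ _) (h.permD_of_fix fun j x hx => by
    by_cases hj : i = j
    · exact (D j).add_mem hx ((D j).smul_mem _ (hj ▸ ha))
    · simpa [h.of_ne hj hx] using hx))

include hm

theorem blk_perm (s : Equiv.Perm κ) : ∃ w ∈ M, ∀ l, ∀ x ∈ D l, w x ∈ D (s l) := by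
  induction s using Equiv.Perm.swap_induction_on with
  | one => exact ⟨1, one_mem _, fun _ _ hx => hx⟩
  | swap_mul s i j hij ih =>
    obtain ⟨w, hw, h1⟩ := ih
    obtain ⟨g, h2, h3⟩ := exists_equiv_map ((hm i).trans (hm j).symm)
    obtain ⟨v, h4, h5, h6, h7, h8⟩ := h.exists_swap hij g h2 h3
    refine ⟨v * w, mul_mem (hM v h4 h8) hw, fun l x hx => ?_⟩
    have := h1 l x hx
    rw [LinearEquiv.mul_apply, Equiv.Perm.mul_apply]
    by_cases e1 : s l = i
    · rw [e1] at this ⊢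
      simpa [h5 _ this] using h2 _ this
    by_cases e2 : s l = j
    · rw [e2] at this ⊢
      simpa [h6 _ this] using h3 _ this
    rwa [Equiv.swap_apply_of_ne_of_ne e1 e2, h7 _ e1 e2 _ this]

include hm2

theorem blk_cross (hij : i ≠ j) (ha : a ∈ D i) (ha0 : a ≠ 0) (h0 : χ ∘ₗ π j ≠ 0)
    (H : T M a (χ ∘ₗ π j)) : SLle M := by
  have h1 : ∀ x ∈ D i, T M x (χ ∘ₗ π j) := fun x hx => by
    obtain ⟨c, hc, hc'⟩ := exists_not_mem_of_finrank_lt (W := F ∙ a) (U := D i)
      ((finrank_span_one_le a).trans_lt (by rw [hm]; omega))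
    refine forall_of_add (F := F) (P := fun x => T M x (χ ∘ₗ π j)) (fun _ _ => T.sub_left) hc hc'
      (fun y hy hy' => ?_) hx
    obtain ⟨φ, h2, h3⟩ := exists_dual_two (F := F) (a := y) (x := a) fun e' => by
      obtain ⟨t, rfl⟩ := Submodule.mem_span_singleton.mp e'
      exact hy' (Submodule.mem_span_singleton.mpr ⟨t⁻¹, by
        rw [smul_smul, inv_mul_cancel₀ (left_ne_zero_of_smul ha0), one_smul]⟩)
    simpa [h.of_mem ha, h3] using (blk_T h hM hy h2).comm H (by simp [h.of_ne hij.symm hy])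
  have h2 : ∀ x ∈ D i, ∀ ξ : Dual F V, T M x (ξ ∘ₗ π j) := fun x hx ξ => by
    by_cases h3 : ∀ y, (ξ ∘ₗ π j) y = 0 → (χ ∘ₗ π j) y = 0
    · obtain ⟨c, hc⟩ := exists_smul_of_ker h3
      have hc0 : c ≠ 0 := fun e' => h0 (by simp [hc, e'])
      simpa [hc, smul_smul, hc0] using (h1 _ ((D i).smul_mem c⁻¹ hx)).smul_right
    · push Not at h3
      obtain ⟨y, h4, h5⟩ := h3
      simpa [smul_smul, h.idem, show χ (π j y) ≠ 0 from h5] using
        (h1 _ ((D i).smul_mem (χ (π j y))⁻¹ hx)).comm (blk_T h hM (h.mem j y) h4)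
          (by simp [h.of_ne hij.symm hx])
  have h3 : ∀ i' j', i' ≠ j' → ∀ x ∈ D i', ∀ ξ : Dual F V, T M x (ξ ∘ₗ π j') :=
    fun i' j' h4 x hx ξ => by
      obtain ⟨s, rfl, rfl⟩ := exists_perm_two hij h4
      obtain ⟨w, hw, h5⟩ := blk_perm h hm hM s
      obtain ⟨y, hy, rfl⟩ := (map_eq_of_le (h5 i) ((hm _).trans (hm _).symm)).ge hx
      refine (h2 y hy (ξ ∘ₗ (w : V →ₗ[F] V))).conj' hw fun z => LinearMap.congr_fun (sub_eq_zero.mp
        (h.dual_ext (φ := (ξ ∘ₗ π (s j)) ∘ₗ (w : V →ₗ[F] V) - (ξ ∘ₗ (w : V →ₗ[F] V)) ∘ₗ π j)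
          fun l y hy => ?_)) z
      by_cases hl : j = l
      · simp [hl, h.of_mem hy, h.of_mem (h5 l y hy)]
      · simp [h.of_ne hl hy, h.of_ne (s.injective.ne hl) (h5 l y hy)]
  refine sl_of_full (h.mem_of_forall fun l x hx => mem_full.mpr fun φ h4 => ?_)
  rw [show φ = ∑ k, φ ∘ₗ π k from LinearMap.ext fun y => by simp [← map_sum, h.sum]]
  refine Finset.sum_induction _ (T M x) (fun _ _ => T.add_right) (T.zero_right x) fun k _ => ?_
  by_cases hk : l = k
  · exact hk ▸ blk_T h hM hx h4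
  · exact h3 l k hk x hx φ

omit hM in
theorem blk_dual {c : V} : ∃ ξ : Dual F V, ξ c = 0 ∧ ∃ y ∈ D j, ξ y = 1 := by
  obtain ⟨y, hy, hy'⟩ := exists_not_mem_of_finrank_lt (W := F ∙ c) (U := D j)
    ((finrank_span_one_le c).trans_lt (by rw [hm]; omega))
  obtain ⟨ξ, h2, h3⟩ := exists_dual_two hy'
  exact ⟨ξ, h2, y, hy, h3⟩

theorem blk_A {k : κ} (H : T M b ψ) (hk : π k b ≠ 0) (h0 : ∀ x ∈ D k, ψ x = 0) (ha : a ∈ D i)
    (ha' : ψ a ≠ 0) : SLle M := by
  obtain ⟨c, hc, hc'⟩ := exists_not_mem_of_finrank_lt (W := F ∙ π k b) (U := D k)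
    ((finrank_span_one_le _).trans_lt (by rw [hm]; omega))
  obtain ⟨φ, h2, h3⟩ := exists_dual_two (F := F) (a := c) (x := π k b) fun e' => by
    obtain ⟨t, ht⟩ := Submodule.mem_span_singleton.mp e'
    exact hc' (Submodule.mem_span_singleton.mpr ⟨t⁻¹, by
      rw [← ht, smul_smul, inv_mul_cancel₀ (left_ne_zero_of_smul (ht ▸ hk)), one_smul]⟩)
  have h4 : T M c ψ := by simpa [h3] using (blk_T h hM hc h2).comm H (h0 c hc)
  have hik : k ≠ i := fun e' => ha' (h0 a (e' ▸ ha))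
  obtain ⟨ξ, h5, y, hy, h6⟩ := blk_dual h hm hm2 (j := i) (c := a)
  refine blk_cross h hm hm2 hM hik ((D k).smul_mem (ψ a) hc)
    (smul_ne_zero ha' fun e' => hc' (e' ▸ zero_mem _)) (χ := ξ)
    (fun e' => by simpa [h.of_mem hy, h6] using LinearMap.congr_fun e' y)
    (h4.comm (blk_T h hM ha h5) (by simp [h.of_ne hik.symm hc]))

theorem blk_B (H : T M b ψ) (hb : b ∉ D i) (ha : a ∈ D i) (ha' : ψ a ≠ 0)
    (h0 : ¬ D i ≤ Submodule.span F {a, π i b}) : SLle M := by
  obtain ⟨y, hy, hy'⟩ := SetLike.not_le_iff_exists.mp h0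
  obtain ⟨ξ, h1, h2, h3⟩ := exists_dual_three hy'
  have h4 := H.comm (blk_T h hM ha h1) h2
  obtain ⟨j, hj, h5⟩ := h.exists_of_not_mem hb
  obtain ⟨c, hc, hc'⟩ := exists_not_mem_of_finrank_lt (W := F ∙ π j b) (U := D j)
    ((finrank_span_one_le _).trans_lt (by rw [hm]; omega))
  obtain ⟨φ, h6, h7⟩ := exists_dual_two (F := F) (a := c) (x := π j b) fun e' => by
    obtain ⟨t, ht⟩ := Submodule.mem_span_singleton.mp e'
    exact hc' (Submodule.mem_span_singleton.mpr ⟨t⁻¹, by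
      rw [← ht, smul_smul, inv_mul_cancel₀ (left_ne_zero_of_smul (ht ▸ h5)), one_smul]⟩)
  refine blk_cross h hm hm2 hM hj ((D j).smul_mem (ψ a) hc)
    (smul_ne_zero ha' fun e' => hc' (e' ▸ zero_mem _)) (χ := ξ)
    (fun e' => by simpa [h.of_mem hy, h3] using LinearMap.congr_fun e' y) ?_
  simpa [h7] using (blk_T h hM hc h6).comm h4 (by simp [h.of_ne hj.symm hc])

theorem sl_block (hex : m = 2 → 3 ≤ Fintype.card κ ∧ ∃ s : F, s ≠ 0 ∧ s ≠ 1)
    (hg : ∃ g ∈ M, ¬ PermD D g) : SLle M := by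
  obtain ⟨g, hg, hg'⟩ := hg
  obtain ⟨i, a, ha, h1⟩ := h.exists_not_mem hm (by omega) hg'
  obtain ⟨ξ, h2, y, hy, h3⟩ := blk_dual h hm hm2 (j := i) (c := a)
  have H := (blk_T h hM ha h2).conj hg
  have h0 : (ξ ∘ₗ π i) ∘ₗ (g.symm : V →ₗ[F] V) ≠ 0 := fun e' => by
    simpa [h.of_mem hy, h3] using LinearMap.congr_fun e' (g y)
  generalize g a = b, (ξ ∘ₗ π i) ∘ₗ (g.symm : V →ₗ[F] V) = ψ at h1 H h0
  clear h2 h3 hy ha
  by_contra hc
  obtain ⟨i, a, ha, h2⟩ : ∃ i, ∃ a ∈ D i, ψ a = 1 := by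
    by_contra h2
    push Not at h2
    exact h0 (h.dual_ext fun i x hx => by_contra fun e' =>
      h2 i _ ((D i).smul_mem (ψ x)⁻¹ hx) (by simp [e']))
  have h3 : ∀ a ∈ D i, ψ a ≠ 0 → m ≤ finrank F (Submodule.span F {a, π i b}) := fun a ha ha' =>
    hm i ▸ Submodule.finrank_mono (by_contra fun e' => hc (blk_B h hm hm2 hM H (h1 i) ha ha' e'))
  obtain ⟨h4, s, hs, hs'⟩ := hex (le_antisymm ((h3 a ha (by simp [h2])).trans
    (finrank_span_pair_le _ _)) hm2)
  have h5 : ψ (π i b) = 0 := by_contra fun e' => by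
    have := h3 _ (h.mem i b) e'
    rw [Set.pair_eq_singleton] at this
    have := finrank_span_one_le (F := F) (π i b)
    omega
  obtain ⟨k, hk, h6⟩ := h.exists_of_not_mem (h1 i)
  obtain ⟨j, -, hj⟩ := exists_mem_not_mem (I := Finset.univ) (s := {i, k})
    (Finset.card_le_two.trans_lt h4)
  simp only [Finset.mem_insert, Finset.mem_singleton, not_or] at hj
  obtain ⟨ξ, h7, y, hy, h8⟩ := blk_dual h hm hm2 (j := j) (c := π j b)
  have e1 : (ψ ∘ₗ π i) a = 1 := by simp [h.of_mem ha, h2]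
  have e2 : (ξ ∘ₗ π j) y = 1 := by simp [h.of_mem hy, h8]
  have P : ∀ {i a χ} {e : (χ ∘ₗ π i) a = 1} {s : F} {hs : s ≠ 0}, a ∈ D i → ∀ l, ∀ x ∈ D l,
      hom a (χ ∘ₗ π i) e s hs x ∈ D l := fun {i a χ e s hs} ha l x hx => by
    rw [hom_apply]
    by_cases hl : i = l
    · exact (D l).add_mem hx ((D l).smul_mem _ (hl ▸ ha))
    · simpa [h.of_ne hl hx] using hx
  have hd : hom a _ e1 s hs * hom y _ e2 s⁻¹ (inv_ne_zero hs) ∈ M := hM _ (by
    ext; simp [det_hom, hs]) (h.permD_of_fix fun l x hx => P (e := e1) (hs := hs) ha l _ (P hy l x hx))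
  obtain ⟨d, hd'⟩ : ∃ d, d = hom a _ e1 s hs * hom y _ e2 s⁻¹ (inv_ne_zero hs) := ⟨_, rfl⟩
  rw [← hd'] at hd
  have h9 : d b = b := by simp [hd', hom_apply, h7, h5]
  have h10 := H.conj' (inv_mem hd) (ψ := ψ ∘ₗ (d : V →ₗ[F] V)) fun x => by simp
  rw [show d⁻¹ b = b from d.symm_apply_eq.mpr h9.symm] at h10
  exact hc (blk_A h hm hm2 hM (h10.sub_right H) h6 (fun x hx => by
    simp [hd', hom_apply, h.of_ne hk.symm hx, h.of_ne hj.2 hx]) ha (by
    simp [hd', hom_apply, h.of_ne hj.1 ha, h.of_mem ha, h2, sub_eq_zero, hs']))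

end block

theorem exists_not_permD [FiniteDimensional F V] {D : κ → Submodule F V} {π : κ → V →ₗ[F] V}
    {m : ℕ} (h : IsDec D π) (hm : ∀ i, finrank F (D i) = m) (hm0 : 0 < m) {i j : κ} (hij : i ≠ j) :
    ∃ g : V ≃ₗ[F] V, LinearEquiv.det g = 1 ∧ ¬ PermD D g := by
  obtain ⟨a, ha, ha0⟩ := exists_not_mem_of_finrank_lt (W := ⊥) (U := D i) (by simp [hm, hm0])
  obtain ⟨b, hb, hb0⟩ := exists_not_mem_of_finrank_lt (W := ⊥) (U := D j) (by simp [hm, hm0])
  obtain ⟨φ, h1⟩ := exists_dual_one (F := F) (x := a) ha0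
  refine ⟨tv b (φ ∘ₗ π i) (by simp [h.of_ne hij hb]), det_tv _ _ _, fun ⟨s, hs⟩ => ?_⟩
  have h2 : a + b ∈ D (s i) := hs i ▸ ⟨a, ha, by simp [h.of_mem ha, h1]⟩
  by_cases h3 : s i = i
  · exact hb0 (by simpa [map_add, h.of_ne hij.symm ha, h.of_mem hb] using h.of_ne hij.symm (x := a + b) (h3 ▸ h2))
  · exact ha0 (by simpa [h.of_ne hij hb, h.of_mem ha] using h.of_ne (Ne.symm h3) h2)

theorem exists_frame [FiniteDimensional F V] {D : κ → Submodule F V} {π : κ → V →ₗ[F] V}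
    (h : IsDec D π) {v : κ → V} (hv : ∀ i, v i ∈ D i) (hv0 : ∀ i, v i ≠ 0)
    (hm : ∀ i, finrank F (D i) = 1) : ∃ e : Basis κ F V, (∀ i, e i = v i) ∧ D = fun i => F ∙ e i := by
  have h1 : ∀ i, D i = F ∙ v i := fun i => (Submodule.eq_of_le_of_finrank_eq
    ((Submodule.span_singleton_le_iff_mem _ _).mpr (hv i))
    ((finrank_span_singleton (hv0 i)).trans (hm i).symm)).symm
  refine ⟨.mk (v := v) (Fintype.linearIndependent_iff.mpr fun c hc i => ?_) fun x _ =>
    h.mem_of_forall (fun i => h1 i ▸ Submodule.span_mono (by simp)) x, by simp, funext fun i => by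
      simp [h1]⟩
  have := congrArg (π i) hc
  rw [map_sum, Finset.sum_eq_single i (fun j _ hj => by simp [h.of_ne hj.symm (hv j)]) (by simp)]
    at this
  simpa [h.of_mem (hv i), hv0] using this

section geo
variable {ι : Type} [Fintype ι] [DecidableEq ι] {t m : ℕ} {D : Fin t → Submodule F (ι → F)}

theorem max_sl_dec (hD : Geo.IsMDecomposition m D)
    (H : ∀ π M, IsDec D π → (∀ g, LinearEquiv.det g = 1 → PermD D g → g ∈ M) →
      (∃ g ∈ M, ¬ PermD D g) → SLle M) :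
    Geo.IsMaximalIn (Geo.specialLinear ι F)
      (Geo.decompositionStabilizer D ⊓ Geo.specialLinear ι F) := by
  obtain ⟨π, h⟩ := exists_isDec hD.indep hD.iSup_eq_top
  have := hD.two_le
  exact isMaximalIn_SL' (PermD D) mem_decStab (exists_not_permD h hD.finrank_eq hD.pos
    (i := ⟨0, by omega⟩) (j := ⟨1, by omega⟩) (by simp)) fun M hM _ => H π M h hM

theorem max_sl_block (hD : Geo.IsMDecomposition m D) (hm : 2 ≤ m)
    (hex : m = 2 → 3 ≤ t ∧ ∃ s : F, s ≠ 0 ∧ s ≠ 1) : Geo.IsMaximalIn (Geo.specialLinear ι F)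
      (Geo.decompositionStabilizer D ⊓ Geo.specialLinear ι F) :=
  max_sl_dec hD fun _ _ h hM => sl_block h hD.finrank_eq hm hM (by simpa using hex)

theorem max_sl_of_frame (hD : Geo.IsMDecomposition 1 D) (H : ∀ (e : Basis (Fin t) F (ι → F)) M,
    (∀ g, LinearEquiv.det g = 1 → g ∈ mon e → g ∈ M) → (∃ g ∈ M, g ∉ mon e) → SLle M) :
    Geo.IsMaximalIn (Geo.specialLinear ι F)
      (Geo.decompositionStabilizer D ⊓ Geo.specialLinear ι F) :=
  max_sl_dec hD fun π M h hM hg => by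
    choose v hv hv0 using fun i => exists_not_mem_of_finrank_lt (W := ⊥) (U := D i)
      (by simp [hD.finrank_eq])
    obtain ⟨e, -, rfl⟩ := exists_frame h hv hv0 hD.finrank_eq
    simp only [← mem_mon_iff] at hM hg
    exact H e M hM hg

theorem max_sl_frame [Finite F] (hD : Geo.IsMDecomposition 1 D) (hq : 5 ≤ Nat.card F)
    (hn : 9 ≤ t) : Geo.IsMaximalIn (Geo.specialLinear ι F)
      (Geo.decompositionStabilizer D ⊓ Geo.specialLinear ι F) :=
  max_sl_of_frame hD fun _ _ hM => sl_frame hM hq (by simpa)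

end geo

end Cfsg.Agent.Max
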