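import Mathlib
import Cfsg.Agent.Max.SLDec

/-!
# Two planes in a space of dimension four
-/

set_option autoImplicit false
set_option linter.unusedSectionVars false

namespace Cfsg.Agent.Max

open Module

variable {F V : Type*} [Field F] [AddCommGroup V] [Module F V] {M : Subgroup (V ≃ₗ[F] V)}

theorem sl_planes [Finite F] [FiniteDimensional F V] {D : Fin 2 → Submodule F V}
    {π : Fin 2 → V →ₗ[F] V} (h : IsDec D π) (hm : ∀ i, finrank F (D i) = 2)
    (hM : ∀ g, LinearEquiv.det g = 1 → PermD D g → g ∈ M) (hq : 4 ≤ Nat.card F)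
    (hg : ∃ g ∈ M, ¬ PermD D g) : SLle M := by
  classical
  have hm2 : 2 ≤ 2 := le_rfl
  obtain ⟨g, hg, hg'⟩ := hg
  obtain ⟨i, a, ha, h1⟩ := h.exists_not_mem hm (by omega) hg'
  obtain ⟨ξ, h2, y, hy, h3⟩ := blk_dual h hm hm2 (j := i) (c := a)
  have H := (blk_T h hM ha h2).conj hg
  have h0 : (ξ ∘ₗ π i) ∘ₗ (g.symm : V →ₗ[F] V) ≠ 0 := fun e' => by
    simpa [h.of_mem hy, h3] using LinearMap.congr_fun e' (g y)
  generalize g a = b, (ξ ∘ₗ π i) ∘ₗ (g.symm : V →ₗ[F] V) = ψ at h1 H h0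
  clear h2 h3 hy ha
  by_contra hc
  have hone : ∀ {i}, (¬ ∀ x ∈ D i, ψ x = 0) → ∃ a ∈ D i, ψ a = 1 := fun {i} h2 => by
    push Not at h2
    obtain ⟨x, hx, e'⟩ := h2
    exact ⟨_, (D i).smul_mem (ψ x)⁻¹ hx, by simp [e']⟩
  obtain ⟨i, a, ha, h2⟩ : ∃ i, ∃ a ∈ D i, ψ a = 1 := by
    by_contra h2
    exact h0 (h.dual_ext fun i => by_contra fun e' => h2 ⟨i, hone e'⟩)
  obtain ⟨k, hk, h6⟩ := h.exists_of_not_mem (h1 i)
  obtain ⟨a', ha', h2'⟩ := hone (i := k) fun e' =>
    hc (blk_A h hm hm2 hM H h6 e' ha (by simp [h2]))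
  have h5 : ∀ i, ψ (π i b) = 0 := fun i => by_contra fun e' => by
    have := (hm i).symm.le.trans (Submodule.finrank_mono (by_contra fun e'' =>
      hc (blk_B h hm hm2 hM H (h1 i) (h.mem i b) e' e'')))
    rw [Set.pair_eq_singleton] at this
    have := finrank_span_one_le (F := F) (π i b)
    omega
  have hu : ∀ l, l = i ∨ l = k :=
    (by decide : ∀ i k : Fin 2, k ≠ i → ∀ l, l = i ∨ l = k) i k hk
  have hsum : ∀ x, π i x + π k x = x := fun x => by
    have := h.sum x
    rwa [show (Finset.univ : Finset (Fin 2)) = {i, k} from Finset.ext fun l => by simpa using hu l,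
      Finset.sum_pair hk.symm] at this
  obtain ⟨k', hk', h6'⟩ := h.exists_of_not_mem (h1 k)
  obtain rfl : k' = i := (hu k').resolve_right hk'
  have hind : ∀ {a c : V}, ψ a = 1 → ψ c = 0 → c ≠ 0 → ∃ χ : Dual F V, χ a = 0 ∧ χ c = 1 :=
    fun {a c} e1 e2 e3 => exists_dual_two fun e' => by
      obtain ⟨t, rfl⟩ := Submodule.mem_span_singleton.mp e'
      simp [e1] at e2
      simp [e2] at e3
  obtain ⟨χ, c1, c2⟩ := hind h2 (h5 k') h6'
  obtain ⟨χ', c1', c2'⟩ := hind h2' (h5 k) h6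
  have e1 : (ψ ∘ₗ π k') a = 1 := by simp [h.of_mem ha, h2]
  have e2 : (ψ ∘ₗ π k) a' = 1 := by simp [h.of_mem ha', h2']
  have e3 : (χ ∘ₗ π k') (π k' b) = 1 := by simp [h.idem, c2]
  have e4 : (χ' ∘ₗ π k) (π k b) = 1 := by simp [h.idem, c2']
  have P : ∀ {i a χ} {e : (χ ∘ₗ π i) a = 1} {s : F} {hs : s ≠ 0}, a ∈ D i → ∀ l, ∀ x ∈ D l,
      hom a (χ ∘ₗ π i) e s hs x ∈ D l := fun {i a χ e s hs} ha l x hx => by
    rw [hom_apply]
    by_cases hl : i = l
    · exact (D l).add_mem hx ((D l).smul_mem _ (hl ▸ ha))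
    · simpa [h.of_ne hl hx] using hx
  have key : ∀ x y l : F, l ≠ 0 → x * y = l ^ 4 → T M b (x • ψ ∘ₗ π k' + y • ψ ∘ₗ π k) :=
    fun x y l hl hxy => by
      have hx : x ≠ 0 := left_ne_zero_of_mul (hxy ▸ pow_ne_zero 4 hl)
      have hy : y ≠ 0 := right_ne_zero_of_mul (hxy ▸ pow_ne_zero 4 hl)
      obtain ⟨d, hd'⟩ : ∃ d, d = hom a _ e1 (x / l) (div_ne_zero hx hl) *
        hom a' _ e2 (y / l) (div_ne_zero hy hl) * hom _ _ e3 l⁻¹ (inv_ne_zero hl) *
        hom _ _ e4 l⁻¹ (inv_ne_zero hl) := ⟨_, rfl⟩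
      have hd : d ∈ M := hM _ (by
        ext
        simp only [hd', map_mul, det_hom, Units.val_mul, Units.val_mk0, Units.val_one]
        field_simp
        linear_combination hxy) (h.permD_of_fix fun j z hz => hd' ▸
          P (e := e1) (hs := div_ne_zero hx hl) ha j _ (P (e := e2) ha' j _ (P (e := e3) (h.mem _ _) j _
            (P (e := e4) (h.mem _ _) j z hz))))
      have h9 : d (l • b) = b := by
        simp only [hd', LinearEquiv.mul_apply, hom_apply, LinearMap.comp_apply, map_add, map_smul,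
          h.idem, h.orth hk, h.orth hk.symm, h5, c2, c2', map_zero, smul_eq_mul]
        have := hsum b
        generalize π k' b = u, π k b = v at this ⊢
        subst this
        match_scalars <;> field_simp <;> ring
      have h10 := H.conj' (inv_mem hd) (ψ := ψ ∘ₗ (d : V →ₗ[F] V)) fun x => by simp
      rw [show d⁻¹ b = l • b from d.symm_apply_eq.mpr h9.symm] at h10
      convert h10.smul_right using 1
      ext z
      have := congrArg ψ (hsum z)
      simp only [hd', LinearEquiv.mul_apply, hom_apply, LinearMap.comp_apply, map_add, map_smul,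
        h.idem, h.orth hk, h.orth hk.symm, h5, h2, h2', map_zero, smul_eq_mul, LinearMap.add_apply,
        LinearMap.smul_apply, LinearEquiv.coe_coe, h.of_mem ha', h.of_ne hk.symm ha'] at this ⊢
      field_simp
      linear_combination l ^ 4 * this + 0 * hxy
  obtain ⟨c, hc0, hT⟩ : ∃ c : F, c ≠ 0 ∧ T M b (c • ψ ∘ₗ π k') := by
    haveI := Fintype.ofFinite F
    rw [Nat.card_eq_fintype_card] at hq
    rcases hq.eq_or_lt with hq | hq
    · obtain ⟨s, hs, hs'⟩ := exists_ne_zero_one (F := F) (by rw [Nat.card_eq_fintype_card]; omega)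
      refine ⟨s - 1, sub_ne_zero.mpr hs', ?_⟩
      convert (key s 1 s hs (by rw [hq, FiniteField.pow_card, mul_one])).sub_right
        (key 1 1 1 one_ne_zero (by simp)) using 1
      module
    · obtain ⟨s, -, hs⟩ := exists_avoid (F := F) (S := Finset.univ) (Finset.univ : Finset (Fin 3))
        ![0, 0, 1] ![1, 1, 1] ![0, 1, 1] ![1, 1, 2] (fun i _ => by fin_cases i <;> simp)
        (fun i _ => by fin_cases i <;> simp) (by simpa [Fin.sum_univ_three] using hq)
      have s0 : s ≠ 0 := by simpa using hs 0 (by simp)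
      have s1 : s + 1 ≠ 0 := by simpa using hs 1 (by simp)
      have s2 : s ^ 2 + s + 1 ≠ 0 := by simpa using hs 2 (by simp)
      refine ⟨(s ^ 2 + s + 1) / (s + 1), div_ne_zero s2 s1, ?_⟩
      convert ((key s s⁻¹ 1 one_ne_zero (by simp [s0])).add_right
        (key 1 1 1 one_ne_zero (by simp))).sub_right
        (key (s / (s + 1)) ((s + 1) / s) 1 one_ne_zero (by field_simp)) using 1
      match_scalars <;> field_simp <;> ring
  exact hc (blk_A h hm hm2 hM hT h6 (fun x hx => by simp [h.of_ne hk.symm hx]) ha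
    (by simp [h.of_mem ha, h2, hc0]))

theorem max_sl_planes [Finite F] {ι : Type} [Fintype ι] [DecidableEq ι]
    {D : Fin 2 → Submodule F (ι → F)} (hD : Geo.IsMDecomposition 2 D) (hq : 4 ≤ Nat.card F) :
    Geo.IsMaximalIn (Geo.specialLinear ι F)
      (Geo.decompositionStabilizer D ⊓ Geo.specialLinear ι F) :=
  max_sl_dec hD fun _ _ h hM => sl_planes h hD.finrank_eq hM hq

end Cfsg.Agent.Max
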