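import Mathlib
import Cfsg.Agent.Max.SLDec

/-!
# Frames of four vectors
-/

set_option autoImplicit false
set_option linter.unusedSectionVars false

namespace Cfsg.Agent.Max

open Module

/-- Equality up to the central involution `ν`. -/
def EqPm {G : Type*} [Group G] (ν a b : G) : Prop := a = b ∨ a = ν * b

theorem dih_pm {G : Type*} [Group G] [Finite G] {M : Subgroup G} {t y ν : G}
    (hν : ∀ g, ν * g = g * ν) (hν2 : ν * ν = 1) (ht : t ∈ M) (hy : y ∈ M) (ht2 : t * t = 1)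
    (hy2 : y * y = 1) : (∃ x ∈ M, EqPm ν (x * t * x⁻¹) y) ∨ ∃ c ∈ M, ¬ EqPm ν c 1 ∧
      EqPm ν (c * t) (t * c) ∧ EqPm ν (c * y) (y * c) ∧
      ∃ x ∈ M, EqPm ν (x * t * x⁻¹) (c * t) ∨ EqPm ν (x * t * x⁻¹) (c * y) := by
  let Z : Subgroup G :=
    { carrier := {a | a = 1 ∨ a = ν}
      one_mem' := .inl rfl
      mul_mem' := by rintro a b (rfl | rfl) (rfl | rfl) <;> simp [hν2]
      inv_mem' := by
        rintro a (rfl | rfl)
        · simp
        · exact .inr (inv_eq_of_mul_eq_one_right hν2) }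
  haveI : Z.Normal := ⟨by
    rintro a (rfl | rfl) g
    · simp
    · exact .inr (by rw [← hν, mul_inv_cancel_right])⟩
  have key : ∀ a b : G, QuotientGroup.mk' Z a = QuotientGroup.mk' Z b ↔ EqPm ν a b := fun a b => by
    rw [QuotientGroup.mk'_apply, QuotientGroup.mk'_apply, eq_comm, QuotientGroup.eq]
    change _ ∨ _ ↔ _ ∨ _
    rw [inv_mul_eq_iff_eq_mul, inv_mul_eq_iff_eq_mul, mul_one, hν]
  rcases dih (M := M.map (QuotientGroup.mk' Z)) ⟨t, ht, rfl⟩ ⟨y, hy, rfl⟩
    (by rw [← map_mul, ht2, map_one]) (by rw [← map_mul, hy2, map_one]) with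
    ⟨_, ⟨x, hx, rfl⟩, h⟩ | ⟨_, ⟨c, hc, rfl⟩, h1, h2, h3, _, ⟨x, hx, rfl⟩, h⟩
  · exact .inl ⟨x, hx, (key _ _).mp (by simpa using h)⟩
  · refine .inr ⟨c, hc, fun h => h1 ((key _ _).mpr h), (key _ _).mp (by simpa using h2),
      (key _ _).mp (by simpa using h3), x, hx, h.imp (fun h => (key _ _).mp (by simpa using h))
        fun h => (key _ _).mp (by simpa using h)⟩

theorem four_cases {a p : Fin 4 → Prop} (h : ∀ i, a i ∨ p i) (h1 : ∀ i, ∃ j, j ≠ i ∧ a j)
    (h2 : ∀ i, ∃ j, j ≠ i ∧ p j) : ∃ i j k l : Fin 4,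
      (i ≠ j ∧ i ≠ k ∧ i ≠ l ∧ j ≠ k ∧ j ≠ l ∧ k ≠ l) ∧ (a i ∧ p j ∨ a k ∧ p l) ∧
        (a j ∧ p i ∨ a l ∧ p k) := by
  by_contra hc
  have t : ∀ i j k l : Fin 4, (i ≠ j ∧ i ≠ k ∧ i ≠ l ∧ j ≠ k ∧ j ≠ l ∧ k ≠ l) →
      ¬ ((a i ∧ p j ∨ a k ∧ p l) ∧ (a j ∧ p i ∨ a l ∧ p k)) := fun i j k l h3 h4 =>
    hc ⟨i, j, k, l, h3, h4⟩
  have t1 := t 0 1 2 3 (by decide)
  have t2 := t 0 1 3 2 (by decide)
  have t3 := t 0 2 1 3 (by decide)
  have t4 := t 0 2 3 1 (by decide)
  have t5 := t 0 3 1 2 (by decide)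
  have t6 := t 0 3 2 1 (by decide)
  clear t hc
  simp only [Fin.forall_fin_succ, Fin.exists_fin_succ] at h h1 h2
  simp at h h1 h2
  grind

variable {F V : Type*} [Field F] [AddCommGroup V] [Module F V] {e : Basis (Fin 4) F V}

/-- The hypotheses of the reduction theorem for four frame vectors. -/
structure F4 (e : Basis (Fin 4) F V) (M : Subgroup (V ≃ₗ[F] V)) (s : Fˣ) : Prop where
  hM : ∀ g, LinearEquiv.det g = 1 → g ∈ mon e → g ∈ M
  fix : ∀ g ∈ M, ∀ l, (∀ i, i ≠ l → e.repr (g (e l)) i = 0) →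
    (∀ i, i ≠ l → e.repr (g (e i)) l = 0) → g ∈ mon e
  ord : ∀ k : ℕ, 0 < k → k ≤ 4 → (s : F) ^ k ≠ 1

namespace F4
variable {M : Subgroup (V ≃ₗ[F] V)} {s : Fˣ} (h : F4 e M s) {g : V ≃ₗ[F] V}
include h

theorem fix' (hg : g ∈ M) {a m : Fin 4} (h1 : ∀ i, i ≠ m → e.repr (g (e a)) i = 0)
    (h2 : ∀ i, i ≠ a → e.repr (g (e i)) m = 0) : g ∈ mon e := by
  obtain ⟨p, hp, hp', -, c, hc⟩ := exists_pm h.hM (Equiv.swap a m) m
  rw [Equiv.swap_apply_right] at hc
  refine (mul_mem_cancel_left hp').mp (h.fix _ (mul_mem hp hg) a (fun i hi => ?_) fun i hi => ?_)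
  · rw [LinearEquiv.mul_apply, eq_smul_basis h1, map_smul, hc]
    simp [hi]
  · rw [LinearEquiv.mul_apply, repr_mon hp' hc, h2 i hi, mul_zero]

theorem conj_mon (hg : g ∈ M) {I : Finset (Fin 4)} {l : Fin 4}
    (h1 : ∀ a ∈ I, e.repr (g (e a)) l = 0) (h2 : ∀ a ∈ I, e.repr (g.symm (e l)) a = 0)
    {z : V ≃ₗ[F] V} (hz : z ∈ M) (hz' : Sup e I z) {x : V} (hx : FV e (g x)) :
    FV e (g (z x)) := by
  have h3 : (g * z * g⁻¹) (e l) = e l := by
    change g (z (g.symm (e l))) = _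
    rw [hz'.fix h2, g.apply_symm_apply]
  have h4 : ∀ y, e.repr (g (z y - y)) l = 0 := fun y => by
    rw [← e.sum_repr (z y - y), map_sum, map_sum, Finsupp.finset_sum_apply]
    refine Finset.sum_eq_zero fun i _ => ?_
    by_cases hi : i ∈ I
    · simp [h1 i hi]
    · simp [hz'.1 y i hi]
  have := h.fix _ (mul_mem (mul_mem hg hz) (inv_mem hg)) l (fun i hi => by simp [h3, hi])
    fun i hi => by simpa [hi, sub_eq_zero] using h4 (g.symm (e i))
  simpa using (this _).mp hx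

theorem core (hg : g ∈ M) {l a b : Fin 4} (hab : a ≠ b)
    (h1 : ∀ i ∈ ({a, b} : Finset (Fin 4)), e.repr (g (e i)) l = 0)
    (h2 : ∀ i ∈ ({a, b} : Finset (Fin 4)), e.repr (g.symm (e l)) i = 0) {x : V} (hx : FV e (g x))
    (h0 : e.repr x a ≠ 0) {k : Fin 4} (hk : k ≠ a) : e.repr x k = 0 := by
  set z := dg e (Pi.mulSingle a s * Pi.mulSingle b s⁻¹) with hz
  have za : ∀ y, e.repr (z y) a = s * e.repr y a := fun y => by simp [hz, hab]
  have zb : ∀ y, e.repr (z y) b = (s : F)⁻¹ * e.repr y b := fun y => by simp [hz, hab.symm]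
  have zc : ∀ y i, i ≠ a → i ≠ b → e.repr (z y) i = e.repr y i := fun y i h3 h4 => by
    simp [hz, h3, h4]
  have P : ∀ {y}, FV e (g y) → FV e (g (z y)) := fun hy =>
    h.conj_mon hg h1 h2 (h.hM _ (by simp [hz, det_dg, Finset.prod_mul_distrib]) (dg_mem _))
      ⟨fun y i hi => zc y i (fun e => hi (by simp [e])) fun e => hi (by simp [e]),
        fun i hi => by
          simp only [Finset.mem_insert, Finset.mem_singleton, not_or] at hi
          simp [hz, hi.1, hi.2]⟩ hy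
  have hs := s.ne_zero
  have hx0 : g x ≠ 0 := fun e => h0 (by simp [g.map_eq_zero_iff.mp e])
  have key : ∀ {v} {c d : F}, d • g v = c • g x → ∀ i, d * e.repr v i = c * e.repr x i :=
    fun {v c d} e5 i => by
      have : d • v = c • x := g.injective (by rw [map_smul, map_smul, e5])
      simpa using congrArg (e.repr · i) this
  have A : ∀ k, k ≠ a → k ≠ b → e.repr x k = 0 := fun k hk hk' => by
    by_contra hk0
    obtain ⟨c, hc | hc | hc⟩ := hx.rel ((P (P hx)).smul (1 + s + (s : F)⁻¹)) (P (P (P hx)))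
      ((P hx).smul (1 + s + (s : F)⁻¹)) (by
        simp only [← map_smul g, ← map_add g]
        refine congrArg g (e.ext_elem fun i => ?_)
        by_cases h4 : i = a
        · simp only [h4, map_add, map_smul, Finsupp.add_apply, Finsupp.smul_apply, za, smul_eq_mul]
          field_simp
          ring
        by_cases h5 : i = b
        · simp only [h5, map_add, map_smul, Finsupp.add_apply, Finsupp.smul_apply, zb, smul_eq_mul]
          field_simp
          ring
        simp only [map_add, map_smul, Finsupp.add_apply, Finsupp.smul_apply, zc _ _ h4 h5]) hx0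
    · have h4 := key hc.1 a
      have h5 := key hc.1 k
      simp only [za, zc _ _ hk hk'] at h4 h5
      rw [← mul_right_cancel₀ hk0 h5] at hc
      rw [← mul_right_cancel₀ hk0 h5] at h4
      exact h.ord 2 (by omega) (by omega) (mul_right_cancel₀ (mul_ne_zero hc.2 h0)
        (by linear_combination h4))
    · have h4 := key (d := 1) (by simpa using hc.1) a
      have h5 := key (d := 1) (by simpa using hc.1) k
      simp only [za, zc _ _ hk hk'] at h4 h5
      rw [← mul_right_cancel₀ hk0 h5] at h4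
      exact h.ord 3 (by omega) (by omega) (mul_right_cancel₀ h0 (by linear_combination h4))
    · have h4 := key hc.1 a
      have h5 := key hc.1 k
      simp only [za, zc _ _ hk hk'] at h4 h5
      rw [← mul_right_cancel₀ hk0 h5] at hc
      rw [← mul_right_cancel₀ hk0 h5] at h4
      exact h.ord 1 (by omega) (by omega) (mul_right_cancel₀ (mul_ne_zero hc.2 h0)
        (by linear_combination h4))
  by_cases hkb : k = b
  swap
  · exact A k hk hkb
  subst hkb
  by_contra hk0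
  obtain ⟨c, hc | hc | hc⟩ := hx.rel (P (P hx)) ((P hx).smul (s + (s : F)⁻¹)) (hx.smul 0) (by
      simp only [← map_smul g, ← map_add g]
      refine congrArg g (e.ext_elem fun i => ?_)
      by_cases h4 : i = a
      · simp only [h4, map_add, map_smul, Finsupp.add_apply, Finsupp.smul_apply, za, smul_eq_mul]
        field_simp
        ring
      by_cases h5 : i = k
      · simp only [h5, map_add, map_smul, Finsupp.add_apply, Finsupp.smul_apply, zb, smul_eq_mul]
        field_simp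
        ring
      simp [zc _ _ h4 h5, A i h4 h5]) hx0
  · have h4 := key (d := 1) (by simpa using hc.1) a
    have h5 := key (d := 1) (by simpa using hc.1) k
    simp only [za, zb] at h4 h5
    have h6 : (s : F) ^ 2 = c := mul_right_cancel₀ h0 (by linear_combination h4)
    have h7 : ((s : F)⁻¹) ^ 2 = c := mul_right_cancel₀ hk0 (by linear_combination h5)
    refine h.ord 4 (by omega) (by omega) ?_
    rw [← h6] at h7
    field_simp at h7
    linear_combination -h7
  · have h4 := key hc.1 a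
    have h5 := key hc.1 k
    simp only [za, zb] at h4 h5
    have h6 : (s + (s : F)⁻¹) * s = c := mul_right_cancel₀ h0 (by linear_combination h4)
    have h7 : (s + (s : F)⁻¹) * (s : F)⁻¹ = c := mul_right_cancel₀ hk0 (by linear_combination h5)
    refine h.ord 4 (by omega) (by omega) ?_
    rw [← h6] at h7
    field_simp at h7
    linear_combination -h7
  · exact hx0 (by simpa [hc.2] using hc.1.symm)

theorem big (hg : g ∈ M) {l a b : Fin 4} (hab : a ≠ b)
    (h1 : ∀ i ∈ ({a, b} : Finset (Fin 4)), e.repr (g (e i)) l = 0)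
    (h2 : ∀ i ∈ ({a, b} : Finset (Fin 4)), e.repr (g.symm (e l)) i = 0) : g ∈ mon e := by
  have h3 : ∀ m, e.repr (g.symm (e m)) a ≠ 0 → ∃ c : F, c ≠ 0 ∧ e m = c • g (e a) := fun m hm =>
    ⟨_, hm, by
      rw [← map_smul, ← eq_smul_basis fun k hk =>
        h.core hg hab h1 h2 (by simpa using FV.basis m) hm hk, g.apply_symm_apply]⟩
  obtain ⟨m, hm⟩ : ∃ m, e.repr (g.symm (e m)) a ≠ 0 := by
    by_contra hc
    push Not at hc
    simpa using repr_of_basis (e := e) (g := g.symm) (l := a) (l' := a) (a := 0)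
      (by simpa using hc) (g (e a))
  obtain ⟨c, hc, hc'⟩ := h3 m hm
  have h4 : ∀ i, i ≠ m → e.repr (g (e a)) i = 0 := fun i hi => by
    simpa [hi, hc] using congrArg (e.repr · i) hc'
  have h5 : g.symm (e m) = c • e a := by simp [hc']
  refine (inv_mem_iff (x := g)).mp (h.fix' (inv_mem hg) (a := m)
    (m := a) (fun i hi => ?_) fun i hi => ?_)
  · change e.repr (g.symm _) _ = _
    simp [h5, hi]
  · by_contra h6
    obtain ⟨c', -, h7⟩ := h3 i h6
    simpa [h4 i hi] using congrArg (e.repr · i) h7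

/-- Commuting antiflags lie in the same frame. -/
theorem one (hg : g ∈ M) {k l : Fin 4} (h1 : e.repr (g (e k)) l = 0)
    (h2 : e.repr (g.symm (e l)) k = 0) : g ∈ mon e := by
  set d := dg e (fun _ => s) * dg e (Pi.mulSingle k (s⁻¹ ^ 4)) with hd
  set r : F := s * (s : F)⁻¹ ^ 4 - s with hr
  have hr0 : r ≠ 0 := fun e => h.ord 4 (by omega) (by omega) (by
    have := s.ne_zero
    rw [hr] at e
    field_simp at e
    linear_combination -e)
  have h3 : ∀ y, (g * d * g⁻¹) y = (s : F) • y + (r * e.repr (g.symm y) k) • g (e k) := fun y => by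
    change g (d (g.symm y)) = _
    obtain ⟨y, rfl⟩ := g.surjective y
    simp only [← map_smul g, ← map_add g, g.symm_apply_apply]
    refine congrArg g (e.ext_elem fun i => ?_)
    by_cases hi : i = k
    · simp [hd, hi, hr]
      ring
    · simp [hd, hi, Ne.symm hi]
  have h4 := h.fix _ (mul_mem (mul_mem hg (h.hM d (by simp [hd, det_dg])
    (mul_mem (dg_mem _) (dg_mem _)))) (inv_mem hg)) l (fun i hi => by simp [h3, h2, hi])
    fun i hi => by simp [h3, h1, hi]
  obtain ⟨j, hj⟩ : ∃ j, e.repr (g.symm (e j)) k ≠ 0 := by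
    by_contra hc
    push Not at hc
    simpa using repr_of_basis (e := e) (g := g.symm) (l := k) (l' := k) (a := 0)
      (by simpa using hc) (g (e k))
  obtain ⟨j', c, -, hc⟩ := mon_basis h4 j
  have h5 : ∀ m, m ≠ j → m ≠ j' → e.repr (g (e k)) m = 0 ∧ e.repr (g.symm (e m)) k = 0 :=
    fun m h6 h7 => by
      have h8 : e.repr (g (e k)) m = 0 := by
        simpa [h3, h6, h7, hr0, hj] using congrArg (e.repr · m) hc
      refine ⟨h8, by_contra fun h9 => e.ne_zero k (g.map_eq_zero_iff.mp (e.ext_elem fun i => ?_))⟩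
      by_cases hi : i = m
      · simp [hi, h8]
      · simpa [h3, hi, hr0, h9] using ((h4 _).mp (FV.basis m)).eq_zero (i := m)
          (by simp [h3, h8]) hi
  obtain ⟨a, b, hab, h6, h7, h8, h9⟩ : ∃ a b : Fin 4, a ≠ b ∧ a ≠ j ∧ a ≠ j' ∧ b ≠ j ∧ b ≠ j' :=
    (by decide : ∀ j j' : Fin 4, ∃ a b : Fin 4, a ≠ b ∧ a ≠ j ∧ a ≠ j' ∧ b ≠ j ∧ b ≠ j') j j'
  refine (inv_mem_iff (x := g)).mp (h.big (inv_mem hg) (l := k) hab (fun i hi => ?_) fun i hi => ?_)
  · rcases Finset.mem_insert.mp hi with rfl | hi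
    · exact (h5 _ h6 h7).2
    · exact Finset.mem_singleton.mp hi ▸ (h5 _ h8 h9).2
  · rcases Finset.mem_insert.mp hi with rfl | hi
    · exact (h5 _ h6 h7).1
    · exact Finset.mem_singleton.mp hi ▸ (h5 _ h8 h9).1

theorem eig (hg : g ∈ M) {c t : V ≃ₗ[F] V} (hc : c ∈ mon e) (ht : t ∈ mon e) {ε : F}
    (H : ∀ x, g (t x) = ε • c (g x)) {l a : Fin 4} {η η' : F} (h1 : c (e l) = η • e l)
    (h2 : t (e a) = η' • e a) (h3 : η' ≠ ε * η) : g ∈ mon e := by
  refine h.one hg (k := a) (l := l) ?_ ?_ <;> by_contra h4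
  · have := congrArg (e.repr · l) (H (e a))
    simp only [h2, map_smul, Finsupp.smul_apply, repr_mon hc h1, smul_eq_mul, ← mul_assoc] at this
    exact h3 (mul_right_cancel₀ h4 this)
  · have h5 : t (g.symm (e l)) = (ε * η) • g.symm (e l) := g.injective (by simp [H, h1, smul_smul])
    have := repr_mon ht h2 (g.symm (e l))
    rw [h5, map_smul, Finsupp.smul_apply, smul_eq_mul] at this
    exact h3 (mul_right_cancel₀ h4 this).symm

/-- A non-scalar diagonal element which is monomial and fixes a point in the second frame. -/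
theorem diag (hg : g ∈ M) {d : V ≃ₗ[F] V} {c : Fin 4 → F} (hd : ∀ i, d (e i) = c i • e i)
    (H : g⁻¹ * d * g ∈ mon e) {m : Fin 4} {η : F} (h1 : (g⁻¹ * d * g) (e m) = η • e m)
    {i j : Fin 4} (h2 : c i ≠ c j) : g ∈ mon e := by
  have h3 : d ∈ mon e := mem_mon fun i => hd i ▸ (FV.basis i).smul _
  by_cases h4 : η = c i
  · exact h.eig hg h3 H (ε := 1) (fun x => by simp) (hd j) h1 (by simpa [h4] using h2)
  · exact h.eig hg h3 H (ε := 1) (fun x => by simp) (hd i) h1 (by simpa using h4)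

section odd
variable (h2 : (2 : F) ≠ 0)
include h2

theorem conj_fix (hg : g ∈ M) {J : Finset (Fin 4)} (hJ : J.card = 2)
    (H : g * sg e J * g⁻¹ ∈ mon e) {l : Fin 4} {η : F} (h1 : (g * sg e J * g⁻¹) (e l) = η • e l) :
    g ∈ mon e := by
  obtain ⟨i, hi, j, hj⟩ : ∃ i ∈ J, ∃ j, j ∉ J :=
    (by decide : ∀ J : Finset (Fin 4), J.card = 2 → ∃ i ∈ J, ∃ j, j ∉ J) J hJ
  refine (inv_mem_iff (x := g)).mp (h.diag (inv_mem hg) (d := sg e J)
    (c := fun i => if i ∈ J then -1 else 1) (fun i => ?_) (by simpa using H) (m := l) (η := η)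
    (by simpa using h1) (i := i) (j := j) ?_)
  · rw [sgn_basis]
    split_ifs <;> simp
  · simp only [hi, hj, if_true, if_false]
    exact fun e => h2 (by linear_combination -e)

theorem conj_two (hg : g ∈ M) {J : Finset (Fin 4)} (hJ : J.card = 2)
    (H : g * sg e J * g⁻¹ ∈ mon e) : g ∈ mon e := by
  set c := g * sg e J * g⁻¹ with hc
  choose π t ht hπ using mon_basis H
  by_cases h1 : ∃ l, π l = l
  · obtain ⟨l, hl⟩ := h1
    exact h.conj_fix h2 hg hJ H (l := l) (η := t l) (by rw [hπ, hl])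
  push Not at h1
  have h3 : ∀ i, π (π i) = i := fun i => by
    by_contra h3
    have h4 : c * c = 1 := by
      rw [hc, show g * sg e J * g⁻¹ * (g * sg e J * g⁻¹) = g * (sg e J * sg e J) * g⁻¹ by group,
        sgn_sq]
      simp
    simpa [hπ, h3] using congrArg (e.repr · i) (LinearEquiv.congr_fun h4 (e i))
  obtain ⟨k, hk0, hk1⟩ : ∃ k, k ≠ 0 ∧ k ≠ π 0 :=
    (by decide : ∀ j : Fin 4, ∃ k, k ≠ 0 ∧ k ≠ j) (π 0)
  have h4 : ∀ i, (π i = 0 ∨ π i = π 0) ↔ (i = 0 ∨ i = π 0) := fun i =>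
    ⟨fun h4 => h4.symm.imp (fun e' => by rw [← h3 i, e', h3]) fun e' => by rw [← h3 i, e'],
      fun h4 => h4.symm.imp (fun e' => by rw [e', h3]) fun e' => by rw [e']⟩
  set d := dg e (fun i => if i = 0 ∨ i = π 0 then s else s⁻¹) with hd
  have hd1 : LinearEquiv.det d = 1 := by
    rw [hd, det_dg]
    have := h1 0
    generalize π 0 = j at this
    fin_cases j <;> simp [Fin.prod_univ_four] at this ⊢
  have hdc : d * c = c * d := e.ext' fun i => by
    simp only [LinearEquiv.mul_apply, hπ, hd, map_smul, dg_basis, h4 i]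
    rw [smul_comm]
  have hδ : g⁻¹ * d * g ∈ M := mul_mem (mul_mem (inv_mem hg) (h.hM d hd1 (dg_mem _))) hg
  have h5 : g⁻¹ * d * g * sg e J * (g⁻¹ * d * g)⁻¹ = sg e J := by
    rw [show g⁻¹ * d * g * sg e J * (g⁻¹ * d * g)⁻¹ = g⁻¹ * (d * c) * d⁻¹ * g by rw [hc]; group, hdc,
      hc]
    group
  have h6 : g⁻¹ * d * g ∈ mon e := h.conj_fix h2 hδ hJ (by rw [h5]; exact sg_mem J) (l := 0)
    (η := if (0 : Fin 4) ∈ J then -1 else 1) (by
      rw [h5, sgn_basis]
      split_ifs <;> simp)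
  have hs := s.ne_zero
  have h7 : ∀ y, y + d (d y) = (s + (s : F)⁻¹) • d y := fun y => e.ext_elem fun i => by
    simp only [hd, map_add, map_smul, Finsupp.add_apply, Finsupp.smul_apply, repr_dg, smul_eq_mul]
    split_ifs
    · field_simp
      ring
    · simp only [Units.val_inv_eq_inv_val]
      field_simp
  obtain ⟨η, h8⟩ : ∃ η : F, (g⁻¹ * (d * d) * g) (e 0) = η • e 0 := by
    have h9 : ∀ y, (g⁻¹ * (d * d) * g) y = (g⁻¹ * d * g) ((g⁻¹ * d * g) y) := fun y => by simp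
    obtain ⟨η, h8 | h8 | h8⟩ := (FV.basis (e := e) 0).rel ((h6 _).mp ((h6 _).mp (FV.basis 0)))
      (((h6 _).mp (FV.basis 0)).smul (s + (s : F)⁻¹)) ((FV.basis 0).smul 0) (by
        apply g.injective
        simp [h7]) (e.ne_zero 0)
    · exact ⟨η, by rw [h9, h8.1]⟩
    · have h10 : s + (s : F)⁻¹ ≠ 0 := fun e' => by
        rw [e', zero_smul] at h8
        exact e.ne_zero 0 (by simpa [h8.2] using h8.1.symm)
      have h11 : (g⁻¹ * d * g) (e 0) = ((s + (s : F)⁻¹)⁻¹ * η) • e 0 := by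
        rw [← smul_smul, ← h8.1, smul_smul, inv_mul_cancel₀ h10, one_smul]
      exact ⟨_, by rw [h9, h11, map_smul, h11, smul_smul]⟩
    · exact absurd (by simpa [h8.2] using h8.1.symm) (e.ne_zero 0)
  refine h.diag hg (d := d * d) (c := fun i => if i = 0 ∨ i = π 0 then (s : F) ^ 2 else (s : F)⁻¹ ^ 2)
    (fun i => ?_) ?_ h8 (i := 0) (j := k) ?_
  · simp only [hd, LinearEquiv.mul_apply, dg_basis, map_smul, smul_smul]
    split_ifs <;> simp [sq]
  · have := mul_mem h6 h6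
    rwa [show g⁻¹ * d * g * (g⁻¹ * d * g) = g⁻¹ * (d * d) * g by group] at this
  · simp only [true_or, if_true, hk0, hk1, or_self, if_false]
    refine fun e' => h.ord 4 (by omega) (by omega) ?_
    field_simp at e'
    linear_combination e'

theorem odd [Finite F] : M ≤ mon e := fun g hg => by
  haveI := Module.Finite.of_basis e
  haveI := Module.finite_of_finite F (M := V)
  haveI : Finite (V ≃ₗ[F] V) := Finite.of_injective _ DFunLike.coe_injective
  by_contra hg'
  set ν := sg e Finset.univ with hν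
  have n1 : ∀ x, ν x = -x := fun x => e.ext_elem fun i => by simp [hν]
  have n2 : ∀ a : V ≃ₗ[F] V, ν * a = a * ν := fun a => LinearEquiv.ext fun x => by simp [n1]
  have n3 : ∀ {a b : V ≃ₗ[F] V}, EqPm ν a b → b ∈ mon e → a ∈ mon e := by
    rintro a b (rfl | rfl) hb
    exacts [hb, mul_mem (sg_mem _) hb]
  have n4 : ∀ {a b : V ≃ₗ[F] V}, EqPm ν a b → ∃ ε : F, (ε = 1 ∨ ε = -1) ∧ ∀ x, a x = ε • b x := by
    rintro a b (rfl | rfl)
    exacts [⟨1, .inl rfl, fun x => by simp⟩, ⟨-1, .inr rfl, fun x => by simp [n1]⟩]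
  have n5 : ∀ {a b : V ≃ₗ[F] V} (x y), EqPm ν a b → EqPm ν (x * a * y) (x * b * y) := by
    rintro a b x y (rfl | rfl)
    · exact .inl rfl
    · exact .inr (by rw [← mul_assoc, ← n2 x]; group)
  have n6 : (-1 : F) ≠ 1 := fun e' => h2 (by linear_combination -e')
  set z := sg e {0, 1} with hz
  set w := pm e (Equiv.swap 0 1) * sg e {3} with hw
  have w0 : w (e 0) = e 1 := by simp [hw, sgn_basis]
  have w1 : w (e 1) = e 0 := by simp [hw, sgn_basis]
  have w2 : w (e 2) = e 2 := by simp [hw, sgn_basis, Equiv.swap_apply_def]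
  have w3 : w (e 3) = -e 3 := by simp [hw, sgn_basis, Equiv.swap_apply_def]
  have wm : w ∈ mon e := mul_mem (pm_mem _) (sg_mem _)
  have zc : ({0, 1} : Finset (Fin 4)).card = 2 := by decide
  have A : ∀ {x}, x ∈ M → x * z * x⁻¹ ∈ mon e → ∃ K : Finset (Fin 4), K.card = 2 ∧
      x * z * x⁻¹ = sg e K := fun hx H => by
    obtain ⟨K, h3, h4⟩ := Fr.conj_sg (h.conj_two h2 hx zc H) {0, 1}
    exact ⟨K, h3.trans zc, h4⟩
  have hy : g * z * g⁻¹ ∈ M :=
    mul_mem (mul_mem hg (h.hM _ (by simp [hz, det_sg]) (sg_mem _))) (inv_mem hg)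
  rcases dih_pm n2 (sgn_sq _) hy (h.hM w (by simp [hw, det_sg, det_pm]) wm) (by
      rw [show g * z * g⁻¹ * (g * z * g⁻¹) = g * (z * z) * g⁻¹ by group, sgn_sq]
      simp) (e.ext' fun i => by fin_cases i <;> simp [w0, w1, w2, w3]) with
    ⟨x, hx, H⟩ | ⟨c, hc, h3, h4, h5, x, hx, H⟩
  · rw [show x * (g * z * g⁻¹) * x⁻¹ = x * g * z * (x * g)⁻¹ by group] at H
    obtain ⟨K, -, hK⟩ := A (mul_mem hx hg) (n3 H wm)
    obtain ⟨ε, h3, h4⟩ := n4 H
    have := congrArg (e.repr · 1) (h4 (e 0))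
    rw [hK] at this
    rcases h3 with rfl | rfl <;> simp [w0] at this
  have h6 : g⁻¹ * c * g ∈ mon e := h.conj_two h2 (mul_mem (mul_mem (inv_mem hg) hc) hg) zc
    (n3 (by simpa [mul_assoc] using n5 g⁻¹ (c⁻¹ * g) h4) (sg_mem {0, 1}))
  have h7 : c ∈ mon e := by
    obtain ⟨ε, rfl | rfl, h8⟩ := n4 h5
    · exact h.eig hc wm wm h8 (l := 2) (a := 3) (η := 1) (η' := -1) (by simp [w2]) (by simp [w3])
        (by simpa using n6)
    · exact h.eig hc wm wm h8 (l := 2) (a := 2) (η := 1) (η' := 1) (by simp [w2]) (by simp [w2])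
        (by simpa using n6.symm)
  rcases H with H | H
  · replace H : EqPm ν (g⁻¹ * x * g * z * (g⁻¹ * x * g)⁻¹) (g⁻¹ * c * g * z) := by
      simpa [mul_assoc] using n5 g⁻¹ g H
    obtain ⟨K, hK, hK'⟩ := A (mul_mem (mul_mem (inv_mem hg) hx) hg)
      (n3 H (mul_mem h6 (sg_mem _)))
    have h8 := n5 g (z * g⁻¹) H
    rw [hK', show g * sg e K * (z * g⁻¹) = g * (sg e K * z) * g⁻¹ by group, Fr.sg_mul',
      show g * (g⁻¹ * c * g * z) * (z * g⁻¹) = c * g * (z * z) * g⁻¹ by group, sgn_sq, mul_one,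
      mul_inv_cancel_right] at h8
    rcases (by decide : ∀ K : Finset (Fin 4), K.card = 2 → (symmDiff K {0, 1}).card = 2 ∨
      symmDiff K {0, 1} = ∅ ∨ symmDiff K {0, 1} = Finset.univ) K hK with h9 | h9 | h9
    · exact hg' (h.conj_two h2 hg h9 (n3 h8 h7))
    · have h10 : sg e ∅ = 1 := e.ext' fun i => by simp [sgn_basis]
      rw [h9, h10, mul_one, mul_inv_cancel] at h8
      refine h3 (h8.imp Eq.symm fun h11 => ?_)
      rw [mul_one, ← one_mul c, ← sgn_sq (e := e) Finset.univ, mul_assoc, ← h11, mul_one]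
    · rw [h9, ← hν, ← n2, mul_inv_cancel_right] at h8
      exact h3 (h8.symm.imp (fun h11 => by simpa using h11.symm) fun h11 => by simp [h11])
  · rw [show x * (g * z * g⁻¹) * x⁻¹ = x * g * z * (x * g)⁻¹ by group] at H
    obtain ⟨K, hK, hK'⟩ := A (mul_mem hx hg) (n3 H (mul_mem h7 wm))
    rw [hK'] at H
    obtain ⟨ε, h8, h9⟩ := n4 H
    obtain ⟨ε', h10, h11⟩ := n4 h5
    obtain ⟨ε'', h12, h13⟩ := n4 h4
    have hε : ε * ε = 1 := by rcases h8 with rfl | rfl <;> simp
    have h14 : ∀ x, c (w x) = ε • sg e K x := fun x => by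
      rw [h9, smul_smul, hε, one_smul]; rfl
    have c0 := h14 (e 0)
    have c1 := h14 (e 1)
    have c2 := h14 (e 2)
    have c3 := h14 (e 3)
    have d0 := congrArg (e.repr · 0) (h11 (e 0))
    have d2 := congrArg (e.repr · 2) (h11 (e 2))
    rw [w0, sgn_basis] at c0
    rw [w1, sgn_basis] at c1
    rw [w2, sgn_basis] at c2
    rw [w3, sgn_basis, map_neg, neg_eq_iff_eq_neg] at c3
    have hε0 : ε ≠ 0 := left_ne_zero_of_mul (hε ▸ one_ne_zero)
    have h15 : (2 : Fin 4) ∈ K ↔ (3 : Fin 4) ∈ K := by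
      refine (by decide : ∀ K : Finset (Fin 4), K.card = 2 → (0 ∈ K ↔ 1 ∈ K) → (2 ∈ K ↔ 3 ∈ K))
        K hK ?_
      have h16 : ε' = 1 := by
        by_cases a2 : (2 : Fin 4) ∈ K <;> simpa [a2, c2, w2, hε0] using d2.symm
      by_cases a0 : (0 : Fin 4) ∈ K <;> by_cases a1 : (1 : Fin 4) ∈ K <;>
        simp [a0, a1, c0, c1, w0, w1, h16] at d0 ⊢ <;>
        exact mul_ne_zero h2 hε0 (by first | linear_combination d0 | linear_combination -d0)
    have h16 : ∃ η : F, η ≠ 0 ∧ c (e 2) = η • e 2 ∧ c (e 3) = -η • e 3 := by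
      by_cases a2 : (2 : Fin 4) ∈ K
      · exact ⟨-ε, by simpa, by simp [c2, a2], by simp [c3, h15.mp a2]⟩
      · exact ⟨ε, hε0, by simp [c2, a2], by simp [c3, mt h15.mpr a2]⟩
    obtain ⟨η, h17, h18, h19⟩ := h16
    have h20 : ∀ x, (g * z * g⁻¹) (c x) = ε'' • c ((g * z * g⁻¹) x) := fun x => by
      have := h13 x
      simp only [LinearEquiv.mul_apply] at this ⊢
      rw [this, smul_smul]
      rcases h12 with rfl | rfl <;> simp
    have h21 : -η ≠ η := fun e' => mul_ne_zero h2 h17 (by linear_combination -e')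
    refine hg' (h.conj_two h2 hg zc ?_)
    rcases h12 with rfl | rfl
    · exact h.eig hy h7 h7 h20 h18 h19 (by simpa using h21)
    · exact h.eig hy h7 h7 h20 h18 h18 (by simpa using h21.symm)

end odd

section even
variable (h2 : (2 : F) = 0)
include h2

theorem diag2 (hg : g ∈ M) {d : V ≃ₗ[F] V} {c : Fin 4 → F} (hd : ∀ i, d (e i) = c i • e i)
    (H : g⁻¹ * d * g ∈ mon e) {i j : Fin 4} (h3 : c i ≠ c j) : g ∈ mon e := by
  obtain ⟨π, hπ⟩ := mem_mon_iff.mp H
  have h4 : ∀ i, ∃ t : F, (g⁻¹ * d * g) (e i) = t • e (π i) := fun i => by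
    obtain ⟨c, hc⟩ := Submodule.mem_span_singleton.mp
      ((hπ i).le ⟨e i, Submodule.mem_span_singleton_self _, rfl⟩)
    exact ⟨c, hc.symm⟩
  choose t ht using h4
  obtain ⟨m, hm⟩ : ∃ m, π (π (π (π m))) = m :=
    (by decide +kernel : ∀ π : Equiv.Perm (Fin 4), ∃ m, π (π (π (π m))) = m) π
  have h5 : g⁻¹ * d ^ 4 * g = (g⁻¹ * d * g) ^ 4 := by
    simpa using (conj_pow (a := g⁻¹) (b := d) (i := 4)).symm
  refine h.diag hg (d := d ^ 4) (c := fun i => c i ^ 4) (fun i => ?_) (h5 ▸ pow_mem H 4) (m := m)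
    (η := t m * t (π m) * t (π (π m)) * t (π (π (π m)))) ?_ (i := i) (j := j) fun e' => h3 ?_
  · simp only [pow_succ, pow_zero, one_mul, LinearEquiv.mul_apply, hd, map_smul, smul_smul,
      mul_assoc]
  · rw [h5]
    generalize g⁻¹ * d * g = δ at ht
    simp only [pow_succ, pow_zero, one_mul, LinearEquiv.mul_apply, ht, map_smul, smul_smul,
      mul_assoc, hm]
  · have : (c i - c j) ^ 4 = 0 := by
      linear_combination e' + (c j ^ 4 - 2 * c i ^ 3 * c j + 3 * c i ^ 2 * c j ^ 2 -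
        2 * c i * c j ^ 3) * h2
    exact sub_eq_zero.mp ((pow_eq_zero_iff (by norm_num : 4 ≠ 0)).mp this)

theorem two [Finite F] (hq : 5 ≤ Nat.card F) (hg : g ∈ M) {m i j k l : Fin 4}
    (hd : i ≠ j ∧ i ≠ k ∧ i ≠ l ∧ j ≠ k ∧ j ≠ l ∧ k ≠ l)
    (h3 : e.repr (g (e m)) i * e.repr (g.symm (e j)) m ≠ 0 ∨
      e.repr (g (e m)) k * e.repr (g.symm (e l)) m ≠ 0)
    (h4 : e.repr (g (e m)) j * e.repr (g.symm (e i)) m ≠ 0 ∨
      e.repr (g (e m)) l * e.repr (g.symm (e k)) m ≠ 0) : g ∈ mon e := by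
  classical
  haveI := Fintype.ofFinite F
  obtain ⟨hij, hik, hil, hjk, hjl, hkl⟩ := hd
  have hu : ∀ x, x = i ∨ x = j ∨ x = k ∨ x = l :=
    (by decide : ∀ i j k l : Fin 4, i ≠ j → i ≠ k → i ≠ l → j ≠ k → j ≠ l → k ≠ l →
      ∀ x, x = i ∨ x = j ∨ x = k ∨ x = l) i j k l hij hik hil hjk hjl hkl
  set A := e.repr (g (e m)) i * e.repr (g.symm (e j)) m with hA
  set B := e.repr (g (e m)) j * e.repr (g.symm (e i)) m with hB
  set C := e.repr (g (e m)) k * e.repr (g.symm (e l)) m with hC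
  set D := e.repr (g (e m)) l * e.repr (g.symm (e k)) m with hD
  have root : ∀ {a b : F}, a ≠ 0 ∨ b ≠ 0 → ∃ r, ∀ x, x ≠ r → a * x + b ≠ 0 := fun {a b} h5 => by
    by_cases ha : a = 0
    · exact ⟨0, fun x _ => by simpa [ha] using h5⟩
    · exact ⟨-b / a, fun x hx e' => hx (by field_simp; linear_combination e')⟩
  obtain ⟨r, hr⟩ := root h3
  obtain ⟨r', hr'⟩ := root h4.symm
  have key : ∀ ρ : F, ρ ≠ 0 → ρ ≠ r → ρ ≠ r' → ∃ u : F, u ≠ 0 ∧ ∃ n : V ≃ₗ[F] V,
      g⁻¹ * n * g ∈ mon e ∧ n (e i) = (ρ * u) • e j ∧ n (e j) = (ρ * u)⁻¹ • e i ∧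
        n (e k) = u • e l ∧ n (e l) = u⁻¹ • e k := fun ρ h5 h6 h7 => by
    have h8 := hr ρ h6
    have h9 := hr' ρ h7
    obtain ⟨u, hu2⟩ := Orth.isSquare_of_two_eq_zero h2 ((D * ρ + B) / (ρ * (A * ρ + C)))
    have hu0 : u ≠ 0 := by
      rintro rfl
      simp [h5, h8, h9] at hu2
    set n := pm e (Equiv.swap i j * Equiv.swap k l) * dg e (Pi.mulSingle i (Units.mk0 _
      (mul_ne_zero h5 hu0)) * Pi.mulSingle j (Units.mk0 _ (mul_ne_zero h5 hu0))⁻¹ *
      Pi.mulSingle k (Units.mk0 _ hu0) * Pi.mulSingle l (Units.mk0 _ hu0)⁻¹) with hn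
    have n1 : n (e i) = (ρ * u) • e j := by
      simp [hn, hij, hik, hil, Equiv.swap_apply_of_ne_of_ne]
    have n2 : n (e j) = (ρ * u)⁻¹ • e i := by
      simp [hn, hij.symm, hjk, hjl, Equiv.swap_apply_of_ne_of_ne]
    have n3 : n (e k) = u • e l := by
      simp [hn, hik.symm, hjk.symm, hkl, hil.symm, hjl.symm, Equiv.swap_apply_of_ne_of_ne]
    have n4 : n (e l) = u⁻¹ • e k := by
      simp [hn, hik.symm, hjk.symm, hkl.symm, hil.symm, hjl.symm, Equiv.swap_apply_of_ne_of_ne]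
    have n5 : n * n = 1 := e.ext' fun x => by
      rcases hu x with rfl | rfl | rfl | rfl <;>
        simp only [LinearEquiv.mul_apply, n1, n2, n3, n4, map_smul, smul_smul,
          mul_inv_cancel₀ (mul_ne_zero h5 hu0), inv_mul_cancel₀ (mul_ne_zero h5 hu0),
          mul_inv_cancel₀ hu0, inv_mul_cancel₀ hu0, one_smul] <;> rfl
    have n6 : n ∈ M := h.hM _ (by simp [hn, det_dg, det_pm, hij, hkl, Finset.prod_mul_distrib])
      (mul_mem (pm_mem _) (dg_mem _))
    have n7 : e.repr ((g⁻¹ * n * g) (e m)) m = 0 := by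
      have h10 : g (e m) = e.repr (g (e m)) i • e i + e.repr (g (e m)) j • e j +
          e.repr (g (e m)) k • e k + e.repr (g (e m)) l • e l := e.ext_elem fun x => by
        rcases hu x with rfl | rfl | rfl | rfl <;>
          simp [hij, hik, hil, hjk, hjl, hkl, hij.symm, hik.symm, hil.symm, hjk.symm, hjl.symm,
            hkl.symm]
      change e.repr (g.symm (n (g (e m)))) m = 0
      rw [h10]
      simp only [map_add, map_smul, n1, n2, n3, n4, Finsupp.add_apply, Finsupp.smul_apply,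
        smul_eq_mul]
      have : A * (ρ * u) + B * (ρ * u)⁻¹ + C * u + D * u⁻¹ = 0 := by
        rw [div_eq_iff (mul_ne_zero h5 h8)] at hu2
        field_simp
        linear_combination (-1) * hu2 + (D * ρ + B) * h2
      linear_combination this
    refine ⟨u, hu0, n, h.one (mul_mem (mul_mem (inv_mem hg) n6) hg) n7 ?_, n1, n2, n3, n4⟩
    have : (g⁻¹ * n * g)⁻¹ = g⁻¹ * n * g := inv_eq_of_mul_eq_one_right (by
      rw [show g⁻¹ * n * g * (g⁻¹ * n * g) = g⁻¹ * (n * n) * g by group, n5]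
      simp)
    rw [← n7]
    exact congrArg (fun a : V ≃ₗ[F] V => e.repr (a (e m)) m) this
  rw [Nat.card_eq_fintype_card] at hq
  obtain ⟨ρ, -, h5⟩ := exists_mem_not_mem (I := Finset.univ) (s := ({0, r, r'} : Finset F))
    (Finset.card_le_three.trans_lt (by rw [Finset.card_univ]; omega))
  obtain ⟨ρ', -, h6⟩ := exists_mem_not_mem (I := Finset.univ) (s := ({ρ, 0, r, r'} : Finset F))
    (Finset.card_le_four.trans_lt (by rw [Finset.card_univ]; omega))
  simp only [Finset.mem_insert, Finset.mem_singleton, not_or] at h5 h6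
  obtain ⟨u, hu0, n, h7, n1, n2, n3, n4⟩ := key ρ h5.1 h5.2.1 h5.2.2
  obtain ⟨u', hu0', n', h8, n1', n2', n3', n4'⟩ := key ρ' h6.2.1 h6.2.2.1 h6.2.2.2
  refine h.diag2 h2 hg (d := n * n') (c := fun x => if x = i then ρ' * u' * (ρ * u)⁻¹ else
    if x = j then (ρ' * u')⁻¹ * (ρ * u) else if x = k then u' * u⁻¹ else u'⁻¹ * u) (fun x => ?_)
    (by simpa [mul_assoc] using mul_mem h7 h8) (i := i) (j := k) ?_
  · rcases hu x with rfl | rfl | rfl | rfl <;>
      simp only [LinearEquiv.mul_apply, n1, n2, n3, n4, n1', n2', n3', n4', map_smul, smul_smul,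
        if_true, if_false, hij.symm, hik.symm, hil.symm, hjk.symm, hjl.symm, hkl.symm]
  · simp only [if_true, if_false, hik.symm, hjk.symm]
    have := h5.1
    refine fun e' => h6.1 ?_
    field_simp at e'
    exact e'

theorem even [Finite F] (hq : 5 ≤ Nat.card F) : M ≤ mon e := fun g hg => by
  by_contra hg'
  have A : ∀ m i, e.repr (g (e m)) i ≠ 0 ∨ e.repr (g.symm (e i)) m ≠ 0 := fun m i => by
    by_contra hc
    push Not at hc
    exact hg' (h.one hg hc.1 hc.2)
  have B : ∀ m, (∃ i, ∀ j, j ≠ i → e.repr (g (e m)) j = 0) ∨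
      ∃ i, ∀ j, j ≠ i → e.repr (g.symm (e j)) m = 0 := fun m => by
    by_contra hc
    push Not at hc
    obtain ⟨h3, h4⟩ := hc
    obtain ⟨i, j, k, l, hd, h5, h6⟩ := four_cases (A m) h3 h4
    exact hg' (h.two h2 hq hg hd (by simpa only [mul_ne_zero_iff] using h5)
      (by simpa only [mul_ne_zero_iff] using h6))
  have C : ∀ m m', m ≠ m' → (∃ i, ∀ j, j ≠ i → e.repr (g (e m)) j = 0) →
      (∃ i, ∀ j, j ≠ i → e.repr (g (e m')) j = 0) → False := fun m m' hm ⟨i, hi⟩ ⟨i', hi'⟩ => by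
    have h3 := eq_smul_basis hi'
    have h4 : e.repr (g (e m')) i' ≠ 0 := fun e' => e.ne_zero m' (by simpa [e'] using h3)
    have h5 : e.repr (g.symm (e i')) m = 0 := by
      have := congrArg (fun x => e.repr (g.symm x) m) h3
      simpa [hm, h4] using this
    have h6 := (A m i').resolve_right (by simpa using h5)
    obtain ⟨c, hc⟩ := FV.par ⟨i', hi'⟩ ⟨i, hi⟩ h4 h6
    simpa [hm] using congrArg (fun x => e.repr (g.symm x) m) hc
  have D : ∀ m m', m ≠ m' → (∃ i, ∀ j, j ≠ i → e.repr (g.symm (e j)) m = 0) →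
      (∃ i, ∀ j, j ≠ i → e.repr (g.symm (e j)) m' = 0) → False := fun m m' hm ⟨i, hi⟩ ⟨i', hi'⟩ => by
    have h3 : ∀ {m i}, (∀ j, j ≠ i → e.repr (g.symm (e j)) m = 0) → ∀ y,
        e.repr (g.symm y) m = e.repr (g.symm (e i)) m * e.repr y i := fun {m i} hi =>
      repr_of_basis fun j => by
        by_cases hj : j = i <;> simp [hj, hi]
    have h4 := h3 hi' (g (e m))
    have h5 := h3 hi' (g (e m'))
    have h6 := h3 hi (g (e m))
    simp only [LinearEquiv.symm_apply_apply, Basis.repr_self, Finsupp.single_eq_same,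
      Finsupp.single_eq_of_ne hm.symm] at h4 h5 h6
    have h7 := (mul_eq_zero.mp h4.symm).resolve_left (left_ne_zero_of_mul (h5 ▸ one_ne_zero))
    have h8 := (A m i').resolve_left (by simpa using h7)
    by_cases h9 : i' = i
    · simp [← h9, h7] at h6
    · exact h8 (hi _ h9)
  rcases B 0 with h3 | h3 <;> rcases B 1 with h4 | h4 <;> rcases B 2 with h5 | h5
  exacts [C 0 1 (by decide) h3 h4, C 0 1 (by decide) h3 h4, C 0 2 (by decide) h3 h5,
    D 1 2 (by decide) h4 h5, C 1 2 (by decide) h4 h5, D 0 2 (by decide) h3 h5,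
    D 0 1 (by decide) h3 h4, D 0 1 (by decide) h3 h4]

end even

end F4

theorem max_sl_frame_four [Finite F] {ι : Type} [Fintype ι] [DecidableEq ι]
    {D : Fin 4 → Submodule F (ι → F)} (hD : Geo.IsMDecomposition 1 D) (hq : 7 ≤ Nat.card F) :
    Geo.IsMaximalIn (Geo.specialLinear ι F)
      (Geo.decompositionStabilizer D ⊓ Geo.specialLinear ι F) := by
  classical
  refine max_sl_of_frame hD fun e M hM ⟨g, hg, hg'⟩ => by_contra fun hc => ?_
  obtain ⟨s, hs⟩ := IsCyclic.exists_ofOrder_eq_natCard (α := Fˣ)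
  rw [Nat.card_units] at hs
  have h : F4 e M s := ⟨hM, sl_fix hM (by omega) (by simp) hc, fun k h1 h2 h3 =>
    pow_ne_one_of_lt_orderOf (x := s) h1.ne' (by omega) (Units.ext (by simpa using h3))⟩
  by_cases h2 : (2 : F) = 0
  · exact hg' (h.even h2 (by omega) hg)
  · exact hg' (h.odd h2 hg)

end Cfsg.Agent.Max
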