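import Mathlib
import Cfsg.Agent.Max.SLDec

/-!
# Frames of six vectors in odd characteristic

Two frames in one orbit would give a set of permutations of six points acting sharply
transitively on the pairs, and a count shows that there is none.
-/

set_option autoImplicit false
set_option linter.unusedSectionVars false

namespace Cfsg.Agent.Max

open Module

theorem no_sharp {U : Type*} [Finite U] (s : U → Equiv.Perm (Fin 6))
    (H : ∀ p q : Finset (Fin 6), p.card = 2 → q.card = 2 → ∃! u, p.image (s u) = q) : False := by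
  classical
  have := Fintype.ofFinite U
  have A : ∀ (p : Finset (Fin 6)) (P : Finset (Fin 6) → Prop) [DecidablePred P], p.card = 2 →
      (Finset.univ.filter fun u => P (p.image (s u))).card =
        ((Finset.powersetCard 2 Finset.univ).filter P).card := fun p P _ hp => by
    have h1 : ∀ u, (p.image (s u)).card = 2 := fun u =>
      (Finset.card_image_of_injective _ (s u).injective).trans hp
    refine Finset.card_nbij (fun u => p.image (s u)) (fun u hu => ?_) (fun u _ v _ e => ?_)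
      fun q hq => ?_
    · simpa [h1] using hu
    · exact (H p _ hp (h1 u)).unique rfl e.symm
    · simp only [Finset.coe_filter, Finset.mem_powersetCard_univ, Set.mem_setOf_eq] at hq
      obtain ⟨u, hu, -⟩ := H p q hp hq.1
      exact ⟨u, by simpa [hu] using hq.2, hu⟩
  have B : (Finset.univ : Finset U).card = 15 := by
    simpa [Nat.choose] using A {0, 1} (fun _ => True) (by decide)
  have C := Finset.sum_card_bipartiteAbove_eq_sum_card_bipartiteBelow
    (s := Finset.univ) (t := (Finset.univ : Finset (Fin 6)).erase 0)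
    fun (u : U) j => (0 : Fin 6) ∈ ({0, j} : Finset (Fin 6)).image (s u)
  replace C := congrArg (· % 4) (C.trans (Finset.sum_congr rfl (g := fun _ => 5)
    fun j hj => (A {0, j} (fun q => 0 ∈ q) (Finset.card_pair (Finset.ne_of_mem_erase hj).symm)).trans
      (by decide)))
  rw [Finset.sum_nat_mod, Finset.sum_congr rfl (g := fun _ => 1) fun u _ => ?_] at C
  · simp [B] at C
  by_cases h : s u 0 = 0
  · simp [Finset.bipartiteAbove, h]
  · rw [show Finset.bipartiteAbove _ _ u = {(s u).symm 0} from Finset.ext fun j => ?_]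
    · simp
    simp only [Finset.mem_bipartiteAbove, Finset.mem_erase, Finset.mem_univ, and_true,
      Finset.image_insert, Finset.image_singleton, Finset.mem_insert, Finset.mem_singleton,
      Equiv.eq_symm_apply]
    refine ⟨fun h1 => (h1.2.resolve_left (Ne.symm h)).symm, fun h1 => ⟨?_, .inr h1.symm⟩⟩
    rintro rfl
    exact h h1

theorem eq_of_sq_eq_of_odd {G : Type*} [Group G] {a b : G} (ha : Odd (orderOf a))
    (hb : Odd (orderOf b)) (h : a ^ 2 = b ^ 2) : a = b := by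
  obtain ⟨k, hk⟩ := ha.mul hb
  have h1 : a ^ (2 * k + 1) = 1 := by rw [← hk, pow_mul, pow_orderOf_eq_one, one_pow]
  have h2 : b ^ (2 * k + 1) = 1 := by rw [← hk, mul_comm, pow_mul, pow_orderOf_eq_one, one_pow]
  rw [pow_succ, pow_mul] at h1 h2
  exact mul_left_cancel (h1.trans (h ▸ h2.symm))

theorem dih_even {G : Type*} [Group G] [Finite G] {M : Subgroup G} {t y : G} (ht : t ∈ M)
    (hy : y ∈ M) (ht2 : t * t = 1) (hy2 : y * y = 1) : Odd (orderOf (t * y)) ∨ ∃ c ∈ M, c ≠ 1 ∧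
      c * t = t * c ∧ c * y = y * c ∧ ∃ x ∈ M, x * t * x⁻¹ = c * t ∨ x * t * x⁻¹ = c * y := by
  have hm : ∀ k : ℕ, (t * y) ^ k ∈ M := fun k => pow_mem (mul_mem ht hy) k
  have h1 : ∀ j : ℕ, (t * y) ^ j * t * ((t * y) ^ j)⁻¹ = (t * y) ^ (2 * j) * t := fun j => by
    rw [mul_inv_eq_iff_eq_mul, mul_assoc, (dih_conj ht2 hy2 j).1, two_mul, pow_add]
    group
  have h2 : ∀ j : ℕ, (t * y) ^ (2 * j + 1) * y = (t * y) ^ (2 * j) * t := fun j => by
    rw [pow_succ, mul_assoc, mul_assoc, hy2, mul_one]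
  refine (dih_odd ht2 hy2).imp_right fun ⟨k, h3, _, h4, h5⟩ => ⟨_, hm k, h3, h4, h5, ?_⟩
  rcases Nat.even_or_odd' k with ⟨j, rfl | rfl⟩
  exacts [⟨_, hm j, .inl (h1 j)⟩, ⟨_, hm j, .inr (by rw [h1, h2])⟩]

theorem dih_swap {G : Type*} [Group G] {M : Subgroup G} {t y : G} (ht : t ∈ M)
    (hy : y ∈ M) (ht2 : t * t = 1) (hy2 : y * y = 1) (h : Odd (orderOf (t * y))) :
    ∃ k ∈ M, k * t * k⁻¹ * t * (k * t * k⁻¹)⁻¹ = y := by
  obtain ⟨j, hj⟩ := h
  have h1 : ∀ j : ℕ, (t * y) ^ j * t * ((t * y) ^ j)⁻¹ = (t * y) ^ (2 * j) * t := fun j => by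
    rw [mul_inv_eq_iff_eq_mul, mul_assoc, (dih_conj ht2 hy2 j).1, two_mul, pow_add]
    group
  have h2 : (t * y) ^ (2 * j + 1) = 1 := by rw [← hj, pow_orderOf_eq_one]
  refine ⟨(t * y) ^ ((j + 1) * j), pow_mem (mul_mem ht hy) _, ?_⟩
  rw [h1, show 2 * ((j + 1) * j) = (2 * j + 1) * j + j by ring, pow_add, pow_mul, h2, one_pow,
    one_mul, mul_assoc _ t t, ht2, mul_one, _root_.mul_inv_rev, inv_eq_of_mul_eq_one_right ht2,
    ← mul_assoc, h1]
  rw [pow_succ, ← mul_assoc] at h2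
  exact (eq_inv_of_mul_eq_one_left h2).trans (inv_eq_of_mul_eq_one_right hy2)

variable {F V κ : Type*} [Field F] [AddCommGroup V] [Module F V] [Fintype κ] [DecidableEq κ]
  {e : Basis κ F V}

/-- The hypotheses of `Fr` together with a piece of the diagonal torus. -/
structure Fr3 (e : Basis κ F V) (M : Subgroup (V ≃ₗ[F] V)) (s : Fˣ) : Prop where
  fr : Fr e M
  s1 : (s : F) ≠ 1
  s2 : (s : F) ≠ -1
  tor : ∀ i j, i ≠ j → dg e (Pi.mulSingle i s * Pi.mulSingle j s⁻¹) ∈ M

namespace Fr3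
variable {M : Subgroup (V ≃ₗ[F] V)} {s : Fˣ} (h : Fr3 e M s) {g : V ≃ₗ[F] V} {I : Finset κ}
include h

theorem core (hg : g ∈ M) {l : κ} (h1 : ∀ a ∈ I, e.repr (g (e a)) l = 0)
    (h2 : ∀ a ∈ I, e.repr (g.symm (e l)) a = 0) {a b k : κ} (ha : a ∈ I) (hb : b ∈ I)
    (hab : a ≠ b) (hk : k ≠ a) (hk' : k ≠ b) {x : V} (hx : FV e (g x))
    (h0 : e.repr x a ≠ 0) : e.repr x k = 0 := by
  by_contra hk0
  have S : ∀ {y}, FV e (g y) → FV e (g (sg e {a, b} y)) := fun hy =>
    h.fr.conj_mon hg h1 h2 (h.fr.sg2 _ _ hab) (sup_sgn (by simp [Finset.insert_subset_iff, ha, hb])) hy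
  have h3 : ∀ i ∉ I, (Pi.mulSingle a s * Pi.mulSingle b s⁻¹ : κ → Fˣ) i = 1 := fun i hi => by
    simp [show i ≠ a from fun e => hi (e ▸ ha), show i ≠ b from fun e => hi (e ▸ hb)]
  have P := h.fr.conj_mon hg h1 h2 (h.tor a b hab) ⟨fun x i hi => by rw [repr_dg, h3 i hi]; simp,
    fun i hi => by rw [dg_basis, h3 i hi]; simp⟩ hx
  have key : ∀ {v} {c : F}, e.repr v k = e.repr x k → g v = c • g x ∧ c ≠ 0 →
      e.repr v a = e.repr x a := fun {v c} e5 e6 => by
    have e7 : v = c • x := g.injective (by rw [e6.1, map_smul])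
    have : c = 1 := by simpa [e7, hk0] using e5
    rw [e7, this, one_smul]
  obtain ⟨c, hc | hc | hc⟩ := hx.rel (S hx) P (S P) (by
    rw [← map_add, ← map_add]
    refine congrArg g (e.ext_elem fun i => ?_)
    by_cases h4 : i = a
    · simp [h4]
    by_cases h5 : i = b
    · simp [h5]
    simp [h4, h5]) fun e => h0 (by simp [g.map_eq_zero_iff.mp e])
  · exact h.fr.neg_ne h0 (by simpa using key (by simp [hk, hk']) hc)
  · exact h.s1 (by simpa [hab, h0] using key (by simp [hk, hk']) hc)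
  · have := key (by simp [hk, hk']) hc
    simp [hab] at this
    exact h.s2 (mul_right_cancel₀ h0 (by linear_combination -this))

theorem big (hg : g ∈ M) {l : κ} (h1 : ∀ a ∈ I, e.repr (g (e a)) l = 0)
    (h2 : ∀ a ∈ I, e.repr (g.symm (e l)) a = 0) (hI : 3 ≤ I.card) : g ∈ mon e := by
  obtain ⟨a, ha, -⟩ := exists_mem_not_mem (I := I) (s := ∅) (by rw [Finset.card_empty]; omega)
  have h3 : ∀ m, e.repr (g.symm (e m)) a ≠ 0 → ∃ c : F, c ≠ 0 ∧ e m = c • g (e a) := fun m hm =>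
    ⟨_, hm, by
      rw [← map_smul, ← eq_smul_basis fun k hk => ?_, g.apply_symm_apply]
      obtain ⟨b, hb, hb'⟩ := exists_mem_not_mem (I := I) (s := {a, k})
        (Finset.card_le_two.trans_lt hI)
      simp only [Finset.mem_insert, Finset.mem_singleton, not_or] at hb'
      exact h.core hg h1 h2 ha hb (Ne.symm hb'.1) hk (Ne.symm hb'.2) (by simpa using FV.basis m) hm⟩
  obtain ⟨m, hm⟩ : ∃ m, e.repr (g.symm (e m)) a ≠ 0 := by
    by_contra hc
    push Not at hc
    simpa using repr_of_basis (e := e) (g := g.symm) (l := a) (l' := a) (a := 0)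
      (by simpa using hc) (g (e a))
  obtain ⟨c, hc, hc'⟩ := h3 m hm
  have h4 : ∀ i, i ≠ m → e.repr (g (e a)) i = 0 := fun i hi => by
    simpa [hi, hc] using congrArg (e.repr · i) hc'
  have h5 : g.symm (e m) = c • e a := by simp [hc']
  refine (inv_mem_iff (x := g)).mp (h.fr.fix' (hI.trans I.card_le_univ) (inv_mem hg) (a := m)
    (m := a) (fun i hi => ?_) fun i hi => ?_)
  · change e.repr (g.symm _) _ = _
    simp [h5, hi]
  · by_contra h6
    obtain ⟨c', -, h7⟩ := h3 i h6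
    simpa [h4 i hi] using congrArg (e.repr · i) h7

theorem big2 (hn : 5 ≤ Fintype.card κ) (hg : g ∈ M) {l : κ} (h1 : ∀ a ∈ I, e.repr (g (e a)) l = 0)
    (h2 : ∀ a ∈ I, e.repr (g.symm (e l)) a = 0) (hI : 2 ≤ I.card) : g ∈ mon e := by
  classical
  rcases hI.eq_or_lt with hI | hI
  swap
  · exact h.big hg h1 h2 hI
  obtain ⟨a, b, hab, rfl⟩ := Finset.card_eq_two.mp hI.symm
  obtain ⟨S, hS⟩ : ∃ S : Finset κ, ∀ m, m ∈ S ↔ ∃ i ∈ ({a, b} : Finset κ),
      e.repr (g.symm (e m)) i ≠ 0 := ⟨Finset.univ.filter _, fun m => Finset.mem_filter_univ m⟩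
  have h3 : ∀ m ∈ S, ∀ k ∈ ({a, b} : Finset κ)ᶜ, e.repr (g.symm (e m)) k = 0 := fun m hm k hk => by
    simp only [Finset.mem_compl, Finset.mem_insert, Finset.mem_singleton, not_or] at hk
    obtain ⟨i, hi, hi'⟩ := (hS m).mp hm
    rcases Finset.mem_insert.mp hi with rfl | hi
    · exact h.core hg h1 h2 (by simp) (by simp) hab hk.1 hk.2 (by simpa using FV.basis m) hi'
    · rw [Finset.mem_singleton.mp hi] at hi'
      exact h.core hg h1 h2 (by simp) (by simp) hab.symm hk.2 hk.1 (by simpa using FV.basis m) hi'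
  have h4 : sg e {a, b} * g⁻¹ = g⁻¹ * sg e S := e.ext' fun m => e.ext_elem fun k => by
    change e.repr (sg e _ (g.symm _)) k = e.repr (g.symm (sg e S _)) k
    rw [repr_sgn, sgn_basis]
    by_cases hm : m ∈ S <;> by_cases hk : k ∈ ({a, b} : Finset κ)
    · simp [hm, hk]
    · simp [hm, hk, h3 m hm k (Finset.mem_compl.mpr hk)]
    · have : e.repr (g.symm (e m)) k = 0 := by_contra fun e' => hm ((hS m).mpr ⟨k, hk, e'⟩)
      simp [hm, this]
    · simp [hm, hk]
  obtain ⟨m, hm⟩ : ∃ m, e.repr (g.symm (e m)) a ≠ 0 := by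
    by_contra hc
    push Not at hc
    simpa using repr_of_basis (e := e) (g := g.symm) (l := a) (l' := a) (a := 0)
      (by simpa using hc) (g (e a))
  have := ({a, b} : Finset κ).card_compl
  have h5 := h.fr.swap_aux (I := ({a, b} : Finset κ)ᶜ) (g := g) (sg_mem S) (sg_mem {a, b})
    (by rw [show sg e S = g * (g⁻¹ * sg e S) by group, ← h4]; group) (l := m) (η := -1) (by simp)
    (by simp [sgn_basis, (hS m).mpr ⟨a, by simp, hm⟩])
    fun i hi => by simp only [sgn_basis, Finset.mem_compl.mp hi]; simp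
  exact h.big hg h5.1 h5.2 (by omega)

theorem conj_two (hn : 6 ≤ Fintype.card κ) (hg : g ∈ M) {J : Finset κ} (hJ : J.card = 2)
    (H : g * sg e J * g⁻¹ ∈ mon e) : g ∈ mon e := by
  obtain ⟨I, h1, h2⟩ := Fr.exists_fixed_conj H
  obtain ⟨i, hi⟩ := Finset.card_pos.mp (show 0 < J.card by omega)
  have := h.fr.swap_aux (I := I) (g := g⁻¹) (sg_mem _) H (c := sg e J)
    (by group) (l := i) (η := -1) (by simp) (by simp [sgn_basis, hi])
    (fun a ha => by simpa using h2 a ha)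
  exact (inv_mem_iff (x := g)).mp (h.big2 (by omega) (inv_mem hg) this.1 this.2 (by omega))

theorem sg_mem' {J : Finset κ} (hJ : J.card = 2) : sg e J ∈ M := by
  obtain ⟨a, b, hab, rfl⟩ := Finset.card_eq_two.mp hJ
  exact h.fr.sg2 a b hab

theorem conj_symm (hn : Fintype.card κ = 6) (hg : g ∈ M) {J K : Finset κ} (hJ : J.card = 2)
    (hK : K.card = 2) (hJK : J ≠ K) (H : g * (sg e J * sg e K) * g⁻¹ ∈ mon e) : g ∈ mon e := by
  rw [Fr.sg_mul'] at H
  have h1 : (symmDiff J K).card + 2 * (J ∩ K).card = 4 := by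
    have := Finset.card_sdiff_add_card_inter J K
    have := Finset.card_sdiff_add_card_inter K J
    rw [Finset.inter_comm K] at this
    rw [symmDiff_def, Finset.sup_eq_union, Finset.card_union_of_disjoint disjoint_sdiff_sdiff]
    omega
  have h2 : 0 < (symmDiff J K).card := Finset.card_pos.mpr (Finset.nonempty_iff_ne_empty.mpr
    fun e' => hJK (symmDiff_eq_bot.mp e'))
  by_cases h3 : (symmDiff J K).card = 2
  · exact h.conj_two hn.ge hg h3 H
  refine h.conj_two hn.ge hg (J := (symmDiff J K)ᶜ) (by rw [Finset.card_compl]; omega) ?_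
  convert mul_mem H (sg_mem Finset.univ) using 1
  have h4 : ∀ x, sg e Finset.univ x = -x := fun x => e.ext_elem fun i => by simp
  refine LinearEquiv.ext fun x => ?_
  simp only [LinearEquiv.mul_apply, h4, map_neg]
  rw [← map_neg]
  refine congrArg g (e.ext_elem fun i => ?_)
  generalize symmDiff J K = L
  by_cases hi : i ∈ L <;> simp [hi]

theorem odd [Finite (V ≃ₗ[F] V)] (hn : Fintype.card κ = 6) (hg : g ∈ M) (hg' : g ∉ mon e)
    {J K : Finset κ} (hJ : J.card = 2) (hK : K.card = 2) :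
    Odd (orderOf (sg e J * (g * sg e K * g⁻¹))) := by
  have A : ∀ {L : Finset κ} {z}, L.card = 2 → z ∈ M → z * sg e L = sg e L * z → z ∈ mon e :=
    fun hL hz H => h.conj_two hn.ge hz hL (by rw [H, mul_inv_cancel_right]; exact sg_mem _)
  have B : ∀ {L : Finset κ} {z x y}, L.card = 2 → z ∈ M → z ≠ 1 → z * sg e L = sg e L * z →
      x ∈ M → x * sg e J * x⁻¹ = z * sg e L → y ∈ M → y * z * y⁻¹ ∈ mon e → y ∈ mon e :=
    fun {L z x y} hL hz h1 H hx H' hy H2 => by
      obtain ⟨L', h2, h3⟩ := Fr.conj_sg (h.conj_two hn.ge hx hJ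
        (H' ▸ mul_mem (A hL hz H) (sg_mem _))) J
      have h4 : z = sg e L' * sg e L := by rw [← h3, H', mul_assoc, sgn_sq, mul_one]
      exact h.conj_symm hn hy (h2.trans hJ) hL (fun e' => h1 (by rw [h4, e', sgn_sq])) (h4 ▸ H2)
  refine (dih_even (h.sg_mem' hJ) (mul_mem (mul_mem hg (h.sg_mem' hK)) (inv_mem hg)) (sgn_sq J) (by
    rw [show g * sg e K * g⁻¹ * (g * sg e K * g⁻¹) = g * (sg e K * sg e K) * g⁻¹ by group, sgn_sq]
    simp)).resolve_right ?_
  rintro ⟨z, hz, h1, h2, h3, x, hx, H⟩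
  have hw : g⁻¹ * z * g ∈ M := mul_mem (mul_mem (inv_mem hg) hz) hg
  have h4 : g⁻¹ * z * g * sg e K = sg e K * (g⁻¹ * z * g) := by
    rw [show sg e K * (g⁻¹ * z * g) = g⁻¹ * (g * sg e K * g⁻¹ * z) * g by group, ← h3]
    group
  rcases H with H | H
  · exact hg' ((inv_mem_iff (x := g)).mp (B hJ hz h1 h2 hx H (inv_mem hg)
      (by simpa using A hK hw h4)))
  · refine hg' (B hK hw (fun e' => h1 ?_) h4 (mul_mem (inv_mem hg) hx) ?_ hg ?_)
    · rw [show z = g * (g⁻¹ * z * g) * g⁻¹ by group, e']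
      simp
    · rw [show g⁻¹ * x * sg e J * (g⁻¹ * x)⁻¹ = g⁻¹ * (x * sg e J * x⁻¹) * g by group, H]
      group
    · rw [show g * (g⁻¹ * z * g) * g⁻¹ = z by group]
      exact A hJ hz h2

end Fr3

theorem sg_inj (h2 : (2 : F) ≠ 0) {J K : Finset κ} (H : sg e J = sg e K) : J = K := by
  ext i
  have := congrArg (fun g : V ≃ₗ[F] V => e.repr (g (e i)) i) H
  by_cases h3 : i ∈ J <;> by_cases h4 : i ∈ K <;> simp [h3, h4] at this ⊢ <;>
    exact h2 (by first | linear_combination this | linear_combination -this)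

theorem exists_conj_sg {g : V ≃ₗ[F] V} (hg : g ∈ mon e) :
    ∃ s : Equiv.Perm κ, ∀ J : Finset κ, g * sg e J * g⁻¹ = sg e (J.image s) := by
  obtain ⟨s, hs⟩ := mem_mon_iff.mp hg
  refine ⟨s, fun J => ?_⟩
  rw [mul_inv_eq_iff_eq_mul]
  refine e.ext' fun i => ?_
  obtain ⟨c, hc⟩ := Submodule.mem_span_singleton.mp
    ((hs i).le ⟨e i, Submodule.mem_span_singleton_self _, rfl⟩)
  replace hc : g (e i) = c • e (s i) := hc.symm
  by_cases h1 : i ∈ J <;> simp [sgn_basis, h1, hc, s.injective.mem_finset_image]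

/-- The reduction theorem for six frame vectors. -/
theorem Fr3.le_mon [Finite F] {e : Basis (Fin 6) F V} {M : Subgroup (V ≃ₗ[F] V)} {s : Fˣ}
    (h : Fr3 e M s) : M ≤ mon e := fun g hg => by
  haveI := Module.Finite.of_basis e
  haveI := Module.finite_of_finite F (M := V)
  haveI : Finite (V ≃ₗ[F] V) := Finite.of_injective _ DFunLike.coe_injective
  by_contra hg'
  let U := {u : V ≃ₗ[F] V // g⁻¹ * u ∈ mon e ∧ ∃ k ∈ M, ∃ L : Finset (Fin 6), L.card = 2 ∧
    u = k * sg e L * k⁻¹}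
  choose s hs using fun u : U => exists_conj_sg u.2.1
  have A : ∀ u : U, ∀ p, p.card = 2 → Odd (orderOf (sg e p * u.1)) ∧ (sg e p * u.1) ^ 2 =
      sg e p * (g * sg e (p.image (s u)) * g⁻¹) := fun u p hp => by
    obtain ⟨h1, k, hk, L, hL, h2⟩ := u.2
    refine ⟨h2 ▸ h.odd (by simp) hk (fun h3 => hg' ?_) hp hL, ?_⟩
    · rw [h2] at h1
      exact (inv_mem_iff (x := g)).mp ((mul_mem_cancel_right
        (mul_mem (mul_mem h3 (sg_mem _)) (inv_mem h3))).mp h1)
    · have h3 : u.1⁻¹ = u.1 := inv_eq_of_mul_eq_one_right (by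
        rw [h2, show k * sg e L * k⁻¹ * (k * sg e L * k⁻¹) = k * (sg e L * sg e L) * k⁻¹ by group,
          sgn_sq]
        simp)
      rw [← hs u p, _root_.mul_inv_rev, h3, sq]
      group
  refine no_sharp s fun p q hp hq => ?_
  obtain ⟨k, hk, h1⟩ := dih_swap (h.sg_mem' hp) (mul_mem (mul_mem hg (h.sg_mem' hq)) (inv_mem hg))
    (sgn_sq p) (by
      rw [show g * sg e q * g⁻¹ * (g * sg e q * g⁻¹) = g * (sg e q * sg e q) * g⁻¹ by group, sgn_sq]
      simp) (h.odd (by simp) hg hg' hp hq)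
  have h2 : g⁻¹ * (k * sg e p * k⁻¹) * sg e p * (g⁻¹ * (k * sg e p * k⁻¹))⁻¹ = sg e q := by
    rw [show sg e q = g⁻¹ * (g * sg e q * g⁻¹) * g by group, ← h1]
    group
  obtain ⟨u, hu⟩ : ∃ u : U, u.1 = k * sg e p * k⁻¹ := ⟨⟨_, h.conj_two (by simp) (mul_mem (inv_mem hg)
    (mul_mem (mul_mem hk (h.sg_mem' hp)) (inv_mem hk))) hp (h2 ▸ sg_mem _), k, hk, p, hp, rfl⟩, rfl⟩
  have h3 : p.image (s u) = q := sg_inj (e := e) h.fr.two (by rw [← hs, hu, h2])
  exact ⟨u, h3, fun v hv => Subtype.ext (mul_left_cancel (eq_of_sq_eq_of_odd (A v p hp).1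
    (A u p hp).1 (by rw [(A v p hp).2, (A u p hp).2, h3, hv])))⟩

theorem exists_unit_ne [Finite F] (hq : 4 ≤ Nat.card F) : ∃ s : Fˣ, (s : F) ≠ 1 ∧ (s : F) ≠ -1 := by
  classical
  haveI := Fintype.ofFinite F
  obtain ⟨s, -, hs⟩ := exists_mem_not_mem (I := Finset.univ) (s := ({0, 1, -1} : Finset F))
    (Finset.card_le_three.trans_lt (by rwa [Finset.card_univ, ← Nat.card_eq_fintype_card]))
  simp only [Finset.mem_insert, Finset.mem_singleton, not_or] at hs
  exact ⟨Units.mk0 s hs.1, hs.2⟩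

theorem max_sl_frame_six [Finite F] {ι : Type} [Fintype ι] [DecidableEq ι]
    {D : Fin 6 → Submodule F (ι → F)} (hD : Geo.IsMDecomposition 1 D) (hq : 5 ≤ Nat.card F) :
    Geo.IsMaximalIn (Geo.specialLinear ι F)
      (Geo.decompositionStabilizer D ⊓ Geo.specialLinear ι F) := by
  classical
  refine max_sl_of_frame hD fun e M hM ⟨g, hg, hg'⟩ => by_contra fun hc => ?_
  haveI := Fintype.ofFinite F
  by_cases h2 : (2 : F) = 0
  · exact hg' ((sl_fr2 hM hq (by simp) hc h2).le_mon (by simp) (by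
      simp [← Nat.card_eq_fintype_card]; omega) hg)
  obtain ⟨s, h3, h4⟩ := exists_unit_ne (F := F) (by omega)
  refine hg' (Fr3.le_mon ⟨⟨h2, fun a b hab => hM _ ?_ (sg_mem _), fun a b c h3 h4 => hM _ ?_
    (mul_mem (pm_mem _) (pm_mem _)), sl_fix hM hq (by simp) hc⟩, h3, h4,
    fun i j _ => hM _ ?_ (dg_mem _)⟩ hg)
  · simp [det_sg, Finset.card_pair hab]
  · simp [det_pm, h3, h4]
  · simp [det_dg, Finset.prod_mul_distrib]

end Cfsg.Agent.Max
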