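import Mathlib
import Cfsg.Agent.Max.KC1

set_option autoImplicit false

namespace Cfsg.Agent.Max.KC

variable {α : Type*} [Fintype α] [DecidableEq α] (S : Subgroup (Equiv.Perm α))

/-- potential. -/
noncomputable def Ph (A : Finset α) : ℕ := Fintype.card α - orb S A

/-- classes of elements agreeing with `g₀` on `A`, with no fixed point outside `A`. -/
def dcl (A : Finset α) (g₀ : S) : Set (ConjClasses S) :=
  {c | ∃ g : S, (∀ a ∈ A, (g : Equiv.Perm α) a = (g₀ : Equiv.Perm α) a) ∧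
    (∀ x, x ∉ A → (g : Equiv.Perm α) x ≠ x) ∧ ConjClasses.mk g = c}

/-- fixed by the pointwise stabiliser. -/
def fx (A : Finset α) (x : α) : Prop := ∀ h ∈ S, (∀ a ∈ A, h a = a) → h x = x

/-- orbit of the pointwise stabiliser. -/
def oc (A : Finset α) (x : α) : Set α := {y | st S A x y}

theorem fx_mem {A : Finset α} {x : α} (hx : x ∈ A) : fx S A x := fun _ _ h => h x hx

theorem fx_eq {A : Finset α} {x y : α} (hx : fx S A x) (h : st S A x y) : y = x := by
  obtain ⟨g, hg, hA, rfl⟩ := h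
  exact hx g hg hA

theorem step (A : Finset α) (g₀ : S) (a : α) (haA : a ∉ A) (B : Finset α) (hB : B = insert a A)
    (ha : ∀ x ∈ A, (g₀ : Equiv.Perm α) x ∈ B)
    (w : Quotient (st S B) → ℕ) (R : Finset (Quotient (st S B)))
    (hw : ∀ g₁ : S, (∀ x ∈ A, (g₁ : Equiv.Perm α) x = (g₀ : Equiv.Perm α) x) →
      (g₁ : Equiv.Perm α) a ≠ a → Quotient.mk _ ((g₁ : Equiv.Perm α) a) ∈ R ∧
      (dcl S B g₁).ncard ≤ w (Quotient.mk _ ((g₁ : Equiv.Perm α) a))) :
    (dcl S A g₀).ncard ≤ ∑ ω ∈ R, w ω := by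
  classical
  let T : Quotient (st S B) → Set (ConjClasses S) := fun ω =>
    {c | ∃ g : S, (∀ x ∈ A, (g : Equiv.Perm α) x = (g₀ : Equiv.Perm α) x) ∧
      (∀ x, x ∉ A → (g : Equiv.Perm α) x ≠ x) ∧
      Quotient.mk (st S B) ((g : Equiv.Perm α) a) = ω ∧ ConjClasses.mk g = c}
  have hT : ∀ ω, (T ω).ncard ≤ w ω := by
    intro ω
    rcases (T ω).eq_empty_or_nonempty with h | ⟨c, g₁, hg₁, hd₁, hω, -⟩
    · rw [h]; simp
    · have h1 : T ω ⊆ dcl S B g₁ := by
        rintro c ⟨g, hg, hd, hgω, rfl⟩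
        obtain ⟨h, hh, hhB, hha⟩ := (st_iff S B _ _).1 (Quotient.exact (hgω.trans hω.symm))
        have hinv : ∀ x ∈ B, h⁻¹ x = x := by
          intro x hx
          rw [Equiv.Perm.inv_eq_iff_eq]; exact (hhB x hx).symm
        have e : ∀ x, ((⟨h, hh⟩ * g * ⟨h, hh⟩⁻¹ : S) : Equiv.Perm α) x =
          h ((g : Equiv.Perm α) (h⁻¹ x)) := fun x => rfl
        refine ⟨⟨h, hh⟩ * g * ⟨h, hh⟩⁻¹, ?_, ?_, ?_⟩
        · intro x hx
          rw [e, hinv x hx]
          rcases Finset.mem_insert.1 (hB ▸ hx) with rfl | hx'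
          · exact hha
          · rw [hg x hx', hg₁ x hx']
            exact hhB _ (ha x hx')
        · intro x hx hxx
          rw [e] at hxx
          refine hd (h⁻¹ x) (fun hm => hx ?_) ?_
          · have hm' : h⁻¹ x ∈ B := by rw [hB]; exact Finset.mem_insert_of_mem hm
            have h2 := hhB _ hm'
            have h3 : x = h⁻¹ x := by simpa using h2
            rw [h3]; exact hm'
          · rw [eq_comm, Equiv.Perm.inv_eq_iff_eq]; exact hxx.symm
        · rw [ConjClasses.mk_eq_mk_iff_isConj]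
          exact (isConj_iff.2 ⟨(⟨h, hh⟩ : S), rfl⟩ : IsConj g _).symm
      rw [← hω]
      rw [← hω] at h1
      exact le_trans (Set.ncard_le_ncard h1 (Set.toFinite _)) (hw g₁ hg₁ (hd₁ a haA)).2
  have hcov : dcl S A g₀ ⊆ ⋃ ω ∈ R, T ω := by
    rintro c ⟨g, hg, hd, rfl⟩
    simp only [Set.mem_iUnion]
    exact ⟨_, (hw g hg (hd a haA)).1, g, hg, hd, rfl, rfl⟩
  refine le_trans (Set.ncard_le_ncard hcov (Set.toFinite _)) ?_
  exact le_trans (Finset.set_ncard_biUnion_le _ _) (Finset.sum_le_sum fun ω _ => hT ω)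

theorem card_fiber2 {X Y : Type*} [Finite X] (f : X → Y) (hf : Function.Surjective f) (y : Y)
    {x x' : X} (hx : f x ≠ y) (hxx : x ≠ x') (e : f x = f x') :
    Nat.card Y + (f ⁻¹' {y}).ncard ≤ Nat.card X := by
  classical
  haveI : Finite Y := Finite.of_surjective f hf
  have h1 : (f ⁻¹' {y}).ncard + (f ⁻¹' {y})ᶜ.ncard = Nat.card X := Set.ncard_add_ncard_compl _
  have h2 : ({y} : Set Y).ncard + ({y} : Set Y)ᶜ.ncard = Nat.card Y := Set.ncard_add_ncard_compl _
  have h0 : ({y} : Set Y)ᶜ = f '' (f ⁻¹' {y})ᶜ := by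
    rw [← Set.preimage_compl, Set.image_preimage_eq _ hf]
  have h3 : ({y} : Set Y)ᶜ.ncard ≤ (f ⁻¹' {y})ᶜ.ncard := by
    rw [h0]
    exact Set.ncard_image_le (Set.toFinite _)
  have h4 : ({y} : Set Y)ᶜ.ncard ≠ (f ⁻¹' {y})ᶜ.ncard := by
    rw [h0]
    intro h
    refine hxx (Set.injOn_of_ncard_image_eq h (Set.toFinite _) ?_ ?_ e)
    · simpa using hx
    · simpa [← e] using hx
  rw [Set.ncard_singleton] at h2
  omega

theorem orb_congr {A B : Finset α} (h : A ⊆ B) (hf : ∀ x ∈ B, fx S A x) : orb S B = orb S A := by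
  have : st S B = st S A := by
    ext x y
    constructor
    · rintro ⟨g, hg, hB, e⟩
      exact ⟨g, hg, fun a ha => hB a (h ha), e⟩
    · rintro ⟨g, hg, hA, e⟩
      exact ⟨g, hg, fun a ha => hf a ha g hg hA, e⟩
  rw [orb, orb, this]

theorem split_pt {A B : Finset α} (h : A ⊆ B) {a : α} (ha : a ∈ B) (hn : ¬ fx S A a) :
    ∃ y, Quotient.mk (st S B) a ≠ Quotient.mk (st S B) y ∧
      res S h (Quotient.mk (st S B) a) = res S h (Quotient.mk (st S B) y) := by
  simp only [fx, not_forall] at hn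
  obtain ⟨g, hg, hA, hne⟩ := hn
  refine ⟨g a, fun e => hne (fx_eq S (fx_mem S ha) (Quotient.exact e)), ?_⟩
  rw [res_mk, res_mk]
  exact Quotient.sound ⟨g, hg, hA, rfl⟩

theorem orb_lt {A B : Finset α} (h : A ⊆ B) {a : α} (ha : a ∈ B) (hn : ¬ fx S A a) :
    orb S A + 1 ≤ orb S B := by
  obtain ⟨y, h1, h2⟩ := split_pt S h ha hn
  have h3 := card_fiber _ (res_surj S h) (res S h (Quotient.mk (st S B) a))
  have h4 : 2 ≤ (res S h ⁻¹' {res S h (Quotient.mk (st S B) a)}).ncard := by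
    rw [← Set.ncard_pair h1]
    refine Set.ncard_le_ncard ?_ (Set.toFinite _)
    rintro z (rfl | rfl)
    · rfl
    · exact h2.symm
  unfold orb
  omega

theorem oc_image (A : Finset α) {g : Equiv.Perm α} (hg : g ∈ S) (a : α) :
    (oc S (A.image g) (g a)).ncard = (oc S A a).ncard := by
  rw [← Set.ncard_image_of_injective (oc S A a) g.injective]
  congr 1
  ext y
  constructor
  · rintro ⟨h, hh, hA, rfl⟩
    refine ⟨(g⁻¹ * h * g) a, ⟨g⁻¹ * h * g, S.mul_mem (S.mul_mem (S.inv_mem hg) hh) hg, ?_, rfl⟩,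
      by simp⟩
    intro x hx
    have := hA (g x) (Finset.mem_image_of_mem _ hx)
    simp [this]
  · rintro ⟨z, ⟨h, hh, hA, rfl⟩, rfl⟩
    refine ⟨g * h * g⁻¹, S.mul_mem (S.mul_mem hg hh) (S.inv_mem hg), ?_, by simp⟩
    intro x hx
    obtain ⟨b, hb, rfl⟩ := Finset.mem_image.1 hx
    simp [hA b hb]

theorem agree_mem (A : Finset α) (g₀ g : S) (a : α)
    (hg : ∀ x ∈ A, (g : Equiv.Perm α) x = (g₀ : Equiv.Perm α) x) :
    (g : Equiv.Perm α) a ∈ oc S (A.image (g₀ : Equiv.Perm α)) ((g₀ : Equiv.Perm α) a) := by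
  refine ⟨(g : Equiv.Perm α) * (g₀ : Equiv.Perm α)⁻¹, S.mul_mem g.2 (S.inv_mem g₀.2), ?_, by simp⟩
  intro y hy
  obtain ⟨x, hx, rfl⟩ := Finset.mem_image.1 hy
  simp [hg x hx]

open Classical in
/-- the counting data of a step. -/
theorem cnt (A : Finset α) (g₀ : S) (a : α) (haA : a ∉ A) (B : Finset α) (hB : B = insert a A)
    (ha : ∀ x ∈ A, (g₀ : Equiv.Perm α) x ∈ B) (hn : ¬ fx S A a) :
    ∃ (a₁ : α) (R : Finset (Quotient (st S B))), a₁ ∈ B ∧
      a₁ ∉ A.image (g₀ : Equiv.Perm α) ∧ orb S A + 1 ≤ orb S B ∧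
      (∀ y ∈ oc S (A.image (g₀ : Equiv.Perm α)) ((g₀ : Equiv.Perm α) a), Quotient.mk _ y ∈ R) ∧
      R.card ≤ (oc S A a).ncard ∧
      orb S A + (R.erase (Quotient.mk _ a₁)).card ≤ orb S B := by
  have hsub : A.image (g₀ : Equiv.Perm α) ⊆ B := by
    intro y hy
    obtain ⟨x, hx, rfl⟩ := Finset.mem_image.1 hy
    exact ha x hx
  have hc : (A.image (g₀ : Equiv.Perm α)).card + 1 = B.card := by
    rw [Finset.card_image_of_injective _ (g₀ : Equiv.Perm α).injective, hB,
      Finset.card_insert_of_notMem haA]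
  obtain ⟨a₁, h1, h2⟩ : ∃ a₁ ∈ B, a₁ ∉ A.image (g₀ : Equiv.Perm α) :=
    Finset.exists_mem_notMem_of_card_lt_card (by omega)
  have hBe : B = insert a₁ (A.image (g₀ : Equiv.Perm α)) := by
    symm
    apply Finset.eq_of_subset_of_card_le (Finset.insert_subset h1 hsub)
    rw [Finset.card_insert_of_notMem h2]; omega
  have hlt : orb S A + 1 ≤ orb S B := by
    rw [hB]; exact orb_lt S (Finset.subset_insert a A) (Finset.mem_insert_self a A) hn
  have him := orb_image S A g₀.2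
  have hn1 : ¬ fx S (A.image (g₀ : Equiv.Perm α)) a₁ := by
    intro hf
    have := orb_congr S hsub (fun x hx => by
      rw [hBe] at hx
      rcases Finset.mem_insert.1 hx with rfl | hx
      · exact hf
      · exact fx_mem S hx)
    omega
  set R : Set (Quotient (st S B)) :=
    res S hsub ⁻¹' {Quotient.mk (st S (A.image (g₀ : Equiv.Perm α))) ((g₀ : Equiv.Perm α) a)} with hR
  have hRc : R.toFinite.toFinset.card = R.ncard := (Set.ncard_eq_toFinset_card R R.toFinite).symm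
  refine ⟨a₁, R.toFinite.toFinset, h1, h2, hlt, ?_, ?_, ?_⟩
  · intro y hy
    rw [Set.Finite.mem_toFinset, hR, Set.mem_preimage, res_mk, Set.mem_singleton_iff]
    exact (Quotient.sound hy).symm
  · rw [hRc, ← oc_image S A g₀.2 a]
    refine le_trans (Set.ncard_le_ncard ?_ (Set.toFinite _))
      (Set.ncard_image_le (f := Quotient.mk (st S B)) (Set.toFinite _))
    intro ω hω
    obtain ⟨y, rfl⟩ := Quotient.mk_surjective ω
    rw [hR, Set.mem_preimage, res_mk, Set.mem_singleton_iff] at hω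
    exact ⟨y, Quotient.exact hω.symm, rfl⟩
  · by_cases hm : Quotient.mk (st S B) a₁ ∈ R
    · rw [Finset.card_erase_of_mem (R.toFinite.mem_toFinset.2 hm), hRc]
      have h3 : orb S (A.image (g₀ : Equiv.Perm α)) + R.ncard ≤ orb S B + 1 :=
        card_fiber _ (res_surj S hsub) _
      omega
    · rw [Finset.erase_eq_of_notMem (fun h => hm (R.toFinite.mem_toFinset.1 h)), hRc]
      obtain ⟨y, h3, h4⟩ := split_pt S hsub h1 hn1
      have h5 : orb S (A.image (g₀ : Equiv.Perm α)) + R.ncard ≤ orb S B :=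
        card_fiber2 _ (res_surj S hsub) _ hm h3 h4
      omega

end Cfsg.Agent.Max.KC
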