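import Mathlib
import Cfsg.Agent.Max.KC2

set_option autoImplicit false

namespace Cfsg.Agent.Max.KC

variable {α : Type*} [Fintype α] [DecidableEq α] (S : Subgroup (Equiv.Perm α))

theorem dp (F M s : ℕ → ℕ) (V : ℕ → Prop) (hV : ∀ A, V (Ph S A))
    (hs : ∀ A x, (oc S A x).ncard ≤ s (Ph S A)) (h1 : ∀ i, 1 ≤ F i)
    (hF : ∀ i d, V i → V (i + d) → 1 ≤ d → d * M i ≤ F (i + d))
    (hM : ∀ i d r, V i → V (i + d) → r ≤ d → r + 1 ≤ s (i + d) → F i + r * M i ≤ M (i + d))
    (hFM : ∀ i, V i → F i ≤ M i) (i : ℕ) :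
    ∀ (A : Finset α) (g₀ : S), Ph S A = i →
      ((∀ x ∈ A, fx S A ((g₀ : Equiv.Perm α) x)) → (dcl S A g₀).ncard ≤ F i) ∧
      ((∃ a, ∀ x ∈ A, (g₀ : Equiv.Perm α) x ∈ insert a A) → (dcl S A g₀).ncard ≤ M i) := by
  classical
  induction i using Nat.strong_induction_on with
  | _ i ih =>
  have hFp : ∀ (A : Finset α) (g₀ : S), Ph S A = i →
      (∀ x ∈ A, fx S A ((g₀ : Equiv.Perm α) x)) → (dcl S A g₀).ncard ≤ F i := by
    intro A₀ g₀ hi₀ hfx
    set A : Finset α := Finset.univ.filter (fx S A₀) with hA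
    have hmem : ∀ x, x ∈ A ↔ fx S A₀ x := fun x => by simp [hA]
    have hsub : A₀ ⊆ A := fun x hx => (hmem x).2 (fx_mem S hx)
    have horb : orb S A = orb S A₀ := orb_congr S hsub fun x hx => (hmem x).1 hx
    have hi : Ph S A = i := by rw [← hi₀, Ph, Ph, horb]
    have hcl : ∀ x ∈ A, (g₀ : Equiv.Perm α) x ∈ A := by
      intro x hx
      rw [hmem] at hx ⊢
      intro h hh hA₀
      have := hx ((g₀ : Equiv.Perm α)⁻¹ * h * g₀) (S.mul_mem (S.mul_mem (S.inv_mem g₀.2) hh) g₀.2)
        (fun a ha => by simp [hfx a ha h hh hA₀])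
      rw [Equiv.Perm.mul_apply, Equiv.Perm.mul_apply, Equiv.Perm.inv_eq_iff_eq] at this
      exact this
    have hd : dcl S A₀ g₀ ⊆ dcl S A g₀ := by
      rintro c ⟨g, hg, hd, rfl⟩
      refine ⟨g, fun x hx => ?_, fun x hx => hd x fun h => hx (hsub h), rfl⟩
      have := (hmem x).1 hx ((g₀ : Equiv.Perm α)⁻¹ * g) (S.mul_mem (S.inv_mem g₀.2) g.2)
        (fun a ha => by simp [hg a ha])
      rw [Equiv.Perm.mul_apply, Equiv.Perm.inv_eq_iff_eq] at this
      exact this
    refine le_trans (Set.ncard_le_ncard hd (Set.toFinite _)) ?_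
    by_cases hall : ∀ x, x ∈ A
    · have : dcl S A g₀ ⊆ {ConjClasses.mk g₀} := by
        rintro c ⟨g, hg, -, rfl⟩
        have : g = g₀ := Subtype.ext (Equiv.ext fun x => hg x (hall x))
        simp [this]
      refine le_trans (Set.ncard_le_ncard this (Set.finite_singleton _)) ?_
      rw [Set.ncard_singleton]; exact h1 i
    obtain ⟨a, haA⟩ := not_forall.1 hall
    have hn : ¬ fx S A a := fun hf => haA ((hmem a).2 fun h hh hA₀ =>
      hf h hh fun b hb => (hmem b).1 hb h hh hA₀)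
    obtain ⟨B, hB⟩ : ∃ B, B = insert a A := ⟨_, rfl⟩
    have ha : ∀ x ∈ A, (g₀ : Equiv.Perm α) x ∈ B := fun x hx => by
      rw [hB]; exact Finset.mem_insert_of_mem (hcl x hx)
    obtain ⟨a₁, R, h11, h12, hlt, hR, -, hc⟩ := cnt S A g₀ a haA B hB ha hn
    have him : A.image (g₀ : Equiv.Perm α) = A := by
      apply Finset.eq_of_subset_of_card_le
      · intro y hy
        obtain ⟨x, hx, rfl⟩ := Finset.mem_image.1 hy
        exact hcl x hx
      · rw [Finset.card_image_of_injective _ (g₀ : Equiv.Perm α).injective]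
    have e1 : a₁ = a := by
      rw [him] at h12
      rw [hB] at h11
      exact (Finset.mem_insert.1 h11).resolve_right h12
    have hle := orb_le S B
    have hP : Ph S B + (orb S B - orb S A) = i := by rw [← hi]; unfold Ph; omega
    have hst := step S A g₀ a haA B hB ha (fun _ => M (Ph S B)) (R.erase (Quotient.mk _ a₁)) (by
      intro g₁ hg₁ hne
      refine ⟨Finset.mem_erase.2 ⟨fun e => hne ?_, hR _ (agree_mem S A g₀ g₁ a hg₁)⟩, ?_⟩
      · rw [← e1] at e ⊢
        exact fx_eq S (fx_mem S h11) (Quotient.exact e.symm)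
      · refine (ih _ (by omega) B g₁ rfl).2 ⟨(g₁ : Equiv.Perm α) a, fun x hx => ?_⟩
        rcases Finset.mem_insert.1 (hB ▸ hx) with rfl | hx'
        · exact Finset.mem_insert_self _ _
        · rw [hg₁ x hx']; exact Finset.mem_insert_of_mem (ha x hx'))
    rw [Finset.sum_const, smul_eq_mul] at hst
    have := hF (Ph S B) (orb S B - orb S A) (hV B) (by rw [hP, ← hi]; exact hV A) (by omega)
    rw [hP] at this
    exact le_trans hst (le_trans (Nat.mul_le_mul_right _ (by omega)) this)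
  intro A g₀ hi
  refine ⟨hFp A g₀ hi, ?_⟩
  rintro ⟨a, ha'⟩
  have hVi : V i := by rw [← hi]; exact hV A
  by_cases hn : fx S A a
  · refine le_trans (hFp A g₀ hi fun x hx => ?_) (hFM i hVi)
    rcases Finset.mem_insert.1 (ha' x hx) with e | e
    · rw [e]; exact hn
    · exact fx_mem S e
  have haA : a ∉ A := fun h => hn (fx_mem S h)
  obtain ⟨B, hB⟩ : ∃ B, B = insert a A := ⟨_, rfl⟩
  have ha : ∀ x ∈ A, (g₀ : Equiv.Perm α) x ∈ B := fun x hx => by rw [hB]; exact ha' x hx
  obtain ⟨a₁, R, h11, h12, hlt, hR, hsz, hc⟩ := cnt S A g₀ a haA B hB ha hn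
  have hle := orb_le S B
  have hP : Ph S B + (orb S B - orb S A) = i := by rw [← hi]; unfold Ph; omega
  have hst := step S A g₀ a haA B hB ha
    (fun ω => if ω = Quotient.mk _ a₁ then F (Ph S B) else M (Ph S B)) R (by
      intro g₁ hg₁ hne
      refine ⟨hR _ (agree_mem S A g₀ g₁ a hg₁), ?_⟩
      have hih := ih _ (by omega) B g₁ rfl
      split_ifs with e
      · refine hih.1 fun x hx => fx_mem S ?_
        rcases Finset.mem_insert.1 (hB ▸ hx) with rfl | hx'
        · rw [fx_eq S (fx_mem S h11) (Quotient.exact e.symm)]; exact h11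
        · rw [hg₁ x hx']; exact ha x hx'
      · refine hih.2 ⟨(g₁ : Equiv.Perm α) a, fun x hx => ?_⟩
        rcases Finset.mem_insert.1 (hB ▸ hx) with rfl | hx'
        · exact Finset.mem_insert_self _ _
        · rw [hg₁ x hx']; exact Finset.mem_insert_of_mem (ha x hx'))
  have hsum : ∑ ω ∈ R.erase (Quotient.mk _ a₁),
      (if ω = Quotient.mk _ a₁ then F (Ph S B) else M (Ph S B)) =
      (R.erase (Quotient.mk _ a₁)).card * M (Ph S B) := by
    rw [Finset.sum_congr rfl (fun ω hω => if_neg (Finset.mem_erase.1 hω).1), Finset.sum_const,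
      smul_eq_mul]
  by_cases hm : Quotient.mk (st S B) a₁ ∈ R
  · rw [← Finset.add_sum_erase _ _ hm, hsum, if_pos rfl] at hst
    have h3 := Finset.card_erase_of_mem hm
    have h4 := Finset.card_pos.2 ⟨_, hm⟩
    have h5 := hs A a
    rw [hi] at h5
    have := hM (Ph S B) (orb S B - orb S A) (R.erase (Quotient.mk _ a₁)).card (hV B)
      (by rw [hP]; exact hVi) (by omega) (by rw [hP]; omega)
    rw [hP] at this
    exact le_trans hst this
  · rw [← Finset.erase_eq_of_notMem hm, hsum] at hst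
    have := hF (Ph S B) (orb S B - orb S A) (hV B) (by rw [hP]; exact hVi) (by omega)
    rw [hP] at this
    exact le_trans hst (le_trans (Nat.mul_le_mul_right _ (by omega)) (le_trans this (hFM i hVi)))

/-- refinement for an orbit of size two. -/
theorem dp2 (F M : ℕ → ℕ) (hmono : Monotone F) (hT : ∀ i, M i ≤ 2 * F i)
    (H : ∀ (A : Finset α) (g₀ : S),
      ((∀ x ∈ A, fx S A ((g₀ : Equiv.Perm α) x)) → (dcl S A g₀).ncard ≤ F (Ph S A)) ∧
      ((∃ a, ∀ x ∈ A, (g₀ : Equiv.Perm α) x ∈ insert a A) → (dcl S A g₀).ncard ≤ M (Ph S A)))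
    (A : Finset α) (g₀ : S) (a : α) (ha' : ∀ x ∈ A, (g₀ : Equiv.Perm α) x ∈ insert a A)
    (h2 : (oc S A a).ncard = 2) : (dcl S A g₀).ncard ≤ 2 * F (Ph S A - 1) := by
  classical
  have hn : ¬ fx S A a := by
    intro hf
    have : oc S A a ⊆ {a} := fun y hy => fx_eq S hf hy
    have := Set.ncard_le_ncard this (Set.finite_singleton _)
    rw [Set.ncard_singleton] at this
    omega
  have haA : a ∉ A := fun h => hn (fx_mem S h)
  obtain ⟨B, hB⟩ : ∃ B, B = insert a A := ⟨_, rfl⟩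
  have ha : ∀ x ∈ A, (g₀ : Equiv.Perm α) x ∈ B := fun x hx => by rw [hB]; exact ha' x hx
  obtain ⟨a₁, R, h11, h12, hlt, hR, hsz, hc⟩ := cnt S A g₀ a haA B hB ha hn
  have hP : Ph S B ≤ Ph S A - 1 := by unfold Ph; omega
  have hC := oc_image S A g₀.2 a
  rw [h2] at hC
  by_cases hall : ∀ y ∈ oc S (A.image (g₀ : Equiv.Perm α)) ((g₀ : Equiv.Perm α) a), fx S B y
  · have hst := step S A g₀ a haA B hB ha (fun _ => F (Ph S B)) R (by
      intro g₁ hg₁ hne
      refine ⟨hR _ (agree_mem S A g₀ g₁ a hg₁), (H B g₁).1 fun x hx => ?_⟩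
      rcases Finset.mem_insert.1 (hB ▸ hx) with rfl | hx'
      · exact hall _ (agree_mem S A g₀ g₁ x hg₁)
      · rw [hg₁ x hx']; exact fx_mem S (ha x hx'))
    rw [Finset.sum_const, smul_eq_mul] at hst
    exact le_trans hst (Nat.mul_le_mul (by omega) (hmono hP))
  · simp only [fx, not_forall] at hall
    obtain ⟨y, hy, h, hh, hhB, hne⟩ := hall
    have hy' : h y ∈ oc S (A.image (g₀ : Equiv.Perm α)) ((g₀ : Equiv.Perm α) a) := by
      refine (st S _).trans hy ⟨h, hh, fun b hb => ?_, rfl⟩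
      obtain ⟨x, hx, rfl⟩ := Finset.mem_image.1 hb
      exact hhB _ (ha x hx)
    have hpair : ({h y, y} : Set α) = oc S (A.image (g₀ : Equiv.Perm α)) ((g₀ : Equiv.Perm α) a) := by
      refine Set.eq_of_subset_of_ncard_le ?_ (by rw [hC, Set.ncard_pair hne]) (Set.toFinite _)
      rintro z (rfl | rfl)
      · exact hy'
      · exact hy
    have hst := step S A g₀ a haA B hB ha (fun _ => M (Ph S B)) {Quotient.mk _ y} (by
      intro g₁ hg₁ hne
      refine ⟨?_, (H B g₁).2 ⟨(g₁ : Equiv.Perm α) a, fun x hx => ?_⟩⟩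
      · have := agree_mem S A g₀ g₁ a hg₁
        rw [← hpair] at this
        rw [Finset.mem_singleton]
        rcases this with e | e
        · rw [e]; exact (Quotient.sound (s := st S B) ⟨h, hh, hhB, rfl⟩).symm
        · rw [e]
      · rcases Finset.mem_insert.1 (hB ▸ hx) with rfl | hx'
        · exact Finset.mem_insert_self _ _
        · rw [hg₁ x hx']; exact Finset.mem_insert_of_mem (ha x hx'))
    rw [Finset.sum_singleton] at hst
    exact le_trans hst (le_trans (hT _) (Nat.mul_le_mul_left _ (hmono hP)))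

end Cfsg.Agent.Max.KC
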