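import Mathlib

/-! Numerical bounds for the number of conjugacy classes of permutation groups. -/

set_option autoImplicit false

namespace Cfsg.Agent.Max.KC

/-- first majorant -/
def M1 : ℕ → ℕ
  | 0 => 1
  | 1 => 2
  | 2 => 3
  | (i + 3) => 2 * M1 i + M1 (i + 2)

/-- increments of the first majorant -/
def F1 : ℕ → ℕ
  | 0 => 1
  | 1 => 1
  | (i + 2) => 2 * M1 i

/-- second majorant -/
def M2 : ℕ → ℕ
  | 0 => 1
  | 1 => 1
  | 2 => 2
  | 3 => 4
  | 4 => 7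
  | (i + 5) => 2 * M2 (i + 2) + M2 (i + 4)

/-- increments of the second majorant -/
def F2 : ℕ → ℕ
  | 0 => 1
  | 1 => 1
  | 2 => 2
  | 3 => 3
  | (i + 4) => 2 * M2 (i + 2)

/-- a sequence with the three-step recursion -/
theorem rec3 {M : ℕ → ℕ} (h : ∀ i, M (i + 3) = 2 * M i + M (i + 2))
    (h0 : ∀ i < 3, 3 * M i ≤ 2 * M (i + 1) ∧ M (i + 1) ≤ 2 * M i) :
    (∀ i, 3 * M i ≤ 2 * M (i + 1) ∧ M (i + 1) ≤ 2 * M i) ∧ ∀ i j, (j + 2) * M i ≤ 2 * M (i + j) := by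
  have key : ∀ i, 3 * M i ≤ 2 * M (i + 1) ∧ M (i + 1) ≤ 2 * M i := fun i => by
    induction i using Nat.strong_induction_on with | h i ih => ?_
    by_cases c : i < 3
    · exact h0 i c
    obtain ⟨j, rfl⟩ : ∃ j, i = j + 3 := ⟨i - 3, by omega⟩
    have h1 := ih j (by omega)
    have h2 := ih (j + 2) (by omega)
    have h3 := h j
    have h4 : M (j + 3 + 1) = 2 * M (j + 1) + M (j + 3) := h (j + 1)
    have h5 : M (j + 2 + 1) = M (j + 3) := rfl
    omega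
  refine ⟨key, fun i j => ?_⟩
  induction j with
  | zero => simp
  | succ j ih =>
    have := (key (i + j)).1
    rw [← add_assoc]
    nlinarith [Nat.zero_le (j * M i)]

theorem sq3 {M : ℕ → ℕ} {a : ℕ} {N : ℕ} (h : ∀ i, M (i + 3) = 2 * M i + M (i + 2))
    (h0 : ∀ i < 3, a * M i ^ 2 ≤ N * 3 ^ i) (i : ℕ) : a * M i ^ 2 ≤ N * 3 ^ i := by
  induction i using Nat.strong_induction_on with | h i ih => ?_
  by_cases c : i < 3
  · exact h0 i c
  obtain ⟨j, rfl⟩ : ∃ j, i = j + 3 := ⟨i - 3, by omega⟩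
  have h1 := ih j (by omega)
  have h2 := ih (j + 2) (by omega)
  rw [h, pow_add 3]
  rw [pow_add 3] at h2
  zify at h1 h2 ⊢
  nlinarith [mul_nonneg (Int.natCast_nonneg a) (sq_nonneg (3 * (M j : ℤ) - M (j + 2))),
    mul_nonneg (Int.natCast_nonneg a) (sq_nonneg (M j : ℤ))]

theorem r1 : (∀ i, 3 * M1 i ≤ 2 * M1 (i + 1) ∧ M1 (i + 1) ≤ 2 * M1 i) ∧
    ∀ i j, (j + 2) * M1 i ≤ 2 * M1 (i + j) := rec3 (fun _ => rfl) (by decide)

theorem r2 : (∀ i, 3 * M2 (i + 2) ≤ 2 * M2 (i + 1 + 2) ∧ M2 (i + 1 + 2) ≤ 2 * M2 (i + 2)) ∧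
    ∀ i j, (j + 2) * M2 (i + 2) ≤ 2 * M2 (i + j + 2) :=
  rec3 (M := fun i => M2 (i + 2)) (fun _ => rfl) (by decide)

theorem s1 (i : ℕ) : M1 (i + 2) ^ 2 ≤ 9 * 3 ^ i := by
  simpa using sq3 (M := fun i => M1 (i + 2)) (a := 1) (N := 9) (fun _ => rfl) (by decide) i

theorem s2 (i : ℕ) : 2 * M2 (i + 5) ^ 2 ≤ 243 * 3 ^ i :=
  sq3 (M := fun i => M2 (i + 5)) (fun _ => rfl) (by decide) i

theorem M1_succ : ∀ i, M1 (i + 1) = F1 i + M1 i
  | 0 => rfl
  | 1 => rfl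
  | _ + 2 => rfl

theorem M2_succ : ∀ i, M2 (i + 3) = F2 (i + 2) + M2 (i + 2)
  | 0 => rfl
  | 1 => rfl
  | _ + 2 => rfl

variable {i d n k D : ℕ}

theorem c1F (hd : 1 ≤ d) : d * M1 i ≤ F1 (i + d) := by
  obtain rfl | ⟨e, rfl⟩ : d = 1 ∨ ∃ e, d = e + 2 := by
    by_cases h : d = 1
    exacts [.inl h, .inr ⟨d - 2, by omega⟩]
  · rw [one_mul]
    cases i with
    | zero => exact le_rfl
    | succ i => exact (r1.1 i).2
  · exact r1.2 i e

theorem c1M : F1 i + d * M1 i ≤ M1 (i + d) := by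
  induction d with
  | zero =>
    rcases i with _ | _ | i
    · decide
    · decide
    · have := r1.1 i
      have := r1.1 (i + 1)
      change 2 * M1 i + 0 * _ ≤ M1 (i + 1 + 1)
      omega
  | succ d ih =>
    rw [← add_assoc, M1_succ]
    cases d with
    | zero => simp
    | succ d => nlinarith [c1F (i := i) (d := d + 1) (by omega), Nat.zero_le (d * M1 i)]

theorem c1T : M1 i ≤ 2 * F1 i := by
  rcases i with _ | _ | i
  · decide
  · decide
  · have := r1.1 i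
    have := r1.1 (i + 1)
    change M1 (i + 1 + 1) ≤ 2 * (2 * M1 i)
    omega

theorem F1_mono : Monotone F1 := monotone_nat_of_le_succ fun i => by
  rcases i with _ | _ | i
  · decide
  · decide
  · have := r1.1 i
    change 2 * M1 i ≤ 2 * M1 (i + 1)
    omega

theorem F2_mono : Monotone F2 := monotone_nat_of_le_succ fun i => by
  rcases i with _ | _ | _ | _ | i
  · decide
  · decide
  · decide
  · decide
  · have := r2.1 i
    change 2 * M2 (i + 2) ≤ 2 * M2 (i + 1 + 2)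
    omega

theorem c2F (h : i ≠ 1) (h' : i + d ≠ 1) (hd : 1 ≤ d) : d * M2 i ≤ F2 (i + d) := by
  rcases i with _ | _ | i
  · rcases d with _ | _ | _ | _ | e
    · omega
    · omega
    · decide
    · decide
    · have := r2.2 0 e
      rw [zero_add] at this ⊢
      change (e + 2) * 2 ≤ 2 * M2 (0 + e + 2) at this
      change (e + 4) * 1 ≤ 2 * M2 (e + 2)
      rw [zero_add] at this
      omega
  · omega
  · rcases d with _ | _ | e
    · omega
    · rw [zero_add, one_mul]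
      cases i with
      | zero => decide
      | succ i => exact (r2.1 i).2
    · rw [show i + 1 + 1 + (e + 1 + 1) = i + e + 4 by omega]
      exact r2.2 i e

theorem c2M (h : i ≠ 1) (h' : i + d ≠ 1) (h2 : ¬ (i = 0 ∧ d = 2)) : F2 i + d * M2 i ≤ M2 (i + d) := by
  rcases i with _ | _ | i
  · rcases d with _ | _ | _ | e
    · decide
    · omega
    · omega
    · have := r2.2 1 e
      change (e + 2) * 4 ≤ _ at this
      rw [show 1 + e + 2 = 0 + (e + 1 + 1 + 1) by omega] at this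
      change 1 + (e + 3) * 1 ≤ _
      omega
  · omega
  clear h h' h2
  induction d with
  | zero =>
    rcases i with _ | _ | i
    · decide
    · decide
    · have := r2.1 i
      have := r2.1 (i + 1)
      change 2 * M2 (i + 2) + 0 * _ ≤ M2 (i + 1 + 1 + 2)
      omega
  | succ d ih =>
    rw [show i + 1 + 1 + (d + 1) = i + d + 3 by omega, M2_succ,
      show i + d + 2 = i + 1 + 1 + d by omega]
    cases d with
    | zero => simp
    | succ d =>
      nlinarith [c2F (i := i + 1 + 1) (d := d + 1) (by omega) (by omega) (by omega),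
        Nat.zero_le (d * M2 (i + 1 + 1))]

theorem n1 (hn : 5 ≤ n) (hk : k ^ 2 ≤ 3 ^ (n - 3)) (hD : D ≤ F1 (n - 1)) :
    (k + D) ^ 2 ≤ 3 ^ (n - 1) := by
  obtain ⟨j, rfl⟩ : ∃ j, n = j + 5 := ⟨n - 5, by omega⟩
  change k ^ 2 ≤ 3 ^ (j + 2) at hk
  change D ≤ 2 * M1 (j + 2) at hD
  change _ ≤ 3 ^ (j + 4)
  refine (Nat.pow_le_pow_left (Nat.add_le_add_left hD k) 2).trans ?_
  have := s1 j
  rw [pow_add 3] at hk ⊢
  zify at hk this ⊢
  nlinarith [sq_nonneg ((k : ℤ) - M1 (j + 2))]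

theorem n2 (hn : 5 ≤ n) (hk : k ^ 2 ≤ 4 * (if n - 3 = 2 then 4 else 3 ^ (n - 3 - 1)))
    (hD : D ≤ 2 * F1 (n - 4) + M1 (n - 3)) : (k + D) ^ 2 ≤ 3 ^ (n - 1) := by
  refine (Nat.pow_le_pow_left (Nat.add_le_add_left hD k) 2).trans ?_
  clear hD
  by_cases c : n < 8
  · have : k ≤ 10 := by
      by_contra h
      have := Nat.pow_le_pow_left (show 11 ≤ k by omega) 2
      interval_cases n <;> simp at hk <;> omega
    interval_cases n <;> interval_cases k <;> revert hk <;> decide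
  obtain ⟨j, rfl⟩ : ∃ j, n = j + 8 := ⟨n - 8, by omega⟩
  rw [if_neg (by omega)] at hk
  change k ^ 2 ≤ 4 * 3 ^ (j + 4) at hk
  change (k + (2 * (2 * M1 (j + 2)) + (2 * M1 (j + 2) + M1 (j + 2 + 2)))) ^ 2 ≤ 3 ^ (j + 7)
  have h1 := s1 j
  have h2 := s1 (j + 2)
  rw [pow_add 3] at hk h2 ⊢
  zify at hk h1 h2 ⊢
  nlinarith [sq_nonneg ((k : ℤ) - 6 * M1 (j + 2)), sq_nonneg ((k : ℤ) - 2 * M1 (j + 2 + 2)),
    sq_nonneg (3 * (M1 (j + 2) : ℤ) - M1 (j + 2 + 2))]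

theorem n3 (hn : 4 ≤ n) (h6 : n ≠ 6) (hk : k ^ 2 ≤ 3 ^ (n - 2)) (hD : D ≤ M2 (n - 2)) :
    (k + D) ^ 2 ≤ 3 ^ (n - 1) := by
  refine (Nat.pow_le_pow_left (Nat.add_le_add_left hD k) 2).trans ?_
  clear hD
  by_cases c : n < 6
  · have : k ≤ 5 := by
      by_contra h
      have := Nat.pow_le_pow_left (show 6 ≤ k by omega) 2
      interval_cases n <;> simp at hk <;> omega
    interval_cases n <;> interval_cases k <;> revert hk <;> decide
  obtain ⟨j, rfl⟩ : ∃ j, n = j + 7 := ⟨n - 7, by omega⟩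
  change k ^ 2 ≤ 3 ^ (j + 5) at hk
  change (k + M2 (j + 5)) ^ 2 ≤ 3 ^ (j + 6)
  have h1 := s2 j
  rw [pow_add 3] at hk ⊢
  zify at hk h1 ⊢
  nlinarith [sq_nonneg (2 * (k : ℤ) - 3 * M2 (j + 5))]

end Cfsg.Agent.Max.KC
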