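import Mathlib
import Cfsg.Agent.Max.KC3
import Cfsg.Agent.Max.KCn

set_option autoImplicit false

namespace Cfsg.Agent.Max.KC

variable {α : Type*} [Fintype α] [DecidableEq α] (S : Subgroup (Equiv.Perm α))

theorem oc_le (A : Finset α) (x : α) : (oc S A x).ncard ≤ Fintype.card α := by
  rw [← Nat.card_eq_fintype_card, ← Set.ncard_univ]
  exact Set.ncard_le_ncard (Set.subset_univ _) (Set.toFinite _)

theorem dpA (A : Finset α) (g₀ : S) :
    ((∀ x ∈ A, fx S A ((g₀ : Equiv.Perm α) x)) → (dcl S A g₀).ncard ≤ F1 (Ph S A)) ∧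
    ((∃ a, ∀ x ∈ A, (g₀ : Equiv.Perm α) x ∈ insert a A) → (dcl S A g₀).ncard ≤ M1 (Ph S A)) :=
  dp S F1 M1 (fun _ => Fintype.card α) (fun _ => True) (fun _ => trivial) (oc_le S)
    (fun i => F1_mono (Nat.zero_le i)) (fun i d _ _ hd => c1F hd)
    (fun i d r _ _ hr _ => le_trans (Nat.add_le_add_left (Nat.mul_le_mul_right _ hr) _) c1M)
    (fun i _ => by simpa using c1M (i := i) (d := 0)) _ A g₀ rfl

theorem orb_add_le (A L : Finset α) (h : ∀ x ∈ L, ∃ y, y ∉ L ∧ st S A x y) :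
    L.card ≤ Ph S A := by
  have h1 : orb S A ≤ Nat.card (Lᶜ : Finset α) := by
    refine Nat.card_le_card_of_surjective (fun y => Quotient.mk (st S A) y.1) ?_
    intro q
    obtain ⟨x, rfl⟩ := Quotient.mk_surjective q
    by_cases hx : x ∈ L
    · obtain ⟨y, hy, e⟩ := h x hx
      exact ⟨⟨y, Finset.mem_compl.2 hy⟩, (Quotient.sound e).symm⟩
    · exact ⟨⟨x, Finset.mem_compl.2 hx⟩, rfl⟩
  rw [Nat.card_eq_fintype_card, Fintype.card_coe, Finset.card_compl] at h1
  have := Finset.card_le_univ L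
  unfold Ph
  omega

theorem orb_ge (A L : Finset α) (h : ∀ x ∈ L, ∀ y ∈ L, st S A x y → x = y) :
    L.card ≤ orb S A := by
  rw [← Fintype.card_coe, ← Nat.card_eq_fintype_card]
  refine Nat.card_le_card_of_injective (fun y : L => Quotient.mk (st S A) y.1) ?_
  intro x y e
  exact Subtype.ext (h _ x.2 _ y.2 (Quotient.exact e))

theorem exists_supp {g : Equiv.Perm α} (hg : 4 ≤ g.support.card) (x y w : α) :
    ∃ z, g z ≠ z ∧ z ≠ x ∧ z ≠ y ∧ z ≠ w := by
  obtain ⟨z, hz, hz'⟩ : ∃ z ∈ g.support, z ∉ ({x, y, w} : Finset α) :=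
    Finset.exists_mem_notMem_of_card_lt_card (lt_of_le_of_lt Finset.card_le_three (by omega))
  simp only [Finset.mem_insert, Finset.mem_singleton, not_or] at hz'
  exact ⟨z, Equiv.Perm.mem_support.1 hz, hz'.1, hz'.2.1, hz'.2.2⟩

theorem mu_V (hμ : ∀ g ∈ S, g ≠ 1 → 4 ≤ g.support.card) (A : Finset α) : Ph S A ≠ 1 := by
  by_cases h : ∀ x, fx S A x
  · have := orb_ge S A Finset.univ fun x _ y _ e => (fx_eq S (h x) e).symm
    rw [Finset.card_univ] at this
    unfold Ph; omega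
  · simp only [fx, not_forall] at h
    obtain ⟨x, g, hg, hA, hx⟩ := h
    obtain ⟨z, hz, h1, h2, h3⟩ := exists_supp (hμ g hg (by rintro rfl; exact hx rfl)) x (g x) (g⁻¹ x)
    have := orb_add_le S A {x, z} (by
      intro y hy
      rcases Finset.mem_insert.1 hy with rfl | hy
      · exact ⟨g y, by simp [hx, h2.symm], g, hg, hA, rfl⟩
      · rw [Finset.mem_singleton.1 hy]
        refine ⟨g z, ?_, g, hg, hA, rfl⟩
        simp only [Finset.mem_insert, Finset.mem_singleton, not_or]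
        exact ⟨fun e => h3 (by rw [← e]; simp), hz⟩)
    rw [Finset.card_pair h1.symm] at this
    omega

theorem mu_s (hμ : ∀ g ∈ S, g ≠ 1 → 4 ≤ g.support.card) (A : Finset α) (a : α)
    (h2 : Ph S A = 2) : (oc S A a).ncard ≤ 2 := by
  by_contra hlt
  obtain ⟨x, hx, y, hy, w, hw, hxy, hxw, hyw⟩ := (Set.two_lt_ncard (Set.toFinite _)).1 (not_le.1 hlt)
  have exy : st S A y x := (st S A).trans ((st S A).symm hy) hx
  have ewx : st S A w x := (st S A).trans ((st S A).symm hw) hx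
  obtain ⟨g, hg, hA, e⟩ := exy
  obtain ⟨z, hz, h1, h3, h4⟩ := exists_supp (hμ g hg (by rintro rfl; exact hxy e.symm)) x y w
  have hxL : x ∉ ({y, w, z} : Finset α) := by simp [hxy, hxw, h1.symm]
  have := orb_add_le S A {y, w, z} (by
    intro u hu
    simp only [Finset.mem_insert, Finset.mem_singleton] at hu
    rcases hu with rfl | rfl | rfl
    · exact ⟨x, hxL, g, hg, hA, e⟩
    · exact ⟨x, hxL, ewx⟩
    · have hu : st S A u (g u) := ⟨g, hg, hA, rfl⟩
      by_cases c1 : g u = y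
      · exact ⟨x, hxL, (st S A).trans (c1 ▸ hu) ⟨g, hg, hA, e⟩⟩
      by_cases c2 : g u = w
      · exact ⟨x, hxL, (st S A).trans (c2 ▸ hu) ewx⟩
      exact ⟨g u, by simp [c1, c2, hz], hu⟩)
  rw [Finset.card_eq_three.2 ⟨y, w, z, hyw, h3.symm, h4.symm, rfl⟩] at this
  omega

theorem dpB (hμ : ∀ g ∈ S, g ≠ 1 → 4 ≤ g.support.card) (A : Finset α) (g₀ : S) :
    ((∀ x ∈ A, fx S A ((g₀ : Equiv.Perm α) x)) → (dcl S A g₀).ncard ≤ F2 (Ph S A)) ∧
    ((∃ a, ∀ x ∈ A, (g₀ : Equiv.Perm α) x ∈ insert a A) → (dcl S A g₀).ncard ≤ M2 (Ph S A)) :=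
  dp S F2 M2 (fun i => if i = 2 then 2 else Fintype.card α) (fun i => i ≠ 1) (mu_V S hμ)
    (fun A x => by
      split_ifs with h
      · exact mu_s S hμ A x h
      · exact oc_le S A x)
    (fun i => F2_mono (Nat.zero_le i)) (fun i d h h' hd => c2F h h' hd)
    (fun i d r h h' hr hs => by
      by_cases c : i = 0 ∧ d = 2
      · obtain ⟨rfl, rfl⟩ := c
        simp only [zero_add, if_true] at hs
        change 1 + r * 1 ≤ 2
        omega
      · exact le_trans (Nat.add_le_add_left (Nat.mul_le_mul_right _ hr) _) (c2M h h' c))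
    (fun i h => by simpa using c2M (i := i) (d := 0) h h (by omega)) _ A g₀ rfl

theorem cover (A : Finset α) (b : α) (B : Finset α) (hB : B = insert b A)
    (htr : ∀ x, x ∉ A → st S A x b) :
    (cl S A 1).ncard ≤ (cl S B 1).ncard + (dcl S A 1).ncard := by
  refine le_trans (Set.ncard_le_ncard ?_ (Set.toFinite _)) (Set.ncard_union_le _ _)
  rintro c ⟨g, hg, rfl⟩
  by_cases hd : ∀ x, x ∉ A → (g : Equiv.Perm α) x ≠ x
  · exact Or.inr ⟨g, hg, hd, rfl⟩
  · simp only [not_forall, not_not] at hd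
    obtain ⟨x, hx, hgx⟩ := hd
    obtain ⟨h, hh, hA, e⟩ := htr x hx
    refine Or.inl ⟨⟨h, hh⟩ * g * ⟨h, hh⟩⁻¹, ?_, ?_⟩
    · intro y hy
      change h ((g : Equiv.Perm α) (h⁻¹ y)) = y
      rcases Finset.mem_insert.1 (hB ▸ hy) with rfl | hy'
      · rw [← e]; simp [hgx]
      · have h1 : h⁻¹ y = y := by rw [Equiv.Perm.inv_eq_iff_eq]; exact (hA y hy').symm
        have h2 : (g : Equiv.Perm α) y = y := hg y hy'
        rw [h1, h2, hA y hy']
    · rw [ConjClasses.mk_eq_mk_iff_isConj]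
      exact (isConj_iff.2 ⟨(⟨h, hh⟩ : S), rfl⟩ : IsConj g _).symm

theorem cl_empty : (cl S ∅ 1).ncard = Nat.card (ConjClasses S) := by
  rw [← Set.ncard_univ]
  congr 1
  ext c
  simp only [Set.mem_univ, iff_true]
  obtain ⟨g, rfl⟩ := ConjClasses.mk_surjective c
  exact ⟨g, by simp, rfl⟩

theorem cl_stab (a : α) : (cl S {a} 1).ncard ≤
    Nat.card (ConjClasses (S ⊓ MulAction.stabilizer (Equiv.Perm α) a : Subgroup (Equiv.Perm α))) := by
  rw [← Set.ncard_univ]
  refine le_trans (Set.ncard_le_ncard ?_ (Set.toFinite _))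
    (Set.ncard_image_le (f := ConjClasses.map (Subgroup.inclusion inf_le_left)) (Set.toFinite _))
  rintro c ⟨g, hg, rfl⟩
  exact ⟨ConjClasses.mk ⟨g, g.2, hg a (Finset.mem_singleton_self a)⟩, trivial, rfl⟩

theorem M1_mono : Monotone M1 := monotone_nat_of_le_succ fun i => by
  rw [M1_succ]; omega

theorem M2_mono : Monotone M2 := monotone_nat_of_le_succ fun i => by
  rcases i with _ | _ | i
  · decide
  · decide
  · change M2 (i + 2) ≤ M2 (i + 3)
    rw [M2_succ]; omega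

end Cfsg.Agent.Max.KC
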