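import Mathlib
import Cfsg.Agent.H23.ClsSn

/-! Class numbers of the symmetric and alternating groups of degree 3 to 6. -/

set_option autoImplicit false

namespace Cfsg.Agent.Max.KC

open Equiv

theorem ka_le {G H : Type*} [Group G] [Group H] [Finite G] (f : G →* H) (hf : Function.Surjective f) :
    Nat.card (ConjClasses H) ≤ Nat.card (ConjClasses G) :=
  Nat.card_le_card_of_surjective _ (ConjClasses.map_surjective hf)

theorem ka_four : Nat.card (ConjClasses (alternatingGroup (Fin 4))) ≤ 4 := by
  have key : ∀ g : Perm (Fin 4), Perm.sign g = 1 → ∃ i : Fin 4, ∃ c : Perm (Fin 4), Perm.sign c = 1 ∧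
      c * (![1, swap 0 1 * swap 2 3, swap 0 1 * swap 1 2, swap 1 2 * swap 0 1] i : Perm (Fin 4)) * c⁻¹ = g := by
    decide +kernel
  have h2 : ∀ i : Fin 4, (![1, swap 0 1 * swap 2 3, swap 0 1 * swap 1 2, swap 1 2 * swap 0 1] i : Perm (Fin 4)) ∈
      alternatingGroup (Fin 4) := by
    simp only [Perm.mem_alternatingGroup]
    decide +kernel
  refine (Nat.card_le_card_of_surjective (fun i : Fin 4 => ConjClasses.mk (⟨_, h2 i⟩ : alternatingGroup (Fin 4)))
    fun x => ?_).trans (by simp)
  obtain ⟨g, rfl⟩ := ConjClasses.mk_surjective x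
  obtain ⟨i, c, h, e⟩ := key g g.2
  exact ⟨i, ConjClasses.mk_eq_mk_iff_isConj.2 (isConj_iff.2 ⟨⟨c, h⟩, Subtype.ext e⟩)⟩

theorem ka_three : Nat.card (ConjClasses (alternatingGroup (Fin 3))) ≤ 3 := by
  refine (Nat.card_le_card_of_surjective _ ConjClasses.mk_surjective).trans ?_
  have := two_mul_nat_card_alternatingGroup (α := Fin 3)
  rw [Nat.card_perm, Nat.card_fin] at this
  change _ = 6 at this
  omega

theorem alt_small {α : Type*} [Fintype α] [DecidableEq α] (S : Subgroup (Equiv.Perm α))
    (h : alternatingGroup α ≤ S) (h3 : 3 ≤ Fintype.card α) (h6 : Fintype.card α ≤ 6) :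
    Nat.card (ConjClasses S) ^ 2 ≤ 3 ^ (Fintype.card α - 1) := by
  have e := (Fintype.equivFin α).symm
  generalize Fintype.card α = n at *
  have m0 := H23.ClsSn.M_small (n := 0) (by omega)
  have m1 := H23.ClsSn.M_small (n := 1) (by omega)
  have m2 := H23.ClsSn.M_rec 0
  have m3 := H23.ClsSn.M_rec 1
  have m4 := H23.ClsSn.M_rec 2
  have m5 := H23.ClsSn.M_rec 3
  have m6 := H23.ClsSn.M_rec 4
  have h5 := fun h => H23.ClsSn.lt_main (n := n) h
  have a3 := ka_three
  have a4 := ka_four
  have key : Nat.card (ConjClasses S) ≤ (H23.ClsSn.M n).ncard ∨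
      Nat.card (ConjClasses S) ≤ Nat.card (ConjClasses (alternatingGroup (Fin n))) := by
    by_cases hS : S = ⊤
    · subst hS
      exact Or.inl (H23.ClsSn.card_M n ▸ ka_le (e.permCongrHom.trans Subgroup.topEquiv.symm).toMonoidHom
        (MulEquiv.surjective _))
    · have : Nontrivial α := e.symm.nontrivial_congr.2 (Fin.nontrivial_iff_two_le.2 (by omega))
      have h1 := Subgroup.index_dvd_of_le h
      rw [alternatingGroup.index_eq_two, Nat.dvd_prime Nat.prime_two, Subgroup.index_eq_one] at h1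
      rw [Perm.eq_alternatingGroup_of_index_eq_two (h1.resolve_left hS)]
      exact Or.inr (ka_le e.altCongrHom.toMonoidHom (MulEquiv.surjective _))
  generalize Nat.card (ConjClasses S) = k at *
  norm_num at m2 m3 m4 m5 m6
  interval_cases n
  · exact (Nat.pow_le_pow_left (show k ≤ 3 by omega) 2).trans (by norm_num)
  · exact (Nat.pow_le_pow_left (show k ≤ 5 by omega) 2).trans (by norm_num)
  · have := h5 le_rfl
    exact (Nat.pow_le_pow_left (show k ≤ 8 by omega) 2).trans (by norm_num)
  · have := h5 (by omega)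
    exact (Nat.pow_le_pow_left (show k ≤ 13 by omega) 2).trans (by norm_num)

end Cfsg.Agent.Max.KC
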