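import Mathlib

/-! Doubly transitive groups containing an element of small support. -/

set_option autoImplicit false

namespace Cfsg.Agent.Max.KC

open Equiv Equiv.Perm MulAction

variable {α : Type*} [Fintype α] [DecidableEq α] (S : Subgroup (Equiv.Perm α))

theorem alt_le (p : ℕ) (hp : p = 3 ∨ p = 5 ∨ p = 7) (hcop : ¬ p ∣ Nat.card S) (h3 : 3 ≤ Fintype.card α)
    (h2 : ∀ x y z w : α, x ≠ y → z ≠ w → ∃ g ∈ S, g x = z ∧ g y = w) {g : Equiv.Perm α} (hg : g ∈ S)
    (g1 : g ≠ 1) (hs : g.support.card ≤ 3) : alternatingGroup α ≤ S ∧ Fintype.card α ≤ 6 := by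
  have hP : IsPreprimitive S α := isPreprimitive_of_is_two_pretransitive (is_two_pretransitive_iff.2
    fun {a b c d} h h' => let ⟨g, hg, e⟩ := h2 a b c d h h'; ⟨⟨g, hg⟩, e⟩)
  have hA : alternatingGroup α ≤ S := by
    have h1 := two_le_card_support_of_ne_one g1
    rcases (by omega : g.support.card = 2 ∨ g.support.card = 3) with e | e
    · rw [subgroup_eq_top_of_isPreprimitive_of_isSwap_mem hP g (card_support_eq_two.1 e) hg]
      exact le_top
    · exact alternatingGroup_le_of_isPreprimitive_of_isThreeCycle_mem hP (card_support_eq_three_iff.1 e) hg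
  refine ⟨hA, ?_⟩
  by_contra h7
  have : Nontrivial α := Fintype.one_lt_card_iff_nontrivial.1 (by omega)
  have h4 : 2 * Nat.card (alternatingGroup α) = (Fintype.card α).factorial := by
    rw [two_mul_nat_card_alternatingGroup, Nat.card_perm, Nat.card_eq_fintype_card]
  have h5 : p ∣ 2 * Nat.card (alternatingGroup α) := h4 ▸ Nat.dvd_factorial (by omega) (by omega)
  exact hcop (((show Nat.Coprime p 2 by rcases hp with rfl | rfl | rfl <;> norm_num).dvd_of_dvd_mul_left h5).trans
    (Subgroup.card_dvd_of_le hA))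

end Cfsg.Agent.Max.KC
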