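import Mathlib
import Cfsg.Agent.S4201

/-! Class numbers of intransitive permutation groups. -/

set_option autoImplicit false

namespace Cfsg.Agent.Max.KC

universe u

/-- the bound for the square of the class number -/
def hh (n : ℕ) : ℕ := if n = 2 then 4 else 3 ^ (n - 1)

theorem kc_congr {A B : Type*} [Group A] [Group B] (e : A ≃* B) :
    Nat.card (ConjClasses A) = Nat.card (ConjClasses B) :=
  Nat.card_congr ⟨ConjClasses.map e.toMonoidHom, ConjClasses.map e.symm.toMonoidHom,
    fun x => by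
      obtain ⟨a, rfl⟩ := ConjClasses.mk_surjective x
      exact congrArg ConjClasses.mk (e.symm_apply_apply a),
    fun x => by
      obtain ⟨a, rfl⟩ := ConjClasses.mk_surjective x
      exact congrArg ConjClasses.mk (e.apply_symm_apply a)⟩

/-- restriction of a permutation group to an invariant set -/
def kcRes {α : Type u} [Fintype α] [DecidableEq α] (S : Subgroup (Equiv.Perm α)) (D : Finset α)
    (iD : ∀ g ∈ S, ∀ x ∈ D, g x ∈ D) : S →* Equiv.Perm D where
  toFun g := g.1.subtypePerm fun x => ⟨fun h => by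
    simpa using iD _ (S.inv_mem g.2) _ h, iD _ g.2 x⟩
  map_one' := Equiv.ext fun _ => rfl
  map_mul' _ _ := Equiv.ext fun _ => rfl

theorem kcRes_ker {α : Type u} [Fintype α] [DecidableEq α] {S : Subgroup (Equiv.Perm α)}
    {D : Finset α} {iD : ∀ g ∈ S, ∀ x ∈ D, g x ∈ D} {g : S} (h : kcRes S D iD g = 1) {x : α}
    (hx : x ∈ D) : g.1 x = x :=
  congrArg Subtype.val (Equiv.congr_fun h ⟨x, hx⟩)

theorem split {α : Type u} [Fintype α] [DecidableEq α] (p n : ℕ)
    (IH : ∀ (β : Type u) [Fintype β] [DecidableEq β] (T : Subgroup (Equiv.Perm β)),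
      Fintype.card β < n → ¬ p ∣ Nat.card T →
        Nat.card (ConjClasses T) ^ 2 ≤ hh (Fintype.card β))
    (S : Subgroup (Equiv.Perm α)) (hS : ¬ p ∣ Nat.card S) (D E : Finset α) (hD : D.card < n)
    (hE : E.card < n) (iD : ∀ g ∈ S, ∀ x ∈ D, g x ∈ D) (iE : ∀ g ∈ S, ∀ x ∈ E, g x ∈ E)
    (hfix : ∀ g ∈ S, ∀ x, x ∉ D → x ∉ E → g x = x) :
    Nat.card (ConjClasses S) ^ 2 ≤ hh D.card * hh E.card := by
  let φ := kcRes S D iD
  let ψ := (kcRes S E iE).comp φ.ker.subtype
  have hψ : Function.Injective ψ := (injective_iff_map_eq_one ψ).2 fun g hg =>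
    Subtype.ext (Subtype.ext (Equiv.ext fun x => by
      by_cases h1 : x ∈ D
      · exact kcRes_ker (iD := iD) g.2 h1
      by_cases h2 : x ∈ E
      · exact kcRes_ker (iD := iE) hg h2
      · exact hfix _ g.1.2 x h1 h2))
  have h1 := IH D φ.range (by simpa using hD) fun h => hS (h.trans (Subgroup.card_range_dvd φ))
  have h2 := IH E ψ.range (by simpa using hE) fun h => hS ((h.trans (Subgroup.card_range_dvd ψ)).trans
    (Subgroup.card_subgroup_dvd_card _))
  rw [Fintype.card_coe] at h1 h2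
  have h3 := S4201.result φ.ker
  rw [kc_congr (QuotientGroup.quotientKerEquivRange φ), kc_congr (MonoidHom.ofInjective hψ)] at h3
  calc _ ≤ (Nat.card (ConjClasses ψ.range) * Nat.card (ConjClasses φ.range)) ^ 2 :=
        Nat.pow_le_pow_left h3 2
    _ ≤ _ := by rw [mul_pow, mul_comm]; exact Nat.mul_le_mul h1 h2

end Cfsg.Agent.Max.KC
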