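import Mathlib
import Cfsg.Agent.Max.KC4
import Cfsg.Agent.Max.KCa
import Cfsg.Agent.Max.KCb
import Cfsg.Agent.Max.KCc

set_option autoImplicit false

universe u

namespace Cfsg.Agent.Max.KC

variable {α : Type u} [Fintype α] [DecidableEq α] (S : Subgroup (Equiv.Perm α))

/-- induction hypothesis. -/
def IHp (p n : ℕ) : Prop := ∀ (β : Type u) [Fintype β] [DecidableEq β] (T : Subgroup (Equiv.Perm β)),
  Fintype.card β < n → ¬ p ∣ Nat.card T → Nat.card (ConjClasses T) ^ 2 ≤ hh (Fintype.card β)

open Classical in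
/-- suborbit as a finset. -/
noncomputable def Ob (A : Finset α) (x : α) : Finset α := Finset.univ.filter fun y => st S A x y

theorem mem_Ob {A : Finset α} {x y : α} : y ∈ Ob S A x ↔ st S A x y := by simp [Ob]

theorem oc_Ob (A : Finset α) (x : α) : (oc S A x).ncard = (Ob S A x).card := by
  rw [← Set.ncard_coe_finset]; congr 1; ext y; simp [mem_Ob, oc]

theorem st_a {a x : α} (h : st S {a} x a) : x = a :=
  fx_eq S (fx_mem S (Finset.mem_singleton_self a)) ((st S {a}).symm h)

theorem stab_split {p n : ℕ} (hn : Fintype.card α = n) (IH : IHp.{u} p n) (hS : ¬ p ∣ Nat.card S)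
    (a : α) (D : Finset α) (haD : a ∉ D) (inv : ∀ x ∈ D, ∀ y, st S {a} x y → y ∈ D) :
    (cl S {a} 1).ncard ^ 2 ≤ hh D.card * hh (n - 1 - D.card) := by
  have hc : (insert a D)ᶜ.card = n - 1 - D.card := by
    rw [Finset.card_compl, Finset.card_insert_of_notMem haD, hn]; omega
  have hD : D.card + 1 ≤ n := by
    rw [← Finset.card_insert_of_notMem haD, ← hn]; exact Finset.card_le_univ _
  refine le_trans (Nat.pow_le_pow_left (cl_stab S a) 2) ?_
  rw [← hc]
  refine split p n IH _ (fun h => hS (h.trans (Subgroup.card_dvd_of_le inf_le_left))) D _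
    (by omega) (by omega) ?_ ?_ ?_
  · intro g hg x hx
    exact inv x hx _ ⟨g, hg.1, fun b hb => by rw [Finset.mem_singleton.1 hb]; exact hg.2, rfl⟩
  · intro g hg x hx
    have hs : st S {a} x (g x) :=
      ⟨g, hg.1, fun b hb => by rw [Finset.mem_singleton.1 hb]; exact hg.2, rfl⟩
    simp only [Finset.mem_compl, Finset.mem_insert, not_or] at hx ⊢
    exact ⟨fun e => hx.1 (st_a S (e ▸ hs)), fun e => hx.2 (inv _ e _ ((st S {a}).symm hs))⟩
  · intro g hg x h1 h2
    simp only [Finset.mem_compl, Finset.mem_insert, not_not] at h2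
    rw [h2.resolve_right h1]; exact hg.2

theorem top (a : α) (htr : ∀ x, st S ∅ x a) :
    Nat.card (ConjClasses S) ≤ (cl S {a} 1).ncard + (dcl S ∅ 1).ncard := by
  rw [← cl_empty]
  exact cover S ∅ a {a} (by simp) fun x _ => htr x

theorem der_le {n : ℕ} (hn : Fintype.card α = n) (a : α) : (dcl S ∅ 1).ncard ≤ F1 (n - 1) := by
  refine le_trans ((dpA S ∅ 1).1 (by simp)) (F1_mono ?_)
  have := orb_ge S ∅ {a} (by simp)
  rw [Finset.card_singleton] at this
  unfold Ph; omega

theorem good {p n : ℕ} (hn : Fintype.card α = n) (IH : IHp.{u} p n) (hS : ¬ p ∣ Nat.card S)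
    (a : α) (htr : ∀ x, st S ∅ x a) (D : Finset α) (haD : a ∉ D)
    (inv : ∀ x ∈ D, ∀ y, st S {a} x y → y ∈ D) (h1 : 1 ≤ D.card) (h2 : D.card + 2 ≤ n)
    (h3 : D.card ≠ 2) (h4 : n - 1 - D.card ≠ 2) : Nat.card (ConjClasses S) ^ 2 ≤ 3 ^ (n - 1) := by
  have e1 := stab_split S hn IH hS a D haD inv
  rw [hh, hh, if_neg h3, if_neg h4, ← pow_add,
    show D.card - 1 + (n - 1 - D.card - 1) = n - 3 by omega] at e1
  have e2 := der_le S hn a
  refine le_trans (Nat.pow_le_pow_left (top S a htr) 2) ?_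
  by_cases h5 : 5 ≤ n
  · exact n1 h5 e1 e2
  · obtain rfl : n = 3 := by omega
    change _ ≤ 2 at e2
    change _ ≤ 1 at e1
    change _ ≤ 3 ^ 2
    exact Nat.pow_le_pow_left (by nlinarith) 2

theorem Ob_inv (A : Finset α) (b : α) : ∀ x ∈ Ob S A b, ∀ y, st S A x y → y ∈ Ob S A b :=
  fun _ hx _ h => (mem_Ob S).2 ((st S A).trans ((mem_Ob S).1 hx) h)

theorem case2 {p n : ℕ} (hn : Fintype.card α = n) (IH : IHp.{u} p n) (hS : ¬ p ∣ Nat.card S)
    (a : α) (htr : ∀ x, st S ∅ x a) (b c : α) (hb : b ≠ a) (hc : c ≠ a) (hbc : ¬ st S {a} b c)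
    (hcov : ∀ x, x ≠ a → st S {a} b x ∨ st S {a} c x) (h2 : (Ob S {a} b).card = 2) :
    Nat.card (ConjClasses S) ^ 2 ≤ 3 ^ (n - 1) := by
  classical
  have hab : a ∉ Ob S {a} b := fun h => hb (st_a S ((mem_Ob S).1 h))
  have e1 := stab_split S hn IH hS a _ hab (Ob_inv S _ b)
  have h4 : 4 ≤ n := by
    have h1 : c ∉ insert a (Ob S {a} b) := by simp [hc, mem_Ob, hbc]
    have := Finset.card_le_univ (insert c (insert a (Ob S {a} b)))
    rw [Finset.card_insert_of_notMem h1, Finset.card_insert_of_notMem hab] at this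
    omega
  have hP : Ph S {a} ≤ n - 3 := by
    have := orb_ge S {a} {a, b, c} (by
      intro x hx y hy e
      simp only [Finset.mem_insert, Finset.mem_singleton] at hx hy
      rcases hx with rfl | rfl | rfl <;> rcases hy with rfl | rfl | rfl <;>
        first | rfl | exact st_a S e | exact (st_a S ((st S _).symm e)).symm | exact absurd e hbc |
          exact absurd ((st S _).symm e) hbc)
    rw [Finset.card_eq_three.2 ⟨a, b, c, hb.symm, hc.symm, by rintro rfl; exact hbc ((st S _).refl _),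
      rfl⟩] at this
    unfold Ph; omega
  have hne : Quotient.mk (st S {a}) b ≠ Quotient.mk _ c := fun e => hbc (Quotient.exact e)
  have e2 := step S ∅ 1 a (by simp) {a} (by simp) (by simp)
    (fun ω => if ω = Quotient.mk _ b then 2 * F1 (n - 4) else if n = 4 then 1 else M1 (n - 3))
    {Quotient.mk _ b, Quotient.mk _ c} (by
      intro g _ hg
      refine ⟨?_, ?_⟩
      · rcases hcov _ hg with e | e
        · rw [← Quotient.sound e]; simp
        · rw [← Quotient.sound e]; simp
      · split_ifs with e e4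
        · refine le_trans (dp2 S F1 M1 F1_mono (fun i => c1T) (dpA S) {a} g ((g : Equiv.Perm α) a)
            (by simp) ?_) (Nat.mul_le_mul_left _ (F1_mono (by omega)))
          rw [← h2, ← oc_Ob]
          congr 1
          ext y
          have e' : st S {a} ((g : Equiv.Perm α) a) b := Quotient.exact e
          exact ⟨fun h => (st S _).trans ((st S _).symm e') h, fun h => (st S _).trans e' h⟩
        · refine le_trans ((dpA S {a} g).1 ?_) (F1_mono (show _ ≤ 1 by omega))
          intro x hx h hh' ha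
          rw [Finset.mem_singleton.1 hx]
          have hs : st S {a} ((g : Equiv.Perm α) a) (h ((g : Equiv.Perm α) a)) := ⟨h, hh', ha, rfl⟩
          have hcard : (insert a (Ob S {a} b))ᶜ.card ≤ 1 := by
            rw [Finset.card_compl, Finset.card_insert_of_notMem hab]; omega
          refine Finset.card_le_one.1 hcard _ ?_ _ ?_
          · simp only [Finset.mem_compl, Finset.mem_insert, not_or, mem_Ob]
            exact ⟨fun e' => hg (st_a S (by rw [e'] at hs; exact hs)),
              fun e' => e (Quotient.sound ((st S _).trans e' ((st S _).symm hs))).symm⟩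
          · simp only [Finset.mem_compl, Finset.mem_insert, not_or, mem_Ob]
            exact ⟨hg, fun e' => e (Quotient.sound e').symm⟩
        · exact le_trans ((dpA S {a} g).2 ⟨(g : Equiv.Perm α) a, by simp⟩) (M1_mono hP))
  rw [Finset.sum_pair hne, if_pos rfl, if_neg hne.symm] at e2
  refine le_trans (Nat.pow_le_pow_left (top S a htr) 2) ?_
  rw [h2] at e1
  by_cases h5 : n = 4
  · rw [h5] at e1 e2 ⊢
    change _ ≤ 3 at e2
    change _ ≤ 4 at e1
    refine le_trans (Nat.pow_le_pow_left (show _ ≤ 5 by nlinarith) 2) (by norm_num)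
  · rw [if_neg h5] at e2
    exact n2 (by omega) e1 e2

theorem case1 {p n : ℕ} (hp : p = 3 ∨ p = 5 ∨ p = 7) (h3 : 3 ≤ n) (hn : Fintype.card α = n)
    (IH : IHp.{u} p n) (hS : ¬ p ∣ Nat.card S)
    (a : α) (htr : ∀ x, st S ∅ x a) (b : α) (hb : b ≠ a) (hcov : ∀ x, x ≠ a → st S {a} b x) :
    Nat.card (ConjClasses S) ^ 2 ≤ 3 ^ (n - 1) := by
  classical
  by_cases hμ : ∀ g ∈ S, g ≠ 1 → 4 ≤ g.support.card
  swap
  · simp only [not_forall, not_le] at hμ
    obtain ⟨g, hg, g1, hs⟩ := hμ
    have := alt_le S p hp hS (by omega) (by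
      intro x y z w hxy hzw
      obtain ⟨g1, hg1, -, e1⟩ := htr x
      obtain ⟨g2, hg2, -, e2⟩ := htr z
      have h1 : g1 y ≠ a := fun e => hxy (g1.injective (e1.trans e.symm))
      have h2 : g2 w ≠ a := fun e => hzw (g2.injective (e2.trans e.symm))
      obtain ⟨h, hh', ha, e⟩ := (st S _).trans ((st S _).symm (hcov _ h1)) (hcov _ h2)
      refine ⟨g2⁻¹ * h * g1, S.mul_mem (S.mul_mem (S.inv_mem hg2) hh') hg1, ?_, by simp [e]⟩
      rw [Equiv.Perm.mul_apply, Equiv.Perm.mul_apply, e1, ha a (by simp), ← e2]; simp) hg g1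
      (by omega)
    rw [← hn]
    exact alt_small S this.1 (by omega) this.2
  have h4 : 4 ≤ n := by
    obtain ⟨g, hg, -, e⟩ := htr b
    have := hμ g hg (by rintro rfl; exact hb e)
    have := Finset.card_le_univ g.support
    omega
  have hP : Ph S {a} ≤ n - 2 := by
    have := orb_ge S {a} {a, b} (by
      intro x hx y hy e
      simp only [Finset.mem_insert, Finset.mem_singleton] at hx hy
      rcases hx with rfl | rfl <;> rcases hy with rfl | rfl <;>
        first | rfl | exact st_a S e | exact (st_a S ((st S _).symm e)).symm)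
    rw [Finset.card_pair hb.symm] at this
    unfold Ph; omega
  have e2 := step S ∅ 1 a (by simp) {a} (by simp) (by simp) (fun _ => M2 (n - 2))
    {Quotient.mk _ b} (by
      intro g _ hg
      refine ⟨by rw [← Quotient.sound (hcov _ hg)]; simp, ?_⟩
      exact le_trans ((dpB S hμ {a} g).2 ⟨(g : Equiv.Perm α) a, by simp⟩) (M2_mono hP))
  rw [Finset.sum_singleton] at e2
  refine le_trans (Nat.pow_le_pow_left (top S a htr) 2) ?_
  by_cases h6 : n = 6
  · have c1 := cover S {a} b {b, a} rfl fun x hx => (st S _).symm (hcov x (by simpa using hx))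
    have c2 : (dcl S {a} 1).ncard ≤ F2 4 :=
      le_trans ((dpB S hμ {a} 1).1 fun x hx => fx_mem S hx) (F2_mono (by omega))
    have hba : ({b, a} : Finset α).card = 2 := Finset.card_pair hb
    obtain ⟨c, -, hc⟩ : ∃ c ∈ Finset.univ, c ∉ ({b, a} : Finset α) :=
      Finset.exists_mem_notMem_of_card_lt_card (by rw [hba, Finset.card_univ]; omega)
    have hP2 : Ph S {b, a} ≤ 3 := by
      have := orb_ge S {b, a} (insert c {b, a}) (by
        intro x hx y hy e
        rcases Finset.mem_insert.1 hx with rfl | hx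
        · rcases Finset.mem_insert.1 hy with rfl | hy
          · rfl
          · exact fx_eq S (fx_mem S hy) ((st S _).symm e)
        · exact (fx_eq S (fx_mem S hx) e).symm)
      rw [Finset.card_insert_of_notMem hc, hba] at this
      unfold Ph; omega
    have c3 : (dcl S {b, a} 1).ncard ≤ F2 3 :=
      le_trans ((dpB S hμ {b, a} 1).1 fun x hx => fx_mem S hx) (F2_mono hP2)
    have c4 : cl S {b, a} 1 ⊆ insert (ConjClasses.mk 1) (dcl S {b, a} 1) := by
      rintro _ ⟨g, hg, rfl⟩
      by_cases hd : ∀ x, x ∉ ({b, a} : Finset α) → (g : Equiv.Perm α) x ≠ x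
      · exact Or.inr ⟨g, hg, hd, rfl⟩
      · simp only [not_forall, not_not] at hd
        obtain ⟨x, hx, hgx⟩ := hd
        have hsub : (g : Equiv.Perm α).support ⊆ (insert x {b, a})ᶜ := by
          intro y hy
          rw [Finset.mem_compl]
          intro hy'
          refine Equiv.Perm.mem_support.1 hy ?_
          rcases Finset.mem_insert.1 hy' with rfl | hy'
          · exact hgx
          · exact hg y hy'
        have h5 := Finset.card_le_card hsub
        rw [Finset.card_compl, Finset.card_insert_of_notMem hx, hba] at h5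
        have : g = 1 := by
          by_contra h1
          have := hμ g g.2 fun e => h1 (Subtype.ext e)
          omega
        exact Or.inl (by rw [this])
    have c5 := le_trans (Set.ncard_le_ncard c4 (Set.toFinite _)) (Set.ncard_insert_le _ _)
    rw [h6] at e2 ⊢
    change _ ≤ 7 at e2
    change _ ≤ 4 at c2
    change _ ≤ 3 at c3
    exact le_trans (Nat.pow_le_pow_left (show _ ≤ 15 by omega) 2) (by norm_num)
  · have e1 := stab_split S hn IH hS a {a}ᶜ (by simp) (fun x hx y e => by
      simp only [Finset.mem_compl, Finset.mem_singleton] at hx ⊢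
      rintro rfl; exact hx (st_a S e))
    rw [Finset.card_compl, Finset.card_singleton, hn, Nat.sub_self, hh, if_neg (by omega)] at e1
    exact n3 h4 h6 (by simpa [hh, Nat.sub_sub] using e1) e2

theorem trans_case {p n : ℕ} (hp : p = 3 ∨ p = 5 ∨ p = 7) (h3 : 3 ≤ n) (hn : Fintype.card α = n)
    (IH : IHp.{u} p n) (hS : ¬ p ∣ Nat.card S) (a : α) (htr : ∀ x, st S ∅ x a) :
    Nat.card (ConjClasses S) ^ 2 ≤ 3 ^ (n - 1) := by
  classical
  obtain ⟨b, hb⟩ := Fintype.exists_ne_of_one_lt_card (α := α) (by omega) a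
  by_cases h1 : ∀ x, x ≠ a → st S {a} b x
  · exact case1 S hp h3 hn IH hS a htr b hb h1
  simp only [not_forall] at h1
  obtain ⟨c, hc, hbc⟩ := h1
  have hna : ∀ x, x ≠ a → a ∉ Ob S {a} x := fun x hx h => hx (st_a S ((mem_Ob S).1 h))
  have hpos : ∀ x, 1 ≤ (Ob S {a} x).card := fun x =>
    Finset.card_pos.2 ⟨x, (mem_Ob S).2 ((st S _).refl x)⟩
  have hdis : ∀ x y, ¬ st S {a} x y → Disjoint (Ob S {a} x) (Ob S {a} y) := fun x y h =>
    Finset.disjoint_left.2 fun z h1 h2 =>
      h ((st S _).trans ((mem_Ob S).1 h1) ((st S _).symm ((mem_Ob S).1 h2)))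
  have hU : (Ob S {a} b ∪ Ob S {a} c).card = (Ob S {a} b).card + (Ob S {a} c).card :=
    Finset.card_union_of_disjoint (hdis b c hbc)
  have haU : a ∉ Ob S {a} b ∪ Ob S {a} c := by simp [hna b hb, hna c hc]
  have pb := hpos b
  have pc := hpos c
  by_cases h2 : ∀ x, x ≠ a → st S {a} b x ∨ st S {a} c x
  · have hsum : (Ob S {a} b).card + (Ob S {a} c).card + 1 = n := by
      rw [← hU, ← Finset.card_insert_of_notMem haU, ← hn, ← Finset.card_univ]
      congr 1
      ext x
      by_cases hx : x = a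
      · simp [hx]
      · simpa [hx, mem_Ob] using h2 x hx
    by_cases c1 : (Ob S {a} b).card = 2
    · exact case2 S hn IH hS a htr b c hb hc hbc h2 c1
    by_cases c2 : (Ob S {a} c).card = 2
    · exact case2 S hn IH hS a htr c b hc hb (fun e => hbc ((st S _).symm e))
        (fun x hx => (h2 x hx).symm) c2
    exact good S hn IH hS a htr _ (hna b hb) (Ob_inv S _ b) pb (by omega) c1 (by omega)
  simp only [not_forall, not_or] at h2
  obtain ⟨e, he, hbe, hce⟩ := h2
  have pe := hpos e
  have hsum : (Ob S {a} b).card + (Ob S {a} c).card + (Ob S {a} e).card + 1 ≤ n := by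
    rw [← hU, ← Finset.card_union_of_disjoint
      (Finset.disjoint_union_left.2 ⟨hdis b e hbe, hdis c e hce⟩),
      ← Finset.card_insert_of_notMem (a := a) (by simp [hna b hb, hna c hc, hna e he]), ← hn]
    exact Finset.card_le_univ _
  by_cases c47 : n = 4 ∨ n = 7
  · have o4 := orb_ge S {a} {a, b, c, e} (by
      intro x hx y hy h
      simp only [Finset.mem_insert, Finset.mem_singleton] at hx hy
      rcases hx with rfl | rfl | rfl | rfl <;> rcases hy with rfl | rfl | rfl | rfl <;>
        first | rfl | exact st_a S h | exact (st_a S ((st S _).symm h)).symm | exact absurd h hbc |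
          exact absurd ((st S _).symm h) hbc | exact absurd h hbe |
          exact absurd ((st S _).symm h) hbe | exact absurd h hce |
          exact absurd ((st S _).symm h) hce)
    have n1 : b ≠ c := by rintro rfl; exact hbc ((st S _).refl _)
    have n2 : b ≠ e := by rintro rfl; exact hbe ((st S _).refl _)
    have n3 : c ≠ e := by rintro rfl; exact hce ((st S _).refl _)
    rw [Finset.card_insert_of_notMem (by simp [Ne.symm hb, Ne.symm hc, Ne.symm he]),
      Finset.card_eq_three.2 ⟨b, c, e, n1, n2, n3, rfl⟩] at o4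
    have e1 := le_trans (cl_le S _ {a} 1 rfl ⟨a, by simp⟩)
      (Nat.pow_le_pow_right (show 0 < 2 by norm_num) (show _ ≤ n - 4 by omega))
    have e2 := der_le S hn a
    refine le_trans (Nat.pow_le_pow_left (top S a htr) 2) ?_
    rcases c47 with h | h
    · rw [h] at e1 e2 ⊢
      change _ ≤ 4 at e2
      change _ ≤ 1 at e1
      exact le_trans (Nat.pow_le_pow_left (show _ ≤ 5 by omega) 2) (by norm_num)
    · rw [h] at e1 e2 ⊢
      change _ ≤ 18 at e2
      change _ ≤ 8 at e1
      exact le_trans (Nat.pow_le_pow_left (show _ ≤ 26 by omega) 2) (by norm_num)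
  by_cases c1 : (Ob S {a} b).card ≠ 2 ∧ n - 1 - (Ob S {a} b).card ≠ 2
  · exact good S hn IH hS a htr _ (hna b hb) (Ob_inv S _ b) pb (by omega) c1.1 c1.2
  by_cases c2 : (Ob S {a} c).card ≠ 2 ∧ n - 1 - (Ob S {a} c).card ≠ 2
  · exact good S hn IH hS a htr _ (hna c hc) (Ob_inv S _ c) pc (by omega) c2.1 c2.2
  by_cases c3 : (Ob S {a} e).card ≠ 2 ∧ n - 1 - (Ob S {a} e).card ≠ 2
  · exact good S hn IH hS a htr _ (hna e he) (Ob_inv S _ e) pe (by omega) c3.1 c3.2
  refine good S hn IH hS a htr _ haU ?_ (by omega) (by omega) (by omega) (by omega)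
  intro x hx y h
  rcases Finset.mem_union.1 hx with hx | hx
  · exact Finset.mem_union_left _ (Ob_inv S _ b x hx y h)
  · exact Finset.mem_union_right _ (Ob_inv S _ c x hx y h)

theorem hh_mul {s t : ℕ} (hs : 1 ≤ s) (ht : 1 ≤ t) (h : 3 ≤ s + t) :
    hh s * hh t ≤ 3 ^ (s + t - 1) := by
  obtain ⟨s, rfl⟩ : ∃ s', s = s' + 1 := ⟨s - 1, by omega⟩
  obtain ⟨t, rfl⟩ : ∃ t', t = t' + 1 := ⟨t - 1, by omega⟩
  rw [show s + 1 + (t + 1) - 1 = s + t + 1 by omega, pow_succ, pow_add]
  have h1 : ∀ m, 3 * hh (m + 1) ≤ 4 * 3 ^ m := fun m => by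
    unfold hh
    split_ifs with e
    · obtain rfl : m = 1 := by omega
      norm_num
    · simp only [Nat.add_sub_cancel]; omega
  nlinarith [Nat.mul_le_mul (h1 s) (h1 t), Nat.zero_le (3 ^ s * 3 ^ t)]

theorem main {p : ℕ} (hp : p = 3 ∨ p = 5 ∨ p = 7) (n : ℕ) : IHp.{u} p n := by
  induction n with
  | zero => intro β _ _ T h; omega
  | succ n IH =>
    intro β _ _ T hβ hT
    by_cases hlt : Fintype.card β < n
    · exact IH β T hlt hT
    have hn : Fintype.card β = n := by omega
    by_cases h3 : n ≤ 2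
    · refine le_trans (Nat.pow_le_pow_left (card_le T) 2) ?_
      rw [hn]
      interval_cases n <;> simp [hh]
    rw [hn, hh, if_neg (by omega)]
    obtain ⟨a⟩ : Nonempty β := Fintype.card_pos_iff.1 (by omega)
    by_cases htr : ∀ x, st T ∅ x a
    · exact trans_case T hp (by omega) hn IH hT a htr
    obtain ⟨x, hx⟩ := not_forall.1 htr
    have h1 : 1 ≤ (Ob T ∅ x).card := Finset.card_pos.2 ⟨x, (mem_Ob T).2 ((st T _).refl x)⟩
    have h2 : 1 ≤ (Ob T ∅ x)ᶜ.card := Finset.card_pos.2 ⟨a, by simpa [mem_Ob] using hx⟩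
    have h4 : (Ob T ∅ x).card + (Ob T ∅ x)ᶜ.card = n := by rw [Finset.card_add_card_compl, hn]
    have := split p n IH T hT (Ob T ∅ x) (Ob T ∅ x)ᶜ (by omega) (by omega)
      (fun g hg y hy => Ob_inv T _ x y hy _ ⟨g, hg, by simp, rfl⟩)
      (fun g hg y hy => by
        rw [Finset.mem_compl] at hy ⊢
        exact fun h => hy (Ob_inv T _ x _ h _ ((st T ∅).symm ⟨g, hg, by simp, rfl⟩)))
      (fun g _ y h1 h2 => absurd (Finset.mem_compl.2 h1) h2)
    rw [← h4]
    exact le_trans this (hh_mul h1 h2 (by omega))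

end Cfsg.Agent.Max.KC
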