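import Mathlib
import Cfsg.Agent.Max.Om2

/-!
# Orthogonal decompositions of orthogonal spaces: blocks of dimension at least three
-/

set_option autoImplicit false

namespace Cfsg.Agent.Max

open Module QuadraticMap Orth

variable {F V : Type*} [Field F] [AddCommGroup V] [Module F V] {Q : QuadraticForm F V}
  {M : Subgroup (OG Q)}

theorem q_sum_orth {κ : Type*} (s : Finset κ) (f : κ → V)
    (h : ∀ i j, i ≠ j → polar Q (f i) (f j) = 0) : Q (∑ i ∈ s, f i) = ∑ i ∈ s, Q (f i) := by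
  classical
  induction s using Finset.induction_on with
  | empty => simp
  | insert a s ha ih =>
    rw [Finset.sum_insert ha, Finset.sum_insert ha, q_add, ih, p_sum_right,
      Finset.sum_eq_zero fun i hi => h a i (by rintro rfl; exact ha hi), add_zero]

theorem refl_mem_sub {W : Submodule F V} {a : V} (h : a ∈ W ∨ a ∈ perp Q W) {x : V} (hx : x ∈ W) :
    (refl Q a).1 x ∈ W := by
  rcases h with h | h
  · rw [refl_apply]
    exact W.sub_mem hx (W.smul_mem _ h)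
  · rwa [refl_apply_of_orth (mem_perp'.mp h x hx)]

theorem exists_sq_ne' [Finite F] (h : 4 ≤ Nat.card F) (y : F) : ∃ s : F, s ≠ 0 ∧ s ^ 2 ≠ y := by
  classical
  by_contra hc
  push Not at hc
  have := Fintype.ofFinite F
  have h1 : (Finset.univ : Finset F) ⊆ {0, 1, -1} := fun s _ => by
    by_cases hs : s = 0
    · simp [hs]
    · have := (hc s hs).trans (hc 1 one_ne_zero).symm
      rcases sq_eq_sq_iff_eq_or_eq_neg.mp this with e | e <;> simp [e]
  have := (Finset.card_le_card h1).trans Finset.card_le_three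
  rw [Finset.card_univ, ← Nat.card_eq_fintype_card] at this
  omega

theorem OE.of_refl {x y a : V} {g : OG Q} (hy : y ∈ OE M x) (hg : g ∈ M) (e : g.1 x = x)
    (e' : g.1 y = (refl Q a).1 y) (ha : Q a ≠ 0) (h : polar Q a y ≠ 0) : a ∈ OE M x := by
  have := (OE M x).sub_mem hy (OE.map_fix hy hg e)
  rw [e', refl_apply, sub_sub_cancel] at this
  exact ((OE M x).smul_mem_iff (mul_ne_zero (inv_ne_zero ha) h)).mp this

variable [FiniteDimensional F V] [Finite F]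

theorem exists_pair_Q {U : Submodule F V}
    (hU : (4 ≤ Nat.card F ∧ 2 ≤ finrank F U) ∨ 3 ≤ finrank F U) {w : V} (hw : w ∈ U)
    (h0 : Q w ≠ 0) : ∃ v ∈ U, Q v = Q w ∧ v ∉ F ∙ w := by
  by_contra hc
  push Not at hc
  have hs := Submodule.mem_span_singleton_self (R := F) w
  have k1 : ∀ v ∈ U, v ∉ F ∙ w → polar Q v w = 0 → Q v ≠ 0 := fun v hv h1 h2 h3 =>
    h1 (((F ∙ w).add_mem_iff_left hs).mp (hc _ (U.add_mem hv hw) (by simp [q_add, h2, h3])))
  have k2 : ∀ v ∈ U, v ∉ F ∙ w → polar Q v w ≠ 0 → Q v = 0 := fun v hv h1 h2 => by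
    by_contra h3
    have := hc _ (refl_mem_sub (Q := Q) (.inl hv) hw) (OG.map_Q _ _)
    rw [refl_apply, (F ∙ w).sub_mem_iff_right hs,
      Submodule.smul_mem_iff _ (mul_ne_zero (inv_ne_zero h3) h2)] at this
    exact h1 this
  have k3 : ∀ v, v ∉ F ∙ w → ∀ s : F, v + s • w ∉ F ∙ w := fun v h s e =>
    h (((F ∙ w).add_mem_iff_left (Submodule.smul_mem _ s hs)).mp e)
  have := finrank_span_one_le (F := F) w
  have e1 := finrank_le_inf_ker U (Q.polarBilin w)
  by_cases h2 : (2 : F) = 0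
  · have k4 : ∀ v ∈ U, v ∉ F ∙ w → polar Q v w ≠ 0 := fun v hv h1 h3 => by
      obtain ⟨s, hs⟩ := isSquare_of_two_eq_zero h2 (Q v / Q w)
      refine k1 _ (U.add_mem hv (U.smul_mem s hw)) (k3 v h1 s) (by simp [h3, h2]) ?_
      rw [q_add, q_smul, p_smul_right, h3, pow_two, ← hs, div_mul_cancel₀ _ h0]
      linear_combination Q v * h2
    rcases hU with ⟨h4, hU⟩ | hU
    · obtain ⟨v, hv, h1⟩ := exists_not_mem_of_finrank_lt (W := F ∙ w) (U := U) (by omega)
      have k5 : ∀ s : F, Q (v + s • w) = 0 := fun s => k2 _ (U.add_mem hv (U.smul_mem s hw))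
        (k3 v h1 s) (k4 _ (U.add_mem hv (U.smul_mem s hw)) (k3 v h1 s))
      obtain ⟨s, h5, h6⟩ := exists_sq_ne' h4 1
      have a0 := k5 0
      have a1 := k5 1
      have a2 := k5 s
      simp only [q_add, q_smul, p_smul_right] at a0 a1 a2
      have : s * (s - 1) * Q w = 0 := by linear_combination a2 - s * a1 + (s - 1) * a0
      simp only [mul_eq_zero, h5, h0, false_or, or_false, sub_eq_zero] at this
      simp [this] at h6
    · obtain ⟨v, hv, h1⟩ := exists_not_mem_of_finrank_lt (W := F ∙ w)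
        (U := U ⊓ LinearMap.ker (Q.polarBilin w)) (by omega)
      exact k4 v hv.1 h1 (polar_symm_zero hv.2)
  have k4 : ∀ v ∈ U ⊓ LinearMap.ker (Q.polarBilin w), v ≠ 0 → ∀ s : F, s ≠ 0 →
      Q v = -(s ^ 2 * Q w) := fun v hv hv0 s hs => by
    have h3 : polar Q v w = 0 := polar_symm_zero hv.2
    have h1 : v ∉ F ∙ w := fun e => by
      obtain ⟨t, rfl⟩ := Submodule.mem_span_singleton.mp e
      simp [h2, h0, show t ≠ 0 by rintro rfl; simp at hv0] at h3
    have := k2 _ (U.add_mem hv.1 (U.smul_mem s hw)) (k3 v h1 s) (by simp [h3, hs, h2, h0])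
    rw [q_add, q_smul, p_smul_right, h3] at this
    linear_combination this
  rcases hU with ⟨h4, hU⟩ | hU
  · obtain ⟨v, hv, h1⟩ := exists_not_mem_of_finrank_lt (W := ⊥)
      (U := U ⊓ LinearMap.ker (Q.polarBilin w)) (by rw [finrank_bot]; omega)
    obtain ⟨s, h5, h6⟩ := exists_sq_ne' h4 1
    have := (k4 v hv (by simpa using h1) s h5).symm.trans (k4 v hv (by simpa using h1) 1 one_ne_zero)
    exact h6 (by simpa [h0] using this)
  · obtain ⟨v, hv, h1⟩ := exists_not_mem_of_finrank_lt (W := ⊥)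
      (U := U ⊓ LinearMap.ker (Q.polarBilin w)) (by rw [finrank_bot]; omega)
    obtain ⟨u, hu, h3⟩ := exists_not_mem_of_finrank_lt (W := ⊥)
      (U := U ⊓ LinearMap.ker (Q.polarBilin w) ⊓ LinearMap.ker (Q.polarBilin v)) (by
        have := finrank_le_inf_ker (U ⊓ LinearMap.ker (Q.polarBilin w)) (Q.polarBilin v)
        rw [finrank_bot]
        omega)
    have a1 := k4 v hv (by simpa using h1) 1 one_ne_zero
    have a2 := k4 u hu.1 (by simpa using h3) 1 one_ne_zero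
    have a0 : polar Q v u = 0 := hu.2
    have a3 : Q (v + u) = Q v + Q u := by rw [q_add, a0, add_zero]
    by_cases h5 : v + u = 0
    · rw [h5, map_zero] at a3
      exact mul_ne_zero h2 h0 (by linear_combination a1 + a2 + a3)
    · exact h0 (by linear_combination a3 + a1 + a2 - k4 _ (add_mem hv hu.1) h5 1 one_ne_zero)

theorem NDS.three_card {W : Submodule F V} (h : NDS Q W) (h3 : finrank F W = 3) : (2 : F) ≠ 0 :=
  fun h2 => by
    obtain ⟨x, hx, hx0, hx1⟩ := exists_sing_mem Q W h3.ge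
    obtain ⟨f, -, -, -, U, -, h4, h5, -⟩ := h.exists_hyp hx hx0 hx1
    obtain ⟨u, hu, hu0⟩ := exists_not_mem_of_finrank_lt (W := ⊥) (U := U) (by simp; omega)
    refine hu0 (h4 u hu fun y hy => ?_)
    have : U = F ∙ u := (Submodule.eq_of_le_of_finrank_eq
      ((Submodule.span_singleton_le_iff_mem _ _).mpr hu) (by
        rw [finrank_span_singleton hu0]; omega)).symm
    obtain ⟨t, rfl⟩ := Submodule.mem_span_singleton.mp (this ▸ hy)
    simp [h2]

/-- The vectors of a given non-zero norm are connected under non-orthogonality. -/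
theorem NDS.conn {W : Submodule F V} (h : NDS Q W) (h3 : 3 ≤ finrank F W)
    (hex : 4 ≤ Nat.card F ∨ (4 ≤ finrank F W ∧ (Nat.card F = 2 → ∀ U ≤ W, Sing Q U →
      2 * finrank F U ≠ finrank F W ∨ finrank F W ≠ 4))) {α : F} (hα : α ≠ 0)
    {X Y : Submodule F V} (ho : ∀ x ∈ X, ∀ y ∈ Y, polar Q x y = 0)
    (hs : ∀ a ∈ W, Q a = α → a ∈ X ∨ a ∈ Y) : W ≤ X ∨ W ≤ Y := by
  have h1 : ∀ z ∈ W, ∃ x ∈ X ⊓ W, ∃ y ∈ Y ⊓ W, x + y = z := by
    obtain ⟨a, ha, ha'⟩ := h.exists_Q_eq (by omega) α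
    have := h.irr3 h3 (X := Submodule.span F {a | a ∈ W ∧ Q a = α})
      (Submodule.span_le.mpr fun _ h => h.1) (fun c hc e he h4 h5 x hx => by
        refine (Submodule.span_le (p := (Submodule.span F {a | a ∈ W ∧ Q a = α}).comap
          ((eich Q c e).1 : V →ₗ[F] V))).mpr (fun y hy => ?_) hx
        refine Submodule.subset_span ⟨?_, (OG.map_Q _ _).trans hy.2⟩
        change (eich Q c e).1 y ∈ W
        rw [eich_apply h4 h5]
        exact W.sub_mem (W.add_mem hy.1 (W.smul_mem _ hc)) (W.smul_mem _ he))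
      (Submodule.subset_span ⟨ha, ha'⟩) (ne_zero_of_Q_ne_zero (ha' ▸ hα))
    exact fun z hz => Submodule.mem_sup.mp (Submodule.span_le.mpr (fun a ha => by
      rcases hs a ha.1 ha.2 with e | e
      exacts [Submodule.mem_sup_left ⟨e, ha.1⟩, Submodule.mem_sup_right ⟨e, ha.1⟩]) (this hz))
  have h2 : ∀ x ∈ X ⊓ W, x ∈ Y → x = 0 := fun x hx hx' => h x hx.2 fun z hz => by
    obtain ⟨a, ha, b, hb, rfl⟩ := h1 z hz
    rw [polar_add_right, ho x hx.1 b hb.1, polar_comm, ho a ha.1 x hx', add_zero]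
  have h4 : ∀ x ∈ X ⊓ W, ∀ y ∈ Y ⊓ W, Q (x + y) = α → x = 0 ∨ y = 0 := fun x hx y hy e => by
    rcases hs _ (W.add_mem hx.2 hy.2) e with e | e
    · exact .inr (h2 y ⟨(X.add_mem_iff_right hx.1).mp e, hy.2⟩ hy.1)
    · exact .inl (h2 x hx ((Y.add_mem_iff_left hy.1).mp e))
  by_contra hc
  have h5 : ∃ z ∈ W, Q z = 0 ∧ z ∉ X ∧ z ∉ Y := by
    by_contra h5
    push Not at h5
    exact hc (h.sing_into h3 (fun x hx y hy _ _ => ho x hx y hy) fun a ha ha0 =>
      or_iff_not_imp_left.mpr (h5 a ha ha0))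
  obtain ⟨z, hz, hz0, hz1, hz2⟩ := h5
  obtain ⟨x, hx, y, hy, rfl⟩ := h1 z hz
  have hx0 : x ≠ 0 := by rintro rfl; exact hz2 (by simpa using hy.1)
  have hy0 : y ≠ 0 := by rintro rfl; exact hz1 (by simpa using hx.1)
  rcases hex with hex | ⟨hex, hex'⟩
  · have key : ∀ {X Y : Submodule F V}, (∀ x ∈ X, ∀ y ∈ Y, polar Q x y = 0) →
        (∀ z ∈ W, ∃ x ∈ X ⊓ W, ∃ y ∈ Y ⊓ W, x + y = z) → 2 ≤ finrank F ↥(X ⊓ W) →
        (∀ x ∈ X ⊓ W, ∀ y ∈ Y ⊓ W, Q (x + y) = α → x = 0 ∨ y = 0) → ∀ y ∈ Y ⊓ W, y = 0 :=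
      fun {X Y} ho h1 h3 h4 y hy => by
        have hX : NDS Q (X ⊓ W) := fun x hx e => h x hx.2 fun z hz => by
          obtain ⟨a, ha, b, hb, rfl⟩ := h1 z hz
          rw [polar_add_right, ho x hx.1 b hb.1, e a ha, add_zero]
        obtain ⟨s, h5, h6⟩ : ∃ s : F, s ≠ 0 ∧ s ^ 2 * Q y ≠ α := by
          obtain ⟨s, h5, h6⟩ := exists_sq_ne' hex (α / Q y)
          refine ⟨s, h5, fun e => ?_⟩
          by_cases h7 : Q y = 0
          · exact hα (by simpa [h7] using e.symm)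
          · exact h6 (by rw [← e, mul_div_cancel_right₀ _ h7])
        obtain ⟨x, hx, h7⟩ := hX.exists_Q_eq h3 (α - s ^ 2 * Q y)
        rcases h4 x hx (s • y) (Submodule.smul_mem _ s hy) (by
          rw [q_add, h7, q_smul, p_smul_right, ho x hx.1 y hy.1]; ring) with e | e
        · exact absurd (by rw [e, map_zero] at h7; linear_combination h7) h6
        · simpa [h5] using e
    have h6 := Submodule.finrank_mono (show W ≤ X ⊓ W ⊔ Y ⊓ W from fun z hz =>
      Submodule.mem_sup.mpr (h1 z hz))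
    have h7 := Submodule.finrank_add_le_finrank_add_finrank (X ⊓ W) (Y ⊓ W)
    by_cases h8 : 2 ≤ finrank F ↥(X ⊓ W)
    · exact hy0 (key ho h1 h8 h4 y hy)
    · exact hx0 (key (fun y hy x hx => polar_symm_zero (ho x hx y hy)) (fun z hz => by
        simpa only [add_comm] using (by
          obtain ⟨a, ha, b, hb, e⟩ := h1 z hz
          exact ⟨b, hb, a, ha, e⟩ : ∃ b ∈ Y ⊓ W, ∃ a ∈ X ⊓ W, a + b = z)) (by omega)
        (fun y hy x hx e => (h4 x hx y hy (add_comm x y ▸ e)).symm) x hx)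
  obtain ⟨f, -, -, hf, U, hU, h5, h6, h7⟩ := h.exists_hyp hz (by rintro e; exact hz1 (e ▸ X.zero_mem))
    hz0
  have key : ∀ a ∈ U, Q a = α → ∀ s : F, s ≠ 0 → a = -(s • x) ∨ a = -(s • y) :=
    fun a ha e s h8 => by
      have h9 : Q (a + s • (x + y)) = α := by
        rw [q_add, q_smul, hz0, p_smul_right, polar_symm_zero (h7 a ha).1, e]
        ring
      rcases hs a (hU ha) e with e | e
      · rw [smul_add, ← add_assoc] at h9
        exact .inl (eq_neg_of_add_eq_zero_left ((h4 _ (add_mem ⟨e, hU ha⟩ (Submodule.smul_mem _ s hx))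
          _ (Submodule.smul_mem _ s hy) h9).resolve_right (by simp [h8, hy0])))
      · rw [smul_add, add_left_comm] at h9
        exact .inr (eq_neg_of_add_eq_zero_left ((h4 _ (Submodule.smul_mem _ s hx) _
          (add_mem ⟨e, hU ha⟩ (Submodule.smul_mem _ s hy)) h9).resolve_left (by simp [h8, hx0])))
  have h8 : ∀ s t : F, s • x = t • y → s = 0 := fun s t e => by
    simpa [hx0] using h2 _ (Submodule.smul_mem _ s hx) (e ▸ Y.smul_mem t hy.1)
  obtain ⟨a, ha, ha'⟩ := h5.exists_Q_eq (by omega) α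
  have h9 : ∀ s : F, s ≠ 0 → s = 1 := fun s h9 => by
    rcases key a ha ha' 1 one_ne_zero with e | e <;> rcases key a ha ha' s h9 with e' | e'
    · exact (smul_left_injective F hx0 (neg_injective (e'.symm.trans e)))
    · exact absurd (h8 _ _ (neg_injective (e.symm.trans e'))) one_ne_zero
    · exact absurd (h8 _ _ (neg_injective (e'.symm.trans e))) h9
    · exact (smul_left_injective F hy0 (neg_injective (e'.symm.trans e)))
  have h10 : ∀ b ∈ U, Q b ≠ 0 → b = a := fun b hb e => by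
    have e1 := key b hb ((h9 _ e).trans (h9 _ hα).symm) 1 one_ne_zero
    have e2 := key a ha ha' 1 one_ne_zero
    have e3 : a + b = -(x + y) → False := fun e => by
      simpa [← e, (h7 a ha).2, (h7 b hb).2] using (show polar Q f (-(x + y)) = -1 by
        rw [polar_neg_right, polar_comm, hf])
    rcases e1 with e1 | e1 <;> rcases e2 with e2 | e2
    exacts [e1.trans e2.symm, (e3 (by rw [e1, e2]; module)).elim, (e3 (by rw [e1, e2]; module)).elim,
      e1.trans e2.symm]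
  have h11 : U ⊓ LinearMap.ker (Q.polarBilin a) ≤ F ∙ a := fun b hb => by
    by_cases e : Q b = 0
    · have := h10 _ (U.add_mem ha hb.1) (by
        rw [q_add, e, show polar Q a b = 0 from hb.2, ha']; simpa)
      simp [add_eq_left.mp this]
    · exact h10 b hb.1 e ▸ Submodule.mem_span_singleton_self _
  have h12 := Submodule.finrank_mono h11
  have h13 := finrank_le_inf_ker U (Q.polarBilin a)
  have h14 := finrank_span_one_le (F := F) a
  obtain ⟨u, hu, hu'⟩ := exists_not_mem_of_finrank_lt (W := F ∙ a) (U := U) (by omega)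
  have h15 : Q u = 0 := of_not_not fun e => hu' (h10 u hu e ▸ Submodule.mem_span_singleton_self _)
  refine (hex' ((Nat.card_eq_two_iff' 0).mpr ⟨1, one_ne_zero, h9⟩) (Submodule.span F {x + y, u})
    (Submodule.span_le.mpr (by rintro _ (rfl | rfl); exacts [hz, hU hu]))
    (singular_of_mem_span_pair hz0 h15 (h7 u hu).1)).elim (fun e => e ?_) fun e => e (by omega)
  rw [finrank_span_pair_eq (linearIndependent_pair_of_notMem (by rintro e; simp [e] at hf)
    fun e => ?_)]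
  · omega
  · obtain ⟨t, rfl⟩ := Submodule.mem_span_singleton.mp e
    have := (h7 _ hu).2
    rw [p_smul_right, polar_comm, hf, mul_one] at this
    exact hu' (by simp [this])

theorem NDS.perp_one {W : Submodule F V} (h : NDS Q W) (h2 : (2 : F) ≠ 0) {a : V} (ha : a ∈ W)
    (h0 : Q a ≠ 0) : NDS Q (W ⊓ LinearMap.ker (Q.polarBilin a)) := fun w hw e => h w hw.1 fun x hx => by
  have h1 : polar Q a w = 0 := hw.2
  have := e (x - (polar Q a x / (2 * Q a)) • a) ⟨W.sub_mem hx (W.smul_mem _ ha), by simp [h2, h0]⟩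
  simpa [polar_symm_zero h1] using this

theorem exists_adj (hQ : ND Q) (hn : 5 ≤ finrank F V) {W : Submodule F V} (hW : NDS Q W)
    (h2 : 2 ≤ finrank F W) (g : OG Q) : ∃ h : OG Q, (∀ x ∈ W, h.1 x ∈ W) ∧
      (∀ x ∈ perp Q W, h.1 x = x) ∧ h * g ∈ commutator (OG Q) := by
  refine hQ.refl_induction (good_of_five_le hn) (P := fun g => ∃ h : OG Q, (∀ x ∈ W, h.1 x ∈ W) ∧
    (∀ x ∈ perp Q W, h.1 x = x) ∧ h * g ∈ commutator (OG Q)) ⟨1, fun _ => id, fun _ _ => rfl, by simp⟩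
    (fun v g hv ⟨h, h3, h4, h5⟩ => ?_) g
  obtain ⟨w, hw, hw'⟩ := hW.exists_Q_eq h2 (Q v)
  refine ⟨h * refl Q w, fun x hx => h3 _ (refl_mem_sub (.inl hw) hx), fun x hx => ?_, ?_⟩
  · rw [OG.mul_apply, refl_apply_of_orth (mem_perp.mp hx w hw), h4 x hx]
  · convert mul_mem (Subgroup.Normal.conj_mem inferInstance _
      (hQ.refl_mul_refl_mem_commutator (hw' ▸ hv) hw') h) h5 using 1
    group

variable {κ : Type*} [Fintype κ] {D : κ → Submodule F V} {π : κ → V →ₗ[F] V} {k : ℕ}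

/-- An orthogonal decomposition into isometric blocks whose stabiliser lies in `M`. -/
structure ODec (M : Subgroup (OG Q)) (D : κ → Submodule F V) (π : κ → V →ₗ[F] V) (k : ℕ) :
    Prop where
  nd : ND Q
  hn : 13 ≤ finrank F V
  dec : IsDec D π
  rk : ∀ i, finrank F (D i) = k
  nds : ∀ i, NDS Q (D i)
  orth : ∀ i j, i ≠ j → ∀ x ∈ D i, ∀ y ∈ D j, polar Q x y = 0
  iso : ∀ i j, ∃ g : OG Q, ∀ x ∈ D i, g.1 x ∈ D j
  le : ∀ g ∈ commutator (OG Q), PermD D g.1 → g ∈ M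

/-- Vectors whose reflections are available in `M`. -/
def RR (M : Subgroup (OG Q)) (D : κ → Submodule F V) (a : V) : Prop :=
  Q a ≠ 0 ∧ ∃ i, ∃ c ∈ D i, Q c = Q a ∧ refl Q a * refl Q c ∈ M

namespace ODec
variable (h : ODec M D π k) {i j l : κ} {a b c x y : V}
include h

omit [Finite F] [FiniteDimensional F V] in
theorem le_perp (hij : i ≠ j) : D i ≤ perp Q (D j) := fun x hx =>
  mem_perp'.mpr (h.orth i j hij x hx)

omit [Finite F] [FiniteDimensional F V] in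
theorem mem_or (ha : a ∈ D i) (j : κ) : a ∈ D j ∨ a ∈ perp Q (D j) := by
  by_cases hij : i = j
  exacts [.inl (hij ▸ ha), .inr (h.le_perp hij ha)]

omit [Finite F] [FiniteDimensional F V] in
theorem proj (hx : x ∈ D i) (y : V) : polar Q x (π i y) = polar Q x y :=
  h.dec.b_proj (B := Q.polarBilin) h.orth hx y

omit [Finite F] [FiniteDimensional F V] in
theorem q_sum (x : V) : Q x = ∑ i, Q (π i x) := by
  conv_lhs => rw [← h.dec.sum x]
  exact q_sum_orth _ _ fun i j hij => h.orth i j hij _ (h.dec.mem _ _) _ (h.dec.mem _ _)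

omit [Finite F] [FiniteDimensional F V] in
theorem exists_Q_ne (ha : Q a ≠ 0) : ∃ i, Q (π i a) ≠ 0 := by
  by_contra hc
  push Not at hc
  exact ha (by simp [h.q_sum a, hc])

omit [Finite F] in
theorem rr2 (ha : a ∈ D i) (hc : c ∈ D j) (h0 : Q a ≠ 0) (e : Q a = Q c) :
    refl Q a * refl Q c ∈ M :=
  h.le _ (h.nd.refl_mul_refl_mem_commutator h0 e) (h.dec.permD_of_fix fun l _ hx =>
    refl_mem_sub (h.mem_or ha l) (refl_mem_sub (h.mem_or hc l) hx))

omit [Finite F] in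
theorem rr_mul (ha : RR M D a) (hc : c ∈ D j) (e : Q a = Q c) : refl Q a * refl Q c ∈ M := by
  obtain ⟨h0, i, d, hd, h1, h2⟩ := ha
  simpa [mul_assoc, ← mul_assoc (refl Q d)] using mul_mem h2 (h.rr2 hd hc (h1 ▸ h0) (h1.trans e))

omit [Finite F] in
theorem rr_map {g : OG Q} (hg : g ∈ M) (ha : RR M D a) (hc : c ∈ D j) (e : Q a = Q c)
    (hc' : g.1 c ∈ D l) : RR M D (g.1 a) :=
  ⟨by simpa using ha.1, l, _, hc', by simp [e], by
    simpa [← refl_conj, mul_assoc] using mul_mem (mul_mem hg (h.rr_mul ha hc e)) (inv_mem hg)⟩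

omit [Finite F] [FiniteDimensional F V] h in
theorem rr_of (ha : a ∈ D i) (h0 : Q a ≠ 0) : RR M D a := ⟨h0, i, a, ha, rfl, by simp⟩

omit [Finite F] in
theorem oe (hx : x ∈ D i) (hy : y ∈ D i) (h1 : Q x = 0) (h2 : polar Q x y = 0) : y ∈ OE M x :=
  ⟨h2, fun c => h.le _ (h.nd.eich_mem_commutator (good_of_five_le (by have := h.hn; omega)) _ _)
    (h.dec.permD_of_fix fun l z hz => by
      rw [eich_apply h1 (by simp [h2])]
      by_cases e : i = l
      · subst e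
        exact (D i).sub_mem ((D i).add_mem hz ((D i).smul_mem _ hx))
          ((D i).smul_mem _ ((D i).smul_mem _ hy))
      · simpa [h.orth i l e x hx z hz, h.orth i l e y hy z hz] using hz)⟩

omit [Finite F] in
theorem swap' (hij : i ≠ j) : ∃ w : OG Q, (∀ y ∈ D j, ∃ x ∈ D i, w.1 x = y) ∧
    (∀ l, l ≠ i → l ≠ j → ∀ x ∈ D l, w.1 x = x) ∧ PermD D w.1 := by
  obtain ⟨g, h1⟩ := h.iso i j
  have h2 : ∀ x ∈ D j, g.1.symm x ∈ D i := fun x hx => by
    obtain ⟨y, hy, rfl⟩ := exists_of_map_le h1 ((h.rk i).trans (h.rk j).symm) x hx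
    simpa using hy
  obtain ⟨w, -, a1, a2, a3, a4⟩ := h.dec.exists_swap hij g.1 h1 h2
  have key : ∀ l, ∀ x ∈ D l, Q (w x) = Q x := fun l x hx => by
    by_cases hi : l = i
    · rw [a1 x (hi ▸ hx), OG.map_Q]
    by_cases hj : l = j
    · rw [a2 x (hj ▸ hx), QuadraticMap.map_neg]
      exact OG.map_Q g⁻¹ x
    rw [a3 l hi hj x hx]
  refine ⟨⟨w, fun x => ?_⟩, fun y hy => ⟨_, h2 y hy, (a1 _ (h2 y hy)).trans
    (g.1.apply_symm_apply y)⟩, a3, a4⟩
  conv_lhs => rw [← h.dec.sum x, map_sum]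
  rw [q_sum_orth, h.q_sum x]
  · exact Finset.sum_congr rfl fun l _ => key l _ (h.dec.mem _ _)
  · intro a b hab
    refine (h.dec.isom (B := Q.polarBilin) h.orth a4 (fun l x hx y hy => ?_) _ _).trans
      (h.orth a b hab _ (h.dec.mem _ _) _ (h.dec.mem _ _))
    simp only [polarBilin_apply_apply, polar, ← map_add, key l _ hx, key l _ hy,
      key l _ (add_mem hx hy)]

theorem adj (hk : 2 ≤ k) (i : κ) {w : OG Q} (hw : PermD D w.1) : ∃ g : OG Q,
    (∀ x ∈ D i, g.1 x ∈ D i) ∧ (∀ l, l ≠ i → ∀ x ∈ D l, g.1 x = x) ∧ w * g ∈ M := by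
  obtain ⟨g, h1, h2, h3⟩ := exists_adj h.nd (by have := h.hn; omega) (h.nds i)
    (by rw [h.rk]; exact hk) w
  refine ⟨g, h1, fun l hl x hx => h2 x (h.le_perp hl hx), h.le _ (by
    simpa [mul_assoc] using Subgroup.Normal.conj_mem inferInstance _ h3 g⁻¹) ?_⟩
  obtain ⟨s, hs⟩ := hw
  refine ⟨s, fun l => ?_⟩
  rw [← hs l]
  refine (Submodule.map_comp (g.1 : V →ₗ[F] V) (w.1 : V →ₗ[F] V) _).trans (congrArg _ ?_)
  refine map_eq_of_le (fun x hx => ?_) rfl
  by_cases e : l = i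
  · exact e ▸ h1 x (e ▸ hx)
  · rwa [h2 x (h.le_perp e hx)]

theorem swap (hk : 2 ≤ k) (hij : i ≠ j) : ∃ w ∈ M, (∀ y ∈ D j, ∃ x ∈ D i, w.1 x = y) ∧
    ∀ l, l ≠ i → l ≠ j → ∀ x ∈ D l, w.1 x = x := by
  obtain ⟨w, h1, h2, h3⟩ := h.swap' hij
  obtain ⟨g, h4, h5, h6⟩ := h.adj hk i h3
  refine ⟨_, h6, fun y hy => ?_, fun l hi hj x hx => by rw [OG.mul_apply, h5 l hi x hx, h2 l hi hj x hx]⟩
  obtain ⟨x, hx, rfl⟩ := h1 y hy
  obtain ⟨z, hz, rfl⟩ := exists_of_map_le h4 rfl x hx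
  exact ⟨z, hz, rfl⟩

theorem op_of (hk : 2 ≤ k) (hx : x ∈ D i) (hx1 : Q x = 0) (hj : j ≠ i) (h3 : D j ≤ OE M x) :
    OP M x := ⟨hx1, fun y hy => by
  rw [← h.dec.sum y]
  refine Submodule.sum_mem _ fun l _ => ?_
  by_cases hl : l = i
  · exact h.oe hx (hl ▸ h.dec.mem l y) hx1 (by rwa [hl, h.proj hx])
  by_cases hl' : j = l
  · exact h3 (hl' ▸ h.dec.mem j y)
  obtain ⟨w, hw, hw1, hw2⟩ := h.swap hk hl'
  obtain ⟨v, hv, e⟩ := hw1 _ (h.dec.mem l y)
  exact e ▸ OE.map_fix (h3 hv) hw (hw2 i hj.symm (Ne.symm hl) x hx)⟩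

theorem fin (hk : 3 ≤ k) (hx : x ∈ D i) (hx0 : x ≠ 0) (hx1 : Q x = 0) (hy : y ∈ OE M x)
    (hy' : y ∉ D i) : commutator (OG Q) ≤ M := by
  obtain ⟨f, hf, hf1, hf2, U, hU, hU1, hU2, hU3⟩ := (h.nds i).exists_hyp hx hx0 hx1
  obtain ⟨j, hj, hj'⟩ := h.dec.exists_of_not_mem hy'
  have h3 : 3 ≤ finrank F (D j) := by rw [h.rk]; exact hk
  have he : ∀ c ∈ D j, ∀ e ∈ D j, Q c = 0 → polar Q c e = 0 → ∀ y ∈ OE M x,
      (eich Q c e).1 y ∈ OE M x := fun c hc e he h4 h5 y hy =>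
    OE.map_fix hy (OE.mem (h.oe hc he h4 h5))
      (eich_apply_of_orth h4 h5 (h.orth j i hj c hc x hx) (h.orth j i hj e he x hx))
  obtain ⟨z, hz, hz0⟩ : ∃ z ∈ OE M x ⊓ D j, z ≠ 0 := by
    by_contra hc
    push Not at hc
    have := (h.nds j).irr3 h3 (X := F ∙ π j y)
      ((Submodule.span_singleton_le_iff_mem _ _).mpr (h.dec.mem _ _)) (fun c hc' e he' h4 h5 v hv => by
        obtain ⟨t, rfl⟩ := Submodule.mem_span_singleton.mp hv
        have := hc _ ⟨(OE M x).sub_mem (he c hc' e he' h4 h5 y hy) hy, by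
          rw [eich_apply h4 h5, add_sub_assoc, add_sub_cancel_left]
          exact (D j).sub_mem ((D j).smul_mem _ hc') ((D j).smul_mem _ he')⟩
        rw [eich_apply h4 h5, add_sub_assoc, add_sub_cancel_left] at this
        rwa [map_smul, eich_apply h4 h5, h.proj hc', h.proj he', add_sub_assoc, this, add_zero])
      (Submodule.mem_span_singleton_self _) hj'
    have := (Submodule.finrank_mono this).trans (finrank_span_one_le _)
    omega
  have h4 := (h.nds j).irr3 h3 inf_le_right (fun c hc e he' h4 h5 v hv => ⟨he c hc e he' h4 h5 v hv.1, by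
    rw [eich_apply h4 h5]
    exact (D j).sub_mem ((D j).add_mem hv.2 ((D j).smul_mem _ hc)) ((D j).smul_mem _ he')⟩) hz hz0
  obtain ⟨v, hv, hv'⟩ := hU1.exists_nonsing (by rw [h.rk] at hU2; omega)
  exact om_le_of_eich h.nd (by have := h.hn; omega) (h.op_of (by omega) hx hx1 hj
    (h4.trans inf_le_left)) hf1 (hU3 v hv).2 hv' (by simp [polar_comm Q f x, hf2])
    (OE.mem (h.oe hf (hU hv) hf1 (hU3 v hv).2))

theorem good (hk : 3 ≤ k) (ha : RR M D a) (ha' : a ∉ D l) (h0 : Q (π l a) ≠ 0) (hx : x ∈ D l)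
    (hx0 : x ≠ 0) (hx1 : Q x = 0) (hx2 : polar Q a x = 0) : commutator (OG Q) ≤ M := by
  obtain ⟨j, hj, -⟩ := h.dec.exists_of_not_mem ha'
  obtain ⟨c, hc, hc'⟩ := (h.nds j).exists_Q_eq (by rw [h.rk]; omega) (Q a)
  obtain ⟨w, hw, h1, h2⟩ := (h.nds l).exists_orth ((Submodule.span_singleton_le_iff_mem _ _).mpr hx)
    (h.dec.mem l a) fun e => h0 (sing_span_singleton hx1 _ e)
  rw [polar_comm, h.proj hw, polar_comm] at h2
  refine h.fin hk hx hx0 hx1 (OE.of_refl (h.oe hx hw hx1 (h1 x (Submodule.mem_span_singleton_self x)))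
    (h.rr_mul ha hc hc'.symm) ?_ ?_ ha.1 (by simp [h2])) ha'
  · rw [OG.mul_apply, refl_apply_of_orth (h.orth j l hj c hc x hx), refl_apply_of_orth hx2]
  · rw [OG.mul_apply, refl_apply_of_orth (h.orth j l hj c hc w hw)]

theorem no_rr (hk : 3 ≤ k) (hex : k = 3 → 4 ≤ Nat.card F) (ha : RR M D a) (ha' : ∀ j, a ∉ D j) :
    commutator (OG Q) ≤ M := by
  obtain ⟨l, hl⟩ := h.exists_Q_ne ha.1
  have e1 := finrank_le_inf_ker (D l) (Q.polarBilin (π l a))
  rw [h.rk] at e1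
  rcases hk.eq_or_lt with h3 | h3
  swap
  · obtain ⟨x, hx, hx0, hx1⟩ := exists_sing_mem Q (D l ⊓ LinearMap.ker (Q.polarBilin (π l a)))
      (by omega)
    exact h.good hk ha (ha' l) hl hx.1 hx0 hx1 (by
      rw [polar_comm, ← h.proj hx.1, polar_comm]; exact hx.2)
  have h2 := (h.nds l).three_card ((h.rk l).trans h3.symm)
  obtain ⟨x, hx, hx0, hx1⟩ := exists_sing_mem Q (D l) (by rw [h.rk]; exact hk)
  obtain ⟨f, -, -, -, U, hU, hU1, hU2, hU3⟩ := (h.nds l).exists_hyp hx hx0 hx1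
  obtain ⟨v, hv, hv'⟩ := hU1.exists_nonsing (by rw [h.rk] at hU2; omega)
  obtain ⟨s, hs, hs'⟩ := exists_sq_ne' (hex h3.symm) (-(Q a - Q (π l a)) / Q v)
  have hP := (h.nds l).perp_one h2 (h.dec.mem l a) hl
  obtain ⟨c, hc, hc'⟩ := hP.exists_Q_eq (by omega) (Q a - Q (π l a) + s ^ 2 * Q v -
    (Q a / (2 * Q (π l a))) ^ 2 * Q (π l a))
  have h4 : polar Q (π l a) c = 0 := hc.2
  obtain ⟨d, hd⟩ : ∃ d, d = (Q a / (2 * Q (π l a))) • π l a + c := ⟨_, rfl⟩
  have hd1 : d ∈ D l := hd ▸ (D l).add_mem ((D l).smul_mem _ (h.dec.mem _ _)) hc.1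
  have h5 : polar Q (π l a) d = Q a := by simp [hd, h4, h2, hl]
  have h6 : Q d = Q a - Q (π l a) + s ^ 2 * Q v := by
    rw [hd, q_add, q_smul, p_smul_left, h4, hc']
    ring
  have h7 : Q d ≠ 0 := fun e => hs' (by rw [eq_div_iff hv']; linear_combination e - h6)
  have h8 : (refl Q a).1 d = d - a := by
    rw [refl_apply, polar_comm, ← h.proj hd1, polar_comm, h5, inv_mul_cancel₀ ha.1, one_smul]
  obtain ⟨j, hj, hj'⟩ := h.dec.exists_of_not_mem (ha' l)
  obtain ⟨c₁, hc₁, h9⟩ := (h.nds j).exists_Q_eq (by rw [h.rk]; omega) (Q a)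
  obtain ⟨c₂, hc₂, h10⟩ := hP.exists_Q_eq (by omega) (Q d)
  have h11 := h.rr_map (h.rr_mul ha hc₁ h9.symm) (rr_of hd1 h7) hc₂.1 h10.symm (l := l) (by
    rw [OG.mul_apply, refl_apply_of_orth (h.orth j l hj _ hc₁ _ hc₂.1), refl_apply_of_orth (by
      rw [polar_comm, ← h.proj hc₂.1, polar_comm]; exact hc₂.2)]
    exact hc₂.1)
  rw [OG.mul_apply, refl_apply_of_orth (h.orth j l hj _ hc₁ _ hd1), h8] at h11
  have h12 : π l (d - a) = d - π l a := by rw [map_sub, h.dec.of_mem hd1]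
  have h13 : Q (d - π l a) = Q (s • v) := by
    rw [q_sub, h6, polar_comm, h5, q_smul]
    ring
  have h14 : Q (s • v) ≠ 0 := by simp [q_smul, hs, hv']
  obtain ⟨g, hg⟩ := witt_one (h.nds l).nd (u := ⟨s • v, (D l).smul_mem _ (hU hv)⟩)
    (v := ⟨d - π l a, h12 ▸ h.dec.mem _ _⟩) (fun e => ne_zero_of_Q_ne_zero h14 (congrArg Subtype.val e))
    (fun e => ne_zero_of_Q_ne_zero (h13 ▸ h14) (congrArg Subtype.val e)) h13.symm
  refine h.good hk h11 (fun e => hj' ?_) (by rwa [h12, h13]) (g.1 ⟨x, hx⟩).2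
    (fun e => hx0 (congrArg Subtype.val ((OG.apply_eq_zero g).mp (Subtype.ext e))))
    ((OG.map_Q g _).trans hx1) ?_
  · simpa [h.dec.of_ne hj hd1] using h.dec.of_ne hj e
  · have := OG.map_polar g ⟨x, hx⟩ ⟨s • v, (D l).smul_mem _ (hU hv)⟩
    rw [hg, polar_restrict, polar_restrict, p_smul_right, (hU3 v hv).1, mul_zero] at this
    rwa [polar_comm, ← h.proj (g.1 ⟨x, hx⟩).2, h12]

theorem of_three (hk : 3 ≤ k) (hex : k = 3 → 4 ≤ Nat.card F) (hex' : Nat.card F = 2 → k = 4 →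
    ∀ i, ∀ U ≤ D i, Sing Q U → finrank F U ≠ 2) (hg : ∃ g ∈ M, ¬ PermD D g.1) :
    commutator (OG Q) ≤ M := by
  by_contra hc
  have S1 : ∀ g ∈ M, ∀ i, ∀ c ∈ D i, Q c ≠ 0 → ∀ j, g.1 c ∈ D j → PermD D g.1 :=
    fun g hg i c hc₁ h0 j h1 => h.dec.permD_of h.rk (by omega) fun l => by
      have h2 : ∀ a ∈ D l, Q a = Q c → ∃ m, g.1 a ∈ D m := fun a ha e => by
        by_contra h2
        exact hc (h.no_rr hk hex (h.rr_map hg (rr_of ha (e ▸ h0)) hc₁ e h1) (not_exists.mp h2))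
      obtain ⟨a, ha, ha'⟩ := (h.nds l).exists_Q_eq (by rw [h.rk]; omega) (Q c)
      obtain ⟨m, hm⟩ := h2 a ha ha'
      refine ⟨m, ((h.nds l).conn (by rw [h.rk]; exact hk) ?_ h0 (X := (D m).comap (g.1 : V →ₗ[F] V))
        (Y := (perp Q (D m)).comap (g.1 : V →ₗ[F] V)) (fun x hx y hy => ?_)
        fun b hb e => ?_).resolve_right fun e => ?_⟩
      · rw [h.rk]
        rcases hk.eq_or_lt with e | e
        · exact .inl (hex e.symm)
        · exact .inr ⟨e, fun e U hU hU' => or_iff_not_imp_right.mpr fun e' e'' =>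
            hex' e (of_not_not e') l U hU hU' (by omega)⟩
      · rw [← OG.map_polar g]
        exact mem_perp.mp hy _ hx
      · obtain ⟨m', hm'⟩ := h2 b hb e
        exact h.mem_or hm' m
      · exact ne_zero_of_Q_ne_zero (ha' ▸ h0) ((OG.apply_eq_zero g).mp
          (h.nds m _ hm (mem_perp'.mp (e ha))))
  obtain ⟨g, hg, hg'⟩ := hg
  obtain ⟨i, -⟩ := h.dec.exists_not_mem h.rk (by omega) hg'
  obtain ⟨c, hc₁, h0⟩ := (h.nds i).exists_nonsing (by rw [h.rk]; omega)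
  have e1 := finrank_le_inf_ker (D i) (Q.polarBilin (g⁻¹.1 c))
  rw [h.rk] at e1
  obtain ⟨U, hU⟩ : ∃ U, U = D i ⊓ LinearMap.ker (Q.polarBilin (g⁻¹.1 c)) := ⟨_, rfl⟩
  rw [← hU] at e1
  have hU1 : U ≤ D i := hU ▸ inf_le_left
  have hU2 : ∀ x ∈ U, polar Q (g⁻¹.1 c) x = 0 := fun x hx => (hU ▸ hx).2
  obtain ⟨w, hw, h1⟩ : ∃ w ∈ U, Q w ≠ 0 := by
    by_contra h1
    push Not at h1
    have := (h.nds i).nd.two_mul_finrank_le (W := U.comap (D i).subtype) fun w hw => h1 w hw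
    rw [h.rk, (Submodule.comapSubtypeEquivOfLe hU1).finrank_eq] at this
    omega
  obtain ⟨v, hv, h2, h3⟩ := exists_pair_Q (U := U) (by
    rcases hk.eq_or_lt with e | e
    exacts [.inl ⟨hex e.symm, by omega⟩, .inr (by omega)]) hw h1
  have h4 : ∀ x ∈ U, polar Q (g.1 x) c = 0 := fun x hx => by
    rw [← OG.polar_inv_right]
    exact polar_symm_zero (hU2 x hx)
  obtain ⟨t, ht⟩ : ∃ t, t = refl Q (g.1 v) * refl Q (g.1 w) := ⟨_, rfl⟩
  obtain ⟨s, hs⟩ := S1 t (by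
    simpa [ht, ← refl_conj, mul_assoc] using mul_mem (mul_mem hg (h.rr2 (hU1 hv) (hU1 hw) (h2 ▸ h1) h2))
      (inv_mem hg)) i c hc₁ h0 i (by
    rwa [ht, OG.mul_apply, refl_apply_of_orth (h4 w hw), refl_apply_of_orth (h4 v hv)])
  have h5 : ∀ x, t.1 x - x ∈ (Submodule.span F {v, w}).map (g.1 : V →ₗ[F] V) := fun x => by
    rw [ht, OG.mul_apply, refl_apply, refl_apply (g.1 w) x, sub_sub x, sub_sub_cancel_left]
    exact neg_mem (add_mem (Submodule.smul_mem _ _ ⟨w, Submodule.subset_span (by simp), rfl⟩)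
      (Submodule.smul_mem _ _ ⟨v, Submodule.subset_span (by simp), rfl⟩))
  have h6 : ∀ l, ∀ x ∈ D l, t.1 x ∈ D l := fun l x hx => by
    by_contra e
    have hl : s l ≠ l := fun e' => e (e' ▸ (hs l).le ⟨x, hx, rfl⟩)
    have := LinearMap.finrank_le_finrank_of_injective (f := (((t.1 : V →ₗ[F] V) - LinearMap.id) ∘ₗ
      (D l).subtype).codRestrict ((Submodule.span F {v, w}).map (g.1 : V →ₗ[F] V)) fun x => h5 x)
      ((injective_iff_map_eq_zero _).mpr fun y hy => by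
        have e1 : t.1 y = y := sub_eq_zero.mp (congrArg Subtype.val hy)
        exact Subtype.ext (h.dec.eq_zero_of_mem hl (e1 ▸ (hs l).le ⟨y, y.2, rfl⟩) y.2))
    rw [h.rk, LinearEquiv.finrank_map_eq] at this
    have := finrank_span_pair_le (F := F) v w
    omega
  obtain ⟨x, h7, h8⟩ := h.nd.exists_orth_polar_one _ h3
  have h9 : t.1 (g.1 x) - g.1 x = -(Q v)⁻¹ • g.1 v := by
    rw [ht, OG.mul_apply, refl_apply_of_orth (v := g.1 w) (by
      simpa using h7 w (Submodule.mem_span_singleton_self w)), refl_apply]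
    simp [h8]
  obtain ⟨l, hl⟩ := h.exists_Q_ne (a := t.1 (g.1 x) - g.1 x) (by simp [h9, q_smul, h2, h1])
  have h10 : π l (t.1 (g.1 x) - g.1 x) = t.1 (π l (g.1 x)) - π l (g.1 x) := by
    conv_lhs => rw [map_sub, ← h.dec.sum (g.1 x), map_sum, map_sum, h.dec.sum]
    rw [Finset.sum_eq_single l (fun m _ hm => h.dec.of_ne hm.symm (h6 m _ (h.dec.mem _ _))) (by simp),
      h.dec.of_mem (h6 l _ (h.dec.mem _ _))]
  obtain ⟨d, hd, h11⟩ := h5 (π l (g.1 x))
  rw [← h10] at h11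
  replace h11 : g.1 d = _ := h11
  exact hg' (S1 g hg i d (Submodule.span_le.mpr (by rintro _ (rfl | rfl); exacts [hU1 hv, hU1 hw]) hd)
    (by rwa [← OG.map_Q g, h11]) l (h11 ▸ h.dec.mem _ _))

theorem exists_not_perm (hij : i ≠ j) (hk : 0 < k) : ∃ g ∈ commutator (OG Q), ¬ PermD D g.1 := by
  have h1 := h.nd.finrank_perp_add (D i)
  have h2 := Submodule.finrank_mono (h.le_perp hij.symm)
  have h3 := h.hn
  rw [h.rk] at h1 h2
  obtain ⟨c, hc, hc0, hc1⟩ := exists_sing_mem Q (perp Q (D i)) (by omega)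
  obtain ⟨a, ha, ha0⟩ := exists_not_mem_of_finrank_lt (W := ⊥) (U := D i) (by simp [h.rk, hk])
  obtain ⟨e, he, -, h4⟩ := (h.nds i).exists_orth bot_le ha ha0
  have h5 := mem_perp'.mp hc
  refine ⟨eich Q c e, h.nd.eich_mem_commutator (good_of_five_le (by omega)) _ _, fun ⟨s, hs⟩ => ?_⟩
  have h6 : a + c ∈ D (s i) := hs i ▸ ⟨a, ha, by
    change (eich Q c e).1 a = _
    rw [eich_apply hc1 (h5 e he), h5 a ha, polar_comm, h4]
    simp⟩
  by_cases h7 : s i = i
  · exact hc0 (h.nds i c (((D i).add_mem_iff_right ha).mp (h7 ▸ h6)) h5)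
  · simpa [h4, h5 e he] using h.orth _ _ h7 _ h6 e he

end ODec

section geo
variable {ι : Type} [Fintype ι] [DecidableEq ι] {Q : QuadraticForm F (ι → F)} {t : ℕ}
  {D : Fin t → Submodule F (ι → F)}

omit [Finite F] [DecidableEq ι] in
theorem card_eq_of_dec (hD : Geo.IsMDecomposition k D) : Fintype.card ι = t * k := by
  have := (LinearEquiv.ofBijective (DirectSum.coeLinearMap D)
    (DirectSum.isInternal_submodule_of_iSupIndep_of_iSup_eq_top hD.indep hD.iSup_eq_top)).finrank_eq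
  simpa [finrank_directSum, hD.finrank_eq] using this.symm

theorem exists_oDec (hQ : ND Q) (hn : 13 ≤ Fintype.card ι)
    (hD : Geo.IsOrthogonalMDecomposition ⇑Q k D) : ∃ π, ∀ M : Subgroup (OG Q),
      (∀ g ∈ commutator (OG Q), PermD D g.1 → g ∈ M) → ODec M D π k := by
  obtain ⟨π, h⟩ := exists_isDec hD.decomp.decomp.indep hD.decomp.decomp.iSup_eq_top
  refine ⟨π, fun M hM => ⟨hQ, by simpa, h, hD.decomp.decomp.finrank_eq,
    fun i => nds_of (hD.decomp.nondegenerate i), hD.decomp.orthogonal, fun i j => ?_, hM⟩⟩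
  obtain ⟨e, he⟩ := hD.isometric i j
  obtain ⟨g, hg⟩ := witt hQ (D i) ((D j).subtype ∘ₗ e.toLinearMap)
    (Subtype.val_injective.comp e.injective) he
  exact ⟨g, fun x hx => hg ⟨x, hx⟩ ▸ (e ⟨x, hx⟩).2⟩

theorem max_om_dec (hQ : ND Q) (hn : 13 ≤ Fintype.card ι)
    (hD : Geo.IsOrthogonalMDecomposition ⇑Q k D) (H : ∀ π M, ODec M D π k →
      M ≤ commutator (OG Q) → (∃ g ∈ M, ¬ PermD D g.1) → commutator (OG Q) ≤ M) :
    Geo.IsMaximalIn (Geo.omegaGL ⇑Q) (Geo.decompositionStabilizer D ⊓ Geo.omegaGL ⇑Q) := by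
  obtain ⟨π, h⟩ := exists_oDec hQ hn hD
  have := hD.decomp.decomp.two_le
  exact isMaximalIn_Om (PermD D) mem_decStab ((h ⊤ fun _ _ _ => trivial).exists_not_perm
    (i := ⟨0, by omega⟩) (j := ⟨1, by omega⟩) (by simp) hD.decomp.decomp.pos)
    fun M hM => H π M (h M hM)

theorem ODec.plus_all {π : Fin t → (ι → F) →ₗ[F] (ι → F)} {M : Subgroup (OG Q)}
    (h : ODec M D π k) {i : Fin t} (hi : Geo.IsPlusTypeOn ⇑Q (D i)) (j : Fin t) :
    Geo.IsPlusTypeOn ⇑Q (D j) := by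
  obtain ⟨U, h1, h2, h3⟩ := hi
  obtain ⟨g, hg⟩ := h.iso i j
  refine ⟨U.map (g.1 : (ι → F) →ₗ[F] (ι → F)), ?_, ?_, by
    rw [LinearEquiv.finrank_map_eq, h3, h.rk, h.rk]⟩
  · rintro _ ⟨x, hx, rfl⟩
    exact hg x (h1 hx)
  · rintro _ ⟨x, hx, rfl⟩
    exact (OG.map_Q g x).trans (h2 x hx)

end geo

end Cfsg.Agent.Max
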