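import Mathlib
import Cfsg.Agent.Max.Dk
import Cfsg.Agent.Max.ODec
import Cfsg.Agent.Orth.Exc

/-!
# Dickson's theorem for three-dimensional orthogonal subspaces
-/

set_option autoImplicit false

namespace Cfsg.Agent.Max

open Module Matrix QuadraticMap Orth Classical.P1 Classical.P1Ident Classical.Dickson
  Classical.P1Class
open scoped MatrixGroups Pointwise commutatorElement

variable {F : Type*} [Field F]

/-- The invariant `tr² / det` of an element of `PGL₂`. -/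
def tau (A : GL (Fin 2) F) : F := A.1.trace ^ 2 / A.1.det

theorem gl_det_ne (A : GL (Fin 2) F) : A.1.det ≠ 0 := by
  simpa [det_fin_two] using det_ne A

theorem tau_eq_iff {A : GL (Fin 2) F} {c : F} : tau A = c ↔ A.1.trace ^ 2 = c * A.1.det :=
  div_eq_iff (gl_det_ne A)

theorem tau_of_pow_four {A : GL (Fin 2) F} (h : ProjGenLinGroup.mk A ^ 4 = 1) :
    tau A = 0 ∨ tau A = 2 ∨ tau A = 4 := by
  rw [← map_pow, mk_eq_one_iff] at h
  simp only [pow_succ, pow_zero, one_mul, Units.val_mul, Matrix.mul_apply, Fin.sum_univ_two] at h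
  obtain ⟨h1, h2, h3⟩ := h
  simp only [tau_eq_iff, trace_fin_two, det_fin_two]
  by_contra hc
  push Not at hc
  have h0 : (A.1 0 0 + A.1 1 1) * ((A.1 0 0 + A.1 1 1) ^ 2 -
      2 * (A.1 0 0 * A.1 1 1 - A.1 0 1 * A.1 1 0)) ≠ 0 :=
    mul_ne_zero (fun e => hc.1 (by rw [e]; ring)) (sub_ne_zero.mpr hc.2.1)
  have e1 : A.1 0 1 = 0 := mul_left_cancel₀ h0 (by linear_combination h1)
  have e2 : A.1 1 0 = 0 := mul_left_cancel₀ h0 (by linear_combination h2)
  have e3 : A.1 0 0 = A.1 1 1 := mul_left_cancel₀ h0 (by linear_combination h3)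
  exact hc.2.2 (by rw [e1, e3]; ring)

theorem tau_of_sq {A : GL (Fin 2) F} (h : ProjGenLinGroup.mk A ^ 2 = 1) :
    tau A = 0 ∨ tau A = 4 := by
  rw [← map_pow, mk_eq_one_iff] at h
  simp only [pow_succ, pow_zero, one_mul, Units.val_mul, Matrix.mul_apply, Fin.sum_univ_two] at h
  obtain ⟨h1, h2, h3⟩ := h
  simp only [tau_eq_iff, trace_fin_two, det_fin_two]
  by_contra hc
  push Not at hc
  have h0 : A.1 0 0 + A.1 1 1 ≠ 0 := fun e => hc.1 (by rw [e]; ring)
  have e1 : A.1 0 1 = 0 := mul_left_cancel₀ h0 (by linear_combination h1)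
  have e3 : A.1 0 0 = A.1 1 1 := mul_left_cancel₀ h0 (by linear_combination h3)
  exact hc.2 (by rw [e1, e3]; ring)

theorem mk_sq_of_trace {A : GL (Fin 2) F} (h : A.1.trace = 0) :
    ProjGenLinGroup.mk A * ProjGenLinGroup.mk A = 1 := by
  rw [← map_mul, mk_eq_one_iff]
  rw [trace_fin_two] at h
  simp only [Units.val_mul, Matrix.mul_apply, Fin.sum_univ_two]
  exact ⟨by linear_combination A.1 0 1 * h, by linear_combination A.1 1 0 * h,
    by linear_combination (A.1 0 0 - A.1 1 1) * h⟩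

theorem mk_ne_one_of_trace (h2 : (2 : F) ≠ 0) {A : GL (Fin 2) F} (h : A.1.trace = 0) :
    ProjGenLinGroup.mk A ≠ 1 := fun e => by
  obtain ⟨h1, -, h3⟩ := mk_eq_one_iff.mp e
  rw [trace_fin_two] at h
  have : A.1 0 0 = 0 := mul_left_cancel₀ h2 (by linear_combination h + h3)
  exact det_ne A (by rw [h1, this]; ring)

theorem tau_of_fix {A B : GL (Fin 2) F} (hA : A.1.trace = 0) (hB : B.1.trace = 0) {x : PL F}
    (h : A • x = x) (h' : B • x = x) : tau (A * B) = 4 := by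
  rw [trace_fin_two] at hA hB
  simp only [tau_eq_iff, trace_fin_two, det_fin_two, Units.val_mul, Matrix.mul_apply,
    Fin.sum_univ_two]
  have e1 : A.1 1 1 = -A.1 0 0 := by linear_combination hA
  have e2 : B.1 1 1 = -B.1 0 0 := by linear_combination hB
  rcases inf_or_pt x with rfl | ⟨z, rfl⟩
  · rw [smul_inf_eq_inf_iff] at h h'
    rw [e1, e2, h, h']
    ring
  · rw [smul_pt_eq_pt_iff] at h h'
    have e3 : A.1 0 1 = z * (A.1 1 0 * z - 2 * A.1 0 0) := by linear_combination h + z * e1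
    have e4 : B.1 0 1 = z * (B.1 1 0 * z - 2 * B.1 0 0) := by linear_combination h' + z * e2
    rw [e1, e2, e3, e4]
    ring

theorem tau_mk {A B : GL (Fin 2) F} (h : ProjGenLinGroup.mk A = ProjGenLinGroup.mk B) :
    tau A = tau B := by
  obtain ⟨u, hu⟩ := mk_eq_mk_iff_smul.mp h
  have := gl_det_ne B
  rw [hu, det_smul] at this
  simp only [tau, hu, det_smul, trace_smul, smul_eq_mul, Fintype.card_fin, mul_pow]
  rw [mul_div_mul_left _ _ (left_ne_zero_of_mul (by simpa using this))]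

theorem tau_conj (c A : GL (Fin 2) F) : tau (c * A * c⁻¹) = tau A := by
  simp only [tau, Matrix.trace_units_conj, Units.val_mul, det_units_conj]

theorem small_cases {p : ℕ} {G : Type*} [Group G] (h : IsCyclic G ∨ IsDih p G ∨
    Nonempty (G ≃* alternatingGroup (Fin 4)) ∨ Nonempty (G ≃* Equiv.Perm (Fin 4)) ∨
      Nonempty (G ≃* alternatingGroup (Fin 5))) {t i ρ : G} (ht : t * t = 1) (hi : i * i = 1)
    (hi1 : i ≠ 1) (hc : ρ * i = i * ρ) (hρ : ρ * ρ ≠ 1) :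
    (t * i) ^ 2 = 1 ∨ (ρ ^ 4 = 1 ∧ (ρ * ρ = i → (t * i) ^ 4 = 1)) := by
  have com : t * i = i * t → (t * i) ^ 2 = 1 := fun e => by
    rw [(show Commute t i from e).mul_pow, pow_two, pow_two, ht, hi, one_mul]
  have s4 : ∀ f : G →* Equiv.Perm (Fin 4), Function.Injective f →
      ρ ^ 4 = 1 ∧ (ρ * ρ = i → (t * i) ^ 4 = 1) := fun f hf => by
    have k1 : ∀ ρ i : Equiv.Perm (Fin 4), i * i = 1 → i ≠ 1 → ρ * i = i * ρ → ρ ^ 4 = 1 := by
      decide +kernel
    have k2 : ∀ t ρ : Equiv.Perm (Fin 4), t * t = 1 → ρ ^ 4 = 1 → (t * (ρ * ρ)) ^ 4 = 1 := by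
      decide +kernel
    have := k1 (f ρ) (f i) (by rw [← map_mul, hi, map_one]) (by rwa [Ne, map_eq_one_iff f hf])
      (by rw [← map_mul, hc, map_mul])
    refine ⟨hf (by rwa [map_pow, map_one]), fun e => hf ?_⟩
    rw [← e, map_pow, map_mul, map_mul, map_one]
    exact k2 _ _ (by rw [← map_mul, ht, map_one]) this
  rcases h with h | ⟨D, h1, h2, -, h3⟩ | ⟨⟨e⟩⟩ | ⟨⟨e⟩⟩ | ⟨⟨e⟩⟩
  · exact Or.inl (com (h.commGroup.mul_comm _ _))
  · left
    have hρ' : ρ ∈ D := by_contra fun e => hρ (h3 ρ e)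
    have hi' : i ∈ D := by_contra fun e => hρ (by
      have := h3 (ρ * i) fun e' => e ((D.mul_mem_cancel_left hρ').mp e')
      rwa [mul_assoc, ← mul_assoc i, ← hc, mul_assoc, hi, mul_one] at this)
    by_cases e : t ∈ D
    · exact com (congrArg Subtype.val (h1.commGroup.mul_comm ⟨t, e⟩ ⟨i, hi'⟩))
    · rw [pow_two]
      exact h3 _ fun e' => e ((D.mul_mem_cancel_right hi').mp e')
  · exact Or.inr (s4 ((Subgroup.subtype _).comp e.toMonoidHom)
      (Subtype.val_injective.comp e.injective))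
  · exact Or.inr (s4 e.toMonoidHom e.injective)
  · have k : ∀ g : G, g ^ 2 = 1 ∨ g ^ 3 = 1 ∨ g ^ 5 = 1 := fun g => by
      simpa only [← map_pow, e.map_eq_one_iff] using a5_pow (e g)
    have i2 : i ^ 2 = 1 := by rwa [pow_two]
    have i3 : i ^ 3 = i := by rw [pow_succ, i2, one_mul]
    have i5 : i ^ 5 = i := by rw [show 5 = 2 + 3 from rfl, pow_add, i2, i3, one_mul]
    have k1 := k (ρ * i)
    simp only [(show Commute ρ i from hc).mul_pow, i2, i3, i5, mul_one, mul_eq_one_iff_eq_inv,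
      show i⁻¹ = i from inv_eq_of_mul_eq_one_right hi] at k1
    exfalso
    rw [← pow_two] at hρ
    rcases k ρ with h | h | h <;> rcases k1 with h' | h' | h' <;> try contradiction
    · exact hi1 (h' ▸ h)
    · rw [show 5 = 2 + 3 from rfl, pow_add, h, mul_one] at h'
      have : ρ ^ 4 = 1 := by rw [show 4 = 2 * 2 from rfl, pow_mul, h', i2]
      rw [pow_succ, h, one_mul] at this
      exact hρ (by rw [this, one_pow])
    · have : ρ ^ 6 = 1 := by rw [show 6 = 3 * 2 from rfl, pow_mul, h', i2]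
      rw [pow_succ, h, one_mul] at this
      exact hρ (by rw [this, one_pow])
    · exact hi1 (h' ▸ h)

/-- Dickson's theorem for a subgroup of `GL₂` containing a large part of a torus and another
involution. -/
theorem pg_full [Finite F] (h2 : (2 : F) ≠ 0) (Γ : Subgroup (GL (Fin 2) F)) {t i ρ : GL (Fin 2) F}
    (ht : t ∈ Γ) (hi : i ∈ Γ) (hρ : ρ ∈ Γ) (t0 : t.1.trace = 0) (i0 : i.1.trace = 0)
    (hc : ρ * i = i * ρ) (r0 : tau ρ ≠ 0) (r4 : tau ρ ≠ 4) (x0 : tau (t * i) ≠ 0)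
    (x4 : tau (t * i) ≠ 4) (x2 : tau ρ = 2 →
      ProjGenLinGroup.mk (ρ * ρ) = ProjGenLinGroup.mk i ∧ tau (t * i) ≠ 2)
    (hL : ∀ L : Subfield F, (∀ g ∈ Γ, tau g ∈ L) → L = ⊤) (B : SL(2, F)) :
    ∃ A ∈ Γ, ∃ c : F, A.1 = c • B.1 := by
  obtain ⟨p, hp⟩ := CharP.exists F
  have : Fact p.Prime := ⟨CharP.char_is_prime F p⟩
  set H := Γ.map ProjGenLinGroup.mk
  have hm : ∀ g ∈ Γ, ProjGenLinGroup.mk g ∈ H := fun g hg => ⟨g, hg, rfl⟩
  have small : ¬ (IsCyclic H ∨ IsDih p H ∨ Nonempty (H ≃* alternatingGroup (Fin 4)) ∨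
      Nonempty (H ≃* Equiv.Perm (Fin 4)) ∨ Nonempty (H ≃* alternatingGroup (Fin 5))) := fun h => by
    rcases small_cases h (t := ⟨_, hm t ht⟩) (i := ⟨_, hm i hi⟩) (ρ := ⟨_, hm ρ hρ⟩)
      (Subtype.ext (mk_sq_of_trace t0)) (Subtype.ext (mk_sq_of_trace i0))
      (fun e => mk_ne_one_of_trace h2 i0 (congrArg Subtype.val e))
      (Subtype.ext (by simp only [Subgroup.coe_mul, ← map_mul, hc]))
      (fun e => (tau_of_sq (by rw [pow_two]; exact congrArg Subtype.val e)).elim r0 r4) with e | ⟨e, e'⟩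
    · exact (tau_of_sq (by rw [map_mul]; exact congrArg Subtype.val e)).elim x0 x4
    · obtain ⟨e1, e2⟩ := x2 (((tau_of_pow_four (congrArg Subtype.val e)).resolve_left
        r0).resolve_right r4)
      rcases tau_of_pow_four (A := t * i) (by
        rw [map_mul]
        exact congrArg Subtype.val (e' (Subtype.ext (by simpa using e1)))) with e | e | e
      exacts [x0 e, e2 e, x4 e]
  by_cases hp : p ∣ Nat.card H
  swap
  · exact absurd (dickson_tame H hp) small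
  rcases dickson_wild H hp with ⟨x, hx⟩ | h | h | ⟨L, c, -, -, h⟩
  · exact absurd (tau_of_fix t0 i0 ((mk_smul _ x).symm.trans (hx _ (hm t ht)))
      ((mk_smul _ x).symm.trans (hx _ (hm i hi)))) x4
  · exact absurd (Or.inr (Or.inl h.2)) small
  · exact absurd (Or.inr (Or.inr (Or.inr (Or.inr h.2)))) small
  have h3 : MulAut.conj (ProjGenLinGroup.mk c) • H ≤ subPGL L := by
    rcases h with h | h
    exacts [h.le, h.le.trans (subPSL_le_subPGL L)]
  have h4 : subPSL L ≤ MulAut.conj (ProjGenLinGroup.mk c) • H := by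
    rcases h with h | h
    exacts [(subPSL_le_subPGL L).trans h.ge, h.ge]
  obtain rfl : L = ⊤ := hL L fun g hg => by
    obtain ⟨m, hm⟩ := h3 (Subgroup.smul_mem_pointwise_smul _ _ _ (hm g hg))
    obtain ⟨m, rfl⟩ := ProjGenLinGroup.mk_surjective m
    rw [← tau_conj c, ← tau_mk (A := GeneralLinearGroup.map L.subtype m) hm]
    simp only [tau, trace_fin_two, det_fin_two, GeneralLinearGroup.map_apply]
    exact div_mem (pow_mem (add_mem (m 0 0).2 (m 1 1).2) 2)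
      (sub_mem (mul_mem (m 0 0).2 (m 1 1).2) (mul_mem (m 0 1).2 (m 1 0).2))
  have h5 : SpecialLinearGroup.toPGL (Classical.SL2Basic.conjSL c B) ∈ subPSL (⊤ : Subfield F) := by
    have := Classical.DicksonSL.toPGL_map ⊤ (SpecialLinearGroup.map
      (Subfield.topEquiv (K := F)).symm.toRingHom (Classical.SL2Basic.conjSL c B))
    convert this using 2
    ext i j
    rfl
  have h6 := h4 h5
  rw [Classical.SL2Basic.toPGL_conjSL, Subgroup.mem_pointwise_smul_iff_inv_smul_mem] at h6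
  obtain ⟨A, hA, e⟩ := h6
  refine ⟨A, hA, (mk_eq_mk_iff_smul (g := SpecialLinearGroup.toGL B)).mp ?_⟩
  rw [e]
  simp [mul_assoc]

variable {V : Type*} [AddCommGroup V] [Module F V] {Q : QuadraticForm F V}
  {Θ : V →ₗ[F] Matrix (Fin 2) (Fin 2) F} {Λ : Matrix (Fin 2) (Fin 2) F →ₗ[F] V} {κ : F}

/-- An identification of a three-dimensional subspace with the trace zero matrices. -/
structure Spl (Q : QuadraticForm F V) (Θ : V →ₗ[F] Matrix (Fin 2) (Fin 2) F)
    (Λ : Matrix (Fin 2) (Fin 2) F →ₗ[F] V) (κ : F) : Prop where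
  two : (2 : F) ≠ 0
  ne : κ ≠ 0
  tr : ∀ x, (Θ x).trace = 0
  inv : ∀ m, m.trace = 0 → Θ (Λ m) = m
  pol : ∀ m x, polar Q (Λ m) x = κ * (m * Θ x).trace

theorem mat_anti {A B : Matrix (Fin 2) (Fin 2) F} (hA : A.trace = 0) (hB : B.trace = 0) :
    A * B = (A * B).trace • (1 : Matrix (Fin 2) (Fin 2) F) - B * A := by
  rw [trace_fin_two] at hA hB
  ext i j
  fin_cases i <;> fin_cases j <;>
    simp [trace_fin_two, Matrix.mul_apply, Fin.sum_univ_two]
  · linear_combination A 0 0 * hB - B 1 1 * hA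
  · linear_combination B 0 1 * hA + A 0 1 * hB
  · linear_combination B 1 0 * hA + A 1 0 * hB
  · linear_combination A 1 1 * hB - B 0 0 * hA

theorem mat_sq {A : Matrix (Fin 2) (Fin 2) F} (hA : A.trace = 0) :
    A * A = (-A.det) • (1 : Matrix (Fin 2) (Fin 2) F) := by
  rw [trace_fin_two] at hA
  ext i j
  fin_cases i <;> fin_cases j <;>
    simp [det_fin_two, Matrix.mul_apply, Fin.sum_univ_two]
  · linear_combination A 0 0 * hA
  · linear_combination A 0 1 * hA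
  · linear_combination A 1 0 * hA
  · linear_combination A 1 1 * hA

namespace Spl
variable (h : Spl Q Θ Λ κ)
include h

theorem q {m : Matrix (Fin 2) (Fin 2) F} (hm : m.trace = 0) : Q (Λ m) = -κ * m.det := by
  have := h.pol m (Λ m)
  rw [h.inv m hm, p_self, mat_sq hm] at this
  refine mul_left_cancel₀ h.two (this.trans ?_)
  simp
  ring

theorem q_dec (x : V) {m : Matrix (Fin 2) (Fin 2) F} (hm : m.trace = 0) :
    Q (x - Λ (Θ x) + Λ m) = Q (x - Λ (Θ x)) - κ * m.det := by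
  rw [q_add, polar_comm, h.pol, Θ.map_sub, h.inv _ (h.tr x), h.q hm]
  simp
  ring

/-- The action of `GL₂ × {±1}`. -/
def psiE : GL (Fin 2) F × ℤˣ →* End F V where
  toFun p := 1 - Λ ∘ₗ Θ + ((p.2 : ℤ) : F) •
    Λ ∘ₗ LinearMap.mulLeft F p.1.1 ∘ₗ LinearMap.mulRight F p.1⁻¹.1 ∘ₗ Θ
  map_one' := by
    ext x
    simp
  map_mul' p r := by
    ext x
    have := h.inv (r.1.1 * (Θ x * r.1⁻¹.1)) (by
      rw [← mul_assoc, Matrix.trace_units_conj, h.tr])
    simp only [LinearMap.add_apply, LinearMap.sub_apply, End.one_apply, LinearMap.comp_apply,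
      LinearMap.smul_apply, LinearMap.mulLeft_apply, LinearMap.mulRight_apply, End.mul_apply,
      map_add, map_sub, map_smul, h.inv _ (h.tr x), this, sub_self, zero_add, Prod.fst_mul,
      Prod.snd_mul, Units.val_mul, _root_.mul_inv_rev, Int.cast_mul, mul_assoc, smul_mul_assoc,
      mul_smul_comm, smul_smul, mul_comm ((r.2 : ℤ) : F)]
    abel

theorem psiE_apply (A : GL (Fin 2) F) (ε : ℤˣ) (x : V) : h.psiE (A, ε) x =
    x - Λ (Θ x) + Λ (((ε : ℤ) : F) • (A.1 * Θ x * A⁻¹.1)) := by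
  simp [psiE, mul_assoc]

/-- The action of `GL₂ × {±1}` by isometries. -/
def psi : GL (Fin 2) F × ℤˣ →* OG Q := ofRep h.psiE fun p x => by
  have e : (((p.2 : ℤ) : F)) ^ 2 = 1 := by
    rcases Int.units_eq_one_or p.2 with e | e <;> simp [e]
  rw [show p = (p.1, p.2) from rfl, h.psiE_apply, h.q_dec _ (by
    rw [trace_smul, Matrix.trace_units_conj, h.tr, smul_zero]), det_smul, det_units_conj,
    Fintype.card_fin, e, one_mul, ← h.q_dec x (h.tr x), sub_add_cancel]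

theorem psi_apply (A : GL (Fin 2) F) (ε : ℤˣ) (x : V) : (h.psi (A, ε)).1 x =
    x - Λ (Θ x) + Λ (((ε : ℤ) : F) • (A.1 * Θ x * A⁻¹.1)) := h.psiE_apply A ε x

theorem psi_smul {A B : GL (Fin 2) F} {c : F} (e : A.1 = c • B.1) (ε : ℤˣ) :
    h.psi (A, ε) = h.psi (B, ε) := OG.ext fun x => by
  have : A.1 * Θ x * A⁻¹.1 = B.1 * Θ x * B⁻¹.1 := by
    rw [Units.mul_inv_eq_iff_eq_mul, e]
    simp [mul_assoc]
  rw [h.psi_apply, h.psi_apply, this]

theorem q_th {a : V} (ha : Λ (Θ a) = a) : Q a = -κ * (Θ a).det := by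
  rw [← h.q (h.tr a), ha]

theorem exists_gl {a : V} (ha : Λ (Θ a) = a) (h0 : Q a ≠ 0) :
    ∃ A : GL (Fin 2) F, A.1 = Θ a ∧ h.psi (A, -1) = refl Q a := by
  have h1 := h.q_th ha
  have hd : (Θ a).det ≠ 0 := fun e => h0 (by rw [h1, e, mul_zero])
  refine ⟨GeneralLinearGroup.mkOfDetNeZero _ hd, rfl, OG.ext fun x => ?_⟩
  set A := GeneralLinearGroup.mkOfDetNeZero _ hd
  have hA : A.1 = Θ a := rfl
  have : A.1 * Θ x * A⁻¹.1 = ((Q a)⁻¹ * polar Q a x) • Θ a - Θ x := by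
    have h2 := h.pol (Θ a) x
    rw [ha] at h2
    rw [Units.mul_inv_eq_iff_eq_mul, hA, sub_mul, smul_mul_assoc, mat_sq (h.tr a), smul_smul,
      mat_anti (h.tr a) (h.tr x), h2, h1]
    congr 2
    have := h.ne
    field_simp
  rw [h.psi_apply, this, refl_apply]
  simp [ha]

theorem tau_mul {a b : V} (ha : Λ (Θ a) = a) (hb : Λ (Θ b) = b) {A B : GL (Fin 2) F}
    (hA : A.1 = Θ a) (hB : B.1 = Θ b) : tau (A * B) = polar Q a b ^ 2 / (Q a * Q b) := by
  have h2 := h.pol (Θ a) b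
  rw [ha] at h2
  have := h.ne
  rw [tau, Units.val_mul, det_mul, hA, hB, h2, h.q_th ha, h.q_th hb]
  by_cases e : (Θ a).det * (Θ b).det = 0
  · rw [e, show -κ * (Θ a).det * (-κ * (Θ b).det) = κ ^ 2 * ((Θ a).det * (Θ b).det) by ring, e]
    simp
  have := left_ne_zero_of_mul e
  have := right_ne_zero_of_mul e
  field_simp

theorem psi_comm {z : OG Q} (hz : ∀ m, z.1 (Λ m) = Λ m) (p : GL (Fin 2) F × ℤˣ) :
    h.psi p * z = z * h.psi p := OG.ext fun x => by
  have e : Θ (z.1 x) = Θ x := by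
    have k : ∀ m, (m * Θ (z.1 x)).trace = (m * Θ x).trace := fun m => mul_left_cancel₀ h.ne (by
      rw [← h.pol, ← h.pol, ← OG.map_polar z (Λ m) x, hz])
    ext i j
    simpa [Matrix.trace_single_mul] using k (single j i 1)
  rw [OG.mul_apply, OG.mul_apply, show p = (p.1, p.2) from rfl, h.psi_apply, h.psi_apply, e,
    map_add, map_sub, hz, hz]

theorem full {M L C : Subgroup (OG Q)} (h3 : ∃ s : F, s ≠ 0 ∧ s ^ 2 ≠ 1)
    (hL : ∀ g ∈ L, ∀ g' ∈ L, ⁅g, g'⁆ ∈ M) (hC : ∀ z ∈ C, ∀ z' ∈ C, z * z' = z' * z)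
    (hC' : ∀ z ∈ C, ∀ m, z.1 (Λ m) = Λ m)
    (H : ∀ Γ : Subgroup (GL (Fin 2) F), (∀ A ε, ∀ z ∈ C, h.psi (A, ε) * z ∈ L → A ∈ Γ) →
      ∀ B : SL(2, F), ∃ A ∈ Γ, ∃ c : F, A.1 = c • B.1) {a b : V} (ha : Λ (Θ a) = a)
    (hb : Λ (Θ b) = b) (h0 : Q a ≠ 0) (e : Q a = Q b) : refl Q a * refl Q b ∈ M := by
  have com : ∀ z ∈ C, ∀ p, Commute (h.psi p) z := fun z hz p => h.psi_comm (hC' z hz) p
  let Γ : Subgroup (GL (Fin 2) F × ℤˣ) :=
    { carrier := {p | ∃ z ∈ C, h.psi p * z ∈ L}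
      one_mem' := ⟨1, one_mem _, by simp⟩
      mul_mem' := fun {p r} ⟨z, hz, hp⟩ ⟨y, hy, hr⟩ => ⟨z * y, mul_mem hz hy, by
        rw [map_mul, (com z hz r).mul_mul_mul_comm]
        exact mul_mem hp hr⟩
      inv_mem' := fun {p} ⟨z, hz, hp⟩ => ⟨z⁻¹, inv_mem hz, by
        rw [map_inv, ← (com z hz p).mul_inv]
        exact inv_mem hp⟩ }
  have h1 : ∀ B : SL(2, F), ∃ ε, (SpecialLinearGroup.toGL B, ε) ∈ Γ := fun B => by
    obtain ⟨_, ⟨⟨A, ε⟩, ⟨z, hz, hA⟩, rfl⟩, c, e⟩ := H (Γ.map (MonoidHom.fst _ _))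
      (fun A ε z hz hA => ⟨(A, ε), ⟨z, hz, hA⟩, rfl⟩) B
    exact ⟨ε, z, hz, by rwa [← h.psi_smul (A := A) (B := SpecialLinearGroup.toGL B) (c := c) e]⟩
  have h2 : ∀ B : SL(2, F), h.psi (SpecialLinearGroup.toGL B, 1) ∈ M := fun B => by
    obtain ⟨s, hs, hs'⟩ := h3
    have : commutator SL(2, F) ≤ M.comap (h.psi.comp ((MonoidHom.inl _ _).comp
        SpecialLinearGroup.toGL)) := by
      rw [commutator_def, Subgroup.commutator_le]
      intro B _ B' _
      obtain ⟨ε, z, hz, h4⟩ := h1 B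
      obtain ⟨ε', z', hz', h5⟩ := h1 B'
      have h6 := hL _ h4 _ h5
      have e1 : ⁅(SpecialLinearGroup.toGL B, ε), (SpecialLinearGroup.toGL B', ε')⁆ =
          (SpecialLinearGroup.toGL ⁅B, B'⁆, 1) := by
        simp only [commutatorElement_def, map_mul, map_inv, Prod.mk_mul_mk, Prod.inv_mk]
        rw [mul_comm ε ε', mul_inv_cancel_right, mul_inv_cancel]
      change h.psi (SpecialLinearGroup.toGL ⁅B, B'⁆, 1) ∈ M
      convert h6 using 1
      rw [← e1, map_commutatorElement]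
      generalize (SpecialLinearGroup.toGL B, ε) = p
      generalize (SpecialLinearGroup.toGL B', ε') = r
      have c1 : Commute (h.psi r * z') z := (com z hz r).mul_left (hC z' hz' z hz)
      have c2 : Commute (h.psi p)⁻¹ z' := (com z' hz' p).inv_left
      simp only [commutatorElement_def, _root_.mul_inv_rev]
      rw [mul_assoc _ z, ← c1.eq]
      simp only [mul_assoc, mul_inv_cancel_left]
      rw [← mul_assoc z', ← c2.eq]
      simp only [mul_assoc, mul_inv_cancel_left]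
    exact this (SL2.commutator_eq_top hs hs' ▸ Subgroup.mem_top B)
  obtain ⟨A, hA, hA'⟩ := h.exists_gl ha h0
  obtain ⟨B, hB, hB'⟩ := h.exists_gl hb (e ▸ h0)
  have hd : (Θ b).det = (Θ a).det :=
    mul_left_cancel₀ (neg_ne_zero.mpr h.ne) (by rw [← h.q_th ha, ← h.q_th hb, e])
  have hd' : (Θ a).det ≠ 0 := hA ▸ gl_det_ne A
  have := h2 ⟨(Θ a).det⁻¹ • (Θ a * Θ b), by
    rw [det_smul, det_mul, hd, Fintype.card_fin]
    field_simp⟩
  rwa [← h.psi_smul (A := A * B) (c := (Θ a).det) (by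
    rw [Units.val_mul, hA, hB]
    exact (smul_inv_smul₀ hd' _).symm), show (1 : ℤˣ) = -1 * -1 by simp,
    ← Prod.mk_mul_mk, map_mul, hA', hB'] at this

end Spl

theorem exists_spl [Finite F] (h2 : (2 : F) ≠ 0) {w w' n : V} (hw : Q w ≠ 0) (hw' : Q w' ≠ 0)
    (hn : Q n ≠ 0) (o1 : polar Q w w' = 0) (o2 : polar Q w n = 0) (o3 : polar Q w' n = 0) :
    ∃ Θ Λ κ, Spl Q Θ Λ κ ∧ Θ n = Θ w' * Θ w ∧ (∀ x y s : F, Λ (Θ (x • w + y • w' + s • n)) =
      x • w + y • w' + s • n) ∧ ∀ m, ∃ x y s : F, Λ m = x • w + y • w' + s • n := by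
  obtain ⟨a, ha⟩ : ∃ a, a * Q w' = -Q n := ⟨-Q n / Q w', by field_simp⟩
  obtain ⟨b, hb⟩ : ∃ b, b * Q w = -Q n := ⟨-Q n / Q w, by field_simp⟩
  have a0 : a ≠ 0 := left_ne_zero_of_mul (ha ▸ neg_ne_zero.mpr hn)
  have b0 : b ≠ 0 := left_ne_zero_of_mul (hb ▸ neg_ne_zero.mpr hn)
  obtain ⟨x, y, hxy⟩ := exists_binary_eq h2 one_ne_zero (neg_ne_zero.mpr a0) b
  obtain ⟨κ, hκ⟩ : ∃ κ, Q w = κ * a := ⟨Q w / a, by field_simp⟩
  have κ0 : κ ≠ 0 := left_ne_zero_of_mul (hκ ▸ hw)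
  have e1 : Q w' = κ * b := mul_left_cancel₀ a0 (by rw [ha, ← hb, hκ]; ring)
  have e2 : Q n = -(κ * a * b) := by rw [← neg_neg (Q n), ← hb, hκ]; ring
  let X : Matrix (Fin 2) (Fin 2) F := !![0, 1; a, 0]
  let Y : Matrix (Fin 2) (Fin 2) F := !![x, y; -(a * y), -x]
  let Z : Matrix (Fin 2) (Fin 2) F := !![a * y, x; -(a * x), -(a * y)]
  let φ (v : V) (X : Matrix (Fin 2) (Fin 2) F) : V →ₗ[F] Matrix (Fin 2) (Fin 2) F :=
    (2 * Q v)⁻¹ • (Q.polarBilin v).smulRight X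
  let ψ (v : V) (X : Matrix (Fin 2) (Fin 2) F) : Matrix (Fin 2) (Fin 2) F →ₗ[F] V :=
    (κ * (2 * Q v)⁻¹) • (traceLinearMap _ F F ∘ₗ LinearMap.mulRight F X).smulRight v
  have hφ : ∀ x y s : F, (φ w X + φ w' Y + φ n Z) (x • w + y • w' + s • n) =
      x • X + y • Y + s • Z := fun x y s => by
    simp only [φ, LinearMap.add_apply, LinearMap.smul_apply, LinearMap.smulRight_apply,
      polarBilin_apply_apply, polar_add_right, p_smul_right, p_self, o1, o2, o3,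
      polar_comm Q w' w, polar_comm Q n w, polar_comm Q n w', smul_smul]
    congr 2
    · congr 1
      field_simp
      ring
    · congr 1
      field_simp
      ring
    · field_simp
      ring
  have hψ : ∀ m, (ψ w X + ψ w' Y + ψ n Z) m = ((2 * a)⁻¹ * (m * X).trace) • w +
      ((2 * b)⁻¹ * (m * Y).trace) • w' + (-(2 * a * b)⁻¹ * (m * Z).trace) • n := fun m => by
    simp only [ψ, LinearMap.add_apply, LinearMap.smul_apply, LinearMap.smulRight_apply,
      LinearMap.comp_apply, LinearMap.mulRight_apply, traceLinearMap_apply, smul_smul, hκ, e1, e2]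
    congr 2
    · congr 1
      field_simp
    · field_simp
    · field_simp
  refine ⟨φ w X + φ w' Y + φ n Z, ψ w X + ψ w' Y + ψ n Z, κ, ⟨h2, κ0, fun v => ?_,
    fun m hm => ?_, fun m v => ?_⟩, ?_, fun x y s => ?_, fun m => ⟨_, _, _, hψ m⟩⟩
  · simp [φ, X, Y, Z, trace_fin_two]
    ring
  · rw [hψ, hφ]
    rw [trace_fin_two] at hm
    have hm : m 1 1 = -m 0 0 := by linear_combination hm
    ext i j
    fin_cases i <;> fin_cases j <;>
      simp [X, Y, Z, trace_fin_two, Matrix.mul_apply, Fin.sum_univ_two, hm] <;>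
      field_simp <;> rw [← hxy] <;> ring
  · simp only [φ, ψ, LinearMap.add_apply, LinearMap.smul_apply, LinearMap.smulRight_apply,
      LinearMap.comp_apply, LinearMap.mulRight_apply, traceLinearMap_apply, polar_add_left,
      p_smul_left, polarBilin_apply_apply, mul_add, mul_smul_comm, trace_add, trace_smul,
      smul_eq_mul]
    ring
  · have h1 := hφ 1 0 0
    have h2 := hφ 0 1 0
    have h3 := hφ 0 0 1
    simp only [one_smul, zero_smul, add_zero, zero_add] at h1 h2 h3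
    rw [h1, h2, h3]
    ext i j
    fin_cases i <;> fin_cases j <;> simp [X, Y, Z, mul_comm]
  · rw [hφ, hψ]
    congr 2
    · congr 1
      simp [X, Y, Z, trace_fin_two, Matrix.mul_apply, Fin.sum_univ_two]
      field_simp
      ring
    · congr 1
      simp [X, Y, Z, trace_fin_two, Matrix.mul_apply, Fin.sum_univ_two]
      field_simp
      rw [← hxy]
      ring
    · simp [X, Y, Z, trace_fin_two, Matrix.mul_apply, Fin.sum_univ_two]
      field_simp
      rw [← hxy]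
      ring

/-- Dickson's theorem in a three-dimensional non-degenerate subspace. -/
theorem o3 [Finite F] (h2 : (2 : F) ≠ 0) (h3 : ∃ s : F, s ≠ 0 ∧ s ^ 2 ≠ 1) {w w' n : V}
    (hw : Q w ≠ 0) (hw' : Q w' ≠ 0) (hn : Q n ≠ 0) (o1 : polar Q w w' = 0)
    (o2 : polar Q w n = 0) (o3 : polar Q w' n = 0) {M L : Subgroup (OG Q)} {C : Set (OG Q)}
    (hL : ∀ g ∈ L, ∀ g' ∈ L, ⁅g, g'⁆ ∈ M) (hC : ∀ z ∈ C, ∀ z' ∈ C, z * z' = z' * z)
    (hC' : ∀ z ∈ C, z.1 w = w ∧ z.1 w' = w' ∧ z.1 n = n) {x y s c : F}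
    (ha : refl Q (x • w + y • w' + s • n) ∈ L) (a0 : Q (x • w + y • w' + s • n) ≠ 0)
    (hi : ∃ z ∈ C, refl Q w' * refl Q w * z ∈ L) {S : Set F}
    (hS : ∀ c ∈ S, Q w + c ^ 2 * Q w' ≠ 0 ∧ ∃ z ∈ C, refl Q (w + c • w') * refl Q w * z ∈ L)
    (hc : c ∈ S) (c0 : c ≠ 0) (s0 : s ≠ 0) (x4 : x ^ 2 * Q w + y ^ 2 * Q w' ≠ 0)
    (x2 : Q w = c ^ 2 * Q w' → s ^ 2 * Q n ≠ x ^ 2 * Q w + y ^ 2 * Q w')
    (hK : ∀ K : Subfield F, (∀ c ∈ S, 4 * Q w / (Q w + c ^ 2 * Q w') ∈ K) → K = ⊤)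
    {a b : V} (h1 : ∃ x y s : F, a = x • w + y • w' + s • n)
    (h1' : ∃ x y s : F, b = x • w + y • w' + s • n) (h0 : Q a ≠ 0) (e : Q a = Q b) :
    refl Q a * refl Q b ∈ M := by
  obtain ⟨Θ, Λ, κ, h, hZ, hU, hU'⟩ := exists_spl h2 hw hw' hn o1 o2 o3
  obtain ⟨_, _, _, rfl⟩ := h1
  obtain ⟨_, _, _, rfl⟩ := h1'
  refine h.full (C := Subgroup.closure C) h3 hL (fun z hz z' hz' => ?_) (fun z hz m => ?_)
    (fun Γ hΓ => ?_) (hU _ _ _) (hU _ _ _) h0 e
  · exact congrArg Subtype.val ((Subgroup.closureCommGroupOfComm hC).mul_comm ⟨z, hz⟩ ⟨z', hz'⟩)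
  · obtain ⟨x, y, s, e⟩ := hU' m
    refine (Subgroup.closure_le (MulAction.stabilizer (OG Q) (Λ m))).mpr (fun z hz => ?_) hz
    change z.1 _ = _
    simp only [e, map_add, map_smul, hC' z hz]
  have qq : ∀ x y s : F, Q (x • w + y • w' + s • n) = x ^ 2 * Q w + y ^ 2 * Q w' + s ^ 2 * Q n :=
    fun x y s => by simp [q_add, q_smul, o1, o2, o3]
  have u1 : Λ (Θ w) = w := by simpa using hU 1 0 0
  have u2 : Λ (Θ w') = w' := by simpa using hU 0 1 0
  have u3 : Λ (Θ n) = n := by simpa using hU 0 0 1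
  have u4 : ∀ c : F, Λ (Θ (w + c • w')) = w + c • w' := fun c => by simpa using hU 1 c 0
  have q4 : ∀ c : F, Q (w + c • w') = Q w + c ^ 2 * Q w' := fun c => by simpa using qq 1 c 0
  obtain ⟨A, hA, hA'⟩ := h.exists_gl u1 hw
  obtain ⟨B, hB, hB'⟩ := h.exists_gl u2 hw'
  obtain ⟨T, hT, hT'⟩ := h.exists_gl (hU x y s) a0
  have mul : ∀ R : GL (Fin 2) F, h.psi (R * A, 1) = h.psi (R, -1) * refl Q w := fun R => by
    rw [← hA', ← map_mul, Prod.mk_mul_mk, neg_mul_neg, one_mul]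
  have rot : ∀ c ∈ S, ∃ R : GL (Fin 2) F, R.1 = Θ (w + c • w') ∧ R * A ∈ Γ ∧
      tau (R * A) = 4 * Q w / (Q w + c ^ 2 * Q w') := fun c hc => by
    obtain ⟨h1, z, hz, h4⟩ := hS c hc
    obtain ⟨R, hR, hR'⟩ := h.exists_gl (u4 c) (q4 c ▸ h1)
    refine ⟨R, hR, hΓ _ 1 z (Subgroup.subset_closure hz) (by rwa [mul, hR']), ?_⟩
    rw [h.tau_mul (u4 c) u1 hR hA, q4, polar_add_left, p_smul_left, polar_comm Q w', o1, p_self]
    field_simp
    ring
  obtain ⟨z, hz, hi⟩ := hi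
  obtain ⟨R, hR, hR', r⟩ := rot c hc
  have hN : (B * A).1 = Θ n := by rw [Units.val_mul, hA, hB, hZ]
  have t : tau (T * (B * A)) = 4 * (s ^ 2 * Q n) / (x ^ 2 * Q w + y ^ 2 * Q w' + s ^ 2 * Q n) := by
    rw [h.tau_mul (hU x y s) u3 hT hN, qq, polar_add_left, polar_add_left, p_smul_left,
      p_smul_left, p_smul_left, o2, o3, p_self]
    rw [qq] at a0
    field_simp
    ring
  have h4 : (4 : F) ≠ 0 := by
    rw [show (4 : F) = 2 * 2 by norm_num]
    exact mul_ne_zero h2 h2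
  have d0 := (hS c hc).1
  rw [qq] at a0
  have an : Θ w * Θ w' = -(Θ w' * Θ w) := by
    have := h.pol (Θ w) w'
    rw [u1, o1] at this
    rw [mat_anti (h.tr w) (h.tr w'), (mul_eq_zero.mp this.symm).resolve_left h.ne]
    simp
  have hRA : (R * A).1 = (-(Θ w).det) • (1 : Matrix (Fin 2) (Fin 2) F) + c • (B * A).1 := by
    rw [Units.val_mul, hR, hA, map_add, map_smul, add_mul, mat_sq (h.tr w), smul_mul_assoc, hN, hZ]
  refine pg_full h2 Γ (hΓ T (-1) 1 (one_mem _) (by rwa [hT', mul_one]))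
    (hΓ (B * A) 1 z (Subgroup.subset_closure hz) (by rwa [mul, hB']))
    hR' (hT ▸ h.tr _) (hN ▸ h.tr _) (Units.ext ?_) ?_ ?_
    ?_ ?_ (fun e => ⟨?_, ?_⟩) fun K hK' => hK K fun c hc => ?_
  · rw [Units.val_mul, Units.val_mul (B * A), hRA]
    simp [add_mul, mul_add]
  · rw [r]
    exact div_ne_zero (mul_ne_zero h4 hw) d0
  · rw [r, Ne, div_eq_iff d0]
    exact fun e => mul_ne_zero h4 (mul_ne_zero (pow_ne_zero 2 c0) hw') (by linear_combination -e)
  · rw [t]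
    exact div_ne_zero (mul_ne_zero h4 (mul_ne_zero (pow_ne_zero 2 s0) hn)) a0
  · rw [t, Ne, div_eq_iff a0]
    exact fun e => mul_ne_zero h4 x4 (by linear_combination -e)
  · rw [r, div_eq_iff d0] at e
    have e : Q w = c ^ 2 * Q w' := mul_left_cancel₀ h2 (by linear_combination e)
    refine (mk_eq_mk_of_smul (-(2 * c * (Θ w).det)) ?_).symm
    have e1 : (Θ n).det = (Θ w').det * (Θ w).det := by rw [hZ, det_mul]
    have e2 : (Θ w).det = c ^ 2 * (Θ w').det := mul_left_cancel₀ (neg_ne_zero.mpr h.ne) (by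
      rw [← h.q_th u1, e, h.q_th u2]
      ring)
    rw [Units.val_mul, hRA, hN]
    simp only [add_mul, mul_add, smul_mul_assoc, mul_smul_comm, one_mul, mul_one,
      mat_sq (h.tr n), e1, e2]
    module
  · rw [r, div_eq_iff d0] at e
    rw [t, Ne, div_eq_iff a0]
    exact fun e' => x2 (mul_left_cancel₀ h2 (by linear_combination e))
      (mul_left_cancel₀ h2 (by linear_combination e'))
  · obtain ⟨R, -, hR, r⟩ := rot c hc
    exact r ▸ hK' _ hR

/-- The subgroup generated by `M ∩ rMr` and an involution `r`. -/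
theorem exists_ext {G : Type*} [Group G] (M : Subgroup G) {r : G} (hr : r * r = 1) :
    ∃ L : Subgroup G, (∀ g ∈ L, ∀ g' ∈ L, ⁅g, g'⁆ ∈ M) ∧ (∀ g, g * r ∈ M → r * g ∈ M → g ∈ L) ∧
      ∀ g ∈ M, r * g * r ∈ M → g ∈ L := by
  have hi : r⁻¹ = r := inv_eq_of_mul_eq_one_right hr
  have c : ∀ g, r * (r * g) = g := fun g => by rw [← mul_assoc, hr, one_mul]
  let N : Subgroup G := M ⊓ M.comap (MulAut.conj r).toMonoidHom
  have hN : ∀ g, g ∈ N ↔ g ∈ M ∧ r * g * r ∈ M := fun g => by simp [N, hi]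
  have hN' : ∀ g ∈ N, r * g * r ∈ N := fun g hg => (hN _).mpr ⟨((hN _).mp hg).2, by
    simpa [mul_assoc, c, hr] using ((hN _).mp hg).1⟩
  refine ⟨{ carrier := {g | g ∈ N ∨ g * r ∈ N}
            one_mem' := Or.inl (one_mem _)
            mul_mem' := ?_
            inv_mem' := ?_ }, ?_, fun g h h' => Or.inr ((hN _).mpr ⟨h, ?_⟩),
    fun g h h' => Or.inl ((hN _).mpr ⟨h, h'⟩)⟩
  · rintro a b (ha | ha) (hb | hb)
    · exact Or.inl (mul_mem ha hb)
    · exact Or.inr (mul_assoc a b r ▸ mul_mem ha hb)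
    · exact Or.inr (by simpa [mul_assoc, c] using mul_mem ha (hN' _ hb))
    · exact Or.inl (by simpa [mul_assoc, c, hr] using mul_mem ha (hN' _ hb))
  · rintro a (ha | ha)
    · exact Or.inl (inv_mem ha)
    · exact Or.inr (by simpa [mul_assoc, c, hi] using hN' _ (inv_mem ha))
  · rintro a (ha | ha) b (hb | hb) <;> refine ((hN _).mp ?_).1 <;> rw [commutatorElement_def]
    · exact mul_mem (mul_mem (mul_mem ha hb) (inv_mem ha)) (inv_mem hb)
    · simpa [mul_assoc, c, hi] using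
        mul_mem (mul_mem (mul_mem ha hb) (hN' _ (inv_mem ha))) (inv_mem hb)
    · simpa [mul_assoc, c, hi, hr] using
        mul_mem (mul_mem (mul_mem ha (hN' _ hb)) (inv_mem ha)) (inv_mem hb)
    · simpa [mul_assoc, c, hi, hr] using
        mul_mem (mul_mem (mul_mem ha (hN' _ hb)) (hN' _ (inv_mem ha))) (inv_mem hb)
  · simpa [mul_assoc, hr] using h'

end Cfsg.Agent.Max
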