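import Mathlib
import Cfsg.Agent.Max.ODec

/-!
# Orthogonal decompositions of orthogonal spaces of small dimension
-/

set_option autoImplicit false

namespace Cfsg.Agent.Max

open Module QuadraticMap Orth

variable {F V : Type*} [Field F] [AddCommGroup V] [Module F V] {Q : QuadraticForm F V}
  {M : Subgroup (OG Q)} [FiniteDimensional F V] [Finite F]

variable {κ : Type*} [Fintype κ] {D : κ → Submodule F V} {π : κ → V →ₗ[F] V} {k : ℕ}

/-- An orthogonal decomposition into isometric blocks whose stabiliser lies in `M`. -/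
structure ODc (M : Subgroup (OG Q)) (D : κ → Submodule F V) (π : κ → V →ₗ[F] V) (k : ℕ) :
    Prop where
  nd : ND Q
  hn : 5 ≤ finrank F V
  dec : IsDec D π
  rk : ∀ i, finrank F (D i) = k
  nds : ∀ i, NDS Q (D i)
  orth : ∀ i j, i ≠ j → ∀ x ∈ D i, ∀ y ∈ D j, polar Q x y = 0
  iso : ∀ i j, ∃ g : OG Q, ∀ x ∈ D i, g.1 x ∈ D j
  le : ∀ g ∈ commutator (OG Q), PermD D g.1 → g ∈ M

namespace ODc
variable (h : ODc M D π k) {i j l : κ} {a b c x y : V}
include h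

omit [Finite F] [FiniteDimensional F V] in
theorem le_perp (hij : i ≠ j) : D i ≤ perp Q (D j) := fun x hx =>
  mem_perp'.mpr (h.orth i j hij x hx)

omit [Finite F] [FiniteDimensional F V] in
theorem mem_or (ha : a ∈ D i) (j : κ) : a ∈ D j ∨ a ∈ perp Q (D j) := by
  by_cases hij : i = j
  exacts [.inl (hij ▸ ha), .inr (h.le_perp hij ha)]

omit [Finite F] [FiniteDimensional F V] in
theorem proj (hx : x ∈ D i) (y : V) : polar Q x (π i y) = polar Q x y :=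
  h.dec.b_proj (B := Q.polarBilin) h.orth hx y

omit [Finite F] [FiniteDimensional F V] in
theorem q_sum (x : V) : Q x = ∑ i, Q (π i x) := by
  conv_lhs => rw [← h.dec.sum x]
  exact q_sum_orth _ _ fun i j hij => h.orth i j hij _ (h.dec.mem _ _) _ (h.dec.mem _ _)

omit [Finite F] [FiniteDimensional F V] in
theorem exists_Q_ne (ha : Q a ≠ 0) : ∃ i, Q (π i a) ≠ 0 := by
  by_contra hc
  push Not at hc
  exact ha (by simp [h.q_sum a, hc])

omit [Finite F] in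
theorem rr2 (ha : a ∈ D i) (hc : c ∈ D j) (h0 : Q a ≠ 0) (e : Q a = Q c) :
    refl Q a * refl Q c ∈ M :=
  h.le _ (h.nd.refl_mul_refl_mem_commutator h0 e) (h.dec.permD_of_fix fun l _ hx =>
    refl_mem_sub (h.mem_or ha l) (refl_mem_sub (h.mem_or hc l) hx))

omit [Finite F] in
theorem rr_mul (ha : RR M D a) (hc : c ∈ D j) (e : Q a = Q c) : refl Q a * refl Q c ∈ M := by
  obtain ⟨h0, i, d, hd, h1, h2⟩ := ha
  simpa [mul_assoc, ← mul_assoc (refl Q d)] using mul_mem h2 (h.rr2 hd hc (h1 ▸ h0) (h1.trans e))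

omit [Finite F] in
theorem rr_map {g : OG Q} (hg : g ∈ M) (ha : RR M D a) (hc : c ∈ D j) (e : Q a = Q c)
    (hc' : g.1 c ∈ D l) : RR M D (g.1 a) :=
  ⟨by simpa using ha.1, l, _, hc', by simp [e], by
    simpa [← refl_conj, mul_assoc] using mul_mem (mul_mem hg (h.rr_mul ha hc e)) (inv_mem hg)⟩

omit [Finite F] [FiniteDimensional F V] h in
theorem rr_of (ha : a ∈ D i) (h0 : Q a ≠ 0) : RR M D a := ⟨h0, i, a, ha, rfl, by simp⟩

omit [Finite F] in
theorem oe (hx : x ∈ D i) (hy : y ∈ D i) (h1 : Q x = 0) (h2 : polar Q x y = 0) : y ∈ OE M x :=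
  ⟨h2, fun c => h.le _ (h.nd.eich_mem_commutator (good_of_five_le (by have := h.hn; omega)) _ _)
    (h.dec.permD_of_fix fun l z hz => by
      rw [eich_apply h1 (by simp [h2])]
      by_cases e : i = l
      · subst e
        exact (D i).sub_mem ((D i).add_mem hz ((D i).smul_mem _ hx))
          ((D i).smul_mem _ ((D i).smul_mem _ hy))
      · simpa [h.orth i l e x hx z hz, h.orth i l e y hy z hz] using hz)⟩

omit [Finite F] in
theorem swap' (hij : i ≠ j) : ∃ w : OG Q, (∀ y ∈ D j, ∃ x ∈ D i, w.1 x = y) ∧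
    (∀ l, l ≠ i → l ≠ j → ∀ x ∈ D l, w.1 x = x) ∧ PermD D w.1 := by
  obtain ⟨g, h1⟩ := h.iso i j
  have h2 : ∀ x ∈ D j, g.1.symm x ∈ D i := fun x hx => by
    obtain ⟨y, hy, rfl⟩ := exists_of_map_le h1 ((h.rk i).trans (h.rk j).symm) x hx
    simpa using hy
  obtain ⟨w, -, a1, a2, a3, a4⟩ := h.dec.exists_swap hij g.1 h1 h2
  have key : ∀ l, ∀ x ∈ D l, Q (w x) = Q x := fun l x hx => by
    by_cases hi : l = i
    · rw [a1 x (hi ▸ hx), OG.map_Q]
    by_cases hj : l = j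
    · rw [a2 x (hj ▸ hx), QuadraticMap.map_neg]
      exact OG.map_Q g⁻¹ x
    rw [a3 l hi hj x hx]
  refine ⟨⟨w, fun x => ?_⟩, fun y hy => ⟨_, h2 y hy, (a1 _ (h2 y hy)).trans
    (g.1.apply_symm_apply y)⟩, a3, a4⟩
  conv_lhs => rw [← h.dec.sum x, map_sum]
  rw [q_sum_orth, h.q_sum x]
  · exact Finset.sum_congr rfl fun l _ => key l _ (h.dec.mem _ _)
  · intro a b hab
    refine (h.dec.isom (B := Q.polarBilin) h.orth a4 (fun l x hx y hy => ?_) _ _).trans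
      (h.orth a b hab _ (h.dec.mem _ _) _ (h.dec.mem _ _))
    simp only [polarBilin_apply_apply, polar, ← map_add, key l _ hx, key l _ hy,
      key l _ (add_mem hx hy)]

theorem adj (hk : 2 ≤ k) (i : κ) {w : OG Q} (hw : PermD D w.1) : ∃ g : OG Q,
    (∀ x ∈ D i, g.1 x ∈ D i) ∧ (∀ l, l ≠ i → ∀ x ∈ D l, g.1 x = x) ∧ w * g ∈ M := by
  obtain ⟨g, h1, h2, h3⟩ := exists_adj h.nd (by have := h.hn; omega) (h.nds i)
    (by rw [h.rk]; exact hk) w
  refine ⟨g, h1, fun l hl x hx => h2 x (h.le_perp hl hx), h.le _ (by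
    simpa [mul_assoc] using Subgroup.Normal.conj_mem inferInstance _ h3 g⁻¹) ?_⟩
  obtain ⟨s, hs⟩ := hw
  refine ⟨s, fun l => ?_⟩
  rw [← hs l]
  refine (Submodule.map_comp (g.1 : V →ₗ[F] V) (w.1 : V →ₗ[F] V) _).trans (congrArg _ ?_)
  refine map_eq_of_le (fun x hx => ?_) rfl
  by_cases e : l = i
  · exact e ▸ h1 x (e ▸ hx)
  · rwa [h2 x (h.le_perp e hx)]

theorem swap (hk : 2 ≤ k) (hij : i ≠ j) : ∃ w ∈ M, (∀ y ∈ D j, ∃ x ∈ D i, w.1 x = y) ∧
    ∀ l, l ≠ i → l ≠ j → ∀ x ∈ D l, w.1 x = x := by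
  obtain ⟨w, h1, h2, h3⟩ := h.swap' hij
  obtain ⟨g, h4, h5, h6⟩ := h.adj hk i h3
  refine ⟨_, h6, fun y hy => ?_, fun l hi hj x hx => by rw [OG.mul_apply, h5 l hi x hx, h2 l hi hj x hx]⟩
  obtain ⟨x, hx, rfl⟩ := h1 y hy
  obtain ⟨z, hz, rfl⟩ := exists_of_map_le h4 rfl x hx
  exact ⟨z, hz, rfl⟩

theorem op_of (hk : 2 ≤ k) (hx : x ∈ D i) (hx1 : Q x = 0) (hj : j ≠ i) (h3 : D j ≤ OE M x) :
    OP M x := ⟨hx1, fun y hy => by
  rw [← h.dec.sum y]
  refine Submodule.sum_mem _ fun l _ => ?_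
  by_cases hl : l = i
  · exact h.oe hx (hl ▸ h.dec.mem l y) hx1 (by rwa [hl, h.proj hx])
  by_cases hl' : j = l
  · exact h3 (hl' ▸ h.dec.mem j y)
  obtain ⟨w, hw, hw1, hw2⟩ := h.swap hk hl'
  obtain ⟨v, hv, e⟩ := hw1 _ (h.dec.mem l y)
  exact e ▸ OE.map_fix (h3 hv) hw (hw2 i hj.symm (Ne.symm hl) x hx)⟩

theorem fin (hk : 3 ≤ k) (hx : x ∈ D i) (hx0 : x ≠ 0) (hx1 : Q x = 0) (hy : y ∈ OE M x)
    (hy' : y ∉ D i) : commutator (OG Q) ≤ M := by
  obtain ⟨f, hf, hf1, hf2, U, hU, hU1, hU2, hU3⟩ := (h.nds i).exists_hyp hx hx0 hx1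
  obtain ⟨j, hj, hj'⟩ := h.dec.exists_of_not_mem hy'
  have h3 : 3 ≤ finrank F (D j) := by rw [h.rk]; exact hk
  have he : ∀ c ∈ D j, ∀ e ∈ D j, Q c = 0 → polar Q c e = 0 → ∀ y ∈ OE M x,
      (eich Q c e).1 y ∈ OE M x := fun c hc e he h4 h5 y hy =>
    OE.map_fix hy (OE.mem (h.oe hc he h4 h5))
      (eich_apply_of_orth h4 h5 (h.orth j i hj c hc x hx) (h.orth j i hj e he x hx))
  obtain ⟨z, hz, hz0⟩ : ∃ z ∈ OE M x ⊓ D j, z ≠ 0 := by
    by_contra hc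
    push Not at hc
    have := (h.nds j).irr3 h3 (X := F ∙ π j y)
      ((Submodule.span_singleton_le_iff_mem _ _).mpr (h.dec.mem _ _)) (fun c hc' e he' h4 h5 v hv => by
        obtain ⟨t, rfl⟩ := Submodule.mem_span_singleton.mp hv
        have := hc _ ⟨(OE M x).sub_mem (he c hc' e he' h4 h5 y hy) hy, by
          rw [eich_apply h4 h5, add_sub_assoc, add_sub_cancel_left]
          exact (D j).sub_mem ((D j).smul_mem _ hc') ((D j).smul_mem _ he')⟩
        rw [eich_apply h4 h5, add_sub_assoc, add_sub_cancel_left] at this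
        rwa [map_smul, eich_apply h4 h5, h.proj hc', h.proj he', add_sub_assoc, this, add_zero])
      (Submodule.mem_span_singleton_self _) hj'
    have := (Submodule.finrank_mono this).trans (finrank_span_one_le _)
    omega
  have h4 := (h.nds j).irr3 h3 inf_le_right (fun c hc e he' h4 h5 v hv => ⟨he c hc e he' h4 h5 v hv.1, by
    rw [eich_apply h4 h5]
    exact (D j).sub_mem ((D j).add_mem hv.2 ((D j).smul_mem _ hc)) ((D j).smul_mem _ he')⟩) hz hz0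
  obtain ⟨v, hv, hv'⟩ := hU1.exists_nonsing (by rw [h.rk] at hU2; omega)
  exact om_le_of_eich h.nd (by have := h.hn; omega) (h.op_of (by omega) hx hx1 hj
    (h4.trans inf_le_left)) hf1 (hU3 v hv).2 hv' (by simp [polar_comm Q f x, hf2])
    (OE.mem (h.oe hf (hU hv) hf1 (hU3 v hv).2))

theorem good (hk : 3 ≤ k) (ha : RR M D a) (ha' : a ∉ D l) (h0 : Q (π l a) ≠ 0) (hx : x ∈ D l)
    (hx0 : x ≠ 0) (hx1 : Q x = 0) (hx2 : polar Q a x = 0) : commutator (OG Q) ≤ M := by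
  obtain ⟨j, hj, -⟩ := h.dec.exists_of_not_mem ha'
  obtain ⟨c, hc, hc'⟩ := (h.nds j).exists_Q_eq (by rw [h.rk]; omega) (Q a)
  obtain ⟨w, hw, h1, h2⟩ := (h.nds l).exists_orth ((Submodule.span_singleton_le_iff_mem _ _).mpr hx)
    (h.dec.mem l a) fun e => h0 (sing_span_singleton hx1 _ e)
  rw [polar_comm, h.proj hw, polar_comm] at h2
  refine h.fin hk hx hx0 hx1 (OE.of_refl (h.oe hx hw hx1 (h1 x (Submodule.mem_span_singleton_self x)))
    (h.rr_mul ha hc hc'.symm) ?_ ?_ ha.1 (by simp [h2])) ha'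
  · rw [OG.mul_apply, refl_apply_of_orth (h.orth j l hj c hc x hx), refl_apply_of_orth hx2]
  · rw [OG.mul_apply, refl_apply_of_orth (h.orth j l hj c hc w hw)]

theorem no_rr (hk : 3 ≤ k) (hex : k = 3 → 4 ≤ Nat.card F) (ha : RR M D a) (ha' : ∀ j, a ∉ D j) :
    commutator (OG Q) ≤ M := by
  obtain ⟨l, hl⟩ := h.exists_Q_ne ha.1
  have e1 := finrank_le_inf_ker (D l) (Q.polarBilin (π l a))
  rw [h.rk] at e1
  rcases hk.eq_or_lt with h3 | h3
  swap
  · obtain ⟨x, hx, hx0, hx1⟩ := exists_sing_mem Q (D l ⊓ LinearMap.ker (Q.polarBilin (π l a)))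
      (by omega)
    exact h.good hk ha (ha' l) hl hx.1 hx0 hx1 (by
      rw [polar_comm, ← h.proj hx.1, polar_comm]; exact hx.2)
  have h2 := (h.nds l).three_card ((h.rk l).trans h3.symm)
  obtain ⟨x, hx, hx0, hx1⟩ := exists_sing_mem Q (D l) (by rw [h.rk]; exact hk)
  obtain ⟨f, -, -, -, U, hU, hU1, hU2, hU3⟩ := (h.nds l).exists_hyp hx hx0 hx1
  obtain ⟨v, hv, hv'⟩ := hU1.exists_nonsing (by rw [h.rk] at hU2; omega)
  obtain ⟨s, hs, hs'⟩ := exists_sq_ne' (hex h3.symm) (-(Q a - Q (π l a)) / Q v)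
  have hP := (h.nds l).perp_one h2 (h.dec.mem l a) hl
  obtain ⟨c, hc, hc'⟩ := hP.exists_Q_eq (by omega) (Q a - Q (π l a) + s ^ 2 * Q v -
    (Q a / (2 * Q (π l a))) ^ 2 * Q (π l a))
  have h4 : polar Q (π l a) c = 0 := hc.2
  obtain ⟨d, hd⟩ : ∃ d, d = (Q a / (2 * Q (π l a))) • π l a + c := ⟨_, rfl⟩
  have hd1 : d ∈ D l := hd ▸ (D l).add_mem ((D l).smul_mem _ (h.dec.mem _ _)) hc.1
  have h5 : polar Q (π l a) d = Q a := by simp [hd, h4, h2, hl]
  have h6 : Q d = Q a - Q (π l a) + s ^ 2 * Q v := by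
    rw [hd, q_add, q_smul, p_smul_left, h4, hc']
    ring
  have h7 : Q d ≠ 0 := fun e => hs' (by rw [eq_div_iff hv']; linear_combination e - h6)
  have h8 : (refl Q a).1 d = d - a := by
    rw [refl_apply, polar_comm, ← h.proj hd1, polar_comm, h5, inv_mul_cancel₀ ha.1, one_smul]
  obtain ⟨j, hj, hj'⟩ := h.dec.exists_of_not_mem (ha' l)
  obtain ⟨c₁, hc₁, h9⟩ := (h.nds j).exists_Q_eq (by rw [h.rk]; omega) (Q a)
  obtain ⟨c₂, hc₂, h10⟩ := hP.exists_Q_eq (by omega) (Q d)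
  have h11 := h.rr_map (h.rr_mul ha hc₁ h9.symm) (rr_of hd1 h7) hc₂.1 h10.symm (l := l) (by
    rw [OG.mul_apply, refl_apply_of_orth (h.orth j l hj _ hc₁ _ hc₂.1), refl_apply_of_orth (by
      rw [polar_comm, ← h.proj hc₂.1, polar_comm]; exact hc₂.2)]
    exact hc₂.1)
  rw [OG.mul_apply, refl_apply_of_orth (h.orth j l hj _ hc₁ _ hd1), h8] at h11
  have h12 : π l (d - a) = d - π l a := by rw [map_sub, h.dec.of_mem hd1]
  have h13 : Q (d - π l a) = Q (s • v) := by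
    rw [q_sub, h6, polar_comm, h5, q_smul]
    ring
  have h14 : Q (s • v) ≠ 0 := by simp [q_smul, hs, hv']
  obtain ⟨g, hg⟩ := witt_one (h.nds l).nd (u := ⟨s • v, (D l).smul_mem _ (hU hv)⟩)
    (v := ⟨d - π l a, h12 ▸ h.dec.mem _ _⟩) (fun e => ne_zero_of_Q_ne_zero h14 (congrArg Subtype.val e))
    (fun e => ne_zero_of_Q_ne_zero (h13 ▸ h14) (congrArg Subtype.val e)) h13.symm
  refine h.good hk h11 (fun e => hj' ?_) (by rwa [h12, h13]) (g.1 ⟨x, hx⟩).2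
    (fun e => hx0 (congrArg Subtype.val ((OG.apply_eq_zero g).mp (Subtype.ext e))))
    ((OG.map_Q g _).trans hx1) ?_
  · simpa [h.dec.of_ne hj hd1] using h.dec.of_ne hj e
  · have := OG.map_polar g ⟨x, hx⟩ ⟨s • v, (D l).smul_mem _ (hU hv)⟩
    rw [hg, polar_restrict, polar_restrict, p_smul_right, (hU3 v hv).1, mul_zero] at this
    rwa [polar_comm, ← h.proj (g.1 ⟨x, hx⟩).2, h12]

theorem of_three (hk : 3 ≤ k) (hex : k = 3 → 4 ≤ Nat.card F) (hex' : Nat.card F = 2 → k = 4 →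
    ∀ i, ∀ U ≤ D i, Sing Q U → finrank F U ≠ 2) (hg : ∃ g ∈ M, ¬ PermD D g.1) :
    commutator (OG Q) ≤ M := by
  by_contra hc
  have S1 : ∀ g ∈ M, ∀ i, ∀ c ∈ D i, Q c ≠ 0 → ∀ j, g.1 c ∈ D j → PermD D g.1 :=
    fun g hg i c hc₁ h0 j h1 => h.dec.permD_of h.rk (by omega) fun l => by
      have h2 : ∀ a ∈ D l, Q a = Q c → ∃ m, g.1 a ∈ D m := fun a ha e => by
        by_contra h2
        exact hc (h.no_rr hk hex (h.rr_map hg (rr_of ha (e ▸ h0)) hc₁ e h1) (not_exists.mp h2))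
      obtain ⟨a, ha, ha'⟩ := (h.nds l).exists_Q_eq (by rw [h.rk]; omega) (Q c)
      obtain ⟨m, hm⟩ := h2 a ha ha'
      refine ⟨m, ((h.nds l).conn (by rw [h.rk]; exact hk) ?_ h0 (X := (D m).comap (g.1 : V →ₗ[F] V))
        (Y := (perp Q (D m)).comap (g.1 : V →ₗ[F] V)) (fun x hx y hy => ?_)
        fun b hb e => ?_).resolve_right fun e => ?_⟩
      · rw [h.rk]
        rcases hk.eq_or_lt with e | e
        · exact .inl (hex e.symm)
        · exact .inr ⟨e, fun e U hU hU' => or_iff_not_imp_right.mpr fun e' e'' =>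
            hex' e (of_not_not e') l U hU hU' (by omega)⟩
      · rw [← OG.map_polar g]
        exact mem_perp.mp hy _ hx
      · obtain ⟨m', hm'⟩ := h2 b hb e
        exact h.mem_or hm' m
      · exact ne_zero_of_Q_ne_zero (ha' ▸ h0) ((OG.apply_eq_zero g).mp
          (h.nds m _ hm (mem_perp'.mp (e ha))))
  obtain ⟨g, hg, hg'⟩ := hg
  obtain ⟨i, -⟩ := h.dec.exists_not_mem h.rk (by omega) hg'
  obtain ⟨c, hc₁, h0⟩ := (h.nds i).exists_nonsing (by rw [h.rk]; omega)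
  have e1 := finrank_le_inf_ker (D i) (Q.polarBilin (g⁻¹.1 c))
  rw [h.rk] at e1
  obtain ⟨U, hU⟩ : ∃ U, U = D i ⊓ LinearMap.ker (Q.polarBilin (g⁻¹.1 c)) := ⟨_, rfl⟩
  rw [← hU] at e1
  have hU1 : U ≤ D i := hU ▸ inf_le_left
  have hU2 : ∀ x ∈ U, polar Q (g⁻¹.1 c) x = 0 := fun x hx => (hU ▸ hx).2
  obtain ⟨w, hw, h1⟩ : ∃ w ∈ U, Q w ≠ 0 := by
    by_contra h1
    push Not at h1
    have := (h.nds i).nd.two_mul_finrank_le (W := U.comap (D i).subtype) fun w hw => h1 w hw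
    rw [h.rk, (Submodule.comapSubtypeEquivOfLe hU1).finrank_eq] at this
    omega
  obtain ⟨v, hv, h2, h3⟩ := exists_pair_Q (U := U) (by
    rcases hk.eq_or_lt with e | e
    exacts [.inl ⟨hex e.symm, by omega⟩, .inr (by omega)]) hw h1
  have h4 : ∀ x ∈ U, polar Q (g.1 x) c = 0 := fun x hx => by
    rw [← OG.polar_inv_right]
    exact polar_symm_zero (hU2 x hx)
  obtain ⟨t, ht⟩ : ∃ t, t = refl Q (g.1 v) * refl Q (g.1 w) := ⟨_, rfl⟩
  obtain ⟨s, hs⟩ := S1 t (by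
    simpa [ht, ← refl_conj, mul_assoc] using mul_mem (mul_mem hg (h.rr2 (hU1 hv) (hU1 hw) (h2 ▸ h1) h2))
      (inv_mem hg)) i c hc₁ h0 i (by
    rwa [ht, OG.mul_apply, refl_apply_of_orth (h4 w hw), refl_apply_of_orth (h4 v hv)])
  have h5 : ∀ x, t.1 x - x ∈ (Submodule.span F {v, w}).map (g.1 : V →ₗ[F] V) := fun x => by
    rw [ht, OG.mul_apply, refl_apply, refl_apply (g.1 w) x, sub_sub x, sub_sub_cancel_left]
    exact neg_mem (add_mem (Submodule.smul_mem _ _ ⟨w, Submodule.subset_span (by simp), rfl⟩)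
      (Submodule.smul_mem _ _ ⟨v, Submodule.subset_span (by simp), rfl⟩))
  have h6 : ∀ l, ∀ x ∈ D l, t.1 x ∈ D l := fun l x hx => by
    by_contra e
    have hl : s l ≠ l := fun e' => e (e' ▸ (hs l).le ⟨x, hx, rfl⟩)
    have := LinearMap.finrank_le_finrank_of_injective (f := (((t.1 : V →ₗ[F] V) - LinearMap.id) ∘ₗ
      (D l).subtype).codRestrict ((Submodule.span F {v, w}).map (g.1 : V →ₗ[F] V)) fun x => h5 x)
      ((injective_iff_map_eq_zero _).mpr fun y hy => by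
        have e1 : t.1 y = y := sub_eq_zero.mp (congrArg Subtype.val hy)
        exact Subtype.ext (h.dec.eq_zero_of_mem hl (e1 ▸ (hs l).le ⟨y, y.2, rfl⟩) y.2))
    rw [h.rk, LinearEquiv.finrank_map_eq] at this
    have := finrank_span_pair_le (F := F) v w
    omega
  obtain ⟨x, h7, h8⟩ := h.nd.exists_orth_polar_one _ h3
  have h9 : t.1 (g.1 x) - g.1 x = -(Q v)⁻¹ • g.1 v := by
    rw [ht, OG.mul_apply, refl_apply_of_orth (v := g.1 w) (by
      simpa using h7 w (Submodule.mem_span_singleton_self w)), refl_apply]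
    simp [h8]
  obtain ⟨l, hl⟩ := h.exists_Q_ne (a := t.1 (g.1 x) - g.1 x) (by simp [h9, q_smul, h2, h1])
  have h10 : π l (t.1 (g.1 x) - g.1 x) = t.1 (π l (g.1 x)) - π l (g.1 x) := by
    conv_lhs => rw [map_sub, ← h.dec.sum (g.1 x), map_sum, map_sum, h.dec.sum]
    rw [Finset.sum_eq_single l (fun m _ hm => h.dec.of_ne hm.symm (h6 m _ (h.dec.mem _ _))) (by simp),
      h.dec.of_mem (h6 l _ (h.dec.mem _ _))]
  obtain ⟨d, hd, h11⟩ := h5 (π l (g.1 x))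
  rw [← h10] at h11
  replace h11 : g.1 d = _ := h11
  exact hg' (S1 g hg i d (Submodule.span_le.mpr (by rintro _ (rfl | rfl); exacts [hU1 hv, hU1 hw]) hd)
    (by rwa [← OG.map_Q g, h11]) l (h11 ▸ h.dec.mem _ _))

theorem exists_not_perm (hij : i ≠ j) (hk : 0 < k) : ∃ g ∈ commutator (OG Q), ¬ PermD D g.1 := by
  have h1 := h.nd.finrank_perp_add (D i)
  have h2 := Submodule.finrank_mono (h.le_perp hij.symm)
  have h3 := h.hn
  rw [h.rk] at h1 h2
  obtain ⟨c, hc, hc0, hc1⟩ := exists_sing_mem Q (perp Q (D i)) (by omega)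
  obtain ⟨a, ha, ha0⟩ := exists_not_mem_of_finrank_lt (W := ⊥) (U := D i) (by simp [h.rk, hk])
  obtain ⟨e, he, -, h4⟩ := (h.nds i).exists_orth bot_le ha ha0
  have h5 := mem_perp'.mp hc
  refine ⟨eich Q c e, h.nd.eich_mem_commutator (good_of_five_le (by omega)) _ _, fun ⟨s, hs⟩ => ?_⟩
  have h6 : a + c ∈ D (s i) := hs i ▸ ⟨a, ha, by
    change (eich Q c e).1 a = _
    rw [eich_apply hc1 (h5 e he), h5 a ha, polar_comm, h4]
    simp⟩
  by_cases h7 : s i = i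
  · exact hc0 (h.nds i c (((D i).add_mem_iff_right ha).mp (h7 ▸ h6)) h5)
  · simpa [h4, h5 e he] using h.orth _ _ h7 _ h6 e he

end ODc

section geo
variable {ι : Type} [Fintype ι] [DecidableEq ι] {Q : QuadraticForm F (ι → F)} {t : ℕ}
  {D : Fin t → Submodule F (ι → F)}

theorem exists_oDc (hQ : ND Q) (hn : 5 ≤ Fintype.card ι)
    (hD : Geo.IsOrthogonalMDecomposition ⇑Q k D) : ∃ π, ∀ M : Subgroup (OG Q),
      (∀ g ∈ commutator (OG Q), PermD D g.1 → g ∈ M) → ODc M D π k := by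
  obtain ⟨π, h⟩ := exists_isDec hD.decomp.decomp.indep hD.decomp.decomp.iSup_eq_top
  refine ⟨π, fun M hM => ⟨hQ, by simpa, h, hD.decomp.decomp.finrank_eq,
    fun i => nds_of (hD.decomp.nondegenerate i), hD.decomp.orthogonal, fun i j => ?_, hM⟩⟩
  obtain ⟨e, he⟩ := hD.isometric i j
  obtain ⟨g, hg⟩ := witt hQ (D i) ((D j).subtype ∘ₗ e.toLinearMap)
    (Subtype.val_injective.comp e.injective) he
  exact ⟨g, fun x hx => hg ⟨x, hx⟩ ▸ (e ⟨x, hx⟩).2⟩

theorem max_om_dc (hQ : ND Q) (hn : 5 ≤ Fintype.card ι)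
    (hD : Geo.IsOrthogonalMDecomposition ⇑Q k D) (H : ∀ π M, ODc M D π k →
      M ≤ commutator (OG Q) → (∃ g ∈ M, ¬ PermD D g.1) → commutator (OG Q) ≤ M) :
    Geo.IsMaximalIn (Geo.omegaGL ⇑Q) (Geo.decompositionStabilizer D ⊓ Geo.omegaGL ⇑Q) := by
  obtain ⟨π, h⟩ := exists_oDc hQ hn hD
  have := hD.decomp.decomp.two_le
  exact isMaximalIn_Om (PermD D) mem_decStab ((h ⊤ fun _ _ _ => trivial).exists_not_perm
    (i := ⟨0, by omega⟩) (j := ⟨1, by omega⟩) (by simp) hD.decomp.decomp.pos)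
    fun M hM => H π M (h M hM)

theorem ODc.plus_all {π : Fin t → (ι → F) →ₗ[F] (ι → F)} {M : Subgroup (OG Q)}
    (h : ODc M D π k) {i : Fin t} (hi : Geo.IsPlusTypeOn ⇑Q (D i)) (j : Fin t) :
    Geo.IsPlusTypeOn ⇑Q (D j) := by
  obtain ⟨U, h1, h2, h3⟩ := hi
  obtain ⟨g, hg⟩ := h.iso i j
  refine ⟨U.map (g.1 : (ι → F) →ₗ[F] (ι → F)), ?_, ?_, by
    rw [LinearEquiv.finrank_map_eq, h3, h.rk, h.rk]⟩
  · rintro _ ⟨x, hx, rfl⟩
    exact hg x (h1 hx)
  · rintro _ ⟨x, hx, rfl⟩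
    exact (OG.map_Q g x).trans (h2 x hx)

end geo

end Cfsg.Agent.Max
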