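import Mathlib
import Cfsg.Agent.Max.O3
import Cfsg.Agent.Max.SLDec

/-!
# Stabilisers of orthogonal frames over prime fields
-/

set_option autoImplicit false

namespace Cfsg.Agent.Max

open Module QuadraticMap Orth

variable {F V κ : Type*} [Field F] [AddCommGroup V] [Module F V] [Fintype κ] [DecidableEq κ]
  {Q : QuadraticForm F V} {e : Basis κ F V} {α : F} {M : Subgroup (OG Q)}

/-- The projection onto the coordinates in `J`. -/
noncomputable def pj (e : Basis κ F V) (J : Finset κ) : V →ₗ[F] V :=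
  e.constr F fun i => if i ∈ J then e i else 0

theorem repr_pj (J : Finset κ) (x : V) (i : κ) :
    e.repr (pj e J x) i = if i ∈ J then e.repr x i else 0 := by
  have : e.coord i ∘ₗ pj e J = if i ∈ J then e.coord i else 0 := e.ext fun j => by
    by_cases h : j = i
    · subst h
      split_ifs with h <;> simp [pj, h]
    · by_cases h' : j ∈ J <;> split_ifs <;> simp [pj, h, h', Finsupp.single_apply]
  have := LinearMap.congr_fun this x
  split_ifs at this ⊢ <;> simpa using this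

theorem repr_basis (i j : κ) : e.repr (e i) j = if i = j then 1 else 0 := by
  simp [Finsupp.single_apply]

theorem refl_cancel (v : V) (g : OG Q) : refl Q v * (refl Q v * g) = g := by
  rw [← mul_assoc, refl_mul_self, one_mul]

/-- An orthogonal frame whose stabiliser lies in `M`. -/
structure OFr (Q : QuadraticForm F V) (e : Basis κ F V) (α : F) (M : Subgroup (OG Q)) : Prop where
  nd : ND Q
  two : (2 : F) ≠ 0
  ne : α ≠ 0
  nat : ∀ c : F, ∃ n : ℕ, c = n
  hn : 8 ≤ Fintype.card κ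
  q : ∀ i, Q (e i) = α
  orth : ∀ i j, i ≠ j → polar Q (e i) (e j) = 0
  le : ∀ g ∈ commutator (OG Q), g.1 ∈ mon e → g ∈ M

/-- Vectors whose reflections are available. -/
def RF (e : Basis κ F V) (α : F) (M : Subgroup (OG Q)) (v : V) : Prop :=
  Q v = α ∧ ∀ i, refl Q v * refl Q (e i) ∈ M

namespace OFr
variable (h : OFr Q e α M) {a b c i j k l : κ} {u v w x y : V} {J : Finset κ}
include h

theorem pb (i : κ) (x : V) : polar Q (e i) x = 2 * α * e.repr x i := by
  conv_lhs => rw [← e.sum_repr x]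
  rw [p_sum_right, Finset.sum_eq_single i (fun j _ hj => by simp [h.orth _ _ hj.symm]) (by simp),
    p_smul_right, p_self, h.q]
  ring

theorem pol (x y : V) : polar Q x y = 2 * α * ∑ i, e.repr x i * e.repr y i := by
  conv_lhs => rw [← e.sum_repr x]
  rw [p_sum_left, Finset.mul_sum]
  exact Finset.sum_congr rfl fun i _ => by rw [p_smul_left, h.pb]; ring

theorem qq (x : V) : Q x = α * ∑ i, e.repr x i ^ 2 := mul_left_cancel₀ h.two (by
  rw [← p_self, h.pol, mul_assoc]
  simp only [pow_two])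

theorem q_pj (J : Finset κ) (x : V) : Q (pj e J x) = α * ∑ i ∈ J, e.repr x i ^ 2 := by
  simp [h.qq, repr_pj]

theorem orth_of (H : ∀ i, e.repr x i ≠ 0 → e.repr y i = 0) : polar Q x y = 0 := by
  rw [h.pol, Finset.sum_eq_zero fun i _ => ?_, mul_zero]
  by_cases hi : e.repr x i = 0 <;> simp [hi, H]

theorem pol_pj (J : Finset κ) (x : V) : polar Q (pj e J x) (x - pj e J x) = 0 :=
  h.orth_of fun i hi => by
    by_cases e : i ∈ J <;> simp_all [repr_pj]

theorem q_sub_pj (J : Finset κ) (x : V) : Q (x - pj e J x) = Q x - Q (pj e J x) := by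
  have := q_add Q (pj e J x) (x - pj e J x)
  rw [h.pol_pj, add_sub_cancel] at this
  linear_combination -this

theorem qb_ne (i : κ) : Q (e i) ≠ 0 := h.q i ▸ h.ne

theorem q_bsub (hij : i ≠ j) : Q (e i - e j) = 2 * α := by
  rw [q_sub, h.q, h.q, h.orth _ _ hij]
  ring

theorem q_badd (hij : i ≠ j) : Q (e i + e j) = 2 * α := by
  rw [q_add, h.q, h.q, h.orth _ _ hij]
  ring

theorem ne2 : 2 * α ≠ 0 := mul_ne_zero h.two h.ne

theorem refl_b (i : κ) : (refl Q (e i)).1 = sg e {i} := e.ext' fun j => by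
  rw [sgn_basis]
  split_ifs with hj
  · rw [Finset.mem_singleton.mp hj, refl_apply_self (h.qb_ne i)]
  · exact refl_apply_of_orth (h.orth _ _ fun e => hj (by simp [e]))

theorem refl_bsub (hij : i ≠ j) : (refl Q (e i - e j)).1 = pm e (Equiv.swap i j) :=
  e.ext' fun k => by
    rw [pm_basis, refl_apply, h.q_bsub hij, polar_sub_left, h.pb, h.pb, ← mul_sub,
      inv_mul_cancel_left₀ h.ne2, repr_basis, repr_basis, Equiv.swap_apply_def]
    split_ifs <;> simp_all

theorem refl_badd (hij : i ≠ j) :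
    refl Q (e i + e j) = refl Q (e j) * refl Q (e i - e j) * refl Q (e j) := by
  have := refl_conj (refl Q (e j)) (e i - e j)
  rwa [refl_inv, map_sub, refl_apply_self (h.qb_ne j), refl_apply_of_orth (h.orth _ _ hij.symm),
    sub_neg_eq_add, eq_comm] at this

variable [FiniteDimensional F V]

theorem mon_b (i : κ) : (refl Q (e i)).1 ∈ mon e := h.refl_b i ▸ sg_mem _

theorem mon_s (hij : i ≠ j) : (refl Q (e i - e j)).1 ∈ mon e := h.refl_bsub hij ▸ pm_mem _

theorem rr (i j : κ) : refl Q (e i) * refl Q (e j) ∈ M :=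
  h.le _ (h.nd.refl_mul_refl_mem_commutator (h.qb_ne i) ((h.q i).trans (h.q j).symm))
    (mul_mem (h.mon_b i) (h.mon_b j))

theorem ss (hij : i ≠ j) (hkl : k ≠ l) : refl Q (e i - e j) * refl Q (e k - e l) ∈ M :=
  h.le _ (h.nd.refl_mul_refl_mem_commutator (h.q_bsub hij ▸ h.ne2)
    ((h.q_bsub hij).trans (h.q_bsub hkl).symm)) (mul_mem (h.mon_s hij) (h.mon_s hkl))

theorem ts (hij : i ≠ j) (hkl : k ≠ l) : refl Q (e i + e j) * refl Q (e k - e l) ∈ M :=
  h.le _ (h.nd.refl_mul_refl_mem_commutator (h.q_badd hij ▸ h.ne2)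
    ((h.q_badd hij).trans (h.q_bsub hkl).symm)) (mul_mem (by
      rw [h.refl_badd hij]
      exact mul_mem (mul_mem (h.mon_b j) (h.mon_s hij)) (h.mon_b j)) (h.mon_s hkl))

omit [FiniteDimensional F V] in
theorem fix_b (hi : e.repr x i = 0) : (refl Q (e i)).1 x = x :=
  refl_apply_of_orth (by rw [h.pb, hi, mul_zero])

omit [FiniteDimensional F V] in
theorem fix_s (hi : e.repr x i = e.repr x j) : (refl Q (e i - e j)).1 x = x :=
  refl_apply_of_orth (by rw [polar_sub_left, h.pb, h.pb, hi, sub_self])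

theorem oe_basis (hy : y ∈ OE M x) (hab : a ≠ b) (hac : a ≠ c) (hbc : b ≠ c)
    (xa : e.repr x a = 0) (xb : e.repr x b = 0) (xc : e.repr x c = 0) (ya : e.repr y a ≠ 0)
    (j : κ) (xj : e.repr x j = 0) : e j ∈ OE M x := by
  have key : ∀ i j, i ≠ j → e.repr x i = 0 → e.repr x j = 0 →
      (2 * e.repr y i) • e i + (2 * e.repr y j) • e j ∈ OE M x := fun i j hij xi xj => by
    convert (OE M x).sub_mem hy (OE.map_fix hy (h.rr i j)
      (by rw [OG.mul_apply, h.fix_b xj, h.fix_b xi])) using 1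
    refine e.ext_elem fun m => ?_
    simp only [OG.mul_apply, h.refl_b, map_add, map_sub, map_smul, Finsupp.add_apply,
      Finsupp.sub_apply, Finsupp.smul_apply, repr_basis, repr_sgn, Finset.mem_singleton]
    by_cases h1 : m = i
    · subst h1
      simp [hij, hij.symm, two_mul]
    · by_cases h2 : m = j
      · subst h2
        simp [h1, hij, two_mul]
      · simp [h1, h2, Ne.symm h1, Ne.symm h2]
  have ha : e a ∈ OE M x := by
    refine ((OE M x).smul_mem_iff (mul_ne_zero h.two (mul_ne_zero h.two ya))).mp ?_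
    convert (OE M x).sub_mem ((OE M x).add_mem (key a b hab xa xb) (key a c hac xa xc))
      (key b c hbc xb xc) using 1
    module
  by_cases haj : a = j
  · exact haj ▸ ha
  convert OE.map_fix ha (h.ss haj hbc) (by
    rw [OG.mul_apply, h.fix_s (xb.trans xc.symm), h.fix_s (xa.trans xj.symm)]) using 1
  rw [OG.mul_apply, h.fix_s (i := b) (by simp [repr_basis, hab, hac]), h.refl_bsub haj]
  simp

omit h [DecidableEq κ] [FiniteDimensional F V] in
theorem oe_of (H : ∀ j, e.repr x j = 0 → e j ∈ OE M x)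
    (hv : ∀ i, e.repr x i ≠ 0 → e.repr v i = 0) : v ∈ OE M x := by
  rw [← e.sum_repr v]
  refine Submodule.sum_mem _ fun i _ => ?_
  by_cases hi : e.repr x i = 0
  · exact Submodule.smul_mem _ _ (H i hi)
  · simp [hv i hi]

variable [Finite F]

omit [FiniteDimensional F V] in
theorem exists_sing3 (hab : a ≠ b) (hac : a ≠ c) (hbc : b ≠ c) : ∃ u, Q u = 0 ∧
    e.repr u c = 1 ∧ ∀ i, e.repr u i ≠ 0 → i ∈ ({a, b, c} : Finset κ) := by
  obtain ⟨s, t, H⟩ := exists_binary_eq h.two one_ne_zero one_ne_zero (-1)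
  refine ⟨s • e a + t • e b + e c, ?_, by simp [repr_basis, hac, hbc], fun i hi => ?_⟩
  · simp only [q_add, q_smul, h.q, polar_add_left, p_smul_left, p_smul_right, h.orth _ _ hab,
      h.orth _ _ hac, h.orth _ _ hbc]
    linear_combination α * H
  · by_contra hc
    simp only [Finset.mem_insert, Finset.mem_singleton, not_or] at hc
    simp [repr_basis, Ne.symm hc.1, Ne.symm hc.2.1, Ne.symm hc.2.2] at hi

omit [Finite F] in
theorem oe_step (hx : Q x = 0) (hx0 : x ≠ 0) (H : ∀ j, e.repr x j = 0 → e j ∈ OE M x)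
    (hu : Q u = 0) (hJ : J.card ≤ 3) (h1 : ∀ i, e.repr u i ≠ 0 → i ∈ J)
    (h2 : ∀ i ∈ J, e.repr x i = 0) (j : κ) (hj : e.repr u j = 0) : e j ∈ OE M u := by
  obtain ⟨i, hi⟩ := exists_repr_ne (e := e) hx0
  have h3 : ∀ i, i ∉ J → e.repr u i = 0 := fun i hi => by_contra fun e => hi (h1 i e)
  obtain ⟨b, -, c, -, -, -, hb, hc, -, hbc, -⟩ := exists_three_not_mem (I := Finset.univ)
    (s := insert i J) (by
      have := h.hn
      have := Finset.card_insert_le i J
      rw [Finset.card_univ]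
      omega)
  simp only [Finset.mem_insert, not_or] at hb hc
  exact h.oe_basis (OE.swap hx hu (oe_of H fun i hi => h3 i fun e => hi (h2 i e)))
    (Ne.symm hb.1) (Ne.symm hc.1) hbc (h3 i fun e => hi (h2 i e)) (h3 b hb.2) (h3 c hc.2) hi j hj

theorem eng (hx : Q x = 0) (hx0 : x ≠ 0) (hy : y ∈ OE M x) (hab : a ≠ b) (hac : a ≠ c)
    (hbc : b ≠ c) (xa : e.repr x a = 0) (xb : e.repr x b = 0) (xc : e.repr x c = 0)
    (ya : e.repr y a ≠ 0) : commutator (OG Q) ≤ M := by
  have hn := h.hn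
  obtain ⟨u, hu, uc, hu'⟩ := h.exists_sing3 hab hac hbc
  have u0 : u ≠ 0 := fun e => by simp [e] at uc
  have h1 := h.oe_step hx hx0 (h.oe_basis hy hab hac hbc xa xb xc ya) hu Finset.card_le_three hu'
    (by simp [xa, xb, xc])
  obtain ⟨d, -, f, -, g, -, hd, hf, hg, hdf, hdg, hfg⟩ := exists_three_not_mem (I := Finset.univ)
    (s := {a, b, c}) (by
      have := Finset.card_le_three (a := a) (b := b) (c := c)
      rw [Finset.card_univ]
      omega)
  obtain ⟨w, hw, wg, hw'⟩ := h.exists_sing3 hdf hdg hfg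
  have h2 : ∀ i ∈ ({d, f, g} : Finset κ), i ∉ ({a, b, c} : Finset κ) := by simp_all
  have h3 : ∀ i ∈ ({d, f, g} : Finset κ), e.repr u i = 0 := fun i hi =>
    by_contra fun e => h2 i hi (hu' i e)
  have h4 := h.oe_step hu u0 h1 hw Finset.card_le_three hw' h3
  have h5 : w ∈ OE M u := oe_of h1 fun i hi => by_contra fun e => hi (h3 i (hw' i e))
  have h6 : OP M u := ⟨hu, fun v hv => by
    have e1 : v - pj e {a, b, c} v ∈ OE M u := oe_of h1 fun i hi => by simp [repr_pj, hu' i hi]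
    have := OE.grow (h1 g (h3 g (by simp))) hw (b := pj e {a, b, c} v)
      (oe_of h4 fun i hi => by simp [repr_pj, h2 i (hw' i hi)]) (polar_comm Q w u ▸ h5.1) (by
        have := e1.1
        rwa [polar_sub_right, hv, zero_sub, neg_eq_zero, polar_comm] at this)
    rw [(OE M u).sub_mem_iff_right ((OE M u).smul_mem _ h5), (OE M u).smul_mem_iff (by
      rw [polar_comm, h.pb, wg, mul_one]
      exact h.ne2)] at this
    simpa using (OE M u).add_mem e1 this⟩
  refine om_le_of_pair h.nd (by rw [finrank_eq_card_basis e]; omega) h6 (h6.map (h.rr c d)) ?_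
  rw [OG.mul_apply, h.fix_b (h3 d (by simp)), refl_apply, polar_sub_right, p_self, hu,
    p_smul_right, polar_comm Q u, h.pb, uc, h.q]
  simp [h.ne, h.two]

omit [Finite F] in
theorem rf_of (hv : Q v = α) (H : refl Q v * refl Q (e i) ∈ M) : RF e α M v := ⟨hv, fun j => by
  simpa [mul_assoc, refl_cancel] using mul_mem H (h.rr i j)⟩

omit [Finite F] in
theorem rf_b (i : κ) : RF e α M (e i) := ⟨h.q i, h.rr i⟩

omit h [Finite F] [FiniteDimensional F V] [DecidableEq κ] in
theorem rf_mul (i : κ) (hv : RF e α M v) (hw : RF e α M w) : refl Q v * refl Q w ∈ M := by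
  simpa [mul_assoc, refl_cancel] using mul_mem (hv.2 i) (inv_mem (hw.2 i))

omit h [Finite F] [FiniteDimensional F V] [DecidableEq κ] in
theorem rf_refl (hv : RF e α M v) (hw : RF e α M w) : RF e α M ((refl Q w).1 v) :=
  ⟨(OG.map_Q _ _).trans hv.1, fun i => by
    rw [← refl_conj, refl_inv, mul_assoc]
    exact mul_mem (rf_mul i hw hv) (hw.2 i)⟩

omit [Finite F] in
theorem rf_sg (hv : RF e α M v) (J : Finset κ) : RF e α M (sg e J v) := by
  induction J using Finset.induction_on with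
  | empty => convert hv; exact e.ext_elem fun i => by simp
  | insert i J hi ih =>
    convert rf_refl ih (h.rf_b i) using 1
    refine e.ext_elem fun j => ?_
    simp only [h.refl_b, repr_sgn, Finset.mem_insert, Finset.mem_singleton]
    by_cases h1 : j = i <;> simp [h1, hi]

omit [Finite F] in
theorem conj_rf (hv : RF e α M v) {g : OG Q} (hg : g ∈ commutator (OG Q)) (hg' : g.1 ∈ mon e)
    (i : κ) : refl Q v * g * refl Q v ∈ M := by
  have := h.le _ (Subgroup.Normal.conj_mem inferInstance g hg (refl Q (e i)))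
    (mul_mem (mul_mem (h.mon_b i) hg') (inv_mem (h.mon_b i)))
  simpa [mul_assoc, refl_cancel] using
    mul_mem (mul_mem (hv.2 i) this) (inv_mem (hv.2 i))

theorem t1 (hv : RF e α M v) (hJ : J.card + 3 ≤ Fintype.card κ)
    (h0 : ∑ i ∈ J, e.repr v i ^ 2 = 0) (hi : i ∈ J) (hi' : e.repr v i ≠ 0) :
    commutator (OG Q) ≤ M := by
  have hu : Q (pj e J v) = 0 := by rw [h.q_pj, h0, mul_zero]
  have h1 : polar Q (pj e J v) v = 0 := by
    have := h.pol_pj J v
    rwa [polar_sub_right, p_self, hu, mul_zero, sub_zero] at this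
  have h2 : ∃ a, a ∉ J ∧ e.repr v a ≠ 0 := by
    by_contra hc
    push Not at hc
    refine h.ne ?_
    rw [← hv.1, ← hu]
    congr 1
    exact e.ext_elem fun j => by by_cases hj : j ∈ J <;> simp [repr_pj, hj, hc]
  obtain ⟨a, ha, ha'⟩ := h2
  obtain ⟨b, c, hb, hc, hbc⟩ : ∃ b c, b ∉ insert a J ∧ c ∉ insert a J ∧ b ≠ c := by
    have : 1 < (insert a J)ᶜ.card := by
      rw [Finset.card_compl, Finset.card_insert_of_notMem ha]
      omega
    obtain ⟨b, hb, c, hc, hbc⟩ := Finset.one_lt_card.mp this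
    exact ⟨b, c, Finset.mem_compl.mp hb, Finset.mem_compl.mp hc, hbc⟩
  simp only [Finset.mem_insert, not_or] at hb hc
  have hu' : Q ((2 / α) • pj e J v) = 0 := by rw [q_smul, hu, mul_zero]
  have h1' : polar Q ((2 / α) • pj e J v) v = 0 := by rw [p_smul_left, h1, mul_zero]
  have h3 : eich Q ((2 / α) • pj e J v) v ∈ M := by
    rw [eich_eq_refl_mul_refl hu' h1' (hv.1 ▸ h.ne)]
    convert rf_mul a hv (h.rf_sg hv J) using 3
    refine e.ext_elem fun j => ?_
    have := h.ne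
    by_cases hj : j ∈ J <;> simp [repr_pj, hj, hv.1]
    field_simp
    ring
  refine h.eng hu (fun e' => hi' (by simpa [repr_pj, hi] using congrArg (e.repr · i) e'))
    (OE.of_smul hu (div_ne_zero h.two h.ne) ⟨h1', fun c => ?_⟩) (Ne.symm hb.1) (Ne.symm hc.1) hbc
    (by simp [repr_pj, ha]) (by simp [repr_pj, hb.2]) (by simp [repr_pj, hc.2]) ha'
  obtain ⟨n, rfl⟩ := h.nat c
  induction n with
  | zero => simp
  | succ n ih =>
    rw [Nat.cast_succ, add_smul, one_smul, ← eich_mul hu' (by rw [p_smul_right, h1', mul_zero]) h1']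
    exact mul_mem ih h3

omit [Finite F] [FiniteDimensional F V] in
theorem subfield (K : Subfield F) : K = ⊤ := eq_top_iff.mpr fun c _ => by
  obtain ⟨n, rfl⟩ := h.nat c
  exact natCast_mem K n

omit h [Finite F] [FiniteDimensional F V] in
theorem oe_of_full {n : V} (H : ∀ a b : V, (∃ x y s : F, a = x • v + y • w + s • n) →
    (∃ x y s : F, b = x • v + y • w + s • n) → Q a ≠ 0 → Q a = Q b → refl Q a * refl Q b ∈ M)
    (hu : Q u = 0) (h1 : polar Q u y = 0) (h2 : Q y ≠ 0) (h3 : ∃ x y s : F, u = x • v + y • w + s • n)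
    (h4 : ∃ x z s : F, y = x • v + z • w + s • n) : y ∈ OE M u := ⟨h1, fun c => by
  by_cases hc : c = 0
  · simp [hc]
  have h5 : Q (c • y) ≠ 0 := by
    rw [q_smul]
    exact mul_ne_zero (pow_ne_zero 2 hc) h2
  have h6 : polar Q u (c • y) = 0 := by rw [p_smul_right, h1, mul_zero]
  rw [eich_eq_refl_mul_refl hu h6 h5]
  refine H _ _ ?_ ?_ h5 (q_sub_smul_eich hu h6 _).symm
  · obtain ⟨x, z, s, rfl⟩ := h4
    exact ⟨c * x, c * z, c * s, by module⟩
  · generalize Q (c • y) = d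
    obtain ⟨x, z, s, rfl⟩ := h4
    obtain ⟨x', z', s', rfl⟩ := h3
    exact ⟨c * x - d * x', c * z - d * z', c * s - d * s', by module⟩⟩

theorem full (h3 : (3 : F) ≠ 0) (hv : RF e α M v) (h0 : e.repr v i ≠ 0) (h1 : e.repr v i ^ 2 ≠ 1)
    (h2 : 2 * e.repr v i ^ 2 ≠ 1) (hlj : l ≠ j) (hlk : l ≠ k) (hjk : j ≠ k)
    (vl : e.repr v l = 0) (vj : e.repr v j = 0) (vk : e.repr v k = 0) (a b : V)
    (ha : ∃ x y s : F, a = x • e i + y • e l + s • (v - e.repr v i • e i))
    (hb : ∃ x y s : F, b = x • e i + y • e l + s • (v - e.repr v i • e i)) (a0 : Q a ≠ 0)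
    (hab : Q a = Q b) : refl Q a * refl Q b ∈ M := by
  have hil : i ≠ l := fun e => h0 (e ▸ vl)
  have hij : i ≠ j := fun e => h0 (e ▸ vj)
  have hik : i ≠ k := fun e => h0 (e ▸ vk)
  have hq : Q (v - e.repr v i • e i) = α * (1 - e.repr v i ^ 2) := by
    rw [q_sub, q_smul, p_smul_right, polar_comm, h.pb, h.q, hv.1]
    ring
  obtain ⟨L, L1, L2, L3⟩ := exists_ext M (refl_mul_self (Q := Q) (e i))
  have hc : refl Q (e i) * refl Q (e j - e k) = refl Q (e j - e k) * refl Q (e i) := by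
    rw [← mul_inv_eq_iff_eq_mul, refl_conj, h.fix_b (by simp [repr_basis, hij.symm, hik.symm])]
  refine o3 (w := e i) (w' := e l) (x := e.repr v i) (y := 0) (s := 1) (c := 1) (S := {1})
    (C := {1, refl Q (e j - e k)}) h.two
    ⟨2, h.two, fun e => h3 (by linear_combination e)⟩ (h.qb_ne i) (h.qb_ne l)
    (hq ▸ mul_ne_zero h.ne (sub_ne_zero.mpr h1.symm)) (h.orth _ _ hil) (by simp [h.pb])
    (by simp [h.pb, vl, repr_basis, hil]) L1 (by simp) ?_ ?_ (by simpa [hv.1] using h.ne)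
    ⟨1, by simp, L3 _ (by simpa using h.rr l i) (by simpa [mul_assoc] using h.rr i l)⟩ ?_ rfl one_ne_zero one_ne_zero (by simp [h0, h.qb_ne]) ?_
    (fun K _ => h.subfield K) ha hb a0 hab
  · simp only [Set.mem_insert_iff, Set.mem_singleton_iff]
    rintro _ (rfl | rfl)
    · simp
    · exact ⟨h.fix_s (by simp [repr_basis, hij, hik]), h.fix_s (by simp [repr_basis, hlj, hlk]),
        h.fix_s (by simp [repr_basis, hij, hik, vj, vk])⟩
  · simp only [zero_smul, add_zero, one_smul, add_sub_cancel]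
    exact L2 _ (hv.2 i) (by simpa using inv_mem (hv.2 i))
  · rintro _ rfl
    refine ⟨by simpa [h.q, ← two_mul] using h.ne2, _, Or.inr rfl, L2 _ ?_ ?_⟩
    · simpa [mul_assoc, ← hc, refl_cancel] using h.ts hil hjk
    · have := h.refl_badd hil.symm
      rw [add_comm] at this
      simpa [mul_assoc, this, refl_cancel] using h.ss hil.symm hjk
  · rw [hq, h.q, h.q]
    exact fun _ e => mul_ne_zero h.ne (sub_ne_zero.mpr h2) (by linear_combination -e)

theorem t3 (h3 : (3 : F) ≠ 0) (hv : RF e α M v) (h0 : e.repr v i ≠ 0) (h1 : e.repr v i ^ 2 ≠ 1)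
    (h2 : 2 * e.repr v i ^ 2 ≠ 1) (hc : c ∉ ({l, j, k} : Finset κ)) (hlj : l ≠ j) (hlk : l ≠ k)
    (hjk : j ≠ k) (vc : e.repr v c = 0) (vl : e.repr v l = 0) (vj : e.repr v j = 0)
    (vk : e.repr v k = 0) : commutator (OG Q) ≤ M := by
  have hil : i ≠ l := fun e => h0 (e ▸ vl)
  have hij : i ≠ j := fun e => h0 (e ▸ vj)
  have hik : i ≠ k := fun e => h0 (e ▸ vk)
  have hic : i ≠ c := fun e => h0 (e ▸ vc)
  simp only [Finset.mem_insert, Finset.mem_singleton, not_or] at hc
  obtain ⟨hcl, hcj, hck⟩ := hc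
  have hq : ∀ v, RF e α M v → Q (v - e.repr v i • e i) = α * (1 - e.repr v i ^ 2) := fun v hv => by
    rw [q_sub, q_smul, p_smul_right, polar_comm, h.pb, h.q, hv.1]
    ring
  have n0 := hq v hv ▸ mul_ne_zero h.ne (sub_ne_zero.mpr h1.symm)
  have H := h.full h3 hv h0 h1 h2 hcj hck hjk vc vj vk
  by_cases hs : IsSquare (-1 : F)
  · obtain ⟨ι, hι⟩ := hs
    have hu : Q (e i + ι • e c) = 0 := by
      rw [q_add, q_smul, p_smul_right, h.orth _ _ hic, h.q, h.q, pow_two, ← hι]
      ring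
    obtain ⟨m, hm⟩ := exists_repr_ne (e := e) (ne_zero_of_Q_ne_zero n0)
    have hmi : i ≠ m := fun e => hm (by simp [← e])
    have hm' : e.repr v m ≠ 0 := by simpa [repr_basis, hmi] using hm
    have hmc : c ≠ m := fun e => hm' (e ▸ vc)
    refine h.eng hu (fun e' => by simpa [repr_basis, hic.symm] using congrArg (e.repr · i) e')
      (oe_of_full H hu ?_ n0 ⟨1, ι, 0, by simp⟩ ⟨0, 0, 1, by simp⟩) (a := m) (b := j) (c := k)
      (fun e => hm' (e ▸ vj)) (fun e => hm' (e ▸ vk)) hjk (by simp [repr_basis, hmi, hmc])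
      (by simp [repr_basis, hij, hcj]) (by simp [repr_basis, hik, hck]) hm
    simp [h.pb, repr_basis, hic, vc, mul_comm]
  have e2 := h.two
  have e4 : (4 : F) ≠ 0 := fun e => mul_ne_zero e2 e2 (by linear_combination e)
  have e5 : (5 / 4 : F) ≠ 0 := div_ne_zero (fun e => hs ⟨2, by linear_combination -e⟩) e4
  obtain ⟨y, s, hys⟩ := exists_binary_eq e2 h.ne n0 (-(3 / 4) ^ 2 * α)
  set n := v - e.repr v i • e i with hn
  have ni : e.repr n i = 0 := by simp [hn]
  have nj : ∀ j, i ≠ j → e.repr v j = 0 → e.repr n j = 0 := fun j hj h' => by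
    simp [hn, repr_basis, hj, h']
  have hb : Q (y • e c + s • n) = -(3 / 4) ^ 2 * α := by
    rw [q_add, q_smul, q_smul, p_smul_left, p_smul_right, h.pb, nj c hic vc, h.q, ← hys]
    ring
  have bi : e.repr (y • e c + s • n) i = 0 := by simp [repr_basis, hic.symm, ni]
  have bj : ∀ j, i ≠ j → c ≠ j → e.repr v j = 0 → e.repr (y • e c + s • n) j = 0 :=
    fun j hj hj' h' => by simp [repr_basis, hj', nj j hj h']
  generalize hB : y • e c + s • n = B at hb bi bj
  have ha : Q ((5 / 4 : F) • e i + B) = α := by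
    rw [q_add, q_smul, p_smul_left, h.pb, bi, h.q, hb]
    field_simp
    ring
  have ai : e.repr ((5 / 4 : F) • e i + B) i = 5 / 4 := by simp [bi]
  have aj : ∀ j, i ≠ j → c ≠ j → e.repr v j = 0 → e.repr ((5 / 4 : F) • e i + B) j = 0 :=
    fun j hj hj' h' => by simp [repr_basis, hj, bj j hj hj' h']
  have H' := h.full h3 (h.rf_of (i := i) ha (H _ _ ⟨5 / 4, y, s, by rw [← hB, add_assoc]⟩
    ⟨1, 0, 0, by simp⟩ (ha ▸ h.ne) (ha.trans (h.q i).symm))) (ai ▸ e5) (by
      rw [ai, div_pow, Ne, div_eq_one_iff_eq (pow_ne_zero 2 e4)]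
      exact fun e => mul_ne_zero h3 h3 (by linear_combination e)) (by
      rw [ai, div_pow, ← mul_div_assoc, Ne, div_eq_one_iff_eq (pow_ne_zero 2 e4)]
      exact fun e => hs ⟨4, mul_left_cancel₀ e2 (by linear_combination -e)⟩) hlj hlk hjk
    (aj l hil hcl vl) (aj j hij hcj vj) (aj k hik hck vk)
  rw [ai, add_sub_cancel_left] at H'
  have hu : Q ((3 / 4 : F) • e l + B) = 0 := by
    rw [q_add, q_smul, p_smul_left, h.pb, bj l hil hcl vl, h.q, hb]
    ring
  refine h.eng hu (fun e' => div_ne_zero h3 e4 (by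
    simpa [bj l hil hcl vl] using congrArg (e.repr · l) e'))
    (oe_of_full H' hu ?_ (h.qb_ne i) ⟨0, 3 / 4, 1, by simp⟩ ⟨1, 0, 0, by simp⟩) hij hik hjk
    (by simp [repr_basis, hil.symm, bi]) (by simp [repr_basis, hlj, bj j hij hcj vj])
    (by simp [repr_basis, hlk, bj k hik hck vk]) (by simp)
  rw [polar_comm, h.pb]
  simp [repr_basis, hil.symm, bi]

theorem t4 (h3 : (3 : F) ≠ 0) (H : ¬ commutator (OG Q) ≤ M) (hv : RF e α M v) (hv' : ¬ FV e v)
    (hJ : 4 ≤ J.card) (h0 : ∀ i ∈ J, e.repr v i = 0) (i : κ) :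
    e.repr v i = 0 ∨ 2 * e.repr v i ^ 2 = 1 := by
  by_contra hc
  push Not at hc
  obtain ⟨c, hc'⟩ := Finset.card_pos.mp (show 0 < J.card by omega)
  obtain ⟨l, hl, j, hj, k, hk, h1, h2, h4, hlj, hlk, hjk⟩ := exists_three_not_mem (I := J)
    (s := {c}) (by simpa)
  by_cases h5 : e.repr v i ^ 2 = 1
  · obtain ⟨m, hm, hm'⟩ : ∃ m, m ≠ i ∧ e.repr v m ≠ 0 := by
      by_contra hc
      push Not at hc
      exact hv' ⟨i, hc⟩
    have hil : i ≠ l := fun e => hc.1 (e ▸ h0 l hl)
    have hij : i ≠ j := fun e => hc.1 (e ▸ h0 j hj)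
    refine H (h.t1 (J := {i, l, j}ᶜ) (i := m) hv ?_ ?_ ?_ hm')
    · have := Finset.card_le_univ ({i, l, j} : Finset κ)
      rw [Finset.card_compl]
      rw [Finset.card_eq_three.mpr ⟨i, l, j, hil, hij, hlj, rfl⟩] at this ⊢
      omega
    · have := (h.qq v).symm.trans hv.1
      rw [← Finset.sum_add_sum_compl {i, l, j}, Finset.sum_insert (by simp [hil, hij]),
        Finset.sum_pair hlj, h0 l hl, h0 j hj, h5] at this
      exact mul_left_cancel₀ h.ne (by linear_combination this)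
    · simp only [Finset.mem_compl, Finset.mem_insert, Finset.mem_singleton, not_or]
      exact ⟨hm, fun e => hm' (e ▸ h0 l hl), fun e => hm' (e ▸ h0 j hj)⟩
  · refine H (h.t3 h3 hv hc.1 h5 hc.2 (c := c) ?_ hlj hlk hjk (h0 c hc') (h0 l hl) (h0 j hj)
      (h0 k hk))
    simp only [Finset.mem_singleton] at h1 h2 h4
    simp [Ne.symm h1, Ne.symm h2, Ne.symm h4]

omit [Finite F] in
theorem exists_rot (hij : i ≠ j) (hik : i ≠ k) (hil : i ≠ l) (hjk : j ≠ k) (hjl : j ≠ l)
    (hkl : k ≠ l) : ∃ ρ ∈ commutator (OG Q), ρ.1 ∈ mon e ∧ ∀ x, e.repr (ρ.1 x) i = e.repr x j ∧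
      e.repr (ρ.1 x) j = -e.repr x i ∧ e.repr (ρ.1 x) k = e.repr x l ∧
      e.repr (ρ.1 x) l = -e.repr x k ∧
      ∀ m, m ∉ ({i, j, k, l} : Finset κ) → e.repr (ρ.1 x) m = e.repr x m := by
  refine ⟨refl Q (e i - e j) * refl Q (e k - e l) * (refl Q (e i) * refl Q (e k)), mul_mem
    (h.nd.refl_mul_refl_mem_commutator (h.q_bsub hij ▸ h.ne2)
      ((h.q_bsub hij).trans (h.q_bsub hkl).symm))
    (h.nd.refl_mul_refl_mem_commutator (h.qb_ne i) ((h.q i).trans (h.q k).symm)),
    mul_mem (mul_mem (h.mon_s hij) (h.mon_s hkl)) (mul_mem (h.mon_b i) (h.mon_b k)), fun x => ?_⟩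
  simp only [OG.mul_apply, h.refl_b, h.refl_bsub hij, h.refl_bsub hkl, repr_pm, repr_sgn,
    Equiv.symm_swap, Equiv.swap_apply_def, Finset.mem_singleton, Finset.mem_insert, not_or]
  refine ⟨?_, ?_, ?_, ?_, fun m hm => ?_⟩ <;> simp [*, Ne.symm]

theorem step2 (h3 : (3 : F) ≠ 0) (H : ¬ commutator (OG Q) ≤ M) (hv : RF e α M v) (hij : i ≠ j)
    (hik : i ≠ k) (hil : i ≠ l) (hjk : j ≠ k) (hjl : j ≠ l) (hkl : k ≠ l) (vi : e.repr v i ≠ 0)
    (vk : e.repr v k ≠ 0) (hc : c ∉ ({i, j, k, l} : Finset κ)) (vc : e.repr v c ≠ 0) :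
    2 * (e.repr v i ^ 2 + e.repr v j ^ 2 + e.repr v k ^ 2 + e.repr v l ^ 2) = 1 := by
  by_contra hN
  have hn := h.hn
  set I : Finset κ := {i, j, k, l} with hI
  have cI : I.card = 4 := by simp [hI, *]
  have sI : ∀ f : κ → F, ∑ m ∈ I, f m = f i + f j + f k + f l := fun f => by
    simp [hI, Finset.sum_insert, *, add_assoc]
  rw [← sI fun m => e.repr v m ^ 2] at hN
  have w0 : Q (pj e I v) ≠ 0 := fun e => H (h.t1 (J := I) (i := i) hv (by omega)
    (mul_left_cancel₀ h.ne (by rw [← h.q_pj, e, mul_zero])) (by simp [hI]) vi)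
  have n0 : Q (v - pj e I v) ≠ 0 := fun e' => H (h.t1 (J := Iᶜ) (i := c) hv
    (by rw [Finset.card_compl]; omega) (mul_left_cancel₀ h.ne (by
      rw [← h.q_pj, mul_zero, ← e']
      congr 1
      exact e.ext_elem fun m => by by_cases hm : m ∈ I <;> simp [repr_pj, hm])) (by simpa) vc)
  obtain ⟨ρ, ρ1, ρ2, ρ3⟩ := h.exists_rot hij hik hil hjk hjl hkl
  rw [← hI] at ρ3
  have hq := h.q_sub_pj I v
  have hq' := h.q_pj I v
  have wn := h.pol_pj I v
  have w1 : ∀ m, m ∉ I → e.repr (pj e I v) m = 0 := fun m hm => by simp [repr_pj, hm]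
  have n1 : ∀ m ∈ I, e.repr (v - pj e I v) m = 0 := fun m hm => by simp [repr_pj, hm]
  have wi : e.repr (pj e I v) i ≠ 0 := by simpa [repr_pj, hI] using vi
  have wk : e.repr (pj e I v) k ≠ 0 := by simpa [repr_pj, hI] using vk
  have nc : e.repr (v - pj e I v) c ≠ 0 := by simpa [repr_pj, hc] using vc
  have hvv : v = pj e I v + (v - pj e I v) := by simp
  generalize pj e I v = w at *
  generalize v - w = n at *
  have w2 : ∀ m, m ∉ I → e.repr (ρ.1 w) m = 0 := fun m hm => ((ρ3 w).2.2.2.2 m hm).trans (w1 m hm)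
  have cs : ∀ {x y : V}, e.repr x i = e.repr y i → e.repr x j = e.repr y j →
      e.repr x k = e.repr y k → e.repr x l = e.repr y l →
      (∀ m, m ∉ I → e.repr x m = e.repr y m) → x = y := fun h1 h2 h3 h4 h5 =>
    e.ext_elem fun m => by
      by_cases hm : m ∈ I
      · simp only [hI, Finset.mem_insert, Finset.mem_singleton] at hm
        rcases hm with rfl | rfl | rfl | rfl <;> assumption
      · exact h5 m hm
  have r1 : ρ.1 (ρ.1 w) = -w := cs (by simp [ρ3]) (by simp [ρ3]) (by simp [ρ3]) (by simp [ρ3])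
    fun m hm => by simp [ρ3, hm, w1]
  have r2 : ρ.1 n = n := cs (by simp [ρ3, n1, hI]) (by simp [ρ3, n1, hI]) (by simp [ρ3, n1, hI])
    (by simp [ρ3, n1, hI]) fun m hm => by simp [ρ3, hm]
  have o1 : polar Q w (ρ.1 w) = 0 := mul_left_cancel₀ h.two (by
    have := OG.map_polar ρ w (ρ.1 w)
    rw [r1, polar_neg_right, polar_comm] at this
    linear_combination -this)
  have o2 : polar Q (ρ.1 w) n = 0 := by rw [← r2, OG.map_polar, wn]
  have q1 : Q (w + ρ.1 w) = 2 * Q w := by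
    rw [q_add, o1, OG.map_Q]
    ring
  have a1 : (refl Q (w + ρ.1 w)).1 w = -ρ.1 w := by
    rw [refl_apply, q1, polar_add_left, p_self, polar_comm, o1, add_zero,
      inv_mul_cancel₀ (mul_ne_zero h.two w0)]
    simp
  have a2 : (refl Q (w + ρ.1 w)).1 (ρ.1 w) = -w := by
    rw [refl_apply, q1, polar_add_left, p_self, o1, zero_add, OG.map_Q,
      inv_mul_cancel₀ (mul_ne_zero h.two w0)]
    simp
  set A := refl Q (w + ρ.1 w) * refl Q w with hA
  have z1 : (A⁻¹ * ρ).1 w = w := by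
    rw [OG.mul_apply, show ρ.1 w = A.1 w by
      rw [hA, OG.mul_apply, refl_apply_self w0, map_neg, a1, neg_neg], OG.inv_apply_self]
  have z2 : (A⁻¹ * ρ).1 (ρ.1 w) = ρ.1 w := by
    rw [OG.mul_apply, show ρ.1 (ρ.1 w) = A.1 (ρ.1 w) by
      rw [hA, OG.mul_apply, refl_apply_of_orth o1, a2, r1], OG.inv_apply_self]
  have z3 : (A⁻¹ * ρ).1 n = n := by
    rw [OG.mul_apply, show ρ.1 n = A.1 n by
      rw [hA, OG.mul_apply, refl_apply_of_orth wn, refl_apply_of_orth (by
        rw [polar_add_left, wn, o2, add_zero]), r2], OG.inv_apply_self]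
  have z4 : A * (A⁻¹ * ρ) = (A⁻¹ * ρ) * A := by
    rw [eq_comm, ← mul_inv_eq_iff_eq_mul, hA, ← conj_mul, refl_conj, refl_conj, map_add, z1, z2]
  have z5 : refl Q (ρ.1 w) * refl Q w = A * A := by
    have := refl_conj (refl Q (w + ρ.1 w)) w
    rw [a1, refl_neg, refl_inv] at this
    rw [hA, ← this]
    simp only [mul_assoc]
  obtain ⟨L, L1, L2, L3⟩ := exists_ext M (refl_mul_self (Q := Q) v)
  have hρ : ρ ∈ L := L3 _ (h.le _ ρ1 ρ2) (h.conj_rf hv ρ1 ρ2 i)
  have hvv' : v = (1 : F) • w + (0 : F) • ρ.1 w + (1 : F) • n := by simpa using hvv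
  have full := fun a b => o3 (w := w) (w' := ρ.1 w) (n := n) (x := 1) (y := 0) (s := 1) (c := 1)
    (S := {1}) (C := {A⁻¹ * ρ, A⁻¹ * ρ * (A⁻¹ * ρ)}) (a := a) (b := b) h.two
    ⟨2, h.two, fun e => h3 (by linear_combination e)⟩ w0 (by simpa) n0 o1 wn o2 L1
    (by simp [mul_assoc]) (by
      rintro _ (rfl | rfl)
      · exact ⟨z1, z2, z3⟩
      · simp only [OG.mul_apply (A⁻¹ * ρ), z1, z2, z3, and_self])
    (hvv' ▸ L2 _ (by simp) (by simp)) (by rw [← hvv', hv.1]; exact h.ne)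
    ⟨_, Or.inr rfl, by
      rw [z5, (show Commute A (A⁻¹ * ρ) from z4).mul_mul_mul_comm]
      simpa using mul_mem hρ hρ⟩
    (by
      rintro _ rfl
      exact ⟨by simpa [← two_mul] using mul_ne_zero h.two w0, _, Or.inl rfl, by simpa [← hA]⟩)
    rfl one_ne_zero one_ne_zero (by simpa) (fun _ e => hN (mul_left_cancel₀ h.ne (by
      rw [hq, hq', hv.1] at e
      linear_combination -e))) (fun K _ => h.subfield K)
  have qw : ∀ x y : F, Q (x • w + y • ρ.1 w) = Q w * x ^ 2 + Q w * y ^ 2 := fun x y => by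
    rw [q_add, q_smul, q_smul, p_smul_left, p_smul_right, o1, OG.map_Q]
    ring
  by_cases hs : IsSquare (-1 : F)
  · obtain ⟨ι, hι⟩ := hs
    have hu : Q ((1 : F) • w + ι • ρ.1 w) = 0 := by
      rw [qw, pow_two ι, ← hι]
      ring
    obtain ⟨a, -, b, -, -, -, ha, hb, -, hab, -⟩ := exists_three_not_mem (I := Finset.univ)
      (s := insert c I) (by rw [Finset.card_insert_of_notMem hc, Finset.card_univ]; omega)
    rw [Finset.mem_insert, not_or] at ha hb
    refine H (h.eng hu (fun e => mul_ne_zero h.two w0 ?_) (oe_of_full full hu (by simp [wn, o2]) n0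
      ⟨1, ι, 0, by simp⟩ ⟨0, 0, 1, by simp⟩) (Ne.symm ha.1) (Ne.symm hb.1) hab
      (by simp [w1, w2, hc]) (by simp [w1, w2, ha.2]) (by simp [w1, w2, hb.2]) nc)
    simpa [p_self, o1] using congrArg (polar Q w) e
  have ss : ∀ x y : F, x ^ 2 + y ^ 2 = 0 → x = 0 := fun x y e => by_contra fun hx =>
    hs ⟨y / x, by field_simp; linear_combination -e⟩
  have key : ∀ x y : F, Q w * x ^ 2 + Q w * y ^ 2 = α →
      (x * e.repr w i + y * e.repr w j ≠ 0 ∨ x * e.repr w j - y * e.repr w i ≠ 0) ∧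
      (x * e.repr w i + y * e.repr w j = 0 ∨ 2 * (x * e.repr w i + y * e.repr w j) ^ 2 = 1) ∧
      (x * e.repr w j - y * e.repr w i = 0 ∨ 2 * (x * e.repr w j - y * e.repr w i) ^ 2 = 1) :=
    fun x y hxy => by
    have k1 : ∀ s t : F, s ≠ 0 → x * s + y * t ≠ 0 ∨ x * t - y * s ≠ 0 := fun s t hs => by
      by_contra hc
      push Not at hc
      refine mul_ne_zero (fun e => h.ne (by linear_combination -hxy + Q w * e))
        (fun e => hs (ss s t e)) (show (x ^ 2 + y ^ 2) * (s ^ 2 + t ^ 2) = 0 by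
          linear_combination (x * s + y * t) * hc.1 + (x * t - y * s) * hc.2)
    have k2 : RF e α M (x • w + y • ρ.1 w) := h.rf_of (i := i) ((qw x y).trans hxy) (by
      simpa [mul_assoc, refl_cancel] using mul_mem (full _ v ⟨x, y, 0, by simp⟩ ⟨1, 0, 1, hvv'⟩
        (by rw [qw, hxy]; exact h.ne) (by rw [qw, hxy, hv.1])) (hv.2 i))
    have k3 := h.t4 (J := Iᶜ) h3 H k2 (fun ⟨m, hm⟩ => by
      by_cases e' : m = i ∨ m = j
      · have e1 := hm k (by rintro rfl; simp [hik.symm, hjk.symm] at e')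
        have e2 := hm l (by rintro rfl; simp [hil.symm, hjl.symm] at e')
        simp only [map_add, map_smul, Finsupp.add_apply, Finsupp.smul_apply, ρ3] at e1 e2
        exact (k1 _ (e.repr w l) wk).elim (fun e => e e1) fun e => e (by simpa [sub_eq_add_neg] using e2)
      · rw [not_or] at e'
        have e1 := hm i (Ne.symm e'.1)
        have e2 := hm j (Ne.symm e'.2)
        simp only [map_add, map_smul, Finsupp.add_apply, Finsupp.smul_apply, ρ3] at e1 e2
        exact (k1 _ (e.repr w j) wi).elim (fun e => e e1) fun e => e (by simpa [sub_eq_add_neg] using e2))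
      (by rw [Finset.card_compl]; omega) (fun m hm => by
        simp [w1 m (Finset.mem_compl.mp hm), w2 m (Finset.mem_compl.mp hm)])
    exact ⟨k1 _ _ wi, by simpa [ρ3] using k3 i, by simpa [ρ3, ← sub_eq_add_neg] using k3 j⟩
  obtain ⟨x, y, hxy⟩ := exists_binary_eq h.two w0 w0 α
  have e2 := h.two
  have e5 : (5 : F) ≠ 0 := fun e => hs ⟨2, by linear_combination -e⟩
  obtain ⟨k1, k2, k3⟩ := key x y hxy
  obtain ⟨-, k4, k5⟩ := key ((3 * x - 4 * y) / 5) ((4 * x + 3 * y) / 5) (by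
    rw [← hxy]
    field_simp
    ring)
  rw [show (3 * x - 4 * y) / 5 * e.repr w i + (4 * x + 3 * y) / 5 * e.repr w j =
    (3 * (x * e.repr w i + y * e.repr w j) + 4 * (x * e.repr w j - y * e.repr w i)) / 5 by ring]
    at k4
  rw [show (3 * x - 4 * y) / 5 * e.repr w j - (4 * x + 3 * y) / 5 * e.repr w i =
    (3 * (x * e.repr w j - y * e.repr w i) - 4 * (x * e.repr w i + y * e.repr w j)) / 5 by ring]
    at k5
  generalize x * e.repr w i + y * e.repr w j = s at *
  generalize x * e.repr w j - y * e.repr w i = t at *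
  have e16 : (16 : F) ≠ 0 := fun e => pow_ne_zero 4 e2 (by linear_combination e)
  have e24 : (24 : F) ≠ 0 := fun e => mul_ne_zero h3 (pow_ne_zero 3 e2) (by linear_combination e)
  rw [div_eq_zero_iff, or_iff_left e5, div_pow, ← mul_div_assoc,
    div_eq_one_iff_eq (pow_ne_zero 2 e5)] at k4 k5
  rcases k2 with rfl | k2 <;> rcases k3 with rfl | k3
  · simp at k1
  · rcases k5 with k5 | k5
    · exact mul_ne_zero h3 h3 (by linear_combination 6 * t * k5 - 9 * k3)
    · exact e16 (by linear_combination -k5 + 9 * k3)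
  · rcases k4 with k4 | k4
    · exact mul_ne_zero h3 h3 (by linear_combination 6 * s * k4 - 9 * k2)
    · exact e16 (by linear_combination -k4 + 9 * k2)
  · rcases sq_eq_sq_iff_eq_or_eq_neg.mp (mul_left_cancel₀ e2 (k2.trans k3.symm)) with rfl | rfl
    · rcases k5 with k5 | k5
      · exact one_ne_zero (α := F) (by linear_combination -2 * s * k5 - k3)
      · exact e24 (by linear_combination -k5 + k3)
    · rcases k4 with k4 | k4
      · exact one_ne_zero (α := F) (by linear_combination 2 * t * k4 - k3)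
      · exact e24 (by linear_combination -k4 + k3)

theorem exists_spare (h3 : (3 : F) ≠ 0) (H : ¬ commutator (OG Q) ≤ M) (hv : RF e α M v)
    (vl : e.repr v l = 0) : ∃ J : Finset κ, 4 ≤ J.card ∧ ∀ i ∈ J, e.repr v i = 0 := by
  classical
  by_contra hc
  push Not at hc
  have h1 : (Finset.univ.filter fun i => e.repr v i = 0).card ≤ 3 := by
    by_contra h1
    obtain ⟨i, hi, hi'⟩ := hc _ (not_le.mp h1)
    exact hi' (Finset.mem_filter.mp hi).2
  have h2 := Finset.card_filter_add_card_filter_not (s := Finset.univ) fun i => e.repr v i = 0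
  have hn := h.hn
  rw [Finset.card_univ] at h2
  obtain ⟨i, hi, j, hj, hij⟩ := Finset.one_lt_card.mp
    (show 1 < (Finset.univ.filter fun i => ¬ e.repr v i = 0).card by omega)
  obtain ⟨k, hk, m, hm, c, hc, h4, h5, h6, hkm, hkc, hmc⟩ := exists_three_not_mem
    (I := Finset.univ.filter fun i => ¬ e.repr v i = 0) (s := {i, j})
    (by rw [Finset.card_pair hij]; omega)
  simp only [Finset.mem_filter, Finset.mem_univ, true_and, Finset.mem_insert, Finset.mem_singleton,
    not_or] at hi hj hk hm hc h4 h5 h6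
  have e1 := h.step2 (l := m) h3 H hv hij (Ne.symm h4.1) (Ne.symm h5.1) (Ne.symm h4.2)
    (Ne.symm h5.2) hkm hi hk (by simp [h6, hkc.symm, hmc.symm]) hc
  have hl : ∀ i, e.repr v i ≠ 0 → i ≠ l := fun i hi e => hi (e ▸ vl)
  have e2 := h.step2 (l := l) h3 H hv hij (Ne.symm h4.1) (hl i hi) (Ne.symm h4.2)
    (hl j hj) (hl k hk) hi hk (by simp [h6, hkc.symm, hl c hc]) hc
  rw [vl] at e2
  exact mul_ne_zero h.two (pow_ne_zero 2 hm) (by linear_combination e1 - e2)

theorem fv_three (h3 : (3 : F) = 0) (H : ¬ commutator (OG Q) ≤ M) (hv : RF e α M v) :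
    FV e v := by
  by_contra hv'
  have sq : ∀ c : F, c ≠ 0 → c ^ 2 = 1 := fun c hc => by
    obtain ⟨n, rfl⟩ := h.nat c
    have : (n : F) = ((n % 3 : ℕ) : F) := by
      conv_lhs => rw [← Nat.mod_add_div n 3]
      simp [h3]
    rw [this] at hc ⊢
    have : n % 3 < 3 := Nat.mod_lt _ (by norm_num)
    interval_cases n % 3
    · simp at hc
    · simp
    · linear_combination h3
  obtain ⟨i, hi⟩ := exists_repr_ne (e := e) (ne_zero_of_Q_ne_zero (hv.1 ▸ h.ne))
  obtain ⟨j, hj, hj'⟩ : ∃ m, m ≠ i ∧ e.repr v m ≠ 0 := by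
    by_contra hc
    push Not at hc
    exact hv' ⟨i, hc⟩
  obtain ⟨k, hk, hk'⟩ : ∃ m, m ∉ ({i, j} : Finset κ) ∧ e.repr v m ≠ 0 := by
    by_contra hc
    push Not at hc
    have := (h.qq v).symm.trans hv.1
    rw [← Finset.sum_subset (Finset.subset_univ {i, j}) (fun m _ hm => by simp [hc m hm]),
      Finset.sum_pair hj.symm, sq _ hi, sq _ hj'] at this
    exact h.ne (by linear_combination this)
  refine H (h.t1 (J := insert k {i, j}) (i := k) hv ?_ ?_ (by simp) hk')
  · have := Finset.card_le_three (a := k) (b := i) (c := j)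
    have := h.hn
    omega
  · rw [Finset.sum_insert hk, Finset.sum_pair hj.symm, sq _ hi, sq _ hj', sq _ hk']
    linear_combination h3

theorem four_ne (h3 : (3 : F) ≠ 0) (H : ¬ commutator (OG Q) ≤ M) (hv : RF e α M v)
    (vl : e.repr v l = 0) (i : κ) : 4 * e.repr v i ^ 2 ≠ 1 := fun h4 => by
  by_cases hv' : FV e v
  · have h5 : e.repr v i ≠ 0 := fun e => by simp [e] at h4
    have := hv.1
    rw [eq_smul_basis fun j hj => hv'.eq_zero h5 hj, q_smul, h.q] at this
    exact mul_ne_zero h3 h.ne (by linear_combination α * h4 - 4 * this)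
  · obtain ⟨J, hJ, hJ'⟩ := h.exists_spare h3 H hv vl
    rcases h.t4 h3 H hv hv' hJ hJ' i with e | e
    · simp [e] at h4
    · exact one_ne_zero (α := F) (by linear_combination h4 - 2 * e)

theorem fix (H : ¬ commutator (OG Q) ≤ M) {g : OG Q} (hg : g ∈ M)
    (h1 : ∀ i, i ≠ l → e.repr (g.1 (e l)) i = 0) (h2 : ∀ i, i ≠ l → e.repr (g.1 (e i)) l = 0) :
    g.1 ∈ mon e := by
  have h4 := eq_smul_basis h1
  have h5 : refl Q (g.1 (e l)) = refl Q (e l) := by
    rw [h4, refl_smul fun e' => ?_]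
    rw [e', zero_smul, OG.apply_eq_zero] at h4
    exact e.ne_zero l h4
  have key : ∀ v, RF e α M v → RF e α M (g.1 v) := fun v hv =>
    h.rf_of (i := l) ((OG.map_Q _ _).trans hv.1) (by
      rw [← h5, ← refl_conj, ← refl_conj, conj_mul]
      exact mul_mem (mul_mem hg (hv.2 l)) (inv_mem hg))
  refine mem_mon fun a => by_contra fun ha => ?_
  by_cases h3 : (3 : F) = 0
  · exact ha (h.fv_three h3 H (key _ (h.rf_b a)))
  have hal : a ≠ l := fun e => ha (e ▸ ⟨l, h1⟩)
  obtain ⟨J, hJ, hJ'⟩ := h.exists_spare h3 H (key _ (h.rf_b a)) (h2 a hal)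
  have h6 := h.t4 h3 H (key _ (h.rf_b a)) ha hJ hJ'
  obtain ⟨i, hi⟩ := exists_repr_ne (e := e) (x := g.1 (e a)) (by
    rw [Ne, OG.apply_eq_zero]
    exact e.ne_zero a)
  obtain ⟨k, hk, hkl⟩ := exists_mem_not_mem (I := J) (s := {l}) (by simp; omega)
  rw [Finset.mem_singleton] at hkl
  obtain ⟨b, hb⟩ : ∃ b, e.repr (g.1 (e b)) k ≠ 0 := by
    by_contra hc
    push Not at hc
    have := repr_of_basis (e := e) (g := g.1) (l := k) (l' := k) (a := 0) (by simpa)
      ((g⁻¹).1 (e k))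
    simp at this
  have hbl : b ≠ l := fun e => hb (e ▸ h1 k hkl)
  have hab : a ≠ b := fun e => hb (e ▸ hJ' k hk)
  have h7 := (h6 i).resolve_left hi
  obtain ⟨s, hs⟩ : ∃ s, e.repr (g.1 (e a)) i = s := ⟨_, rfl⟩
  rw [hs] at hi h7
  have h8 : Q (s • (e a - e b)) = α := by
    rw [q_smul, h.q_bsub hab]
    linear_combination α * h7
  have h9 := key _ (h.rf_of (i := l) h8 (h.le _ (h.nd.refl_mul_refl_mem_commutator
    (h8.trans_ne h.ne) (h8.trans (h.q l).symm)) (by
      rw [refl_smul hi]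
      exact mul_mem (h.mon_s hab) (h.mon_b l))))
  have h10 := h.four_ne (l := l) h3 H h9 (by simp [h2, hal, hbl])
  simp only [map_smul, map_sub, Finsupp.smul_apply, Finsupp.sub_apply, smul_eq_mul] at h10
  by_cases hb' : FV e (g.1 (e b))
  · refine h10 i ?_
    rw [hs, hb'.eq_zero hb fun e' : i = k => hi (by rw [← hs, e', hJ' k hk])]
    linear_combination (2 * s ^ 2 + 1) * h7
  · obtain ⟨K, hK, hK'⟩ := h.exists_spare h3 H (key _ (h.rf_b b)) (h2 b hbl)
    have := (h.t4 h3 H (key _ (h.rf_b b)) hb' hK hK' k).resolve_left hb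
    refine h10 k ?_
    rw [hJ' k hk]
    linear_combination 2 * s ^ 2 * this + h7

theorem main (hn : 9 ≤ Fintype.card κ) (hg : ∃ g ∈ M, g.1 ∉ mon e) : commutator (OG Q) ≤ M := by
  by_contra H
  obtain ⟨g, hg, hg'⟩ := hg
  refine hg' (Fr.le_mon (M := M.map (OG Q).subtype) ⟨h.two, fun a b hab => ⟨_, h.rr a b, ?_⟩,
    fun a b c hab hac => ⟨_, h.ss hab hac, ?_⟩, ?_⟩ hn ⟨g, hg, rfl⟩)
  · rw [map_mul, Subgroup.subtype_apply, Subgroup.subtype_apply, h.refl_b, h.refl_b]
    refine LinearEquiv.ext fun x => e.ext_elem fun m => ?_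
    by_cases h1 : m = a <;> by_cases h2 : m = b <;> simp_all
  · rw [map_mul, Subgroup.subtype_apply, Subgroup.subtype_apply, h.refl_bsub hab, h.refl_bsub hac]
  · rintro _ ⟨g, hg, rfl⟩ l h1 h2
    exact h.fix H hg h1 h2

theorem exists_not_mon : ∃ g ∈ commutator (OG Q), g.1 ∉ mon e := by
  have hn := h.hn
  obtain ⟨a, -, b, -, c, -, -, -, -, hab, hac, hbc⟩ := exists_three_not_mem
    (I := (Finset.univ : Finset κ)) (s := ∅) (by simp; omega)
  obtain ⟨d, -, hd⟩ := exists_mem_not_mem (I := Finset.univ) (s := {a, b, c})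
    (Finset.card_le_three.trans_lt (by simp; omega))
  obtain ⟨u, hu, uc, hu'⟩ := h.exists_sing3 hab hac hbc
  have ud : e.repr u d = 0 := by_contra fun e => hd (hu' d e)
  have h1 : polar Q u (e d) = 0 := by rw [polar_comm, h.pb, ud, mul_zero]
  refine ⟨eich Q u (e d), h.nd.eich_mem_commutator (good_of_two_ne_zero h.two) _ _, fun hm => ?_⟩
  have := (hm (e d)).mp (FV.basis d)
  rw [eich_apply hu h1, h1, h.pb] at this
  have hcd : c ≠ d := fun e => hd (by simp [e])
  simpa [repr_basis, hcd.symm, uc, h.ne, h.two] using this.eq_zero (i := d) (by simp [ud]) hcd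

end OFr

theorem exists_nat_cast [Fintype F] (h : (Fintype.card F).Prime) (c : F) : ∃ n : ℕ, c = n := by
  have : Fact (Fintype.card F).Prime := ⟨h⟩
  obtain ⟨x, rfl⟩ := (ZMod.ringEquivOfPrime F h rfl).surjective c
  exact ⟨x.val, by rw [← map_natCast (ZMod.ringEquivOfPrime F h rfl), ZMod.natCast_zmod_val]⟩

theorem exists_oFr {ι : Type} [Fintype ι] [DecidableEq ι] {Q : QuadraticForm F (ι → F)} {t : ℕ}
    {D : Fin t → Submodule F (ι → F)} (hD : Geo.IsOrthogonalMDecomposition ⇑Q 1 D) :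
    ∃ (e : Basis (Fin t) F (ι → F)) (α : F), α ≠ 0 ∧ (2 : F) ≠ 0 ∧ (∀ i, Q (e i) = α) ∧
      (∀ i j, i ≠ j → polar Q (e i) (e j) = 0) ∧ D = fun i => F ∙ e i := by
  obtain ⟨π, h⟩ := exists_isDec hD.decomp.decomp.indep hD.decomp.decomp.iSup_eq_top
  have := hD.decomp.decomp.two_le
  let o : Fin t := ⟨0, by omega⟩
  obtain ⟨v, hv, hv0⟩ := exists_not_mem_of_finrank_lt (W := ⊥) (U := D o)
    (by simp [hD.decomp.decomp.finrank_eq])
  choose f hf using hD.isometric o
  obtain ⟨e, he, rfl⟩ := exists_frame h (v := fun i => f i ⟨v, hv⟩) (fun i => (f i _).2)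
    (fun i => by simpa using hv0) hD.decomp.decomp.finrank_eq
  have h1 : ∀ i, Q (e i) = Q v := fun i => he i ▸ hf i _
  obtain ⟨⟨x, hx, hx'⟩, -⟩ := hD.decomp.nondegenerate o _ (Submodule.mem_span_singleton_self _)
    (e.ne_zero o)
  obtain ⟨c, rfl⟩ := Submodule.mem_span_singleton.mp hx
  rw [p_smul_left, p_self, h1] at hx'
  exact ⟨e, Q v, right_ne_zero_of_mul (right_ne_zero_of_mul hx'),
    left_ne_zero_of_mul (right_ne_zero_of_mul hx'), h1, fun i j hij => hD.decomp.orthogonal i j hij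
      _ (Submodule.mem_span_singleton_self _) _ (Submodule.mem_span_singleton_self _), rfl⟩

theorem max_om_frame [Fintype F] {ι : Type} [Fintype ι] [DecidableEq ι]
    {Q : QuadraticForm F (ι → F)} {t : ℕ} {D : Fin t → Submodule F (ι → F)} (hQ : ND Q)
    (hp : (Fintype.card F).Prime) (hn : 9 ≤ Fintype.card ι)
    (hD : Geo.IsOrthogonalMDecomposition ⇑Q 1 D) :
    Geo.IsMaximalIn (Geo.omegaGL ⇑Q) (Geo.decompositionStabilizer D ⊓ Geo.omegaGL ⇑Q) := by
  have h1 := card_eq_of_dec hD.decomp.decomp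
  obtain ⟨e, α, h2, h3, h4, h5, rfl⟩ := exists_oFr hD
  have h : ∀ M : Subgroup (OG Q), (∀ g ∈ commutator (OG Q), g.1 ∈ mon e → g ∈ M) → OFr Q e α M :=
    fun M hM => ⟨hQ, h3, h2, exists_nat_cast hp, by simp; omega, h4, h5, hM⟩
  refine isMaximalIn_Om (· ∈ mon e) (fun g => mem_decStab g |>.trans mem_mon_iff.symm)
    (h ⊤ fun _ _ _ => trivial).exists_not_mon fun M hM _ => (h M hM).main (by simp; omega)

end Cfsg.Agent.Max
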