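import Mathlib
import Cfsg.Agent.Max.SubSp
import Cfsg.Agent.Herm.Basic

/-!
# An abstract form of the subfield argument for unitary and orthogonal groups
-/

set_option autoImplicit false

namespace Cfsg.Agent.Max

open Module Herm

variable {F V : Type*} [Field F] [AddCommGroup V] [Module F V] {ι : Type} {K : Subfield F}
  {e : Basis ι F V} {σ : F →+* F} {B : V →ₛₗ[σ] V →ₗ[F] F} {I : V → Prop} {A : V → AddSubgroup V}
  {ζ : F}

theorem span_swap {K V : Type*} [Field K] [AddCommGroup V] [Module K V] {U : Submodule K V}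
    {a b : V} (ha : a ∉ U) (h : b ∉ U ⊔ K ∙ a) : a ∉ U ⊔ K ∙ b := fun e => by
  obtain ⟨u, hu, _, hz, rfl⟩ := Submodule.mem_sup.mp e
  obtain ⟨k, rfl⟩ := Submodule.mem_span_singleton.mp hz
  have hk : k ≠ 0 := by
    rintro rfl
    exact ha (by simpa using hu)
  refine h (Submodule.mem_sup.mpr ⟨-(k⁻¹ • u), neg_mem (U.smul_mem _ hu), k⁻¹ • (u + k • b),
    Submodule.smul_mem _ _ (Submodule.mem_span_singleton_self _), ?_⟩)
  simp [smul_smul, hk]

theorem finrank_le_span [Fintype ι] [Finite F] {U : Submodule K V} (hU : U ≤ Rt K e) :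
    finrank K U ≤ finrank F (Submodule.span F (U : Set V)) := by
  have := Module.Finite.of_basis e
  have := Submodule.finiteDimensional_of_le hU
  let b := Module.finBasis K U
  have h1 : LinearIndependent F fun i => (b i : V) := by
    refine Fintype.linearIndependent_iff.mpr fun c hc i => ?_
    obtain ⟨φ, -, h2, h3⟩ := exists_RD (U := Submodule.span K ((fun i => (b i : V)) '' {j | j ≠ i}))
      (Submodule.span_le.mpr (by rintro _ ⟨j, -, rfl⟩; exact hU (b j).2)) (hU (b i).2)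
      ((b.linearIndependent.map' U.subtype U.ker_subtype).notMem_span_image (by simp))
    have := congrArg φ hc
    rwa [map_sum, Finset.sum_eq_single i (fun j _ hj => by
      rw [map_smul, h2 _ (Submodule.subset_span ⟨j, hj, rfl⟩), smul_zero]) (by simp), map_smul, h3,
      smul_eq_mul, mul_one, map_zero] at this
  have h2 := finrank_span_eq_card h1
  rw [Fintype.card_fin] at h2
  rw [← h2]
  exact Submodule.finrank_mono (Submodule.span_mono (by rintro _ ⟨i, rfl⟩; exact (b i).2))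

variable [Finite F] [Fintype ι]

/-- The basic hypotheses of the subfield argument. -/
structure SubG (B : V →ₛₗ[σ] V →ₗ[F] F) (I : V → Prop) (A : V → AddSubgroup V) (K : Subfield F)
    (e : Basis ι F V) (ζ : F) : Prop where
  hn : 11 ≤ Fintype.card ι
  symm : ∀ x y, σ (B x y) = B y x
  invol : ∀ a, σ (σ a) = a
  nd : ∀ x, (∀ y, B x y = 0) → x = 0
  z0 : ζ ≠ 0
  sK : ∀ a ∈ K, σ a ∈ K
  rat : ∀ u ∈ Rt K e, ∀ v ∈ Rt K e, ζ * B u v ∈ K
  iso : ∀ x, I x → B x x = 0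
  smul : ∀ x (c : F), I x → I (c • x)
  add : ∀ x y, I x → I y → B x y = 0 → I (x + y)
  ex : ∀ U ≤ Rt K e, 3 ≤ finrank K U → ∃ x ∈ U, x ≠ 0 ∧ I x
  half : ∀ c ∈ Rt K e, ∀ z ∈ Rt K e, I c → B c z ≠ 0 → ∃ k ∈ K, I (z - k • c)
  orth : ∀ x z, z ∈ A x → B x z = 0
  self : ∀ x (c : F), I x → c • x ∈ A x
  grow : ∀ x y u b, I u → b ∈ A u → y ∈ A x → B u x = 0 → B b x = 0 →
    ∃ l, (B b y - l * B u y) • u - B u y • b ∈ A x
  mem : ∀ x ∈ Rt K e, ∀ v ∈ Rt K e, I x → B x v = 0 → ζ • v ∈ A x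

namespace SubG
variable (h : SubG B I A K e ζ) {a b c d v w x y z : V} {s t : F}
include h

omit [Finite F] in
theorem zs (h1 : B x y = 0) : B y x = 0 := by rw [← h.symm, h1, map_zero]

omit [Finite F] in
theorem rd (hx : x ∈ Rt K e) : B (ζ • x) ∈ RD K e := fun v hv => by
  have := h.sK _ (h.rat v hv x hx)
  rwa [map_mul, h.symm, ← b_smul_left] at this

omit [Finite F] in
theorem smul_orth (c : F) (h1 : B x y = 0) : B (c • x) y = 0 := by simp [h1]

theorem dual' {φ : Dual F V} (hφ : φ ∈ RD K e) : ∃ y ∈ Rt K e, B (ζ • y) = φ :=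
  exists_Rt_dual (Θ := fun y => B (ζ • y)) (fun x y e1 => smul_right_injective V h.z0
    (sub_eq_zero.mp (h.nd _ fun z => by
      rw [map_sub, show B (ζ • x) = B (ζ • y) from e1, sub_self, LinearMap.zero_apply])))
    (fun _ => h.rd) hφ

theorem dual {U : Submodule K V} (hU : U ≤ Rt K e) (ha : a ∈ Rt K e) (h1 : a ∉ U) :
    ∃ c ∈ Rt K e, (∀ u ∈ U, B c u = 0) ∧ B (ζ • c) a = 1 := by
  obtain ⟨φ, h2, h3, h4⟩ := exists_RD hU ha h1
  obtain ⟨c, h5, rfl⟩ := h.dual' h2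
  exact ⟨c, h5, fun u hu => by simpa [h.z0] using h3 u hu, h4⟩

theorem rk {U : Submodule K V} (hU : U ≤ Rt K e) (hx : x ∈ Rt K e) :
    finrank K U ≤ finrank K ↥(U ⊓ kr K (B x)) + 1 := by
  have := finrank_le_kr' hU (h.rd hx)
  rwa [show kr K (B (ζ • x)) = kr K (B x) from Submodule.ext fun v => by simp [h.z0]] at this

omit [Finite F] in
theorem avoid {U Y : Submodule K V} (hU : U ≤ Rt K e) [FiniteDimensional K Y]
    (h1 : finrank K Y + 3 ≤ finrank K U) : ∃ x ∈ U, I x ∧ x ∉ Y := by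
  have := Submodule.finiteDimensional_of_le hU
  obtain ⟨p, hp⟩ := Y.subtype.exists_leftInverse_of_injective Y.ker_subtype
  obtain ⟨x, ⟨hx, h2⟩, h3, h4⟩ := h.ex (U ⊓ LinearMap.ker (Y.subtype ∘ₗ p)) (inf_le_left.trans hU) (by
    have := finrank_le_inf_add U (Y.subtype ∘ₗ p) Y fun u _ => (p u).2
    omega)
  exact ⟨x, hx, h4, fun e => h3 ((congrArg Subtype.val
    (LinearMap.congr_fun hp ⟨x, e⟩)).symm.trans h2)⟩

/-- An isotropic rational vector orthogonal to, and independent of, three given ones. -/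
theorem third (ha : a ∈ Rt K e) (hb : b ∈ Rt K e) (hc : c ∈ Rt K e) :
    ∃ x ∈ Rt K e, I x ∧ B a x = 0 ∧ B b x = 0 ∧ B c x = 0 ∧ x ∉ (K ∙ a) ⊔ (K ∙ b) ⊔ K ∙ c := by
  obtain ⟨x, ⟨⟨⟨h1, h2⟩, h3⟩, h4⟩, h5, h6⟩ := h.avoid (Y := (K ∙ a) ⊔ (K ∙ b) ⊔ K ∙ c)
    (U := Rt K e ⊓ kr K (B a) ⊓ kr K (B b) ⊓ kr K (B c)) (inf_le_left.trans (inf_le_left.trans
      inf_le_left)) (by
      have := h.rk le_rfl ha
      have := h.rk (U := Rt K e ⊓ kr K (B a)) inf_le_left hb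
      have := h.rk (U := Rt K e ⊓ kr K (B a) ⊓ kr K (B b)) (inf_le_left.trans inf_le_left) hc
      have := Submodule.finrank_add_le_finrank_add_finrank ((K ∙ a) ⊔ (K ∙ b)) (K ∙ c)
      have := Submodule.finrank_add_le_finrank_add_finrank (K ∙ a) (K ∙ b)
      have := finrank_span_one_le (F := K) a
      have := finrank_span_one_le (F := K) b
      have := finrank_span_one_le (F := K) c
      have := h.hn
      rw [finrank_Rt] at *
      omega)
  exact ⟨x, h1, h5, h2, h3, h4, h6⟩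

theorem dual2 (ha : a ∈ Rt K e) (hb : b ∈ Rt K e) (hc : c ∈ Rt K e)
    (h1 : c ∉ (K ∙ a) ⊔ K ∙ b) : ∃ d ∈ Rt K e, B d a = 0 ∧ B d b = 0 ∧ B (ζ • d) c = 1 := by
  obtain ⟨d, h2, h3, h4⟩ := h.dual (sup_le ((Submodule.span_singleton_le_iff_mem _ _).mpr ha)
    ((Submodule.span_singleton_le_iff_mem _ _).mpr hb)) hc h1
  exact ⟨d, h2, h3 a (Submodule.mem_sup_left (Submodule.mem_span_singleton_self a)),
    h3 b (Submodule.mem_sup_right (Submodule.mem_span_singleton_self b)), h4⟩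

theorem iso_ind {P : V → Prop} (hsub : ∀ x y, P x → P y → P (x - y)) (hx : x ∈ Rt K e)
    (hP : ∀ c ∈ Rt K e, I c → B x c = 0 → P c) (hw : w ∈ Rt K e) (h1 : B x w = 0) : P w := by
  obtain ⟨c, hc, h2, h3, -, -, h4⟩ := h.third hx hx hx
  obtain ⟨d, hd, h5, -, h6⟩ := h.dual2 hx hx hc fun e => h4 (Submodule.mem_sup_left e)
  refine forall_of_add (F := K) (W := Rt K e ⊓ kr K (B x)) (X := kr K (B c)) hsub (a := d)
    ⟨hd, h.zs h5⟩ (fun e => by simp [h.zs (mem_kr.mp e)] at h6) (fun z hz hz' => ?_) ⟨hw, h1⟩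
  obtain ⟨k, hk, h7⟩ := h.half c hc z hz.1 h2 hz'
  simpa using hsub _ _ (hP _ (sub_mem hz.1 (smul_mem_Rt hk hc)) h7 (by simp [mem_kr.mp hz.2, h3]))
    (hP ((-k) • c) (smul_mem_Rt (neg_mem hk) hc) (h.smul _ _ h2) (by simp [h3]))

omit [Finite F] in
theorem grow' {u : V} (hu : I u) (hb : b ∈ A u) (hy : y ∈ A x) (h1 : B u x = 0) (h2 : B b x = 0)
    (h3 : B u y = 0) : B b y • u ∈ A x := by
  obtain ⟨l, hl⟩ := h.grow x y u b hu hb hy h1 h2
  simpa [h3] using hl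

theorem spread (hx : x ∈ Rt K e) (hv : v ∈ Rt K e) (h2 : v ∉ K ∙ x) (h3 : (s * ζ) • v ∈ A x)
    (hw : w ∈ Rt K e) (h4 : B x w = 0) : (s * ζ) • w ∈ A x := by
  have key : ∀ v ∈ Rt K e, (s * ζ) • v ∈ A x → ∀ c ∈ Rt K e, I c → B x c = 0 → B v c = 0 →
      v ∉ (K ∙ x) ⊔ K ∙ c → (s * ζ) • c ∈ A x := fun v hv h3 c hc h5 h6 h7 h8 => by
    obtain ⟨d, hd, h9, h10, h11⟩ := h.dual2 hx hc hv h8
    simpa only [map_smul, h11, smul_eq_mul, mul_one] using h.grow' h5 (h.mem c hc d hd h5 (h.zs h10))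
      h3 (h.zs h6) (h.smul_orth _ h9) (by simp [h.zs h7])
  refine h.iso_ind (P := fun w => (s * ζ) • w ∈ A x) (fun x y h h' => by
    simpa only [smul_sub] using sub_mem h h') hx (fun c hc h5 h6 => ?_) hw h4
  obtain ⟨d, hd, h7, h8, h9, h10, h11⟩ := h.third hx hv hc
  exact key d hd (key v hv h3 d hd h7 h8 h9 (span_swap h2 fun e => h11 (Submodule.mem_sup_left e)))
    c hc h5 h6 (h.zs h10) fun e => h11 ((sup_le_sup_right le_sup_left _ : (K ∙ x) ⊔ (K ∙ c) ≤ _) e)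

/-- The levels at a point. -/
def Lev (_ : SubG B I A K e ζ) (x : V) (s : F) : Prop :=
  ∀ w ∈ Rt K e, B x w = 0 → (s * ζ) • w ∈ A x

theorem step (hx : x ∈ Rt K e) (hc : c ∈ Rt K e) (h1 : I c) (h2 : B x c = 0) (h3 : c ∉ K ∙ x)
    (hs : h.Lev x s) (ht : h.Lev c t) : h.Lev x (s * σ t) := by
  obtain ⟨w, hw, -, h4, h5, -, h6⟩ := h.third hx hc hc
  obtain ⟨d, hd, h7, h8, h9⟩ := h.dual2 hx hc hw fun e => h6 (Submodule.mem_sup_left e)
  have := h.grow' h1 (ht d hd (h.zs h8)) (hs w hw h4) (h.zs h2) (h.smul_orth _ h7) (by simp [h5])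
  rw [mul_smul, b_smul_left, map_smul, h9] at this
  exact fun _ => h.spread hx hc h3 (by convert this using 2; simp; ring)

omit [Finite F] in
theorem lev_one (hx : x ∈ Rt K e) (h1 : I x) : h.Lev x 1 := fun w hw h2 => by
  simpa using h.mem x hx w hw h1 h2

theorem lev_all {r : ℕ} (hr : r.Prime) (hq : Nat.card F = Nat.card K ^ r) (hx : x ∈ Rt K e)
    (hx0 : x ≠ 0) (h1 : I x) (hv : v ∈ Rt K e) (h2 : v ∉ K ∙ x) (h3 : (s * ζ) • v ∈ A x)
    (hs : s ∉ K) (hy : y ∈ Rt K e) (hy0 : y ≠ 0) (h4 : I y) (h5 : B y z = 0) : z ∈ A y := by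
  have move : ∀ x ∈ Rt K e, ∀ c ∈ Rt K e, I x → I c → B x c = 0 → c ∉ K ∙ x → ∀ t, h.Lev c t →
      h.Lev x (σ t) := fun x hx c hc h1 h2 h3 h4 t ht => by
    simpa using h.step hx hc h2 h3 h4 (h.lev_one hx h1) ht
  have hσ : ∀ t, (∀ x ∈ Rt K e, x ≠ 0 → I x → h.Lev x t) → ∀ x ∈ Rt K e, I x → h.Lev x (σ t) :=
    fun t ht x hx h1 => by
      obtain ⟨c, hc, h2, h3, -, -, h4⟩ := h.third hx hx hx
      exact move x hx c hc h1 h2 h3 (by simpa using h4) t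
        (ht c hc (by rintro rfl; simp at h4) h2)
  let L : Subalgebra K F :=
    { carrier := {s | ∀ x ∈ Rt K e, x ≠ 0 → I x → h.Lev x s}
      mul_mem' := fun {s t} hs ht x hx hx0 h1 => by
        obtain ⟨c, hc, h2, h3, -, -, h4⟩ := h.third hx hx hx
        simpa [h.invol] using h.step hx hc h2 h3 (by simpa using h4) (hs x hx hx0 h1)
          (hσ t ht c hc h2)
      add_mem' := fun {s t} hs ht x hx hx0 h1 w hw h2 => by
        simpa only [add_mul, add_smul] using add_mem (hs x hx hx0 h1 w hw h2)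
          (ht x hx hx0 h1 w hw h2)
      algebraMap_mem' := fun k x hx _ h1 w hw h2 => by
        have := h.mem x hx _ (smul_mem_Rt k.2 hw) h1 (by simp [h2])
        rwa [smul_smul, mul_comm] at this }
  have hL : s ∈ L := fun y hy hy0 h4 => by
    obtain ⟨c, hc, h5, h6, h7, -, h8⟩ := h.third hx hy hy
    simpa [h.invol] using move y hy c hc h4 h5 h7 (fun e => h8 (Submodule.mem_sup_right e)) _
      (move c hc x hx h5 h1 (h.zs h6) (not_mem_span_swap hx0 fun e => h8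
        (Submodule.mem_sup_left (Submodule.mem_sup_left e))) s fun _ => h.spread hx hv h2 h3)
  replace hL : ∀ s, s ∈ L := fun s => (subalgebra_eq_top hr hq L hL hs).ge trivial
  obtain ⟨f, hf, -, h6⟩ := h.dual bot_le hy (by simpa using hy0)
  have h7 : ζ * B y f = 1 := by
    rw [← map_one σ, ← h6, b_smul_left, map_mul, h.invol, h.symm]
  have h8 : z = ∑ i, e.repr z i • (e i - (ζ * B y (e i)) • f) := by
    have h9 := congrArg (B y) (e.sum_repr z)
    simp only [map_sum, map_smul, smul_eq_mul, h5] at h9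
    simp only [smul_sub, Finset.sum_sub_distrib, e.sum_repr, smul_smul, ← Finset.sum_smul,
      mul_left_comm _ ζ, ← Finset.mul_sum, h9]
    simp
  rw [h8]
  refine sum_mem fun i _ => ?_
  have := hL (e.repr z i / ζ) y hy hy0 h4 _ (sub_mem (basis_mem_Rt i)
    (smul_mem_Rt (h.rat y hy _ (basis_mem_Rt i)) hf)) (by
      rw [map_sub, map_smul, smul_eq_mul, mul_right_comm, h7, one_mul, sub_self])
  rwa [div_mul_cancel₀ _ h.z0] at this

theorem exists_ne (hx : x ∈ Rt K e) (hx0 : x ≠ 0) (hy : y ∉ F ∙ x) :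
    ∃ d ∈ Rt K e, B x d = 0 ∧ B d y ≠ 0 := by
  by_contra h4
  push Not at h4
  obtain ⟨f, hf, -, h6⟩ := h.dual bot_le hx (by simpa using hx0)
  refine hy (Submodule.mem_span_singleton.mpr ⟨B (ζ • f) y, (sub_eq_zero.mp
    (h.nd _ fun v => h.zs ?_)).symm⟩)
  have h7 : ζ * B x f = 1 := by
    rw [← map_one σ, ← h6, b_smul_left, map_mul, h.invol, h.symm]
  refine h.zs (LinearMap.congr_fun (ext_Rt (K := K) (e := e) (g := 0) fun w hw => h.zs ?_) v)
  have := h4 _ (sub_mem hw (smul_mem_Rt (h.rat x hx w hw) hf)) (by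
    rw [map_sub, map_smul, smul_eq_mul, mul_right_comm, h7, one_mul, sub_self])
  simp only [map_sub, map_smul, b_sub_left, b_smul_left, map_mul, h.symm, smul_eq_mul,
    LinearMap.sub_apply] at this ⊢
  linear_combination this

theorem exists_pair : ∃ x ∈ Rt K e, ∃ f ∈ Rt K e, I x ∧ I f ∧ B x f ≠ 0 := by
  obtain ⟨x, hx, h1, -, -, -, h2⟩ := h.third (zero_mem _) (zero_mem _) (zero_mem _)
  obtain ⟨d, hd, -, h3⟩ := h.dual bot_le hx (by simpa using h2)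
  have h4 : B x d ≠ 0 := fun e => by simp [h.zs e] at h3
  obtain ⟨k, hk, h5⟩ := h.half x hx d hd h1 h4
  exact ⟨x, hx, _, sub_mem hd (smul_mem_Rt hk hx), h1, h5, by simpa [h.iso x h1] using h4⟩

theorem nr_of_iso {g : V ≃ₗ[F] V} (hg : ∀ x y, B (g x) (g y) = B x y)
    (h1 : ∀ a ∈ Rt K e, I a → ∃ c : F, c ≠ 0 ∧ c • g a ∈ Rt K e) : g ∈ NR K e := by
  have key : ∀ a ∈ Rt K e, ∀ v ∈ Rt K e, a ≠ 0 → I a → I v → B a v = 0 → ∀ c : F, c ≠ 0 →
      c • g a ∈ Rt K e → c • g v ∈ Rt K e := fun a ha v hv ha0 h2 h3 h4 c hc h5 => by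
    obtain ⟨b, hb, h6⟩ := h1 v hv h3
    obtain ⟨d, hd, h7⟩ := h1 _ (add_mem ha hv) (h.add _ _ h2 h3 h4)
    exact nr_step ha hv hc hb hd ha0 h5 h6 h7
  obtain ⟨a, ha, h2, -, -, -, h3⟩ := h.third (zero_mem _) (zero_mem _) (zero_mem _)
  obtain ⟨c, hc, h4⟩ := h1 a ha h2
  refine nr_of hc fun v hv => h.iso_ind (P := fun v => c • g v ∈ Rt K e) (fun x y h h' => by
    simpa only [map_sub, smul_sub] using sub_mem h h') (zero_mem _) (fun v hv h5 _ => ?_) hv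
    (by simp)
  obtain ⟨d, hd, h6, h7, h8, -, h9⟩ := h.third ha hv hv
  exact key d hd v hv (by rintro rfl; simp at h9) h6 h5 (h.zs h8) c hc
    (key a ha d hd (by simpa using h3) h2 h6 h7 c hc h4)

end SubG

/-- The subfield hypotheses, with levels bounded by `K`. -/
structure SubL (B : V →ₛₗ[σ] V →ₗ[F] F) (I : V → Prop) (A : V → AddSubgroup V) (K : Subfield F)
    (e : Basis ι F V) (ζ : F) : Prop extends SubG B I A K e ζ where
  lev : ∀ x ∈ Rt K e, x ≠ 0 → I x → ∀ v ∈ Rt K e, v ∉ K ∙ x → ∀ s, (s * ζ) • v ∈ A x → s ∈ K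

theorem SubG.subL (h : SubG B I A K e ζ) {r : ℕ} (hr : r.Prime) (hq : Nat.card F = Nat.card K ^ r)
    (hc : ¬ ∀ y ∈ Rt K e, y ≠ 0 → I y → ∀ z, B y z = 0 → z ∈ A y) : SubL B I A K e ζ :=
  ⟨h, fun _ hx hx0 h1 _ hv h2 _ h3 => by_contra fun hs =>
    hc fun _ hy hy0 h4 _ h5 => h.lev_all hr hq hx hx0 h1 hv h2 h3 hs hy hy0 h4 h5⟩

namespace SubL
variable (h : SubL B I A K e ζ) {a b c d v w x y z : V} {s t : F}
include h

theorem vec (hx : x ∈ Rt K e) (hx0 : x ≠ 0) (h1 : I x) (hz : z ∈ A x) (hd : d ∈ Rt K e)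
    (h2 : B x d = 0) : B d z ∈ K := by
  have G := h.toSubG
  refine G.iso_ind (P := fun d => B d z ∈ K) (fun x y h h' => by
    simpa only [b_sub_left] using sub_mem h h') hx (fun c hc h3 h4 => ?_) hd h2
  obtain ⟨u, hu, -, h5, h6, -, h7⟩ := G.third hx hc hc
  obtain ⟨c', hc', h8, h9, h10, h11, h12⟩ := G.third hx hc hu
  obtain ⟨d', hd', h13, h14⟩ := G.dual (U := (K ∙ x) ⊔ (K ∙ c) ⊔ K ∙ c') (sup_le (sup_le
    ((Submodule.span_singleton_le_iff_mem _ _).mpr hx)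
    ((Submodule.span_singleton_le_iff_mem _ _).mpr hc))
    ((Submodule.span_singleton_le_iff_mem _ _).mpr hc')) hu
    (span_swap (fun e => h7 (Submodule.mem_sup_left e)) h12)
  have h15 := h13 x (Submodule.mem_sup_left (Submodule.mem_sup_left
    (Submodule.mem_span_singleton_self x)))
  have h16 := h13 c (Submodule.mem_sup_left (Submodule.mem_sup_right
    (Submodule.mem_span_singleton_self c)))
  have h17 := h13 c' (Submodule.mem_sup_right (Submodule.mem_span_singleton_self c'))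
  obtain ⟨l, hl⟩ := h.grow x z c _ h3 (h.mem c hc u hu h3 h6) hz (G.zs h4) (G.smul_orth _ (G.zs h5))
  have := G.grow' h8 (h.mem c' hc' d' hd' h8 (G.zs h17)) hl (G.zs h9) (G.smul_orth _ h15)
    (by simp [G.zs h10, G.zs h11])
  simp only [map_sub, map_smul, h14, G.smul_orth ζ h16, smul_eq_mul, mul_zero, mul_one,
    zero_sub, ← neg_mul] at this
  simpa using neg_mem (h.lev x hx hx0 h1 c' hc' (fun e => h12 (Submodule.mem_sup_left
    (Submodule.mem_sup_left e))) _ this)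

theorem rat_of (H : ∀ x ∈ Rt K e, x ≠ 0 → I x → B x y = 0 → y ∉ F ∙ x → ∃ c : F, c ≠ 0 ∧ c • y ∈ A x)
    (hx : x ∈ Rt K e) (hx0 : x ≠ 0) (h1 : I x) (h2 : B x y = 0) :
    ∃ c : F, c ≠ 0 ∧ c • y ∈ Rt K e := by
  have G := h.toSubG
  have triv : ∀ x ∈ Rt K e, y ∈ F ∙ x → ∃ c : F, c ≠ 0 ∧ c • y ∈ Rt K e := fun x hx h3 => by
    obtain ⟨k, rfl⟩ := Submodule.mem_span_singleton.mp h3
    by_cases hk : k = 0
    · exact ⟨1, one_ne_zero, by simp [hk]⟩
    · exact ⟨k⁻¹, inv_ne_zero hk, by simpa [smul_smul, hk] using hx⟩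
  by_contra hc
  have H' : ∀ x ∈ Rt K e, x ≠ 0 → I x → B x y = 0 → ∃ c : F, c ≠ 0 ∧
      ∀ d ∈ Rt K e, B x d = 0 → c * B d y ∈ K := fun x hx hx0 h1 h2 => by
    obtain ⟨c, hc, h3⟩ := H x hx hx0 h1 h2 fun e => hc (triv x hx e)
    exact ⟨c, hc, fun d hd h4 => by simpa using h.vec hx hx0 h1 h3 hd h4⟩
  obtain ⟨c, hc0, h3⟩ := H' x hx hx0 h1 h2
  obtain ⟨d₀, hd₀, h4, h5⟩ := G.exists_ne hx hx0 fun e => hc (triv x hx e)
  refine hc ⟨c / σ ζ, by simp [hc0, h.z0], mem_Rt_of fun φ hφ => ?_⟩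
  obtain ⟨d, hd, rfl⟩ := G.dual' hφ
  obtain ⟨x', ⟨⟨⟨⟨h6, -⟩, h7⟩, h8⟩, h9⟩, h10, h11⟩ := h.ex (Rt K e ⊓ kr K (B x) ⊓ kr K (B y) ⊓
    kr K (B d) ⊓ kr K (B d₀)) (inf_le_left.trans (inf_le_left.trans (inf_le_left.trans
      inf_le_left))) (by
      have := G.rk le_rfl hx
      have := finrank_le_kr (Rt K e ⊓ kr K (B x)) (φ := B y) (c := (σ c)⁻¹) fun u hu =>
        ⟨_, h.sK _ (h3 u hu.1 hu.2), by simp [h.symm, hc0, mul_comm (σ c)]⟩
      have := G.rk (U := Rt K e ⊓ kr K (B x) ⊓ kr K (B y)) (inf_le_left.trans inf_le_left) hd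
      have := G.rk (U := Rt K e ⊓ kr K (B x) ⊓ kr K (B y) ⊓ kr K (B d))
        (inf_le_left.trans (inf_le_left.trans inf_le_left)) hd₀
      have := h.hn
      rw [finrank_Rt] at *
      omega)
  obtain ⟨c', hc', h12⟩ := H' x' h6 h10 h11 (G.zs h7)
  convert mul_mem (h12 d hd (G.zs h8)) (div_mem (h3 d₀ hd₀ h4) (h12 d₀ hd₀ (G.zs h9))) using 1
  have := h.z0
  have : σ ζ ≠ 0 := by simpa using this
  simp only [map_smul, b_smul_left, smul_eq_mul]
  field_simp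

/-- Propagation of rationality. -/
theorem nr {g : V ≃ₗ[F] V} (hg : ∀ x y, B (g x) (g y) = B x y) (hI : ∀ x, I x → I (g x))
    (H : ∀ a ∈ Rt K e, I a → ∀ x ∈ Rt K e, x ≠ 0 → I x → B x (g a) = 0 → g a ∉ F ∙ x →
      ∃ c : F, c ≠ 0 ∧ c • g a ∈ A x) (ha : a ∈ Rt K e) (ha0 : a ≠ 0) (h1 : I a)
    (hx : x ∈ Rt K e) (hx0 : x ≠ 0) (h2 : I x) (h3 : B x (g a) = 0) : g ∈ NR K e := by
  have G := h.toSubG
  have key : ∀ x ∈ Rt K e, I x → ∀ y : V, y ≠ 0 → I y → (∃ c : F, c ≠ 0 ∧ c • g y ∈ Rt K e) →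
      B y x = 0 → ∃ c : F, c ≠ 0 ∧ c • g x ∈ Rt K e := fun x hx h4 y hy h5 ⟨c, h6, h7⟩ h8 =>
    h.rat_of (H x hx h4) h7 (by simp [h6, hy]) (h.smul _ _ (hI y h5)) (by simp [hg, h8])
  refine G.nr_of_iso hg fun v hv h4 => ?_
  obtain ⟨d, hd, h5, h6, h7, -, h8⟩ := G.third ha hv hv
  exact key v hv h4 d (by rintro rfl; simp at h8) h5
    (key d hd h5 a ha0 h1 (h.rat_of (H a ha h1) hx hx0 h2 h3) h6) (G.zs h7)

end SubL

end Cfsg.Agent.Max
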