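import Mathlib
import Cfsg.Agent.Max.SubG
import Cfsg.Agent.Max.Om2

/-!
# Subfield subgroups of orthogonal groups
-/

set_option autoImplicit false

namespace Cfsg.Agent.Max

open Module QuadraticMap Orth

variable {F V : Type*} [Field F] [AddCommGroup V] [Module F V] {Q : QuadraticForm F V}
  {M : Subgroup (OG Q)} {ι : Type} {K : Subfield F} {e : Basis ι F V} {ζ : F}

/-- The vectors `v ⊥ u` with `eich u v ∈ M`. -/
def OA (M : Subgroup (OG Q)) (u : V) : AddSubgroup V where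
  carrier := {v | polar Q u v = 0 ∧ eich Q u v ∈ M}
  zero_mem' := ⟨by simp, by simp⟩
  add_mem' {v w} hv hw := ⟨by simp [hv.1, hw.1], by
    by_cases hu : Q u = 0
    · rw [← eich_mul hu hv.1 hw.1]
      exact mul_mem hv.2 hw.2
    · rw [eich_of_not fun h => hu h.1]
      exact one_mem M⟩
  neg_mem' {v} hv := ⟨by simp [hv.1], by
    by_cases hu : Q u = 0
    · rw [← eich_inv hu hv.1]
      exact inv_mem hv.2
    · rw [eich_of_not fun h => hu h.1]
      exact one_mem M⟩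

theorem OA.map {u v : V} (h : v ∈ OA M u) {g : OG Q} (hg : g ∈ M) : g.1 v ∈ OA M (g.1 u) :=
  ⟨by simp [h.1], eich_conj g u v ▸ mul_mem (mul_mem hg h.2) (inv_mem hg)⟩

theorem OA.map_fix {u v : V} (h : v ∈ OA M u) {g : OG Q} (hg : g ∈ M) (e : g.1 u = u) :
    g.1 v ∈ OA M u := e ▸ OA.map h hg

/-- The nilpotent part of a long root element. -/
def wN (Q : QuadraticForm F V) (y b : V) : V →ₗ[F] V :=
  (Q.polarBilin b).smulRight y - (Q.polarBilin y).smulRight b

theorem wN_apply (y b w : V) : wN Q y b w = polar Q b w • y - polar Q y w • b := rfl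

theorem eich_wN {y b : V} (hy : Q y = 0) (hb : Q b = 0) (h : polar Q y b = 0) (w : V) :
    (eich Q y b).1 w = w + wN Q y b w := by
  rw [eich_apply hy h, hb, zero_mul, sub_zero, wN_apply, add_sub_assoc]

theorem polar_wN (y b d w : V) : polar Q d (wN Q y b w) =
    polar Q b w * polar Q y d - polar Q y w * polar Q b d := by
  rw [wN_apply, polar_sub_right, p_smul_right, p_smul_right, polar_comm Q d, polar_comm Q d]

theorem wN_alt (y b d w : V) : polar Q d (wN Q y b w) = - polar Q w (wN Q y b d) := by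
  simp only [polar_wN]
  ring

theorem wN_self (y b w : V) : polar Q w (wN Q y b w) = 0 := by
  simp only [polar_wN]
  ring

theorem Q_wN {y b : V} (hy : Q y = 0) (hb : Q b = 0) (h : polar Q y b = 0) (w : V) :
    Q (wN Q y b w) = 0 := by
  simp [wN_apply, q_sub, q_smul, hy, hb, h]

theorem wN_eq_zero {y b d w u : V} (h : polar Q d (wN Q y b w) ≠ 0)
    (h1 : polar Q u (wN Q y b d) = 0) (h2 : polar Q u (wN Q y b w) = 0) : wN Q y b u = 0 := by
  simp only [polar_wN] at h h1 h2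
  rw [wN_apply, (mul_eq_zero.mp (show _ * polar Q b u = 0 by
    linear_combination polar Q b d * h2 - polar Q b w * h1)).resolve_left h,
    (mul_eq_zero.mp (show _ * polar Q y u = 0 by
    linear_combination polar Q y d * h2 - polar Q y w * h1)).resolve_left h]
  simp

variable [Finite F] [Fintype ι] [FiniteDimensional F V]

/-- The hypotheses of the subfield argument for `Ω`. -/
structure SubO (M : Subgroup (OG Q)) (K : Subfield F) (e : Basis ι F V) (ζ : F) : Prop where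
  hn : 11 ≤ Fintype.card ι
  nd : ND Q
  z0 : ζ ≠ 0
  rat : ∀ w ∈ Rt K e, ζ * Q w ∈ K
  mem : ∀ g ∈ commutator (OG Q), g.1 ∈ NR K e → g ∈ M

namespace SubO
variable (h : SubO M K e ζ) {a b c d x y : V}
include h

omit [Finite F] in
theorem five : 5 ≤ finrank F V := by
  rw [finrank_eq_card_basis e]
  have := h.hn
  omega

omit [Finite F] in
theorem ratp (ha : a ∈ Rt K e) (hb : b ∈ Rt K e) : ζ * polar Q a b ∈ K := by
  convert sub_mem (sub_mem (h.rat _ (add_mem ha hb)) (h.rat a ha)) (h.rat b hb) using 1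
  rw [q_add]
  ring

theorem eich_nr (ha : a ∈ Rt K e) (hb : b ∈ Rt K e) : (eich Q a (ζ • b)).1 ∈ NR K e :=
  nr_of' fun w hw => by
    by_cases h1 : Q a = 0 ∧ polar Q a (ζ • b) = 0
    swap
    · simpa [eich_of_not h1] using hw
    rw [eich_apply h1.1 h1.2, smul_smul, mul_comm _ ζ, p_smul_left, q_smul]
    refine sub_mem (add_mem hw (smul_mem_Rt (sub_mem (h.ratp hb hw) ?_) ha))
      (smul_mem_Rt (h.ratp ha hw) hb)
    convert mul_mem (h.rat b hb) (h.ratp ha hw) using 1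
    ring

theorem eich_mem (ha : a ∈ Rt K e) (hb : b ∈ Rt K e) : eich Q a (ζ • b) ∈ M :=
  h.mem _ (h.nd.eich_mem_commutator (good_of_five_le h.five) _ _) (h.eich_nr ha hb)

theorem subG : SubG Q.polarBilin (fun x => Q x = 0) (OA M) K e ζ where
  hn := h.hn
  symm x y := polar_comm Q x y
  invol _ := rfl
  nd := h.nd
  z0 := h.z0
  sK _ := id
  rat _ ha _ hb := h.ratp ha hb
  iso x hx := by simp [hx]
  smul x c hx := by simp [q_smul, hx]
  add x y h1 h2 h3 := by rw [q_add, h1, h2, show polar Q x y = 0 from h3]; simp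
  ex U hU h3 := by
    have : Finite V := Module.finite_of_finite F
    obtain ⟨p, hp⟩ := (Algebra.linearMap K F).exists_leftInverse_of_injective
      (LinearMap.ker_eq_bot.mpr Subtype.val_injective)
    obtain ⟨x, hx, hx0, h1⟩ := exists_sing_mem
      (p.compQuadraticMap ((ζ • Q).restrictScalars (S := K))) U h3
    have h2 := LinearMap.congr_fun hp ⟨_, h.rat x (hU hx)⟩
    exact ⟨x, hx, hx0, (mul_eq_zero.mp (congrArg Subtype.val (h2.symm.trans h1))).resolve_left h.z0⟩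
  half c hc z hz h1 h2 := by
    replace h2 : polar Q c z ≠ 0 := h2
    refine ⟨Q z / polar Q c z, by
      simpa [mul_div_mul_left _ _ h.z0] using div_mem (h.rat z hz) (h.ratp hc hz), ?_⟩
    rw [q_sub, q_smul, h1, p_smul_right, polar_comm Q z]
    field_simp
    ring
  orth _ _ h := h.1
  self x c hx := ⟨by simp [hx], by rw [eich_smul_self hx]; exact one_mem M⟩
  grow x y u b hu hb hy h1 h2 := by
    have := sub_mem (OA.map_fix hy hb.2 (eich_apply_of_orth hu hb.1 h1 h2)) hy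
    rw [eich_apply hu hb.1] at this
    exact ⟨Q b, by convert this using 1; simp only [polarBilin_apply_apply]; abel⟩
  mem x hx v hv _ h2 := ⟨by simp [show polar Q x v = 0 from h2], h.eich_mem hx hv⟩

theorem subL {r : ℕ} (hr : r.Prime) (hq : Nat.card F = Nat.card K ^ r)
    (hc : ¬ commutator (OG Q) ≤ M) : SubL Q.polarBilin (fun x => Q x = 0) (OA M) K e ζ :=
  h.subG.subL hr hq fun H => by
    obtain ⟨x, hx, f, hf, h1, h2, h3⟩ := h.subG.exists_pair
    replace h3 : polar Q x f ≠ 0 := h3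
    have key : ∀ x ∈ Rt K e, x ≠ 0 → Q x = 0 → OP M x := fun x hx h0 h1 =>
      ⟨h1, fun v hv => ⟨hv, fun c => (H x hx h0 h1 (c • v) (by simp [hv])).2⟩⟩
    exact hc (om_le_of_pair h.nd h.five (key x hx (by rintro rfl; simp at h3) h1)
      (key f hf (by rintro rfl; simp at h3) h2) h3)

theorem exists_not {r : ℕ} (hr : r.Prime) (hq : Nat.card F = Nat.card K ^ r) :
    ∃ g ∈ commutator (OG Q), g.1 ∉ NR K e := by
  obtain ⟨s, hs⟩ := exists_not_mem_subfield hr hq
  have G := h.subG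
  obtain ⟨x, hx, h1, -, -, -, h2⟩ := G.third (zero_mem _) (zero_mem _) (zero_mem _)
  obtain ⟨w, hw, -, h3, -, -, h4⟩ := G.third hx hx hx
  obtain ⟨v, hv, h5, -, h6⟩ := G.dual2 hx hx hw fun e => h4 (Submodule.mem_sup_left e)
  simp only [polarBilin_apply_apply] at h3 h5 h6
  have hx0 : x ≠ 0 := by simpa using h2
  have h9 : polar Q x (s • ζ • v) = 0 := by simp [polar_symm_zero h5]
  refine ⟨_, h.nd.eich_mem_commutator (good_of_five_le h.five) x (s • ζ • v),
    fun ⟨c, hc, h7⟩ => hs ?_⟩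
  have h8 : c ∈ K := mem_of_smul_mem hx hx0 (by simpa [eich_apply_left h1 h9] using (h7 x).mp hx)
  have h10 := sub_mem ((h7 w).mp hw) (smul_mem_Rt h8 hw)
  rw [eich_apply h1 h9, p_smul_left, h6, h3] at h10
  simp only [mul_one, mul_zero, sub_zero, zero_smul, smul_add, add_sub_cancel_left] at h10
  rw [smul_smul] at h10
  simpa [hc] using div_mem (mem_of_smul_mem hx hx0 h10) h8

/-- A hyperbolic pair orthogonal to a given singular vector. -/
theorem hyp (ha : a ∈ Rt K e) : ∃ c ∈ Rt K e, ∃ d ∈ Rt K e, Q c = 0 ∧ Q d = 0 ∧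
    polar Q a c = 0 ∧ polar Q a d = 0 ∧ polar Q c d ≠ 0 := by
  have G := h.subG
  obtain ⟨c, hc, h1, h2, -, -, h3⟩ := G.third ha ha ha
  obtain ⟨d, hd, h4, -, h5⟩ := G.dual2 ha ha hc fun e => h3 (Submodule.mem_sup_left e)
  simp only [polarBilin_apply_apply] at h2 h4 h5
  have h6 : polar Q c d ≠ 0 := fun e => by simp [polar_symm_zero e] at h5
  obtain ⟨k, hk, h7⟩ := G.half c hc d hd h1 h6
  exact ⟨c, hc, _, sub_mem hd (smul_mem_Rt hk hc), h1, h7, h2, by simp [h2, polar_symm_zero h4],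
    by simpa [h1] using h6⟩

variable {r : ℕ} (hr : r.Prime) (hq : Nat.card F = Nat.card K ^ r) (hc : ¬ commutator (OG Q) ≤ M)
include hr hq hc

/-- A long root element of `M` fixing a rational singular vector is rational. -/
theorem line (hy : Q y = 0) (hb : Q b = 0) (h1 : b ∈ OA M y) (hx : x ∈ Rt K e) (hx0 : x ≠ 0)
    (h2 : Q x = 0) (h3 : wN Q y b x = 0) {w : V} (hw : w ∈ Rt K e) : wN Q y b w ∈ Rt K e := by
  have L := h.subL hr hq hc
  have G := h.subG
  have loc : ∀ x ∈ Rt K e, x ≠ 0 → Q x = 0 → wN Q y b x = 0 → ∀ d ∈ Rt K e, ∀ w ∈ Rt K e,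
      polar Q x d = 0 → polar Q x w = 0 → ζ * polar Q d (wN Q y b w) ∈ K :=
    fun x hx hx0 h2 h3 d hd w hw h4 h5 => by
      have h6 := G.mem x hx w hw h2 h5
      have := sub_mem (OA.map_fix h6 h1.2 (by rw [eich_wN hy hb h1.1, h3, add_zero])) h6
      rw [eich_wN hy hb h1.1, add_sub_cancel_left, map_smul] at this
      simpa using L.vec hx hx0 h2 this hd h4
  refine mem_Rt_of fun φ hφ => ?_
  obtain ⟨d, hd, rfl⟩ := G.dual' hφ
  rw [polarBilin_apply_apply, p_smul_left]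
  by_cases h4 : ∃ d₀ ∈ Rt K e, ∃ w₀ ∈ Rt K e, polar Q x d₀ = 0 ∧ polar Q x w₀ = 0 ∧
      polar Q d₀ (wN Q y b w₀) ≠ 0
  · obtain ⟨d₀, hd₀, w₀, hw₀, h5, h6, h7⟩ := h4
    have e1 := G.rk le_rfl hx
    rw [finrank_Rt] at e1
    set U := Rt K e ⊓ kr K (Q.polarBilin x)
    have k : ∀ U' ≤ U, ∀ z ∈ U, finrank K U' ≤
        finrank K ↥(U' ⊓ kr K (Q.polarBilin (wN Q y b z))) + 1 := fun U' hU' z hz => by
      have := Submodule.finiteDimensional_of_le (hU'.trans inf_le_left)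
      refine finrank_le_kr U' (c := ζ⁻¹) fun u hu =>
        ⟨_, loc x hx hx0 h2 h3 u (hU' hu).1 z hz.1 (hU' hu).2 hz.2, ?_⟩
      simp [polar_comm Q u, mul_right_comm, h.z0]
    have e2 := k U le_rfl d₀ ⟨hd₀, h5⟩
    have e3 := k _ (inf_le_left (b := kr K (Q.polarBilin (wN Q y b d₀)))) w₀ ⟨hw₀, h6⟩
    set U' := U ⊓ kr K (Q.polarBilin (wN Q y b d₀)) ⊓ kr K (Q.polarBilin (wN Q y b w₀))
    have hU : U' ≤ Rt K e := inf_le_left.trans (inf_le_left.trans inf_le_left)
    have e4 := G.rk hU hd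
    have e5 := G.rk (U := U' ⊓ kr K (Q.polarBilin d)) (inf_le_left.trans hU) hw
    obtain ⟨u, ⟨⟨h8, h9⟩, h10⟩, h11, h12⟩ := G.ex (U' ⊓ kr K (Q.polarBilin d) ⊓
      kr K (Q.polarBilin w)) (inf_le_left.trans (inf_le_left.trans hU)) (by
        have := h.hn
        omega)
    exact loc u (hU h8) h11 h12 (wN_eq_zero h7 (polar_symm_zero h8.1.2) (polar_symm_zero h8.2))
      d hd w hw (polar_symm_zero h9) (polar_symm_zero h10)
  push Not at h4
  obtain ⟨f, hf, -, h5⟩ := G.dual bot_le hx (by simpa using hx0)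
  rw [polarBilin_apply_apply, p_smul_left, polar_comm] at h5
  have h6 : ∀ d ∈ Rt K e, polar Q x (d - (ζ * polar Q x d) • f) = 0 := fun d _ => by
    rw [polar_sub_right, p_smul_right, mul_right_comm, h5, one_mul, sub_self]
  have h7 : ∀ d ∈ Rt K e, ∀ w ∈ Rt K e, polar Q d (wN Q y b w) =
      ζ * (polar Q x w * polar Q d (wN Q y b f) - polar Q x d * polar Q w (wN Q y b f)) :=
    fun d hd w hw => by
      have := h4 _ (sub_mem hd (smul_mem_Rt (h.ratp hx hd) hf)) _
        (sub_mem hw (smul_mem_Rt (h.ratp hx hw) hf)) (h6 d hd) (h6 w hw)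
      simp only [map_sub, map_smul, polar_sub_left, polar_sub_right, p_smul_left, p_smul_right,
        wN_self, wN_alt y b f w] at this
      linear_combination this
  have h8 : polar Q x ((-ζ) • wN Q y b f) = 0 := by rw [p_smul_right, wN_alt, h3]; simp
  have h9 : eich Q x ((-ζ) • wN Q y b f) = eich Q y b := Subtype.ext
    (LinearEquiv.toLinearMap_injective (ext_Rt (K := K) (e := e) fun w hw => by
      simp only [LinearEquiv.coe_coe]
      rw [eich_wN h2 (by simp [q_smul, Q_wN hy hb h1.1]) h8, eich_wN hy hb h1.1, add_right_inj,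
        ← sub_eq_zero]
      refine h.nd _ fun v => LinearMap.congr_fun (ext_Rt (K := K) (e := e) (f := Q.polarBilin _)
        (g := 0) fun d hd => ?_) v
      rw [polarBilin_apply_apply, polar_comm, polar_sub_right, h7 d hd w hw, wN_apply x]
      simp only [polar_sub_right, p_smul_right, p_smul_left, polar_comm Q _ w, polar_comm Q d x,
        LinearMap.zero_apply]
      ring))
  have h10 : ∀ d ∈ Rt K e, ζ * polar Q d (wN Q y b f) ∈ K := fun d hd => by
    simpa [wN_self] using neg_mem (L.vec hx hx0 h2 (z := (-ζ) • wN Q y b f) ⟨h8, h9 ▸ h1.2⟩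
      (sub_mem hd (smul_mem_Rt (h.ratp hx hd) hf)) (h6 d hd))
  convert sub_mem (mul_mem (h.ratp hx hw) (h10 d hd)) (mul_mem (h.ratp hx hd) (h10 w hw)) using 1
  rw [h7 d hd w hw]
  ring

theorem nr_of_line {g : OG Q} (hg : g ∈ M) (ha : a ∈ Rt K e) (hb : b ∈ Rt K e) (ha0 : a ≠ 0)
    (h0 : b ∉ K ∙ a) (h1 : Q a = 0) (h2 : Q b = 0) (h3 : polar Q a b = 0) (hx : x ∈ Rt K e)
    (hx0 : x ≠ 0) (h4 : Q x = 0) (h5 : wN Q (g.1 a) (g.1 (ζ • b)) x = 0) : g.1 ∈ NR K e := by
  have G := h.subG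
  have base : ∀ a ∈ Rt K e, ∀ b ∈ Rt K e, Q a = 0 → Q b = 0 → polar Q a b = 0 → ∀ x ∈ Rt K e,
      x ≠ 0 → Q x = 0 → wN Q (g.1 a) (g.1 (ζ • b)) x = 0 → ∀ w ∈ Rt K e,
      wN Q (g.1 a) (g.1 (ζ • b)) w ∈ Rt K e := fun a ha b hb h1 h2 h3 x hx hx0 h4 h5 w hw =>
    h.line hr hq hc (by simp [h1]) (by simp [q_smul, h2]) (OA.map (G.mem a ha b hb h1 h3) hg) hx
      hx0 h4 h5 hw
  have step : ∀ a ∈ Rt K e, ∀ b ∈ Rt K e, a ≠ 0 → b ∉ K ∙ a → Q a = 0 → Q b = 0 →
      polar Q a b = 0 → (∀ w ∈ Rt K e, wN Q (g.1 a) (g.1 (ζ • b)) w ∈ Rt K e) →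
      ∀ c ∈ Rt K e, ∀ d ∈ Rt K e, Q c = 0 → Q d = 0 → polar Q c d = 0 → polar Q a c = 0 →
      polar Q b c = 0 → polar Q a d = 0 → polar Q b d = 0 → ∀ w ∈ Rt K e,
      wN Q (g.1 c) (g.1 (ζ • d)) w ∈ Rt K e :=
    fun a ha b hb ha0 h0 h1 h2 h3 h4 c hc d hd h5 h6 h7 h8 h9 h10 h11 => by
      obtain ⟨w, hw, h12⟩ : ∃ w ∈ Rt K e, wN Q (g.1 a) (g.1 (ζ • b)) w ≠ 0 := by
        by_contra h12
        push Not at h12
        obtain ⟨d, -, h13, -, h14⟩ := G.dual2 ha ha hb (by simpa using h0)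
        simp only [polarBilin_apply_apply, p_smul_left] at h13 h14
        have := LinearMap.congr_fun (ext_Rt (K := K) (e := e) (g := 0) h12) (g.1 d)
        rw [wN_apply, OG.map_polar, OG.map_polar, p_smul_left, polar_comm Q b, h14,
          polar_symm_zero h13] at this
        exact ha0 (by simpa using this)
      exact base c hc d hd h5 h6 h7 _ (h4 w hw) h12 (Q_wN (by simp [h1]) (by simp [q_smul, h2])
        (by simp [h3]) w) (by simp [wN_apply, polar_symm_zero h8, polar_symm_zero h9,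
          polar_symm_zero h10, polar_symm_zero h11])
  have all : ∀ c ∈ Rt K e, ∀ d ∈ Rt K e, Q c = 0 → Q d = 0 → polar Q c d = 0 → ∀ w ∈ Rt K e,
      wN Q (g.1 c) (g.1 (ζ • d)) w ∈ Rt K e := fun c hc d hd h6 h7 h8 => by
    have e1 := G.rk le_rfl ha
    have e2 := G.rk (U := Rt K e ⊓ kr K (Q.polarBilin a)) inf_le_left hb
    have e3 := G.rk (U := Rt K e ⊓ kr K (Q.polarBilin a) ⊓ kr K (Q.polarBilin b))
      (inf_le_left.trans inf_le_left) hc
    have e4 := G.rk (U := Rt K e ⊓ kr K (Q.polarBilin a) ⊓ kr K (Q.polarBilin b) ⊓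
      kr K (Q.polarBilin c)) (inf_le_left.trans (inf_le_left.trans inf_le_left)) hd
    set U := Rt K e ⊓ kr K (Q.polarBilin a) ⊓ kr K (Q.polarBilin b) ⊓ kr K (Q.polarBilin c) ⊓
      kr K (Q.polarBilin d)
    have hU : U ≤ Rt K e := inf_le_left.trans (inf_le_left.trans (inf_le_left.trans inf_le_left))
    have := h.hn
    rw [finrank_Rt] at e1
    obtain ⟨u, hu, hu0, h9⟩ := G.ex U hU (by omega)
    obtain ⟨v, ⟨hv, h10⟩, h11, h12⟩ := G.avoid (U := U ⊓ kr K (Q.polarBilin u)) (Y := K ∙ u)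
      (inf_le_left.trans hU) (by
        have := G.rk hU (hU hu)
        have := finrank_span_one_le (F := K) u
        omega)
    exact step u (hU hu) v (hU hv) hu0 h12 h9 h11 h10 (step a ha b hb ha0 h0 h1 h2 h3
      (base a ha b hb h1 h2 h3 x hx hx0 h4 h5) u (hU hu) v (hU hv) h9 h11 h10 hu.1.1.1.2 hu.1.1.2
      hv.1.1.1.2 hv.1.1.2) c hc d hd h6 h7 h8 (polar_symm_zero hu.1.2) (polar_symm_zero hv.1.2)
      (polar_symm_zero hu.2) (polar_symm_zero hv.2)
  refine G.nr_of_iso (OG.map_polar g) fun a ha h1 => ?_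
  by_cases ha0 : a = 0
  · exact ⟨1, one_ne_zero, by simp [ha0]⟩
  obtain ⟨c, hc, d, hd, h6, h7, h8, h9, h10⟩ := h.hyp ha
  obtain ⟨w, hw, h11⟩ : ∃ w ∈ Rt K e, polar Q (g.1 a) w ≠ 0 := by
    by_contra h11
    push Not at h11
    exact ha0 ((OG.apply_eq_zero g).mp (h.nd _ fun v => LinearMap.congr_fun
      (ext_Rt (K := K) (e := e) (f := Q.polarBilin _) (g := 0) h11) v))
  refine ⟨-(ζ ^ 2 * polar Q (g.1 a) w * polar Q c d), by simp [h.z0, h10, h11], ?_⟩
  convert all a ha d hd h1 h7 h9 _ (all a ha c hc h1 h6 h8 w hw) using 1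
  simp [wN_apply, h1, h8, polar_symm_zero h9, polar_comm Q d c]
  ring_nf

theorem odd (h2 : (2 : F) ≠ 0) {g : OG Q} (hg : g ∈ M) : g.1 ∈ NR K e := by
  have L := h.subL hr hq hc
  have G := h.subG
  obtain ⟨a, ha, h1, -, -, -, ha0⟩ := G.third (zero_mem _) (zero_mem _) (zero_mem _)
  replace ha0 : a ≠ 0 := by simpa using ha0
  obtain ⟨b, hb, h3, h4, -, -, h5⟩ := G.third ha ha ha
  replace h4 : polar Q a b = 0 := h4
  suffices H : ∃ x ∈ Rt K e, x ≠ 0 ∧ Q x = 0 ∧ wN Q (g.1 a) (g.1 (ζ • b)) x = 0 by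
    obtain ⟨x, hx, hx0, h6, h7⟩ := H
    exact h.nr_of_line hr hq hc hg ha hb ha0 (by simpa using h5) h1 h3 h4 hx hx0 h6 h7
  have hm := (OA.map (G.mem a ha b hb h1 h4) hg).2
  have e1 : Q (g.1 a) = 0 := by simp [h1]
  have e2 : Q (g.1 (ζ • b)) = 0 := by simp [q_smul, h3]
  have e3 : polar Q (g.1 a) (g.1 (ζ • b)) = 0 := by simp [h4]
  generalize g.1 a = y at *
  generalize g.1 (ζ • b) = z at *
  have key : ∀ u ∈ Rt K e, u ≠ 0 → Q u = 0 → ∀ v ∈ Rt K e, polar Q u v = 0 →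
      ζ * polar Q v (wN Q y z u) ∈ K2 K := fun u hu hu0 h6 v hv h7 => by
    refine G.iso_ind (P := fun v => ζ * polar Q v (wN Q y z u) ∈ K2 K) (fun x y h h' => by
      simpa only [polar_sub_left, mul_sub] using sub_mem h h') hu (fun v hv h8 h7 => ?_) hv h7
    replace h7 : polar Q u v = 0 := h7
    by_cases h9 : v ∈ K ∙ u
    · obtain ⟨k, rfl⟩ := Submodule.mem_span_singleton.mp h9
      simp [Subfield.smul_def, wN_self]
    refine dk (K := K) (M := M.map (OG Q).subtype) h2 (N := wN Q u (ζ • v)) (N' := wN Q y z)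
      (by simp [wN_apply, h6, h7, h8, polar_symm_zero h7, q_smul])
      (by simp [wN_apply, e1, e2, e3, polar_symm_zero e3]) (fun x => ?_) (fun x => ?_)
      (fun t ⟨_, ⟨k, hk, rfl⟩, hk'⟩ => L.lev u hu hu0 h6 v hv h9 t ⟨by simp [h7], ?_⟩)
      ⟨_, ⟨_, h.eich_mem hu hv, rfl⟩, eich_wN h6 (by simp [q_smul, h8]) (by simp [h7])⟩
      ⟨_, ⟨_, hm, rfl⟩, eich_wN e1 e2 e3⟩
    · simp only [wN_apply, map_sub, map_smul, polar_sub_right, p_smul_left, p_smul_right,
        polar_comm Q y, polar_comm Q z]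
      module
    · simp only [wN_apply, map_sub, map_smul, polar_sub_right, p_smul_left, p_smul_right,
        polar_comm Q y, polar_comm Q z]
      module
    · refine (OG.ext fun x => ?_ : eich Q u ((t * ζ) • v) = k) ▸ hk
      rw [eich_wN h6 (by simp [q_smul, h8]) (by simp [h7]), show k.1 x = _ from hk' x]
      simp only [wN_apply, p_smul_left, LinearMap.smul_apply]
      module
  by_contra h6
  push Not at h6
  obtain ⟨d, hd, h7, h8⟩ := G.exists_ne (y := wN Q y z a) ha ha0 fun e => by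
    obtain ⟨t, ht⟩ := Submodule.mem_span_singleton.mp e
    have h9 : wN Q y z (wN Q y z a) = 0 := by simp [wN_apply, e1, e2, e3, polar_symm_zero e3]
    rw [← ht, map_smul, ← ht, smul_smul] at h9
    exact h6 a ha ha0 h1 (by rw [← ht, mul_self_eq_zero.mp ((smul_eq_zero.mp h9).resolve_right ha0),
      zero_smul])
  obtain ⟨v, hv, h9, h10, h11⟩ : ∃ v ∈ Rt K e, Q v = 0 ∧ polar Q a v = 0 ∧
      polar Q v (wN Q y z a) ≠ 0 := by
    by_contra h9
    push Not at h9
    exact h8 (G.iso_ind (P := fun v => polar Q v (wN Q y z a) = 0)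
      (fun x y h h' => by simp [h, h']) ha h9 hd h7)
  have hv0 : v ≠ 0 := by rintro rfl; simp at h11
  have k : ∀ U ≤ Rt K e, ∀ u ∈ Rt K e, u ≠ 0 → Q u = 0 → U ≤ kr K (Q.polarBilin u) → finrank K U ≤
      finrank K ↥(U ⊓ kr K (ζ • Q.polarBilin (wN Q y z u))) + 2 := fun U hU u hu hu0 h12 h13 => by
    have := Submodule.finiteDimensional_of_le hU
    exact finrank_le_kr2 U fun w hw => by
      simpa [polar_comm Q w] using key u hu hu0 h12 w (hU hw) (h13 hw)
  have f1 := G.rk le_rfl ha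
  have f2 := G.rk (U := Rt K e ⊓ kr K (Q.polarBilin a)) inf_le_left hv
  set U := Rt K e ⊓ kr K (Q.polarBilin a) ⊓ kr K (Q.polarBilin v)
  have hU : U ≤ Rt K e := inf_le_left.trans inf_le_left
  have f3 := k U hU a ha ha0 h1 (inf_le_left.trans inf_le_right)
  have f4 := k (U ⊓ kr K (ζ • Q.polarBilin (wN Q y z a))) (inf_le_left.trans hU) v hv hv0 h9
    (inf_le_left.trans inf_le_right)
  obtain ⟨x, ⟨⟨hx, h12⟩, h13⟩, hx0, h14⟩ := G.ex (U ⊓ kr K (ζ • Q.polarBilin (wN Q y z a)) ⊓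
    kr K (ζ • Q.polarBilin (wN Q y z v))) (inf_le_left.trans (inf_le_left.trans hU)) (by
      have := h.hn
      rw [finrank_Rt] at f1
      omega)
  exact h6 x (hU hx) hx0 h14 (wN_eq_zero h11 (polar_symm_zero (by simpa [h.z0] using h13))
    (polar_symm_zero (by simpa [h.z0] using h12)))

omit hr hq hc in
theorem invol_mov (h2 : (2 : F) = 0) {z : OG Q} (hz : z * z = 1) (hz' : z.1 ∈ NR K e)
    (h1 : ∀ v ∈ Rt K e, Q (z.1 v - v) = 0 → z.1 v - v ∈ K ∙ a) :
    ∃ w ∈ mov z, (w = 0 ∨ Q w ≠ 0) ∧ mov z ≤ Submodule.span F {a, w} := by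
  have key : ∀ w, (∀ v ∈ Rt K e, z.1 v - v ∈ Submodule.span F {a, w}) →
      mov z ≤ Submodule.span F {a, w} := fun w hw x hx => by
    obtain ⟨v, rfl⟩ := mem_mov.mp hx
    rw [← e.sum_repr v, map_sum, ← Finset.sum_sub_distrib]
    exact sum_mem fun i _ => by
      simpa only [map_smul, smul_sub] using Submodule.smul_mem _ _ (hw _ (basis_mem_Rt i))
  have h3 : ∀ w, ∀ x ∈ K ∙ a, x ∈ Submodule.span F {a, w} := fun w x hx => by
    obtain ⟨k, rfl⟩ := Submodule.mem_span_singleton.mp hx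
    exact Submodule.smul_mem _ (k : F) (Submodule.subset_span (by simp))
  by_cases h4 : ∀ v ∈ Rt K e, Q (z.1 v - v) = 0
  · exact ⟨0, zero_mem _, .inl rfl, key 0 fun v hv => h3 _ _ (h1 v hv (h4 v hv))⟩
  push Not at h4
  obtain ⟨w, hw, h4⟩ := h4
  have h5 := fun v (hv : v ∈ Rt K e) =>
    h.rat _ (sub_mem (nr_invol h2 hz' (congrArg Subtype.val hz) hv) hv)
  refine ⟨_, sub_mem_mov z w, .inr h4, key _ fun v hv => ?_⟩
  have : CharP F 2 := CharTwo.of_one_ne_zero_of_two_eq_zero one_ne_zero h2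
  obtain ⟨k, hk⟩ := (FiniteField.isSquare_of_char_two (ringChar.eq F 2))
    (Q (z.1 v - v) / Q (z.1 w - w))
  have h6 : k ∈ K := mem_of_sq_mem h2 (by
    simpa [pow_two, ← hk, mul_div_mul_left _ _ h.z0] using div_mem (h5 v hv) (h5 w hw))
  have h7 : z.1 (v - k • w) - (v - k • w) = (z.1 v - v) - k • (z.1 w - w) := by
    simp only [map_sub, map_smul]
    module
  have h8 := h3 (z.1 w - w) _ (h1 _ (sub_mem hv (smul_mem_Rt h6 hw)) (by
    rw [h7, q_sub, q_smul, p_smul_right, pow_two, ← hk, polar_sub_left, ← OG.map_polar z v,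
      invol_fix h2 (congrArg Subtype.val hz), div_mul_cancel₀ _ h4]
    linear_combination Q (z.1 v - v) * h2))
  simpa only [h7, sub_add_cancel] using add_mem h8 (Submodule.smul_mem _ k
    (Submodule.subset_span (show z.1 w - w ∈ _ by simp)))

omit hr hq hc in
theorem invol_sing (h2 : (2 : F) = 0) {z : OG Q} (hz : z * z = 1) (hz' : z.1 ∈ NR K e)
    (h1 : z ≠ 1) (h3 : z ∈ commutator (OG Q)) :
    ∃ v ∈ Rt K e, z.1 v - v ≠ 0 ∧ Q (z.1 v - v) = 0 := by
  by_contra h4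
  push Not at h4
  obtain ⟨w, -, -, h5⟩ := h.invol_mov (a := 0) h2 hz hz' fun v hv h5 => by
    simpa using of_not_not fun e => h4 v hv e h5
  have h6 := (h.nd.mem_commutator_iff (good_of_five_le h.five) z).mp h3
  have h7 : rk z ≤ 1 := (Submodule.finrank_mono h5).trans (by
    rw [Submodule.span_insert_zero]; exact finrank_span_one_le w)
  have h8 : mov z = ⊥ := Submodule.finrank_eq_zero.mp (show rk z = 0 by
    obtain ⟨m, hm⟩ := h6.1
    omega)
  exact h1 (OG.ext fun v => sub_eq_zero.mp (by simpa [h8] using sub_mem_mov z v))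

theorem even (h2 : (2 : F) = 0) (hM : M ≤ commutator (OG Q)) :
    M ≤ (NR K e).comap (OG Q).subtype := by
  have G := h.subG
  have : Finite V := Module.finite_of_finite F
  have : Finite (V ≃ₗ[F] V) := Finite.of_injective _ DFunLike.coe_injective
  obtain ⟨a, ha, h1, -, -, -, ha0⟩ := G.third (zero_mem _) (zero_mem _) (zero_mem _)
  replace ha0 : a ≠ 0 := by simpa using ha0
  obtain ⟨c, hc₁, d, hd, h3, h4, h5, h6, h7⟩ := h.hyp ha
  have h0 : ∀ x : V, x + x = 0 := fun x => by rw [← two_smul F, h2, zero_smul]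
  have e1 : polar Q a (ζ • c) = 0 := by simp [h5]
  have e2 : polar Q a (ζ • (c + d)) = 0 := by simp [h5, h6]
  have iso : ∀ {z : OG Q}, z * z = 1 → ∀ v w, polar Q (z.1 v - v) (z.1 w - w) = 0 :=
    fun {z} hz v w => by
      rw [polar_sub_left, ← OG.map_polar z v, invol_fix h2 (congrArg Subtype.val hz), sub_self]
  refine se2 (fun g hg z hz hz' hz1 hz2 h3 => ?_) (h.eich_mem ha hc₁)
    (h.eich_mem ha (add_mem hc₁ hd)) (h.eich_nr ha hc₁) (h.eich_nr ha (add_mem hc₁ hd))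
    (fun e => ?_) (fun e => ?_) ?_ ?_ fun g _ e => ?_
  · have h4 : g⁻¹ * z * g * (g⁻¹ * z * g) = 1 := by
      rw [show g⁻¹ * z * g * (g⁻¹ * z * g) = g⁻¹ * (z * z) * g by group, hz2]
      simp
    obtain ⟨v, hv, h5, h6⟩ := h.invol_sing h2 hz2 hz' hz1 (hM hz)
    obtain ⟨w, hw, h7, h8⟩ := h.invol_sing h2 h4 h3 (fun e => hz1 (by
      simpa [mul_eq_one_iff_eq_inv', inv_mul_eq_iff_eq_mul] using e))
      (hM (mul_mem (mul_mem (inv_mem hg) hz) hg))
    have hx : z.1 v - v ∈ Rt K e := sub_mem (nr_invol h2 hz' (congrArg Subtype.val hz2) hv) hv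
    have hr' : ∀ w ∈ Rt K e, (g⁻¹ * z * g).1 w - w ∈ Rt K e := fun w hw =>
      sub_mem (nr_invol h2 h3 (congrArg Subtype.val h4) hw) hw
    have e3 : ∀ w, g.1 ((g⁻¹ * z * g).1 w - w) = z.1 (g.1 w) - g.1 w := fun w => by simp
    by_cases h9 : ∀ u ∈ Rt K e, Q ((g⁻¹ * z * g).1 u - u) = 0 →
        (g⁻¹ * z * g).1 u - u ∈ K ∙ ((g⁻¹ * z * g).1 w - w)
    · obtain ⟨u, hu, h10, h11⟩ := h.invol_mov h2 h4 h3 h9
      obtain ⟨u, rfl⟩ := mem_mov.mp hu
      obtain ⟨s, t, h12⟩ := Submodule.mem_span_pair.mp (h11 (sub_mem_mov _ (g⁻¹.1 v)))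
      have h13 := congrArg g.1 h12
      rw [e3, OG.apply_inv_self] at h13
      have h14 : t • ((g⁻¹ * z * g).1 u - u) = 0 := by
        rcases h10 with h10 | h10
        · rw [h10, smul_zero]
        · rw [← h13, OG.map_Q, q_add, q_smul, q_smul, h8, p_smul_left, p_smul_right, iso h4] at h6
          rw [eq_zero_of_pow_eq_zero (n := 2) ((mul_eq_zero.mp (show t ^ 2 * _ = 0 by
            linear_combination h6)).resolve_right h10), zero_smul]
      rw [h14, add_zero, map_smul] at h13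
      obtain ⟨b, hb, h15, h16, -, -, h17⟩ := G.third (hr' w hw) (hr' w hw) (hr' w hw)
      replace h16 : polar Q _ b = 0 := h16
      refine h.nr_of_line hr hq hc hg (hr' w hw) hb h7 (by simpa using h17) h8 h15 h16 hx h5 h6 ?_
      simp only [← h13, wN_apply, p_smul_right, OG.map_polar, p_smul_left, polar_symm_zero h16,
        iso h4]
      simp
    · push Not at h9
      obtain ⟨u, hu, h10, h11⟩ := h9
      refine h.nr_of_line hr hq hc hg (hr' w hw) (hr' u hu) h7 h11 h8 h10 (iso h4 _ _) hx h5 h6 ?_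
      simp only [wN_apply, map_smul, e3, p_smul_left, iso hz2]
      simp
  · simpa [eich_apply h1 e1, h6, h7, h.z0, ha0] using congrArg (fun g : OG Q => g.1 d) e
  · simpa [-smul_add, eich_apply h1 e2, h6, h7, h4, h.z0, ha0] using
      congrArg (fun g : OG Q => g.1 d) e
  · rw [eich_mul h1 e1 e1, h0, eich_zero_right]
  · rw [eich_mul h1 e2 e2, h0, eich_zero_right]
  · rw [eich_conj] at e
    obtain ⟨w, hw⟩ := h.nd.exists_polar_one ha0
    have f1 : Q (g.1 a) = 0 := by simp [h1]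
    have f2 : Q (g.1 (ζ • c)) = 0 := by simp [q_smul, h3]
    have f3 : polar Q (g.1 a) (g.1 (ζ • c)) = 0 := by simp [h5]
    have := Q_wN f1 f2 f3 w
    rw [← add_sub_cancel_left w (wN Q _ _ w), ← eich_wN f1 f2 f3, e, eich_apply h1 e2, hw,
      add_sub_assoc, add_sub_cancel_left, q_sub, one_smul, p_smul_left Q _ a, e2, q_smul, h1, q_smul,
      q_add, h3, h4] at this
    simp [h.z0, h7] at this

end SubO

theorem max_om_subfield [DecidableEq ι] {Q : QuadraticForm F (ι → F)} (hQ : ND Q)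
    (hn : 11 ≤ Fintype.card ι) {r : ℕ} (hr : r.Prime) (hq : Nat.card F = Nat.card K ^ r)
    (P : GL ι F) (hζ : ζ ≠ 0) (hP : Geo.IsQuadFormRationalStructure (fun v => ζ * Q v) K P) :
    Geo.IsMaximalIn (Geo.omegaGL ⇑Q) (Geo.subfieldSubgroup K P ⊓ Geo.omegaGL ⇑Q) := by
  have key : ∀ w, (P : Matrix _ _ F).mulVec (fun i =>
      ((Pi.basisFun F _).map (glEquiv _ F P)).repr w i) = w := (glEquiv _ F P).apply_symm_apply
  have hh : ∀ M : Subgroup (OG Q), (∀ g ∈ commutator (OG Q),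
      g.1 ∈ NR K ((Pi.basisFun F _).map (glEquiv _ F P)) → g ∈ M) →
      SubO M K ((Pi.basisFun F _).map (glEquiv _ F P)) ζ := fun M h =>
    ⟨hn, hQ, hζ, fun w hw => by simpa only [key] using hP _ (mem_Rt.mp hw), h⟩
  refine isMaximalIn_Om _ (mem_subfield_iff P) ((hh ⊤ fun _ _ _ => trivial).exists_not hr hq)
    fun M h5 hM ⟨g, hg, hg'⟩ => by_contra fun hc => hg' ?_
  by_cases h9 : (2 : F) = 0
  · exact (hh M h5).even hr hq hc h9 hM hg
  · exact (hh M h5).odd hr hq hc h9 hg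

end Cfsg.Agent.Max
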