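import Mathlib
import Cfsg.Agent.Max.OFrame
import Cfsg.Agent.Max.ODec2
import Cfsg.Agent.Max.SubOm

/-!
# Orthogonal decompositions of orthogonal spaces into planes
-/

set_option autoImplicit false

namespace Cfsg.Agent.Max

open Module QuadraticMap Orth

variable {F V : Type*} [Field F] [AddCommGroup V] [Module F V] {Q : QuadraticForm F V}
  {M : Subgroup (OG Q)}

theorem OA.fix_map {u v : V} (h : v ∈ OA M u) {g : OG Q} (hg : g ∈ M) (e : g.1 u = u) :
    g.1 v ∈ OA M u := ⟨by rw [← e, OG.map_polar, h.1], by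
  rw [← e, ← eich_conj]
  exact mul_mem (mul_mem hg h.2) (inv_mem hg)⟩

theorem sq_card_le [Finite F] {K : Subfield F} (h : K ≠ ⊤) : Nat.card K ^ 2 ≤ Nat.card F := by
  obtain ⟨x, hx⟩ : ∃ x, x ∉ K := by
    by_contra hc
    push Not at hc
    exact h (eq_top_iff.mpr fun x _ => hc x)
  rw [pow_two, ← Nat.card_prod]
  refine Nat.card_le_card_of_injective (fun p => (p.1 : F) + p.2 * x) fun p r e => ?_
  have h2 : p.2 = r.2 := by_contra fun h2 => hx (by
    have h3 : ((p.2 - r.2 : K) : F) ≠ 0 := by simpa [sub_eq_zero] using h2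
    rw [show x = (r.1 - p.1 : K) / (p.2 - r.2 : K) by
      rw [eq_div_iff h3]
      push_cast
      linear_combination e]
    exact div_mem (SetLike.coe_mem _) (SetLike.coe_mem _))
  exact Prod.ext (Subtype.ext (by simpa [h2] using e)) h2

variable [FiniteDimensional F V] [Finite F] {κ : Type*} [Fintype κ] {D : κ → Submodule F V}
  {π : κ → V →ₗ[F] V}

/-- An orthogonal decomposition into planes. -/
structure OTw (M : Subgroup (OG Q)) (D : κ → Submodule F V) (π : κ → V →ₗ[F] V) : Prop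
    extends ODc M D π 2 where
  ht : 5 ≤ Fintype.card κ
  typ : ((∀ i, ∀ x ∈ D i, Q x = 0 → x = 0) ∧ Nat.card F ≠ 3) ∨ 7 ≤ Nat.card F

namespace OTw
variable (h : OTw M D π) {i j l m : κ} {a b c d u v x y z : V}
include h

omit [Finite F] in
theorem span2 (hx : x ∈ D i) (hy : y ∈ D i) (h0 : x ≠ 0) (h1 : y ∉ F ∙ x) (hz : z ∈ D i) :
    ∃ s t : F, s • x + t • y = z := by
  rw [← Submodule.mem_span_pair, Submodule.eq_of_le_of_finrank_eq
    (Submodule.span_le.mpr (by simp [Set.insert_subset_iff, hx, hy]) : _ ≤ D i)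
    ((finrank_span_pair_eq (linearIndependent_pair_of_notMem h0 h1)).trans (h.rk i).symm)]
  exact hz

omit [Finite F] in
theorem exists_ind (h0 : x ≠ 0) (i : κ) : ∃ y ∈ D i, y ∉ F ∙ x :=
  exists_not_mem_of_finrank_lt (by rw [finrank_span_singleton h0, h.rk]; omega)

omit [Finite F] in
theorem disc (hx : x ∈ D i) (hy : y ∈ D i) (h0 : x ≠ 0) (h1 : y ∉ F ∙ x) :
    polar Q y x ^ 2 ≠ 4 * Q y * Q x := fun e => by
  have h2 := h.nds i (polar Q y x • x - (2 * Q x) • y) ((D i).sub_mem ((D i).smul_mem _ hx)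
    ((D i).smul_mem _ hy)) fun w hw => by
      obtain ⟨s, t, rfl⟩ := h.span2 hx hy h0 h1 hw
      simp only [polar_sub_left, polar_add_right, p_smul_left, p_smul_right, p_self,
        polar_comm Q x y]
      linear_combination t * e
  have h3 : 2 * Q x = 0 := by_contra fun h3 => h1 (by
    rw [← Submodule.smul_mem_iff _ h3, ← sub_eq_zero.mp h2]
    exact Submodule.smul_mem _ _ (Submodule.mem_span_singleton_self x))
  rw [h3, zero_smul, sub_zero, smul_eq_zero, or_iff_left h0] at h2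
  refine h0 (h.nds i x hx fun w hw => ?_)
  obtain ⟨s, t, rfl⟩ := h.span2 hx hy h0 h1 hw
  simp [p_self, h3, polar_comm Q x y, h2]

theorem good_d (ha : a ∈ D i) (h0 : Q a ≠ 0) : ∃ d ∈ D i, Q d ≠ 0 ∧ d ∉ F ∙ a ∧
    polar Q d a ≠ 0 ∧ polar Q d a ^ 2 ≠ 2 * Q d * Q a := by
  classical
  have := Fintype.ofFinite F
  have a0 := ne_zero_of_Q_ne_zero h0
  obtain ⟨y, hy, hy'⟩ := h.exists_ind a0 i
  have h1 := h.disc ha hy a0 hy'
  have h2 : ∀ c : F, y + c • a ∉ F ∙ a := fun c e => hy' ((Submodule.add_mem_iff_left _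
    (Submodule.smul_mem _ _ (Submodule.mem_span_singleton_self a))).mp e)
  have h3 : ∀ c : F, y + c • a ∈ D i := fun c => add_mem hy ((D i).smul_mem _ ha)
  suffices ∃ c : F, Q (y + c • a) ≠ 0 ∧ 0 * c ^ 2 + 2 * Q a * c + polar Q y a ≠ 0 ∧
      2 * Q a ^ 2 * c ^ 2 + 2 * polar Q y a * Q a * c + (polar Q y a ^ 2 - 2 * Q y * Q a) ≠ 0 by
    obtain ⟨c, h4, h5, h6⟩ := this
    refine ⟨_, h3 c, h4, h2 c, fun e => h5 ?_, fun e => h6 ?_⟩ <;>
      simp only [q_add, q_smul, polar_add_left, p_smul_left, p_smul_right, p_self] at e <;>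
      linear_combination e
  have h4 : (2 : F) = 0 → polar Q y a ≠ 0 := fun e e' => h1 (by
    rw [e']
    linear_combination -2 * Q y * Q a * e)
  have h5 : (0 : F) ≠ 0 ∨ 2 * Q a ≠ 0 ∨ polar Q y a ≠ 0 := by
    by_cases e : (2 : F) = 0 <;> simp [e, h0, h4]
  have h6 : 2 * Q a ^ 2 ≠ 0 ∨ 2 * polar Q y a * Q a ≠ 0 ∨ polar Q y a ^ 2 - 2 * Q y * Q a ≠ 0 := by
    by_cases e : (2 : F) = 0 <;> simp [e, h0, h4]
  rcases h.typ with ⟨h7, h8⟩ | h7
  · have h9 : ∀ c : F, Q (y + c • a) ≠ 0 := fun c e => h2 c (h7 i _ (h3 c) e ▸ zero_mem _)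
    by_cases e : (2 : F) = 0
    · exact ⟨0, h9 0, by simpa using h4 e, by simpa [e] using h4 e⟩
    obtain ⟨c, -, hc⟩ := exists_avoid (S := Finset.univ) (Finset.univ : Finset (Fin 2))
      ![0, 2 * Q a ^ 2] ![2 * Q a, 2 * polar Q y a * Q a]
      ![polar Q y a, polar Q y a ^ 2 - 2 * Q y * Q a] ![1, 2]
      (by simpa [Fin.forall_fin_two] using ⟨by simpa using h5, by simpa using h6⟩)
      (by simp [Fin.forall_fin_two]) (by
        obtain ⟨r, hr⟩ := odd_card_of_two_ne_zero e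
        have := Fintype.one_lt_card (α := F)
        rw [Nat.card_eq_fintype_card] at h8
        simp
        omega)
    exact ⟨c, h9 c, hc 0 (by simp), hc 1 (by simp)⟩
  · obtain ⟨c, -, hc⟩ := exists_avoid (S := Finset.univ) (Finset.univ : Finset (Fin 3))
      ![0, 2 * Q a ^ 2, Q a] ![2 * Q a, 2 * polar Q y a * Q a, polar Q y a]
      ![polar Q y a, polar Q y a ^ 2 - 2 * Q y * Q a, Q y] ![1, 2, 2]
      (by simpa [Fin.forall_fin_succ] using ⟨by simpa using h5, by simpa using h6, by simp [h0]⟩)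
      (by simp [Fin.forall_fin_succ]) (by
        rw [Nat.card_eq_fintype_card] at h7
        simp [Fin.sum_univ_succ]
        omega)
    refine ⟨c, fun e => hc 2 (by simp) ?_, hc 0 (by simp), hc 1 (by simp)⟩
    simp only [q_add, q_smul, p_smul_right] at e
    simp
    linear_combination e

theorem pair (ha : a ∈ D i) (h0 : Q a ≠ 0) :
    ∃ b ∈ D i, Q b = Q a ∧ b ∉ F ∙ a ∧ polar Q a b ≠ 0 := by
  obtain ⟨d, hd, h1, h2, h3, h4⟩ := h.good_d ha h0
  refine ⟨(refl Q d).1 a, refl_mem_sub (.inl hd) ha, OG.map_Q _ _, fun e => h2 ?_, fun e => h4 ?_⟩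
  · rwa [refl_apply, Submodule.sub_mem_iff_right _ (Submodule.mem_span_singleton_self a),
      Submodule.smul_mem_iff _ (mul_ne_zero (inv_ne_zero h1) h3)] at e
  · rw [refl_apply, polar_sub_right, p_self, p_smul_right, polar_comm Q a d] at e
    field_simp at e
    linear_combination -e

theorem subfield (hz : z ∈ D i) (h0 : Q z ≠ 0) (K : Subfield F)
    (hK : ∀ d ∈ D i, Q d ≠ 0 → polar Q d z ^ 2 / (Q d * Q z) ∈ K) : K = ⊤ := by
  classical
  have := Fintype.ofFinite F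
  by_contra hc
  have h1 := sq_card_le hc
  have z0 := ne_zero_of_Q_ne_zero h0
  obtain ⟨y, hy, hy'⟩ := h.exists_ind z0 i
  have h2 : ∀ c : F, y + c • z ∉ F ∙ z := fun c e => hy' ((Submodule.add_mem_iff_left _
    (Submodule.smul_mem _ _ (Submodule.mem_span_singleton_self z))).mp e)
  have h3 : ∀ c : F, y + c • z ∈ D i := fun c => add_mem hy ((D i).smul_mem _ hz)
  let T : Finset F := (Finset.univ.filter (· ∈ K)).erase 4
  have hT : T.card + 1 = Nat.card K := by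
    rw [Finset.card_erase_add_one (by simpa using ofNat_mem K 4), Nat.card_eq_fintype_card,
      Fintype.card_subtype]
  have key : ∀ c : F, Q (y + c • z) ≠ 0 → ¬ ∀ v ∈ T, Q z ^ 2 * (4 - v) * c ^ 2 +
      polar Q y z * Q z * (4 - v) * c + (polar Q y z ^ 2 - v * Q y * Q z) ≠ 0 := fun c h4 h5 => by
    have h6 := h.disc hz (h3 c) z0 (h2 c)
    refine h5 (polar Q (y + c • z) z ^ 2 / (Q (y + c • z) * Q z)) (Finset.mem_erase.mpr
      ⟨fun e => h6 ?_, Finset.mem_filter.mpr ⟨Finset.mem_univ _, hK _ (h3 c) h4⟩⟩) ?_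
    · rwa [div_eq_iff (mul_ne_zero h4 h0), ← mul_assoc] at e
    · obtain ⟨v, hv⟩ : ∃ v, v = polar Q (y + c • z) z ^ 2 / (Q (y + c • z) * Q z) := ⟨_, rfl⟩
      rw [← hv]
      rw [eq_div_iff (mul_ne_zero h4 h0)] at hv
      simp only [q_add, q_smul, polar_add_left, p_smul_left, p_smul_right, p_self] at hv
      linear_combination -hv
  have h4 : ∀ v ∈ T, Q z ^ 2 * (4 - v) ≠ 0 := fun v hv =>
    mul_ne_zero (pow_ne_zero 2 h0) (sub_ne_zero.mpr (Finset.mem_erase.mp hv).1.symm)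
  rw [Nat.card_eq_fintype_card (α := F)] at h1
  rcases h.typ with ⟨h7, -⟩ | h7
  · obtain ⟨c, -, hc⟩ := exists_avoid (S := Finset.univ) T _ _ _ (fun _ => 2)
      (fun v hv => Or.inl (h4 v hv)) (by simp) (by simp; nlinarith)
    exact key c (fun e => h2 c (h7 i _ (h3 c) e ▸ zero_mem _)) hc
  · obtain ⟨c, -, hc⟩ := exists_avoid (S := Finset.univ) T.insertNone
      (fun o => o.elim (Q z) fun v => Q z ^ 2 * (4 - v))
      (fun o => o.elim (polar Q y z) fun v => polar Q y z * Q z * (4 - v))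
      (fun o => o.elim (Q y) fun v => polar Q y z ^ 2 - v * Q y * Q z) (fun _ => 2)
      (by
        rintro (_ | v) hv
        · exact Or.inl h0
        · exact Or.inl (h4 v (by simpa using hv))) (by simp) (by
        rw [Nat.card_eq_fintype_card] at h7
        simp
        rcases le_or_gt (Nat.card K) 3 with e | e
        · omega
        · nlinarith)
    refine key c (fun e => hc none (by simp) ?_) fun v hv => hc (some v) (by simpa using hv)
    simp only [q_add, q_smul, p_smul_right] at e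
    simp
    linear_combination e

theorem exists_d (hy : π j y ≠ 0) : ∃ d ∈ D j, Q d ≠ 0 ∧ polar Q d y ≠ 0 := by
  obtain ⟨a, ha, h0⟩ := (h.nds j).exists_nonsing (by rw [h.rk]; omega)
  obtain ⟨b, hb, h1, h2, -⟩ := h.pair ha h0
  by_contra hc
  push Not at hc
  refine hy (h.nds j _ (h.dec.mem _ _) fun w hw => ?_)
  obtain ⟨s, t, rfl⟩ := h.span2 ha hb (ne_zero_of_Q_ne_zero h0) h2 hw
  rw [polar_comm, polar_add_left, p_smul_left, p_smul_left, h.proj ha, h.proj hb, hc a ha h0,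
    hc b hb (h1 ▸ h0)]
  simp

theorem exists_Q (i : κ) (c : F) : ∃ v ∈ D i, Q v = c :=
  (h.nds i).exists_Q_eq (h.rk i).ge c

omit [Finite F] [FiniteDimensional F V] in
theorem orth_of (hd : d ∈ D j) (hx : π j x = 0) : polar Q d x = 0 := by
  rw [← h.proj hd, hx, polar_zero_right]

omit [Finite F] [FiniteDimensional F V] in
theorem fix_of {w : OG Q} (hw : ∀ l, l ≠ i → l ≠ j → ∀ x ∈ D l, w.1 x = x) (hi : π i x = 0)
    (hj : π j x = 0) : w.1 x = x := by
  conv_lhs => rw [← h.dec.sum x, map_sum]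
  refine (Finset.sum_congr rfl fun l _ => ?_).trans (h.dec.sum x)
  by_cases e : l = i
  · simp [e, hi]
  by_cases e' : l = j
  · simp [e', hj]
  exact hw l e e' _ (h.dec.mem _ _)

omit [Finite F] [FiniteDimensional F V] in
theorem exists_two (i j l : κ) : ∃ m m', m ≠ i ∧ m ≠ j ∧ m ≠ l ∧ m' ≠ i ∧ m' ≠ j ∧ m' ≠ l ∧
    m ≠ m' := by
  classical
  have : 1 < ({i, j, l} : Finset κ)ᶜ.card := by
    have := Finset.card_le_three (a := i) (b := j) (c := l)
    have := h.ht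
    rw [Finset.card_compl]
    omega
  obtain ⟨m, hm, m', hm', e⟩ := Finset.one_lt_card.mp this
  simp only [Finset.mem_compl, Finset.mem_insert, Finset.mem_singleton, not_or] at hm hm'
  exact ⟨m, m', hm.1, hm.2.1, hm.2.2, hm'.1, hm'.2.1, hm'.2.2, e⟩

theorem big (hy : y ∈ OA M x) (hjl : j ≠ l) (xj : π j x = 0) (xl : π l x = 0) (yj : π j y ≠ 0)
    (m : κ) (xm : π m x = 0) : D m ≤ OE M x := by
  have fx : ∀ d ∈ D j, ∀ d', d' ∈ D j ∨ d' ∈ D l → (refl Q d * refl Q d').1 x = x :=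
    fun d hd d' hd' => by
      rw [OG.mul_apply, refl_apply_of_orth (hd'.elim (h.orth_of · xj) (h.orth_of · xl)),
        refl_apply_of_orth (h.orth_of hd xj)]
  have T : ∀ v ∈ OA M x, v ∈ D j → ∀ d ∈ D j, Q d ≠ 0 →
      ((Q d)⁻¹ * polar Q d v) • d ∈ OA M x := fun v hv hv' d hd d0 => by
    obtain ⟨d', hd', e⟩ := h.exists_Q l (Q d)
    have := sub_mem hv (OA.fix_map hv (h.rr2 hd hd' d0 e.symm) (fx d hd d' (.inr hd')))
    rwa [OG.mul_apply, refl_apply_of_orth (h.orth l j hjl.symm _ hd' _ hv'), refl_apply,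
      sub_sub_cancel] at this
  obtain ⟨z, hz, hz', z0⟩ : ∃ z ∈ OA M x, z ∈ D j ∧ π j z ≠ 0 := by
    obtain ⟨d, hd, d0, d1⟩ := h.exists_d yj
    obtain ⟨d', hd', e⟩ := h.exists_Q l (Q d)
    obtain ⟨b, hb, b0, b1, b2⟩ := h.pair hd d0
    have h1 := sub_mem hy (OA.fix_map hy (h.rr2 hd hd' d0 e.symm) (fx d hd d' (.inr hd')))
    rw [OG.mul_apply, refl_apply d', map_sub, map_smul, refl_apply d y,
      refl_apply_of_orth (h.orth j l hjl _ hd _ hd'), sub_sub, sub_sub_cancel] at h1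
    have h2 := sub_mem h1 (OA.fix_map h1 (h.rr2 hb hd (b0 ▸ d0) b0) (fx b hb d (.inl hd)))
    rw [OG.mul_apply, map_add, map_smul, map_smul, refl_apply_self d0,
      refl_apply_of_orth (h.orth j l hjl _ hd _ hd'), map_add, map_smul, map_smul,
      refl_apply_of_orth (h.orth j l hjl _ hb _ hd'), add_sub_add_right_eq_sub, ← smul_sub,
      map_neg, sub_neg_eq_add] at h2
    have h3 : d + (refl Q b).1 d ∈ D j := add_mem hd (refl_mem_sub (.inl hb) hd)
    refine ⟨_, h2, (D j).smul_mem _ h3, ?_⟩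
    rw [map_smul, h.dec.of_mem h3]
    refine smul_ne_zero (mul_ne_zero (inv_ne_zero d0) d1) fun e => b1 ?_
    rw [refl_apply, ← add_sub_assoc, sub_eq_zero] at e
    rw [← Submodule.smul_mem_iff _ (mul_ne_zero (inv_ne_zero (b0 ▸ d0))
      (polar_comm Q d b ▸ b2)), ← e]
    exact add_mem (Submodule.mem_span_singleton_self d) (Submodule.mem_span_singleton_self d)
  obtain ⟨d, hd, d0, d1⟩ := h.exists_d z0
  have h1 : d ∈ OE M x := by
    let B : AddSubgroup F := (OA M x).comap (LinearMap.toSpanSingleton F V d).toAddMonoidHom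
    have hB : ∀ s, s ∈ B ↔ s • d ∈ OA M x := fun s => Iff.rfl
    have h2 := h.subfield hd d0 (Classical.P1Ident.multField B) fun e he e0 s hs => by
      have := T _ (T _ ((hB s).mp hs) ((D j).smul_mem _ hd) e he e0) ((D j).smul_mem _ he) d hd d0
      rw [hB]
      convert this using 2
      rw [p_smul_right, p_smul_right, polar_comm Q d e]
      field_simp
    have h3 := mul_ne_zero (inv_ne_zero d0) d1
    refine ⟨polar_symm_zero (h.orth_of hd xj), fun c => ((hB c).mp ?_).2⟩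
    have := (h2 ▸ Subfield.mem_top (c / ((Q d)⁻¹ * polar Q d z)) :
      _ ∈ Classical.P1Ident.multField B) _ ((hB _).mpr (T z hz hz' d hd d0))
    rwa [div_mul_cancel₀ _ h3] at this
  have h2 : D j ≤ OE M x := fun v hv => by
    obtain ⟨b, hb, b0, b1, b2⟩ := h.pair hd d0
    obtain ⟨d', hd', e⟩ := h.exists_Q l (Q b)
    obtain ⟨s, t, rfl⟩ := h.span2 hd hb (ne_zero_of_Q_ne_zero d0) b1 hv
    refine add_mem (Submodule.smul_mem _ _ h1) (Submodule.smul_mem _ _ (OE.of_refl h1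
      (h.rr2 hb hd' (b0 ▸ d0) e.symm) (fx b hb d' (.inr hd')) ?_ (b0 ▸ d0) (polar_comm Q d b ▸ b2)))
    rw [OG.mul_apply, refl_apply_of_orth (h.orth l j hjl.symm _ hd' _ hd)]
  by_cases e : j = m
  · exact e ▸ h2
  obtain ⟨w, hw, w1, w2⟩ := h.swap le_rfl e
  intro v hv
  obtain ⟨u, hu, rfl⟩ := w1 v hv
  exact OE.map_fix (h2 hu) hw (h.fix_of w2 xj xm)

omit [Finite F] [FiniteDimensional F V] in
theorem oe_of (H : ∀ m, π m x = 0 → D m ≤ OE M x) (hv : ∀ m, π m x ≠ 0 → π m v = 0) :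
    v ∈ OE M x := by
  rw [← h.dec.sum v]
  refine Submodule.sum_mem _ fun m _ => ?_
  by_cases e : π m x = 0
  · exact H m e (h.dec.mem _ _)
  · simp [hv m e]

theorem exists_sing (hjl : j ≠ l) : ∃ u, Q u = 0 ∧ π j u ≠ 0 ∧
    ∀ m, m ≠ j → m ≠ l → π m u = 0 := by
  obtain ⟨a, ha, e⟩ := h.exists_Q j 1
  obtain ⟨b, hb, e'⟩ := h.exists_Q l (-1)
  refine ⟨a + b, by simp [q_add, e, e', h.orth j l hjl a ha b hb], ?_, fun m h1 h2 => by
    simp [h.dec.of_ne h1 ha, h.dec.of_ne h2 hb]⟩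
  simpa [h.dec.of_mem ha, h.dec.of_ne hjl hb] using ne_zero_of_Q_ne_zero (e ▸ one_ne_zero)

theorem big_step (hx : Q x = 0) (hx0 : x ≠ 0) (H : ∀ m, π m x = 0 → D m ≤ OE M x)
    (xj : π j x = 0) (xl : π l x = 0) (hu : Q u = 0) (hu' : ∀ m, m ≠ j → m ≠ l → π m u = 0) :
    u ∈ OE M x ∧ ∀ m, π m u = 0 → D m ≤ OE M u := by
  have h1 : u ∈ OE M x := h.oe_of H fun m hm => hu' m (fun e => hm (e ▸ xj)) fun e => hm (e ▸ xl)
  obtain ⟨i, hi⟩ := h.dec.exists_ne_zero hx0
  obtain ⟨m, -, h2, h3, h4, -⟩ := h.exists_two i j l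
  have h5 := OE.swap hx hu h1
  exact ⟨h1, h.big ⟨h5.1, OE.mem h5⟩ h2.symm (hu' i (fun e => hi (e ▸ xj)) fun e => hi (e ▸ xl))
    (hu' m h3 h4) hi⟩

theorem eng (hx : Q x = 0) (hx0 : x ≠ 0) (hy : y ∈ OA M x) (hjl : j ≠ l) (xj : π j x = 0)
    (xl : π l x = 0) (yj : π j y ≠ 0) : commutator (OG Q) ≤ M := by
  obtain ⟨u, hu, uj, hu'⟩ := h.exists_sing hjl
  obtain ⟨-, h1⟩ := h.big_step hx hx0 (h.big hy hjl xj xl yj) xj xl hu hu'
  obtain ⟨m, m', h2, h3, -, h4, h5, -, h6⟩ := h.exists_two j l l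
  obtain ⟨w, hw, wm, hw'⟩ := h.exists_sing h6
  obtain ⟨h7, h8⟩ := h.big_step hu (fun e => uj (by simp [e])) h1 (hu' m h2 h3) (hu' m' h4 h5) hw hw'
  have h9 : OP M u := ⟨hu, fun v hv => by
    have e1 : v - (π j v + π l v) ∈ OE M u := h.oe_of h1 fun i hi => by
      by_cases e : i = j
      · simp [e, h.dec.idem, h.dec.orth hjl]
      by_cases e' : i = l
      · simp [e', h.dec.idem, h.dec.orth hjl.symm]
      exact absurd (hu' i e e') hi
    obtain ⟨d, hd, -, d1⟩ := h.exists_d wm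
    have := OE.grow (h1 m (hu' m h2 h3) hd) hw (b := π j v + π l v)
      (add_mem (h8 j (hw' j h2.symm h4.symm) (h.dec.mem _ _))
        (h8 l (hw' l h3.symm h5.symm) (h.dec.mem _ _))) (polar_symm_zero h7.1) (by
        have := e1.1
        rwa [polar_sub_right, hv, zero_sub, neg_eq_zero, polar_comm] at this)
    rw [(OE M u).sub_mem_iff_right ((OE M u).smul_mem _ h7), (OE M u).smul_mem_iff
      (polar_comm Q d w ▸ d1)] at this
    simpa using (OE M u).add_mem e1 this⟩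
  obtain ⟨d, hd, d0, d1⟩ := h.exists_d uj
  obtain ⟨d', hd', e⟩ := h.exists_Q m (Q d)
  refine om_le_of_pair h.nd h.hn h9 (h9.map (h.rr2 hd hd' d0 e.symm)) ?_
  rw [OG.mul_apply, refl_apply_of_orth (h.orth_of hd' (hu' m h2 h3)), refl_apply, polar_sub_right,
    p_self, hu, p_smul_right, polar_comm Q u]
  simp [d0, d1]

theorem rr_rr (ha : RR M D a) (hb : RR M D b) (e : Q a = Q b) : refl Q a * refl Q b ∈ M := by
  obtain ⟨h0, i, c, hc, h1, h2⟩ := hb
  simpa [mul_assoc, ← mul_assoc (refl Q c)] using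
    mul_mem (h.rr_mul ha hc (e.trans h1.symm)) (inv_mem h2)

omit h [Finite F] [FiniteDimensional F V] [Fintype κ] in
theorem rr_neg (ha : RR M D a) : RR M D (-a) := by
  simpa only [RR, QuadraticMap.map_neg, refl_neg] using ha

theorem rr_fix {g : OG Q} (hg : g ∈ M) (ha : RR M D a) (H : ∀ x ∈ D m, g.1 x = x) :
    RR M D (g.1 a) := by
  obtain ⟨c, hc, e⟩ := h.exists_Q m (Q a)
  exact h.rr_map hg ha hc e.symm (l := m) (by rwa [H c hc])

theorem eng2 (ha : RR M D a) (hb : RR M D b) (e : Q b = Q a) (h0 : Q (a - b) = 0) (h1 : a ≠ b)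
    (hjl : j ≠ l) (hj : π j b = π j a) (hl : π l b = π l a) (hj' : π j a ≠ 0) :
    commutator (OG Q) ≤ M := by
  have h2 : Q ((Q a)⁻¹ • (a - b)) = 0 := by rw [q_smul, h0, mul_zero]
  have h3 : polar Q ((Q a)⁻¹ • (a - b)) a = 0 := by
    rw [q_sub, e] at h0
    rw [p_smul_left, polar_sub_left, p_self, polar_comm, mul_eq_zero]
    exact .inr (by linear_combination h0)
  refine h.eng h2 (smul_ne_zero (inv_ne_zero ha.1) (sub_ne_zero.mpr h1)) ⟨h3, ?_⟩ hjl
    (by simp [hj]) (by simp [hl]) hj'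
  rw [eich_eq_refl_mul_refl h2 h3 ha.1, smul_inv_smul₀ ha.1, sub_sub_cancel]
  exact h.rr_rr ha hb e.symm

omit [Finite F] [FiniteDimensional F V] in
theorem proj_map {w : OG Q} {s : κ → κ} (hs : Function.Injective s)
    (H : ∀ l, ∀ x ∈ D l, w.1 x ∈ D (s l)) (l : κ) (x : V) : π (s l) (w.1 x) = w.1 (π l x) := by
  conv_lhs => rw [← h.dec.sum x, map_sum, map_sum]
  rw [Finset.sum_eq_single l (fun m _ hm => h.dec.of_ne (hs.ne hm.symm) (H m _ (h.dec.mem _ _)))
    (by simp), h.dec.of_mem (H l _ (h.dec.mem _ _))]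

theorem s1_even (h2 : (2 : F) = 0) (ha : RR M D a) (hil : i ≠ l) (ai : π i a ≠ 0)
    (al : π l a ≠ 0) : commutator (OG Q) ≤ M := by
  classical
  obtain ⟨j, m, hji, hjl, -, hmi, hml, -, hjm⟩ := h.exists_two i l l
  obtain ⟨g, hg, hg'⟩ : ∃ g : OG Q, (∀ x ∈ D i, g.1 x ∈ D j) ∧ g.1 (π i a) ≠ π j a := by
    obtain ⟨g, hg⟩ := h.iso i j
    by_cases e : g.1 (π i a) = π j a
    · obtain ⟨d, hd, d0, d1⟩ := h.exists_d ai
      refine ⟨g * refl Q d, fun x hx => hg _ (refl_mem_sub (.inl hd) hx), fun e' => ?_⟩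
      rw [OG.mul_apply, ← e, g.1.injective.eq_iff, refl_apply, sub_eq_self, h.proj hd] at e'
      exact smul_ne_zero (mul_ne_zero (inv_ne_zero d0) d1) (ne_zero_of_Q_ne_zero d0) e'
    · exact ⟨g, hg, e⟩
  obtain ⟨x, hx, x0⟩ := (h.nds i).exists_nonsing (by rw [h.rk]; omega)
  obtain ⟨y, hy, -, y1, y2⟩ := h.pair hx x0
  have o1 := h.orth i j hji.symm
  have o2 := h.orth j i hji
  have q : ∀ x ∈ D i, Q (x + g.1 x) = 0 := fun x hx => by
    rw [q_add, o1 x hx _ (hg x hx), OG.map_Q, add_zero, ← two_mul, h2, zero_mul]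
  have hu : Q (x + g.1 x) = 0 := q x hx
  have hv : Q ((polar Q x y)⁻¹ • (y + g.1 y)) = 0 := by rw [q_smul, q y hy, mul_zero]
  have huv : polar Q (x + g.1 x) ((polar Q x y)⁻¹ • (y + g.1 y)) = 0 := by
    simp [o1 x hx _ (hg y hy), o2 _ (hg x hx) y hy, ← two_mul, h2]
  set w := eich Q (x + g.1 x) ((polar Q x y)⁻¹ • (y + g.1 y)) with hw
  have w1 : ∀ z ∈ D i, w.1 z = g.1 z ∧ w.1 (g.1 z) = z := fun z hz => by
    obtain ⟨s, t, rfl⟩ := h.span2 hx hy (ne_zero_of_Q_ne_zero x0) y1 hz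
    simp only [hw, map_add, map_smul, eich_apply hu huv, hv, p_smul_left, polar_add_left,
      polar_add_right, p_smul_right, OG.map_polar, p_self, h2, o1 x hx _ (hg x hx), o1 x hx _ (hg y hy), o1 y hy _ (hg x hx),
      o1 y hy _ (hg y hy), o2 _ (hg x hx) x hx, o2 _ (hg x hx) y hy, o2 _ (hg y hy) x hx,
      o2 _ (hg y hy) y hy, polar_comm Q y x, zero_mul, add_zero, zero_add, sub_zero, mul_zero,
      zero_smul, inv_mul_cancel₀ y2, one_smul, smul_inv_smul₀ y2]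
    constructor <;> match_scalars <;> field_simp <;>
      first | ring1 | linear_combination s * h2 | linear_combination (-t) * h2
  have w2 : ∀ l, l ≠ i → l ≠ j → ∀ z ∈ D l, w.1 z = z := fun l h1 h3 z hz =>
    eich_apply_of_orth hu huv
      (by simp [h.orth i l h1.symm x hx z hz, h.orth j l h3.symm _ (hg x hx) z hz])
      (by simp [h.orth i l h1.symm y hy z hz, h.orth j l h3.symm _ (hg y hy) z hz])
  have w3 : ∀ l, ∀ z ∈ D l, w.1 z ∈ D (Equiv.swap i j l) := fun l z hz => by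
    by_cases e : l = i
    · subst e
      rw [Equiv.swap_apply_left, (w1 z hz).1]
      exact hg z hz
    by_cases e' : l = j
    · subst e'
      obtain ⟨z, hz', rfl⟩ := exists_of_map_le hg ((h.rk _).trans (h.rk _).symm) z hz
      rwa [Equiv.swap_apply_right, (w1 z hz').2]
    rwa [Equiv.swap_apply_of_ne_of_ne e e', w2 l e e' z hz]
  have w4 : w ∈ M := h.le _ (h.nd.eich_mem_commutator (good_of_five_le h.hn) _ _)
    (h.dec.permD_of h.rk two_pos fun l => ⟨_, w3 l⟩)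
  have w5 := h.proj_map (Equiv.swap i j).injective w3
  have w6 : ∀ l, l ≠ i → l ≠ j → π l (w.1 a) = π l a := fun l h1 h3 => by
    have := w5 l a
    rwa [Equiv.swap_apply_of_ne_of_ne h1 h3, w2 l h1 h3 _ (h.dec.mem _ _)] at this
  refine h.eng2 ha (h.rr_fix w4 ha (w2 m hmi hjm.symm)) (OG.map_Q _ _) ?_ (fun e => hg' ?_)
    hml.symm (w6 l hil.symm hjl.symm) (w6 m hmi hjm.symm) al
  · rw [hw, eich_apply hu huv, hv, add_sub_assoc, sub_add_cancel_left, QuadraticMap.map_neg, q_sub,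
      q_smul, q_smul, hu, hv, p_smul_left _ _ (x + g.1 x), p_smul_right _ _ (x + g.1 x), huv]
    simp
  · have := w5 i a
    rwa [Equiv.swap_apply_left, ← e, (w1 _ (h.dec.mem _ _)).1, eq_comm] at this

theorem exists_J (h2 : (2 : F) ≠ 0) (hil : i ≠ l) :
    ∃ (δ : F) (J : V →ₗ[F] V) (ρ : F → F → OG Q), δ ≠ 0 ∧ (∀ m, ∀ v ∈ D m, J v ∈ D m) ∧
      (∀ v, J (π i v + π l v) = J v) ∧ (∀ v, J (J v) = -δ • (π i v + π l v)) ∧
      (∀ v, Q (J v) = δ * Q (π i v + π l v)) ∧ (∀ v, polar Q v (J v) = 0) ∧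
      (∀ s c, s ^ 2 + δ * c ^ 2 ≠ 0 → ρ s c ∈ M ∧ ∀ v, (ρ s c).1 v = v - (π i v + π l v) +
        (s ^ 2 + δ * c ^ 2)⁻¹ • ((s ^ 2 - δ * c ^ 2) • (π i v + π l v) + (2 * s * c) • J v)) := by
  obtain ⟨x, hx, x0⟩ := (h.nds i).exists_nonsing (by rw [h.rk]; omega)
  obtain ⟨y, ⟨hy, xy⟩, y0⟩ := ((h.nds i).perp_one h2 hx x0).exists_nonsing (by
    have := finrank_le_inf_ker (D i) (Q.polarBilin x)
    rw [h.rk] at this
    omega)
  replace xy : polar Q x y = 0 := xy
  have y1 : y ∉ F ∙ x := fun e => by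
    obtain ⟨c, rfl⟩ := Submodule.mem_span_singleton.mp e
    rw [p_smul_right, p_self, mul_eq_zero, or_iff_left (mul_ne_zero h2 x0)] at xy
    simp [xy] at y0
  obtain ⟨g, hg⟩ := h.iso i l
  obtain ⟨δ, hδ⟩ : ∃ δ, Q y = δ * Q x := ⟨Q y / Q x, by field_simp⟩
  have hx' := hg x hx
  have hy' := hg y hy
  have qx := OG.map_Q g x
  have qy := (OG.map_Q g y).trans hδ
  have xy' := (OG.map_polar g x y).trans xy
  have y1' : g.1 y ∉ F ∙ g.1 x := fun e => by
    obtain ⟨c, e⟩ := Submodule.mem_span_singleton.mp e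
    exact y1 (Submodule.mem_span_singleton.mpr ⟨c, g.1.injective (by rw [map_smul, e])⟩)
  have x0' : g.1 x ≠ 0 := ne_zero_of_Q_ne_zero (qx ▸ x0)
  generalize g.1 x = x' at *
  generalize g.1 y = y' at *
  have dec : ∀ v, ∃ (a b a' b' : F) (n : V), π i v = a • x + b • y ∧ π l v = a' • x' + b' • y' ∧
      v = a • x + b • y + (a' • x' + b' • y') + n ∧ polar Q x n = 0 ∧ polar Q y n = 0 ∧
      polar Q x' n = 0 ∧ polar Q y' n = 0 := fun v => by
    obtain ⟨a, b, e⟩ := h.span2 hx hy (ne_zero_of_Q_ne_zero x0) y1 (h.dec.mem i v)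
    obtain ⟨a', b', e'⟩ := h.span2 hx' hy' x0' y1' (h.dec.mem l v)
    have n1 : π i (v - (π i v + π l v)) = 0 := by simp [h.dec.idem, h.dec.orth hil]
    have n2 : π l (v - (π i v + π l v)) = 0 := by simp [h.dec.idem, h.dec.orth hil.symm]
    exact ⟨a, b, a', b', v - (π i v + π l v), e.symm, e'.symm, by simp [e, e'], h.orth_of hx n1,
      h.orth_of hy n1, h.orth_of hx' n2, h.orth_of hy' n2⟩
  have o1 := h.orth i l hil x hx x' hx'
  have o2 := h.orth i l hil x hx y' hy'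
  have o3 := h.orth i l hil y hy x' hx'
  have o4 := h.orth i l hil y hy y' hy'
  let J : V →ₗ[F] V := (2 * Q x)⁻¹ • ((Q.polarBilin x).smulRight y - (Q.polarBilin y).smulRight x +
    ((Q.polarBilin x').smulRight y' - (Q.polarBilin y').smulRight x'))
  have hJ : ∀ v, J v = (2 * Q x)⁻¹ • (polar Q x v • y - polar Q y v • x +
    (polar Q x' v • y' - polar Q y' v • x')) := fun v => rfl
  have hJ' : ∀ (a b a' b' : F) (n : V), polar Q x n = 0 → polar Q y n = 0 → polar Q x' n = 0 →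
      polar Q y' n = 0 → J (a • x + b • y + (a' • x' + b' • y') + n) =
        (-δ * b) • x + a • y + ((-δ * b') • x' + a' • y') := fun a b a' b' n h1 h3 h4 h5 => by
    simp only [hJ, polar_add_right, p_smul_right, p_self, h1, h3, h4, h5, o1, o2, o3, o4, xy, xy',
      polar_comm Q y x, polar_comm Q y' x', polar_comm Q x' x, polar_comm Q x' y,
      polar_comm Q y' x, polar_comm Q y' y, qx, qy, hδ]
    match_scalars <;> field_simp <;> ring
  refine ⟨δ, J, fun s c => refl Q (s • x + c • y) * refl Q (s • x' + c • y') *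
    (refl Q x * refl Q x'), left_ne_zero_of_mul (hδ ▸ y0), fun m v hv => ?_, fun v => ?_,
    fun v => ?_, fun v => ?_, fun v => ?_, fun s c hsc => ⟨?_, fun v => ?_⟩⟩
  · by_cases e : m = i
    · subst e
      rw [hJ, h.orth l m hil.symm x' hx' v hv, h.orth l m hil.symm y' hy' v hv]
      simpa using Submodule.smul_mem _ _ (sub_mem (Submodule.smul_mem _ _ hy)
        (Submodule.smul_mem _ _ hx))
    by_cases e' : m = l
    · subst e'
      rw [hJ, h.orth i m hil x hx v hv, h.orth i m hil y hy v hv]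
      simpa using Submodule.smul_mem _ _ (sub_mem (Submodule.smul_mem _ _ hy')
        (Submodule.smul_mem _ _ hx'))
    simp [hJ, h.orth i m (Ne.symm e) x hx v hv, h.orth i m (Ne.symm e) y hy v hv,
      h.orth l m (Ne.symm e') x' hx' v hv, h.orth l m (Ne.symm e') y' hy' v hv]
  · obtain ⟨a, b, a', b', n, e1, e2, rfl, h1, h3, h4, h5⟩ := dec v
    rw [e1, e2, hJ' _ _ _ _ _ h1 h3 h4 h5]
    simpa using hJ' a b a' b' 0 (by simp) (by simp) (by simp) (by simp)
  · obtain ⟨a, b, a', b', n, e1, e2, rfl, h1, h3, h4, h5⟩ := dec v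
    have := hJ' (-δ * b) a (-δ * b') a' 0 (by simp) (by simp) (by simp) (by simp)
    rw [add_zero] at this
    rw [e1, e2, hJ' _ _ _ _ _ h1 h3 h4 h5, this]
    module
  · obtain ⟨a, b, a', b', n, e1, e2, rfl, h1, h3, h4, h5⟩ := dec v
    rw [e1, e2, hJ' _ _ _ _ _ h1 h3 h4 h5]
    simp only [q_add, q_smul, polar_add_left, polar_add_right, p_smul_left, p_smul_right, o1, o2,
      o3, o4, xy, xy', qx, qy, hδ]
    ring
  · obtain ⟨a, b, a', b', n, e1, e2, rfl, h1, h3, h4, h5⟩ := dec v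
    rw [hJ' _ _ _ _ _ h1 h3 h4 h5]
    simp only [polar_add_left, polar_add_right, p_smul_left, p_smul_right, p_self, o1, o2, o3, o4,
      xy, xy', polar_comm Q y x, polar_comm Q y' x', polar_comm Q x' x, polar_comm Q x' y,
      polar_comm Q y' x, polar_comm Q y' y, qx, qy, hδ, polar_comm Q n, h1, h3, h4, h5]
    ring
  · refine mul_mem (h.rr2 (add_mem (Submodule.smul_mem _ _ hx) (Submodule.smul_mem _ _ hy))
      (add_mem (Submodule.smul_mem _ _ hx') (Submodule.smul_mem _ _ hy')) ?_ ?_)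
      (h.rr2 hx hx' x0 qx.symm) <;>
      simp only [q_add, q_smul, p_smul_left, p_smul_right, xy, xy', qx, qy, hδ]
    exact fun e => mul_ne_zero hsc x0 (by linear_combination e)
  · obtain ⟨a, b, a', b', n, e1, e2, rfl, h1, h3, h4, h5⟩ := dec v
    rw [e1, e2, hJ' _ _ _ _ _ h1 h3 h4 h5]
    have q1 : Q (s • x + c • y) = (s ^ 2 + δ * c ^ 2) * Q x := by
      simp only [q_add, q_smul, p_smul_left, p_smul_right, xy, hδ]
      ring
    have q2 : Q (s • x' + c • y') = (s ^ 2 + δ * c ^ 2) * Q x := by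
      simp only [q_add, q_smul, p_smul_left, p_smul_right, xy', qx, qy]
      ring
    simp only [OG.mul_apply, refl_apply, q1, q2, polar_add_left, polar_add_right, polar_sub_right,
      p_smul_left, p_smul_right, p_self, o1, o2, o3, o4, xy, xy', polar_comm Q y x,
      polar_comm Q y' x', polar_comm Q x' x, polar_comm Q x' y, polar_comm Q y' x,
      polar_comm Q y' y, qx, qy, hδ, h1, h3, h4, h5]
    match_scalars <;> field_simp <;> ring

omit [Finite F] [FiniteDimensional F V] in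
theorem q_two (hil : i ≠ l) (v : V) : polar Q (π i v + π l v) (v - (π i v + π l v)) = 0 := by
  rw [polar_add_left, h.orth_of (h.dec.mem i v), h.orth_of (h.dec.mem l v), add_zero] <;>
    simp [h.dec.idem, h.dec.orth hil, h.dec.orth hil.symm]

/-- The alternative provided by a pair of blocks. -/
theorem full (h2 : (2 : F) ≠ 0) (H : ¬ commutator (OG Q) ≤ M) (ha : RR M D a) (hil : i ≠ l)
    (ai : π i a ≠ 0) (hji : j ≠ i) (hjl : j ≠ l) (aj : π j a ≠ 0) :
    ∃ (δ : F) (J : V →ₗ[F] V), δ ≠ 0 ∧ (∃ t : F, t ≠ 0 ∧ 1 + δ * t ^ 2 ≠ 0 ∧ δ * t ^ 2 ≠ 1) ∧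
      (∀ m, ∀ v ∈ D m, J v ∈ D m) ∧ (∀ v, J (J v) = -δ • (π i v + π l v)) ∧ (∀ v, Q (J v) = δ * Q (π i v + π l v)) ∧
      (∀ v, polar Q v (J v) = 0) ∧ Q (π i a + π l a) ≠ 0 ∧ Q (a - (π i a + π l a)) ≠ 0 ∧
      polar Q (J (π i a + π l a)) (a - (π i a + π l a)) = 0 ∧ ∀ b c : V,
        (∃ x y s : F, b = x • (π i a + π l a) + y • J (π i a + π l a) + s • (a - (π i a + π l a))) →
        (∃ x y s : F, c = x • (π i a + π l a) + y • J (π i a + π l a) + s • (a - (π i a + π l a))) →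
        Q b ≠ 0 → Q b = Q c → refl Q b * refl Q c ∈ M := by
  obtain ⟨δ, J, ρ, δ0, J1, J2, J3, J4, J5, hρ⟩ := h.exists_J h2 hil
  have pp : ∀ v, π i (π i v + π l v) + π l (π i v + π l v) = π i v + π l v := fun v => by
    simp [h.dec.idem, h.dec.orth hil, h.dec.orth hil.symm]
  have pJ : ∀ m v, π m (J v) = J (π m v) := fun m v => by
    conv_lhs => rw [← h.dec.sum v, map_sum, map_sum]
    rw [Finset.sum_eq_single m (fun k _ hk => h.dec.of_ne hk.symm (J1 k _ (h.dec.mem _ _)))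
      (by simp), h.dec.of_mem (J1 m _ (h.dec.mem _ _))]
  have pJ' : ∀ v, π i (J v) + π l (J v) = J v := fun v => by rw [pJ, pJ, ← map_add, J2]
  have ρm : ∀ s c, s ^ 2 + δ * c ^ 2 ≠ 0 → ∀ v ∈ D j, (ρ s c).1 v = v := fun s c hs v hv => by
    rw [(hρ s c hs).2, ← J2, h.dec.of_ne hji.symm hv, h.dec.of_ne hjl.symm hv]
    simp
  have e01 : (0 : F) ^ 2 + δ * 1 ^ 2 ≠ 0 := by simpa
  have wn := h.q_two hil a
  have hp := pp a
  have hn : π i (a - (π i a + π l a)) = 0 ∧ π l (a - (π i a + π l a)) = 0 := by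
    simp [h.dec.idem, h.dec.orth hil, h.dec.orth hil.symm]
  have wj : ∀ m, m ≠ i → m ≠ l → π m (π i a + π l a) = 0 := fun m h1 h3 => by
    simp [h.dec.orth h1, h.dec.orth h3]
  have wi : π i (π i a + π l a) = π i a := by simp [h.dec.idem, h.dec.orth hil]
  have wl : π l (π i a + π l a) = π l a := by simp [h.dec.idem, h.dec.orth hil.symm]
  have h3 : (ρ 0 1).1 a = a - (π i a + π l a) - (π i a + π l a) := by
    rw [(hρ 0 1 e01).2]
    simp [smul_smul, δ0, sub_eq_add_neg, add_comm]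
  have h4 := h.rr_fix (hρ 0 1 e01).1 ha (ρm 0 1 e01)
  have h5 := OG.map_Q (ρ 0 1) a
  rw [h3] at h4 h5
  have hvv : a = π i a + π l a + (a - (π i a + π l a)) := by simp
  generalize π i a + π l a = w at *
  generalize a - w = n at *
  have Jn : J n = 0 := by rw [← J2, hn.1, hn.2, add_zero, map_zero]
  have nj : π j n ≠ 0 := by rwa [hvv, map_add, wj j hji hjl, zero_add] at aj
  have w0 : Q w ≠ 0 := fun e => by
    obtain ⟨m, -, h6, h7, h8, -⟩ := h.exists_two i l j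
    refine H (h.eng2 ha h4 h5 ?_ (fun e => ai ?_) h8.symm (by simp [hvv, wj, hji, hjl])
      (by simp [hvv, wj, h6, h7]) aj)
    · rw [show a - (n - w) = (2 : F) • w by rw [hvv]; module, q_smul, e, mul_zero]
    · have : (2 : F) • w = 0 := by linear_combination (norm := module) e - hvv
      rw [← wi, (smul_eq_zero.mp this).resolve_left h2, map_zero]
  have n0 : Q n ≠ 0 := fun e => by
    refine H (h.eng2 ha (rr_neg h4) (by rwa [QuadraticMap.map_neg]) ?_ (fun e => nj ?_) hil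
      (by simp [hn, wi]) (by simp [hn, wl]) ai)
    · rw [show a - -(n - w) = (2 : F) • n by rw [hvv]; module, q_smul, e, mul_zero]
    · have : (2 : F) • n = 0 := by linear_combination (norm := module) e - hvv
      rw [(smul_eq_zero.mp this).resolve_left h2, map_zero]
  have o2 : polar Q (J w) n = 0 := by
    have := J5 (w + n)
    rwa [map_add, Jn, add_zero, polar_add_left, J5, zero_add, polar_comm] at this
  have qw : Q (J w) = δ * Q w := by rw [J4, hp]
  obtain ⟨x, hx, x0⟩ := (h.nds i).exists_nonsing (by rw [h.rk]; omega)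
  have px : π i x + π l x = x := by rw [h.dec.of_mem hx, h.dec.of_ne hil.symm hx, add_zero]
  have qx : ∀ s c, Q (s • x + c • J x) = (s ^ 2 + δ * c ^ 2) * Q x := fun s c => by
    simp only [q_add, q_smul, p_smul_left, p_smul_right, J5, J4, px]
    ring
  have sp : ∀ d ∈ D i, ∃ s c : F, s • x + c • J x = d := fun d hd =>
    h.span2 hx (J1 i x hx) (ne_zero_of_Q_ne_zero x0) (fun e => by
      obtain ⟨t, e⟩ := Submodule.mem_span_singleton.mp e
      have h6 := J5 x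
      have h7 := J4 x
      rw [← e, p_smul_right, p_self, mul_eq_zero, or_iff_left (mul_ne_zero h2 x0)] at h6
      rw [← e, h6, zero_smul, map_zero, px] at h7
      exact mul_ne_zero δ0 x0 h7.symm) hd
  have px' : ∀ s c : F, polar Q (s • x + c • J x) x = 2 * s * Q x := fun s c => by
    rw [polar_add_left, p_smul_left, p_smul_left, p_self, polar_comm, J5]
    ring
  obtain ⟨t, t0, t1, t2⟩ : ∃ t : F, t ≠ 0 ∧ 1 + δ * t ^ 2 ≠ 0 ∧ δ * t ^ 2 ≠ 1 := by
    obtain ⟨d, hd, d0, d1, d2, d3⟩ := h.good_d hx x0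
    obtain ⟨s, c, rfl⟩ := sp d hd
    rw [px'] at d2 d3
    rw [qx] at d0 d3
    have s0 : s ≠ 0 := fun e => d2 (by simp [e])
    refine ⟨c / s, div_ne_zero (fun e => d1 ?_) s0, fun e => left_ne_zero_of_mul d0 ?_,
      fun e => d3 ?_⟩
    · simp [e, Submodule.smul_mem]
    · field_simp at e
      linear_combination e
    · field_simp at e
      linear_combination -2 * Q x ^ 2 * e
  refine ⟨δ, J, δ0, ⟨t, t0, t1, t2⟩, J1, J3, J4, J5, w0, n0, o2, fun b c hb hc b0 e => ?_⟩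
  obtain ⟨L, L1, L2, L3⟩ := exists_ext M (refl_mul_self (Q := Q) a)
  have hL : ∀ s c, s ^ 2 + δ * c ^ 2 ≠ 0 → ρ s c ∈ L := fun s c hs => L3 _ (hρ s c hs).1 (by
    obtain ⟨d, hd, e⟩ := h.exists_Q j (Q a)
    have h6 := refl_conj (ρ s c) d
    rw [ρm s c hs d hd, mul_inv_eq_iff_eq_mul] at h6
    have h7 := h.rr_mul ha hd e.symm
    have := mul_mem (mul_mem h7 (hρ s c hs).1) (inv_mem h7)
    rwa [mul_assoc (refl Q a), ← h6, mul_inv_rev, refl_inv, refl_inv, mul_assoc, mul_assoc,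
      refl_cancel, ← mul_assoc] at this)
  have q1 : ∀ s c, Q (s • w + c • J w) = (s ^ 2 + δ * c ^ 2) * Q w := fun s c => by
    simp only [q_add, q_smul, p_smul_left, p_smul_right, J5, qw]
    ring
  have z1 : ∀ s c, s ^ 2 + δ * c ^ 2 ≠ 0 → ∀ v, v = w ∨ v = J w ∨ v = n →
      ((refl Q (s • w + c • J w) * refl Q w)⁻¹ * ρ s c).1 v = v := fun s c hs v hv => by
    rw [OG.mul_apply, show (ρ s c).1 v = (refl Q (s • w + c • J w) * refl Q w).1 v from ?_,
      OG.inv_apply_self]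
    rw [(hρ s c hs).2, OG.mul_apply]
    rcases hv with rfl | rfl | rfl
    · rw [hp, refl_apply_self w0, map_neg, refl_apply, q1, polar_add_left, p_smul_left, p_smul_left,
        p_self, polar_comm, J5]
      match_scalars <;> field_simp <;> ring
    · rw [pJ', J3, hp, refl_apply_of_orth (J5 w), refl_apply, q1, polar_add_left, p_smul_left,
        p_smul_left, p_self, J5, qw]
      match_scalars <;> field_simp <;> ring
    · rw [hn.1, hn.2, Jn, refl_apply_of_orth wn, refl_apply_of_orth (by simp [wn, o2])]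
      simp
  have z2 : ∀ s c, s ^ 2 + δ * c ^ 2 ≠ 0 → ∀ v, polar Q w v = 0 → polar Q (J w) v = 0 →
      ((refl Q (s • w + c • J w) * refl Q w)⁻¹ * ρ s c).1 v = (ρ s c).1 v ∧
      polar Q w ((ρ s c).1 v) = 0 ∧ polar Q (J w) ((ρ s c).1 v) = 0 := fun s c hs v h6 h7 => by
    obtain ⟨z, hz⟩ : ∃ z, z = (refl Q (s • w + c • J w) * refl Q w)⁻¹ * ρ s c := ⟨_, rfl⟩
    have h8 : polar Q w (z.1 v) = 0 := by
      rw [← z1 s c hs w (.inl rfl), ← hz, OG.map_polar, h6]
    have h9 : polar Q (J w) (z.1 v) = 0 := by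
      rw [← z1 s c hs (J w) (.inr (.inl rfl)), ← hz, OG.map_polar, h7]
    have : (ρ s c).1 v = z.1 v := by
      rw [← mul_inv_cancel_left (refl Q (s • w + c • J w) * refl Q w) (ρ s c), ← hz, OG.mul_apply,
        OG.mul_apply, refl_apply_of_orth h8, refl_apply_of_orth (by simp [h8, h9])]
    rw [← hz, this]
    exact ⟨rfl, h8, h9⟩
  have hvv' : a = (1 : F) • w + (0 : F) • J w + (1 : F) • n := by simpa using hvv
  refine o3 (w := w) (w' := J w) (n := n) (x := 1) (y := 0) (s := 1) (c := t)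
    (S := {c | 1 + δ * c ^ 2 ≠ 0}) (C := {z | ∃ s c, s ^ 2 + δ * c ^ 2 ≠ 0 ∧
      z = (refl Q (s • w + c • J w) * refl Q w)⁻¹ * ρ s c}) h2 ?_ w0 (qw ▸ mul_ne_zero δ0 w0) n0
    (J5 w) wn o2 L1 ?_ ?_ (hvv' ▸ L2 _ (by simp) (by simp)) (hvv' ▸ ha.1)
    ⟨_, ⟨0, 1, e01, rfl⟩, by simpa [mul_assoc, refl_cancel] using hL 0 1 e01⟩ (fun c hc => ⟨fun e =>
      mul_ne_zero hc w0 (by rw [qw] at e; linear_combination e), _, ⟨1, c, by simpa using hc, rfl⟩,
        by simpa [mul_assoc, refl_cancel] using hL 1 c (by simpa using hc)⟩) t1 t0 one_ne_zero (by simpa)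
    (fun e => absurd (mul_right_cancel₀ w0 (by rw [qw] at e; linear_combination -e)) t2)
    (fun K hK => h.subfield hx x0 K fun d hd d0 => ?_) hb hc b0 e
  · refine exists_sq_ne' ?_ 1
    have := Fintype.ofFinite F
    obtain ⟨r, hr⟩ := odd_card_of_two_ne_zero h2
    have := Fintype.one_lt_card (α := F)
    have := h.typ
    rw [Nat.card_eq_fintype_card] at this ⊢
    omega
  · rintro _ ⟨s, c, hs, rfl⟩ _ ⟨s', c', hs', rfl⟩
    refine OG.ext fun v => ?_
    obtain ⟨x, y, v, rfl, h6, h7⟩ : ∃ (x y : F) (v' : V), v = x • w + y • J w + v' ∧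
        polar Q w v' = 0 ∧ polar Q (J w) v' = 0 := by
      refine ⟨polar Q w v / (2 * Q w), polar Q (J w) v / (2 * (δ * Q w)),
        v - ((polar Q w v / (2 * Q w)) • w + (polar Q (J w) v / (2 * (δ * Q w))) • J w), by simp,
        ?_, ?_⟩ <;>
      simp only [polar_sub_right, polar_add_right, p_smul_right, p_self, J5, polar_comm Q (J w) w,
        qw] <;> field_simp <;> ring
    obtain ⟨k1, k2, k3⟩ := z2 s c hs v h6 h7
    obtain ⟨k4, k5, k6⟩ := z2 s' c' hs' v h6 h7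
    simp only [OG.mul_apply (_⁻¹ * _), map_add, map_smul, z1 s c hs, z1 s' c' hs', true_or, or_true,
      k1, k4, (z2 s c hs _ k5 k6).1, (z2 s' c' hs' _ k2 k3).1, add_right_inj]
    simp only [(hρ s c hs).2, (hρ s' c' hs').2, map_add, map_sub, map_smul, h.dec.idem,
      h.dec.orth hil, h.dec.orth hil.symm, pJ, J3]
    rw [← J2 v, map_add]
    match_scalars <;> ring
  · rintro _ ⟨s, c, hs, rfl⟩
    exact ⟨z1 s c hs _ (.inl rfl), z1 s c hs _ (.inr (.inl rfl)), z1 s c hs _ (.inr (.inr rfl))⟩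
  · obtain ⟨s, c, rfl⟩ := sp d hd
    rw [qx] at d0
    rw [px', qx]
    by_cases s0 : s = 0
    · simp [s0]
    have d1 := left_ne_zero_of_mul d0
    have d2 : 1 + δ * (c / s) ^ 2 = (s ^ 2 + δ * c ^ 2) / s ^ 2 := by field_simp
    convert hK (c / s) (by
      rw [Set.mem_setOf_eq, d2]
      exact div_ne_zero d1 (pow_ne_zero 2 s0)) using 1
    rw [qw, show Q w + (c / s) ^ 2 * (δ * Q w) = (1 + δ * (c / s) ^ 2) * Q w by ring, d2]
    field_simp
    ring

theorem swap2 (hij : i ≠ j) : ∃ w ∈ M, (∀ x ∈ D i, w.1 x ∈ D j) ∧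
    ∀ l, l ≠ i → l ≠ j → ∀ x ∈ D l, w.1 x = x := by
  obtain ⟨w, hw, h1, h2⟩ := h.swap le_rfl hij.symm
  refine ⟨w⁻¹, inv_mem hw, fun x hx => ?_, fun l hi hj x hx => ?_⟩
  · obtain ⟨y, hy, rfl⟩ := h1 x hx
    rwa [OG.inv_apply_self]
  · conv_lhs => rw [← h2 l hj hi x hx, OG.inv_apply_self]

omit h in
theorem conic (h2 : (2 : F) ≠ 0) {δ : F} (δ0 : δ ≠ 0)
    (ht : ∃ t : F, t ≠ 0 ∧ 1 + δ * t ^ 2 ≠ 0 ∧ δ * t ^ 2 ≠ 1) {α β : F} (hα : α ≠ 0) (hβ : β ≠ 0) :
    ∃ s r : F, s ≠ 0 ∧ r ≠ 0 ∧ s ^ 2 * (-δ * β) + r ^ 2 * β = α := by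
  obtain ⟨t, t0, t1, t2⟩ := ht
  obtain ⟨u, hu⟩ : ∃ u, u * (1 - δ * t ^ 2) = 1 := ⟨_, inv_mul_cancel₀ (sub_ne_zero.mpr t2.symm)⟩
  have u0 : u ≠ 0 := left_ne_zero_of_mul_eq_one hu
  obtain ⟨s, r, e⟩ := exists_binary_eq h2 (mul_ne_zero (neg_ne_zero.mpr δ0) hβ) hβ α
  by_cases s0 : s = 0
  · have r0 : r ≠ 0 := fun r0 => hα (by simp [← e, s0, r0])
    refine ⟨2 * t * r * u, (1 + δ * t ^ 2) * r * u, by positivity, by positivity, ?_⟩
    rw [← e, s0]
    linear_combination r ^ 2 * β * (u * (1 - δ * t ^ 2) + 1) * hu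
  by_cases r0 : r = 0
  · refine ⟨(1 + δ * t ^ 2) * s * u, 2 * δ * t * s * u, by positivity, by positivity, ?_⟩
    rw [← e, r0]
    linear_combination -δ * s ^ 2 * β * (u * (1 - δ * t ^ 2) + 1) * hu
  exact ⟨s, r, s0, r0, by linear_combination e⟩

theorem two (h2 : (2 : F) ≠ 0) (ha : RR M D a)
    (hij : i ≠ j) (ai : π i a ≠ 0) (aj : π j a ≠ 0) (h0 : ∀ m, m ≠ i → m ≠ j → π m a = 0) :
    commutator (OG Q) ≤ M := by
  by_contra H
  obtain ⟨l, m, hli, hlj, -, hmi, hmj, -, hlm⟩ := h.exists_two i j j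
  obtain ⟨δ, J, δ0, ht, J1, J3, J4, J5, w0, n0, o2, hF⟩ := h.full h2 H ha hli.symm ai hij.symm
    hlj.symm aj
  have hw := h.dec.mem i a
  have hn : a - π i a ∈ D j := h.dec.mem_of fun k hk => by
    by_cases e : k = i
    · simp [e, h.dec.idem]
    · simp [h0 k e hk, h.dec.orth e]
  have hvv : a = π i a + (a - π i a) := by simp
  rw [h0 l hli hlj, add_zero] at w0 n0 o2 hF
  generalize π i a = w at *
  generalize a - w = n at *
  have J4' : ∀ v ∈ D i, Q (J v) = δ * Q v := fun v hv => by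
    rw [J4, h.dec.of_mem hv, h.dec.of_ne hli hv, add_zero]
  obtain ⟨s₀, c₀, e₀⟩ := exists_binary_eq h2 w0 (mul_ne_zero δ0 w0) (-Q n)
  have hx : s₀ • w + c₀ • J w ∈ D i :=
    add_mem (Submodule.smul_mem _ _ hw) (Submodule.smul_mem _ _ (J1 i w hw))
  have qx : Q (s₀ • w + c₀ • J w) = -Q n := by
    simp only [q_add, q_smul, p_smul_left, p_smul_right, J5, J4' w hw, ← e₀]
    ring
  have Jx : J (s₀ • w + c₀ • J w) = (-δ * c₀) • w + s₀ • J w := by
    rw [map_add, map_smul, map_smul, J3, h.dec.of_mem hw, h.dec.of_ne hli hw]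
    module
  obtain ⟨x, hx'⟩ : ∃ x, x = s₀ • w + c₀ • J w := ⟨_, rfl⟩
  rw [← hx'] at hx qx Jx
  have hu : Q (x + n) = 0 := by simp [q_add, qx, h.orth i j hij x hx n hn]
  have hy := J1 i x hx
  have qy : Q (J x) = -δ * Q n := by rw [J4' x hx, qx]; ring
  have y0 : Q (J x) ≠ 0 := qy ▸ mul_ne_zero (neg_ne_zero.mpr δ0) n0
  have h1 : J x ∈ OE M (x + n) := OFr.oe_of_full hF hu
    (by simp [J5, h.orth j i hij.symm n hn _ hy]) y0 ⟨s₀, c₀, 1, by simp [hx']⟩
    ⟨-δ * c₀, s₀, 0, by simp [Jx]⟩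
  obtain ⟨s, r, s0, r0, e⟩ := conic h2 δ0 ht ha.1 n0
  have qb : Q (s • J x + r • n) = Q a := by
    simp only [q_add, q_smul, p_smul_left, p_smul_right, h.orth i j hij _ hy n hn, qy, ← e]
    ring
  obtain ⟨c, hc, qc⟩ := h.exists_Q m (Q a)
  have h3 : RR M D (s • J x + r • n) := ⟨qb ▸ ha.1, m, c, hc, qc.trans qb.symm, by
    simpa [mul_assoc, refl_cancel] using mul_mem (hF _ a ⟨s * (-δ * c₀), s * s₀, r, by
      rw [Jx]; module⟩ ⟨1, 0, 1, by simpa using hvv⟩ (qb ▸ ha.1) qb) (h.rr_mul ha hc qc.symm)⟩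
  obtain ⟨g, hg, g1, g2⟩ := h.swap2 hlj.symm
  have h4 := h.rr_fix hg h3 (g2 m hmj hlm.symm)
  have h5 := (OG.map_Q g _).trans qb
  rw [map_add, map_smul, map_smul, g2 i hij hli.symm _ hy] at h4 h5
  have hn' := g1 n hn
  have h6 := OE.of_refl h1 (h.rr_mul h4 hc (h5.trans qc.symm)) (by
    rw [OG.mul_apply, refl_apply_of_orth (v := c) (by
      simp [h.orth m i hmi c hc x hx, h.orth m j hmj c hc n hn]), refl_apply_of_orth (by
      simp [polar_comm Q (J x) x, J5, h.orth i j hij _ hy n hn, h.orth l i hli _ hn' x hx,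
        h.orth l j hlj _ hn' n hn])])
    (by rw [OG.mul_apply, refl_apply_of_orth (h.orth m i hmi c hc _ hy)]) h4.1
    (by simp [p_self, h.orth l i hli _ hn' _ hy, s0, h2, y0])
  refine H (h.eng hu (fun e => n0 ?_) ⟨h6.1, OE.mem h6⟩ hlm
    (by simp [h.dec.of_ne hli hx, h.dec.of_ne hlj hn])
    (by simp [h.dec.of_ne hmi hx, h.dec.of_ne hmj hn]) ?_)
  · have := congrArg (π j) e
    rw [map_add, h.dec.of_ne hij.symm hx, h.dec.of_mem hn, zero_add, map_zero] at this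
    simp [this]
  · simpa [h.dec.of_ne hli hy, h.dec.of_mem hn', r0, OG.apply_eq_zero] using
      ne_zero_of_Q_ne_zero n0

theorem s1_odd (h2 : (2 : F) ≠ 0) (ha : RR M D a) (hij : i ≠ j) (ai : π i a ≠ 0)
    (aj : π j a ≠ 0) : commutator (OG Q) ≤ M := by
  by_contra H
  by_cases hA : ∀ i, ∀ x ∈ D i, Q x = 0 → x = 0
  · by_cases h0 : ∀ m, m ≠ i → m ≠ j → π m a = 0
    · exact H (h.two h2 ha hij ai aj h0)
    push Not at h0
    obtain ⟨l, hli, hlj, al⟩ := h0
    obtain ⟨δ, J, δ0, ht, J1, J3, J4, J5, w0, n0, o2, hF⟩ := h.full h2 H ha hij ai hli hlj al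
    obtain ⟨s, c, e⟩ := exists_binary_eq h2 w0 (mul_ne_zero δ0 w0) (Q a)
    have pp : π i (π i a + π j a) + π j (π i a + π j a) = π i a + π j a := by
      simp [h.dec.idem, h.dec.orth hij, h.dec.orth hij.symm]
    have qb : Q (s • (π i a + π j a) + c • J (π i a + π j a)) = Q a := by
      rw [q_add, q_smul, q_smul, p_smul_left, p_smul_right, J5, J4, pp, ← e]
      ring
    obtain ⟨d, hd, qd⟩ := h.exists_Q l (Q a)
    have key : ∀ m v, v ∈ D m → v ≠ 0 → π i v + π j v = v → s • v + c • J v ≠ 0 :=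
      fun m v hv v0 pv e' => by
      have h1 : Q v ≠ 0 := fun e => v0 (hA m v hv e)
      have h3 := congrArg (polar Q v) e'
      have h4 := congrArg (polar Q (J v)) e'
      simp [p_self, J5, h2, h1] at h3
      simp [p_self, polar_comm Q (J v) v, J5, h2, h1, J4, pv, δ0] at h4
      exact ha.1 (by simp [← e, h3, h4])
    have hi := h.dec.mem i a
    have hj := h.dec.mem j a
    refine H (h.two h2 (a := s • (π i a + π j a) + c • J (π i a + π j a))
      ⟨qb ▸ ha.1, l, d, hd, qd.trans qb.symm, by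
        simpa only [mul_assoc, refl_cancel] using mul_mem (hF _ a ⟨s, c, 0, by simp⟩
          ⟨1, 0, 1, by simp⟩ (qb ▸ ha.1) qb) (h.rr_mul ha hd qd.symm)⟩ hij ?_ ?_ fun m h3 h4 => ?_)
    · simpa [h.dec.idem, h.dec.orth hij, h.dec.of_mem (J1 i _ hi), h.dec.of_ne hij (J1 j _ hj)]
        using key i _ hi ai (by simp [h.dec.idem, h.dec.orth hij.symm])
    · simpa [h.dec.idem, h.dec.orth hij.symm, h.dec.of_mem (J1 j _ hj),
        h.dec.of_ne hij.symm (J1 i _ hi)] using key j _ hj aj (by simp [h.dec.idem, h.dec.orth hij])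
    · simp [h.dec.orth h3, h.dec.orth h4, h.dec.of_ne h3 (J1 i _ hi), h.dec.of_ne h4 (J1 j _ hj)]
  push Not at hA
  obtain ⟨k, v, hv, v0, v1⟩ := hA
  obtain ⟨g, hg⟩ := h.iso k i
  have hu := hg v hv
  have u0 := (OG.map_Q g v).trans v0
  have u1 : g.1 v ≠ 0 := by rwa [Ne, OG.apply_eq_zero]
  generalize g.1 v = u at hu u0 u1
  obtain ⟨l, m, hli, hlj, -, hmi, hmj, -, hlm⟩ := h.exists_two i j j
  obtain ⟨δ, J, δ0, ht, J1, J3, J4, J5, w0, n0, o2, hF⟩ := h.full h2 H ha hli.symm ai hij.symm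
    hlj.symm aj
  obtain ⟨ε, hε⟩ : ∃ ε, ε • u = J u := Submodule.mem_span_singleton.mp (by_contra fun e =>
    u1 (h.nds i u hu fun w hw => by
      obtain ⟨s, t, rfl⟩ := h.span2 hu (J1 i u hu) u1 e hw
      simp [p_self, u0, J5]))
  have h1 : ε ^ 2 = -δ := smul_left_injective F u1 (by
    have := J3 u
    rw [← hε, map_smul, ← hε, h.dec.of_mem hu, h.dec.of_ne hli hu, add_zero, smul_smul] at this
    simpa [pow_two] using this)
  have pp : π i (π i a + π l a) + π l (π i a + π l a) = π i a + π l a := by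
    simp [h.dec.idem, h.dec.orth hli, h.dec.orth hli.symm]
  have q1 := J4 (π i a + π l a)
  rw [pp] at q1
  have h3 : Q (ε • (π i a + π l a) + J (π i a + π l a)) = 0 := by
    rw [q_add, q_smul, p_smul_left, J5, q1, h1]
    ring
  have h4 := OFr.oe_of_full hF h3 (y := a - (π i a + π l a))
    (by rw [polar_add_left, p_smul_left, h.q_two hli.symm, o2]; simp) n0
    ⟨ε, 1, 0, by simp⟩ ⟨0, 0, 1, by simp⟩
  have h5 : ∀ m, m ≠ i → m ≠ l → π m (ε • (π i a + π l a) + J (π i a + π l a)) = 0 :=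
    fun m h5 h6 => by simp [h.dec.orth h5, h.dec.orth h6, h.dec.of_ne h5 (J1 i _ (h.dec.mem i a)),
      h.dec.of_ne h6 (J1 l _ (h.dec.mem l a))]
  refine H (h.eng h3 (fun e => mul_ne_zero h2 (mul_ne_zero δ0 w0) ?_) ⟨h4.1, OE.mem h4⟩ hmj.symm
    (h5 j hij.symm hlj.symm) (h5 m hmi hlm.symm)
    (by simpa [h.dec.orth hij.symm, h.dec.orth hlj.symm] using aj))
  have := congrArg (polar Q (J (π i a + π l a))) e
  rwa [polar_add_right, p_smul_right, polar_comm, J5, p_self, q1, mul_zero, zero_add,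
    polar_zero_right] at this

theorem s1 (H : ¬ commutator (OG Q) ≤ M) (ha : RR M D a) : ∃ i, a ∈ D i := by
  obtain ⟨i, hi⟩ := h.dec.exists_ne_zero (ne_zero_of_Q_ne_zero ha.1)
  refine ⟨i, by_contra fun e => H ?_⟩
  obtain ⟨j, hj, hj'⟩ := h.dec.exists_of_not_mem e
  by_cases h2 : (2 : F) = 0
  exacts [h.s1_even h2 ha hj.symm hi hj', h.s1_odd h2 ha hj.symm hi hj']

theorem perm_of (H : ¬ commutator (OG Q) ≤ M) {g : OG Q} (hg : g ∈ M) (hc : c ∈ D i) (h0 : Q c ≠ 0)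
    (h1 : g.1 c ∈ D j) : PermD D g.1 := h.dec.permD_of h.rk two_pos fun l => by
  obtain ⟨a, ha, qa⟩ := h.exists_Q l (Q c)
  obtain ⟨b, hb, qb, b1, b2⟩ := h.pair ha (qa ▸ h0)
  obtain ⟨m, hm⟩ := h.s1 H (h.rr_map hg (ODc.rr_of ha (qa ▸ h0)) hc qa h1)
  obtain ⟨m', hm'⟩ := h.s1 H (h.rr_map hg (ODc.rr_of hb (qb ▸ qa ▸ h0)) hc (qb.trans qa) h1)
  obtain rfl : m = m' := by_contra fun e => b2 (by rw [← OG.map_polar g, h.orth m m' e _ hm _ hm'])
  refine ⟨m, fun x hx => ?_⟩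
  obtain ⟨s, t, rfl⟩ := h.span2 ha hb (ne_zero_of_Q_ne_zero (qa ▸ h0)) b1 hx
  rw [map_add, map_smul, map_smul]
  exact add_mem (Submodule.smul_mem _ _ hm) (Submodule.smul_mem _ _ hm')

theorem perm_of_fix (H : ¬ commutator (OG Q) ≤ M) {g : OG Q} (hg : g ∈ M) (hc : c ∈ D i)
    (h0 : c ≠ 0) (h1 : g.1 c = c) : PermD D g.1 := by
  by_cases h2 : Q c = 0
  swap
  · exact h.perm_of H hg hc h2 (h1.symm ▸ hc)
  obtain ⟨f, hf, f0, f1, -⟩ := (h.nds i).exists_hyp hc h0 h2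
  have f2 : polar Q f c = 1 := polar_comm Q c f ▸ f1
  obtain ⟨s, s0, s1⟩ := exists_sq_ne' (F := F) (by
    have := h.typ.resolve_left fun e => h0 (e.1 i c hc h2)
    omega) 1
  have q1 : Q (c + f) = 1 := by simp [q_add, h2, f0, f1]
  have q2 : Q (s • c + s⁻¹ • f) = 1 := by simp [q_add, q_smul, h2, f0, f1, s0]
  have hρ := h.rr2 (add_mem (Submodule.smul_mem _ s hc) (Submodule.smul_mem _ s⁻¹ hf))
    (add_mem hc hf) (q2 ▸ one_ne_zero) (q2.trans q1.symm)
  set ρ := refl Q (s • c + s⁻¹ • f) * refl Q (c + f) with hρ'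
  obtain ⟨v, hv⟩ : ∃ v, v = g.1 f - f - polar Q f (g.1 f) • c := ⟨_, rfl⟩
  have g1 : polar Q c (g.1 f) = 1 := by rw [← f1, ← OG.map_polar g c f, h1]
  have v1 : polar Q c v = 0 := by simp [hv, g1, f1, p_self, h2]
  have v2 : polar Q f v = 0 := by simp [hv, p_self, f0, f2]
  have v3 : Q v = -polar Q f (g.1 f) := by
    rw [hv, q_sub, q_sub, q_smul, OG.map_Q, p_smul_right, polar_sub_left, polar_comm Q (g.1 f) c,
      g1, f2, f0, h2, polar_comm]
    ring
  have v4 : polar Q c (-v) = 0 := by simp [v1]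
  have e1 : (eich Q c (-v)).1 f = g.1 f := by
    rw [eich_apply h2 v4, f1, QuadraticMap.map_neg, v3, polar_neg_left, polar_comm Q v f, v2, hv]
    module
  have e2 : ((eich Q c (-v))⁻¹ * g).1 c = c := by
    rw [OG.mul_apply, h1, eich_inv h2 v4, eich_apply_left h2 (by simp [v1])]
  have e3 : ((eich Q c (-v))⁻¹ * g).1 f = f := by rw [OG.mul_apply, ← e1, OG.inv_apply_self]
  have e4 : (eich Q c (-v))⁻¹ * g * ρ * ((eich Q c (-v))⁻¹ * g)⁻¹ = ρ := by
    rw [hρ', ← conj_mul, refl_conj, refl_conj]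
    simp only [map_add, map_smul, e2, e3]
  have r1 : ρ.1 c = s ^ 2 • c := by
    simp only [hρ', OG.mul_apply, refl_apply, q1, q2, polar_add_left, polar_add_right,
      polar_sub_right, p_smul_left, p_smul_right, p_self, h2, f0, f1, f2]
    match_scalars <;> field_simp <;> ring
  have r2 : ρ.1 v = v := by
    rw [hρ', OG.mul_apply, refl_apply_of_orth (v := c + f) (by simp [v1, v2]),
      refl_apply_of_orth (by simp [v1, v2])]
  have e5 : eich Q c ((s ^ 2 - 1) • v) ∈ M := by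
    have := mul_mem (mul_mem (mul_mem (mul_mem hg hρ) (inv_mem hg)) (inv_mem hρ)) (one_mem M)
    rw [show g * ρ * g⁻¹ * ρ⁻¹ * 1 = eich Q c (-v) * ((eich Q c (-v))⁻¹ * g * ρ *
      ((eich Q c (-v))⁻¹ * g)⁻¹ * (eich Q c (-v))⁻¹ * ρ⁻¹) by group, e4, eich_inv h2 v4, eich_conj,
      neg_neg, r1, r2, eich_smul_left h2 v1, eich_mul h2 v4 (by simp [v1])] at this
    convert this using 2
    module
  by_cases e : v ∈ D i
  · refine h.perm_of H hg (add_mem hc hf) (q1 ▸ one_ne_zero) (j := i) ?_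
    rw [map_add, h1, show g.1 f = v + f + polar Q f (g.1 f) • c by rw [hv]; abel]
    exact add_mem hc (add_mem (add_mem e hf) (Submodule.smul_mem _ _ hc))
  obtain ⟨j, hj, hj'⟩ := h.dec.exists_of_not_mem e
  obtain ⟨l, -, hli, hlj, -⟩ := h.exists_two i j j
  exact absurd (h.eng h2 h0 ⟨by simp [v1], e5⟩ hlj.symm (h.dec.of_ne hj hc) (h.dec.of_ne hli hc)
    (by simp [hj', sub_ne_zero.mpr s1])) H

omit [Finite F] in
theorem moved {t : OG Q} {s : Equiv.Perm κ} (hs : ∀ i, (D i).map (t.1 : V →ₗ[F] V) = D (s i))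
    {Y : Submodule F V} (hY : finrank F Y ≤ 2) (H : ∀ x, t.1 x - x ∈ Y) (hl : s l ≠ l) (hy : y ∈ Y) :
    ∃ x ∈ D l, t.1 x - x = y := by
  let φ : D l →ₗ[F] Y := (((t.1 : V →ₗ[F] V) - LinearMap.id) ∘ₗ (D l).subtype).codRestrict Y
    fun x => H x
  have h1 : Function.Injective φ := (injective_iff_map_eq_zero _).mpr fun y hy => by
    have e1 : t.1 y = y := sub_eq_zero.mp (congrArg Subtype.val hy)
    exact Subtype.ext (h.dec.eq_zero_of_mem hl (e1 ▸ (hs l).le ⟨y, y.2, rfl⟩) y.2)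
  have h2 := LinearMap.finrank_le_finrank_of_injective h1
  obtain ⟨x, hx⟩ := (LinearMap.injective_iff_surjective_of_finrank_eq_finrank
    (by rw [h.rk] at h2 ⊢; omega)).mp h1 ⟨y, hy⟩
  exact ⟨x, x.2, congrArg Subtype.val hx⟩

omit [Finite F] [FiniteDimensional F V] in
theorem unmoved {t : OG Q} {s : Equiv.Perm κ} (hs : ∀ i, (D i).map (t.1 : V →ₗ[F] V) = D (s i))
    (hl : ∀ l, s l = l) (l : κ) (x : V) : π l (t.1 x - x) = t.1 (π l x) - π l x := by
  rw [map_sub, h.proj_map (s := fun i => i) Function.injective_id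
    (fun l x hx => (hl l ▸ hs l).le ⟨x, hx, rfl⟩) l x]

theorem perm_of_zero (H : ¬ commutator (OG Q) ≤ M) {g : OG Q} (hg : g ∈ M) (hc : c ∈ D i)
    (h0 : c ≠ 0) (h1 : π j (g⁻¹.1 c) = 0) : PermD D g.1 := by
  obtain ⟨w, hw, w0⟩ := (h.nds j).exists_nonsing (by rw [h.rk]; omega)
  obtain ⟨v, hv, h2, h3, h3'⟩ := h.pair hw w0
  have h4 : ∀ x ∈ D j, polar Q (g.1 x) c = 0 := fun x hx => by
    rw [← OG.polar_inv_right]
    exact h.orth_of hx h1
  obtain ⟨t, ht⟩ : ∃ t, t = refl Q (g.1 v) * refl Q (g.1 w) := ⟨_, rfl⟩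
  obtain ⟨s, hs⟩ := h.perm_of_fix H (g := t) (by
    simpa [ht, ← refl_conj, mul_assoc] using mul_mem (mul_mem hg (h.rr2 hv hw (h2 ▸ w0) h2))
      (inv_mem hg)) hc h0 (by
    rw [ht, OG.mul_apply, refl_apply_of_orth (h4 w hw), refl_apply_of_orth (h4 v hv)])
  have h5 : ∀ x, t.1 x - x ∈ (D j).map (g.1 : V →ₗ[F] V) := fun x => by
    rw [ht, OG.mul_apply, refl_apply, refl_apply (g.1 w) x, sub_sub x, sub_sub_cancel_left]
    exact neg_mem (add_mem (Submodule.smul_mem _ _ ⟨w, hw, rfl⟩) (Submodule.smul_mem _ _ ⟨v, hv, rfl⟩))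
  have hY : finrank F ((D j).map (g.1 : V →ₗ[F] V)) ≤ 2 := by
    rw [LinearEquiv.finrank_map_eq, h.rk]
  have h6 : ∀ l, s l = l := fun l => by_contra fun hl => by
    have key : ∀ x ∈ D l, t.1 (t.1 x) = x := fun x hx => by
      obtain ⟨y, hy, e⟩ := h.moved hs hY h5 hl (h5 (t.1 x))
      have m1 : ∀ k, ∀ x ∈ D k, t.1 x ∈ D (s k) := fun k x hx => (hs k).le ⟨x, hx, rfl⟩
      have := congrArg (π (s l)) e
      rw [map_sub, map_sub, h.dec.of_mem (m1 l y hy), h.dec.of_mem (m1 l x hx), h.dec.of_ne hl hy,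
        h.dec.of_ne (s.injective.ne hl).symm (m1 _ _ (m1 l x hx)), sub_zero, zero_sub, ← map_neg,
        t.1.injective.eq_iff] at this
      rw [this, map_neg] at e
      linear_combination (norm := module) -e
    obtain ⟨x, hx, e⟩ := h.moved hs hY h5 hl ⟨w, hw, rfl⟩
    have e1 : t.1 (g.1 w) = -g.1 w := by
      change t.1 x - x = g.1 w at e
      rw [← e, map_sub, key x hx, neg_sub]
    rw [ht, OG.mul_apply, refl_apply_self (by simpa using w0), map_neg, neg_inj, refl_apply,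
      sub_eq_self, OG.map_Q, OG.map_polar, polar_comm, h2] at e1
    exact smul_ne_zero (mul_ne_zero (inv_ne_zero w0) h3') (ne_zero_of_Q_ne_zero (Q := Q)
      (by simpa [h2] using w0)) e1
  obtain ⟨x, h7, h8⟩ := h.nd.exists_orth_polar_one _ h3
  have h9 : t.1 (g.1 x) - g.1 x = -(Q v)⁻¹ • g.1 v := by
    rw [ht, OG.mul_apply, refl_apply_of_orth (v := g.1 w) (by
      simpa using h7 w (Submodule.mem_span_singleton_self w)), refl_apply]
    simp [h8]
  obtain ⟨l, hl⟩ := h.exists_Q_ne (a := t.1 (g.1 x) - g.1 x) (by simp [h9, q_smul, h2, w0])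
  obtain ⟨d, hd, h11⟩ := h5 (π l (g.1 x))
  rw [← h.unmoved hs h6] at h11
  replace h11 : g.1 d = _ := h11
  exact h.perm_of H hg hd (by rwa [← OG.map_Q g, h11]) (h11 ▸ h.dec.mem _ _)

omit [Finite F] in
theorem exists_zero {t : OG Q} (ht : PermD D t.1) {Y : Submodule F V} (hY : finrank F Y ≤ 2)
    (H : ∀ x, t.1 x - x ∈ Y) (x : V) : ∃ m, π m (t.1 x - x) = 0 := by
  obtain ⟨s, hs⟩ := ht
  by_cases h1 : ∀ l, s l = l
  · by_contra hc
    push Not at hc
    obtain ⟨i⟩ : Nonempty κ := Fintype.card_pos_iff.mp (by have := h.ht; omega)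
    obtain ⟨j, l, h2, -, -, h3, -, -, h4⟩ := h.exists_two i i i
    have h5 : ∀ m, π m (t.1 x - x) ∈ Y := fun m => h.unmoved hs h1 m x ▸ H _
    have h6 : π j (t.1 x - x) ∉ F ∙ π i (t.1 x - x) := fun e => hc j
      (h.dec.eq_zero_of_mem h2 (h.dec.mem _ _) ((Submodule.span_singleton_le_iff_mem _ _).mpr
        (h.dec.mem _ _) e))
    have h7 := Submodule.eq_of_le_of_finrank_le (Submodule.span_le.mpr
      (Set.insert_subset (h5 i) (Set.singleton_subset_iff.mpr (h5 j))))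
      (hY.trans (finrank_span_pair_eq (linearIndependent_pair_of_notMem (hc i) h6)).ge)
    obtain ⟨a, b, e⟩ := Submodule.mem_span_pair.mp (h7 ▸ h5 l)
    have := congrArg (π l) e
    rw [map_add, map_smul, map_smul, h.dec.idem, h.dec.orth h3, h.dec.orth h4.symm] at this
    exact hc l (by simpa using this.symm)
  push Not at h1
  obtain ⟨l, hl⟩ := h1
  obtain ⟨y, hy, e⟩ := h.moved hs hY H hl (H x)
  obtain ⟨m, -, h2, h3, -⟩ := h.exists_two l (s l) l
  exact ⟨m, by rw [← e, map_sub, h.dec.of_ne h2 hy,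
    h.dec.of_ne h3 (show t.1 y ∈ D (s l) from (hs l).le ⟨y, hy, rfl⟩), sub_zero]⟩

theorem exists_perp (x0 : Q (π i x) ≠ 0) : ∃ d ∈ D i, Q d ≠ 0 ∧ polar Q d x = 0 := by
  by_cases h2 : (2 : F) = 0
  · exact ⟨_, h.dec.mem i x, x0, by rw [← h.proj (h.dec.mem i x), p_self, h2, zero_mul]⟩
  obtain ⟨d, hd, d0⟩ := ((h.nds i).perp_one h2 (h.dec.mem i x) x0).exists_nonsing (by
    have := finrank_le_inf_ker (D i) (Q.polarBilin (π i x))
    rw [h.rk] at this
    omega)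
  exact ⟨d, hd.1, d0, by rw [← h.proj hd.1]; exact polar_symm_zero hd.2⟩

theorem perm_of_refl (H : ¬ commutator (OG Q) ≤ M) {g : OG Q} (hg : g ∈ M) (hc : c ∈ D i)
    (h0 : c ≠ 0) (hjl : j ≠ l) (ha : a ∈ D j) (hb : b ∈ D l) (a0 : Q a ≠ 0) (b0 : Q b ≠ 0)
    (hab : IsSquare (Q a * Q b)) (a1 : polar Q a (g⁻¹.1 c) = 0) (b1 : polar Q b (g⁻¹.1 c) = 0) :
    PermD D g.1 := by
  obtain ⟨r, hr⟩ := hab
  have r0 : r ≠ 0 := fun e => mul_ne_zero a0 b0 (by simp [hr, e])
  have h1 : refl Q a * refl Q b ∈ M := by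
    rw [← refl_smul (div_ne_zero r0 b0) b]
    refine h.rr2 ha (Submodule.smul_mem _ _ hb) a0 ?_
    rw [q_smul]
    field_simp
    linear_combination hr
  rw [OG.polar_inv_right] at a1 b1
  obtain ⟨t, ht⟩ : ∃ t, t = refl Q (g.1 a) * refl Q (g.1 b) := ⟨_, rfl⟩
  have h2 := h.perm_of_fix H (g := t) (by
    simpa [ht, ← refl_conj, mul_assoc] using mul_mem (mul_mem hg h1) (inv_mem hg)) hc h0 (by
    rw [ht, OG.mul_apply, refl_apply_of_orth b1, refl_apply_of_orth a1])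
  obtain ⟨y, hy, -, y1⟩ := (h.nds j).exists_orth bot_le ha (ne_zero_of_Q_ne_zero a0)
  obtain ⟨m, hm⟩ := h.exists_zero h2 (finrank_span_pair_le (g.1 a) (g.1 b)) (fun x => by
    rw [ht, OG.mul_apply, refl_apply, refl_apply (g.1 b) x, sub_sub x, sub_sub_cancel_left]
    exact neg_mem (add_mem (Submodule.smul_mem _ _ (Submodule.subset_span (by simp)))
      (Submodule.smul_mem _ _ (Submodule.subset_span (by simp))))) (g.1 y)
  rw [ht, OG.mul_apply, refl_apply_of_orth (v := g.1 b) (by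
    rw [OG.map_polar, h.orth l j hjl.symm b hb y hy]), refl_apply] at hm
  obtain ⟨s, hs⟩ := h.perm_of_zero H (inv_mem hg) ha (ne_zero_of_Q_ne_zero a0) (j := m)
    (by simpa [y1, a0] using hm)
  refine h.dec.permD_of h.rk two_pos fun k => ⟨s.symm k, fun x hx => ?_⟩
  obtain ⟨z, hz, rfl⟩ := (hs (s.symm k)).ge (by simpa using hx)
  simpa using hz

theorem main (hg : ∃ g ∈ M, ¬ PermD D g.1) : commutator (OG Q) ≤ M := by
  classical
  by_contra H
  obtain ⟨g, hg, hg'⟩ := hg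
  obtain ⟨i⟩ : Nonempty κ := Fintype.card_pos_iff.mp (by have := h.ht; omega)
  obtain ⟨j, l, hji, -, -, hli, -, -, hjl⟩ := h.exists_two i i i
  have h1 : ∀ c ∈ D i, c ≠ 0 → ∀ m, π m (g⁻¹.1 c) ≠ 0 := fun c hc h0 m e =>
    hg' (h.perm_of_zero H hg hc h0 e)
  obtain ⟨c, hc, h0, h2⟩ : ∃ c ∈ D i, c ≠ 0 ∧ ∀ m ∈ ({i, j, l} : Finset κ),
      Q (π m (g⁻¹.1 c)) ≠ 0 := by
    obtain ⟨x, hx, x0⟩ := (h.nds i).exists_nonsing (by rw [h.rk]; omega)
    replace x0 := ne_zero_of_Q_ne_zero x0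
    rcases h.typ with h3 | h3
    · exact ⟨x, hx, x0, fun m _ e => h1 x hx x0 m (h3.1 m _ (h.dec.mem _ _) e)⟩
    have := Fintype.ofFinite F
    obtain ⟨y, hy, y1⟩ := h.exists_ind x0 i
    have h4 : ∀ s : F, y + s • x ≠ 0 := fun s e => y1 (by
      rw [eq_neg_of_add_eq_zero_left e]
      exact neg_mem (Submodule.smul_mem _ _ (Submodule.mem_span_singleton_self x)))
    obtain ⟨s, -, hs⟩ := exists_avoid (S := Finset.univ) ({i, j, l} : Finset κ)
      (fun m => Q (π m (g⁻¹.1 x))) (fun m => polar Q (π m (g⁻¹.1 y)) (π m (g⁻¹.1 x)))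
      (fun m => Q (π m (g⁻¹.1 y))) (fun _ => 2) (fun m _ => by
        by_contra hc
        push Not at hc
        by_cases e : π m (g⁻¹.1 y) ∈ F ∙ π m (g⁻¹.1 x)
        · obtain ⟨t, e⟩ := Submodule.mem_span_singleton.mp e
          exact h1 _ (add_mem hy (Submodule.smul_mem _ (-t) hx)) (h4 _) m (by
            rw [map_add, map_smul, map_add, map_smul, ← e, ← add_smul, add_neg_cancel, zero_smul])
        · exact h.disc (h.dec.mem _ _) (h.dec.mem _ _) (h1 x hx x0 m) e (by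
            rw [hc.1, hc.2.1]; simp))
      (by simp) (by
        have := Finset.card_le_three (a := i) (b := j) (c := l)
        rw [Nat.card_eq_fintype_card] at h3
        simp
        omega)
    refine ⟨y + s • x, add_mem hy (Submodule.smul_mem _ _ hx), h4 s, fun m hm e => hs m hm ?_⟩
    rw [map_add, map_smul, map_add, map_smul, q_add, q_smul, p_smul_right] at e
    linear_combination e
  obtain ⟨a, ha, a0, a1⟩ := h.exists_perp (h2 i (by simp))
  obtain ⟨b, hb, b0, b1⟩ := h.exists_perp (h2 j (by simp))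
  obtain ⟨d, hd, d0, d1⟩ := h.exists_perp (h2 l (by simp))
  by_cases e : IsSquare (Q a * Q b)
  · exact hg' (h.perm_of_refl H hg hc h0 hji.symm ha hb a0 b0 e a1 b1)
  by_cases e' : IsSquare (Q a * Q d)
  · exact hg' (h.perm_of_refl H hg hc h0 hli.symm ha hd a0 d0 e' a1 d1)
  refine hg' (h.perm_of_refl H hg hc h0 hjl hb hd b0 d0 ?_ b1 d1)
  rw [isSquare_mul_iff a0 b0] at e
  rw [isSquare_mul_iff a0 d0] at e'
  rw [isSquare_mul_iff b0 d0]
  tauto

end OTw

theorem max_om_planes {ι : Type} [Fintype ι] [DecidableEq ι] {Q : QuadraticForm F (ι → F)} {t : ℕ}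
    {D : Fin t → Submodule F (ι → F)} (hQ : ND Q) (hn : 10 ≤ Fintype.card ι)
    (hD : Geo.IsOrthogonalMDecomposition ⇑Q 2 D)
    (typ : ((∀ i, ¬ Geo.IsPlusTypeOn ⇑Q (D i)) ∧ Nat.card F ≠ 3) ∨ 7 ≤ Nat.card F) :
    Geo.IsMaximalIn (Geo.omegaGL ⇑Q) (Geo.decompositionStabilizer D ⊓ Geo.omegaGL ⇑Q) := by
  have := card_eq_of_dec hD.decomp.decomp
  exact max_om_dc hQ (by omega) hD fun π M h _ => OTw.main ⟨h, by simp; omega, typ.imp_left
    fun e => ⟨fun i x hx x0 => by_contra fun x1 =>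
      e.1 i ((plus_two_iff (h.rk i)).mpr ⟨x, hx, x1, x0⟩), e.2⟩⟩

end Cfsg.Agent.Max
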