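import Mathlib
import Cfsg.Agent.Max.OTwo

/-!
# Orthogonal decompositions of orthogonal spaces, blocks of dimension at least two

`max_om_blocks` joins `max_om_planes` (blocks of dimension two) with `ODc.of_three`.
-/

set_option autoImplicit false

namespace Cfsg.Agent.Max

open Module Cfsg.Agent.Orth

variable {F : Type*} [Field F] [Finite F]

theorem card_ne_six : Nat.card F ≠ 6 := by
  have := Fintype.ofFinite F
  obtain ⟨p, hp⟩ := CharP.exists F
  obtain ⟨n, h1, h2⟩ := FiniteField.card F p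
  rw [Nat.card_eq_fintype_card, h2]
  intro e
  have h3 : (2 : ℕ) ∣ p := Nat.prime_two.dvd_of_dvd_pow (n := n) (by rw [e]; norm_num)
  have h4 : (3 : ℕ) ∣ p := Nat.prime_three.dvd_of_dvd_pow (n := n) (by rw [e]; norm_num)
  have h5 := (Nat.prime_dvd_prime_iff_eq Nat.prime_two h1).mp h3
  have h6 := (Nat.prime_dvd_prime_iff_eq Nat.prime_three h1).mp h4
  omega

variable {ι : Type} [Fintype ι] [DecidableEq ι] {Q : QuadraticForm F (ι → F)} {t k : ℕ}
  {D : Fin t → Submodule F (ι → F)}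

theorem plus_all_of (hQ : ND Q) (hn : 5 ≤ Fintype.card ι)
    (hD : Geo.IsOrthogonalMDecomposition ⇑Q k D) {i : Fin t} (hi : Geo.IsPlusTypeOn ⇑Q (D i))
    (j : Fin t) : Geo.IsPlusTypeOn ⇑Q (D j) := by
  obtain ⟨π, h⟩ := exists_oDc hQ hn hD
  exact (h ⊤ fun _ _ _ => trivial).plus_all hi j

theorem max_om_three (hQ : ND Q) (hn : 5 ≤ Fintype.card ι)
    (hD : Geo.IsOrthogonalMDecomposition ⇑Q k D) (hk : 3 ≤ k) (h3 : k = 3 → Nat.card F ≠ 3)
    (h3' : k = 3 → Nat.card F ≠ 2)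
    (h4 : k = 4 → Nat.card F = 2 → ∃ i, ¬ Geo.IsPlusTypeOn ⇑Q (D i)) :
    Geo.IsMaximalIn (Geo.omegaGL ⇑Q) (Geo.decompositionStabilizer D ⊓ Geo.omegaGL ⇑Q) := by
  have := Finite.one_lt_card (α := F)
  refine max_om_dc hQ hn hD fun π M h _ hg => h.of_three hk (fun e => ?_)
    (fun e e' i U hU hU' h5 => ?_) hg
  · have := h3 e
    have := h3' e
    omega
  · obtain ⟨j, hj⟩ := h4 e' e
    exact hj (h.plus_all (i := i) ⟨U, hU, hU', by rw [h5, h.rk, e']⟩ j)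

theorem max_om_blocks (hQ : ND Q) (hn : 10 ≤ Fintype.card ι)
    (hD : Geo.IsOrthogonalMDecomposition ⇑Q k D) (hk : 2 ≤ k) (h3 : k ≤ 3 → Nat.card F ≠ 3)
    (h3' : k = 3 → Nat.card F ≠ 2)
    (h2 : k = 2 → Nat.card F ≤ 5 → ∃ i, ¬ Geo.IsPlusTypeOn ⇑Q (D i))
    (h4 : k = 4 → Nat.card F = 2 → ∃ i, ¬ Geo.IsPlusTypeOn ⇑Q (D i)) :
    Geo.IsMaximalIn (Geo.omegaGL ⇑Q) (Geo.decompositionStabilizer D ⊓ Geo.omegaGL ⇑Q) := by
  rcases hk.eq_or_lt with rfl | hk
  · refine max_om_planes hQ hn hD ?_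
    by_cases e : Nat.card F ≤ 5
    · obtain ⟨j, hj⟩ := h2 rfl e
      exact Or.inl ⟨fun i hi => hj (plus_all_of hQ (by omega) hD hi j), h3 (by omega)⟩
    · have := card_ne_six (F := F)
      exact Or.inr (by omega)
  · exact max_om_three hQ (by omega) hD hk (fun e => h3 e.le) h3' h4

end Cfsg.Agent.Max
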