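import Mathlib
import Cfsg.Agent.Max.OFrame

/-!
# Stabilisers of orthogonal frames over prime fields in dimension five
-/

set_option autoImplicit false
set_option linter.unusedSectionVars false

namespace Cfsg.Agent.Max

open Module QuadraticMap Orth

section
variable {F V κ : Type*} [Field F] [AddCommGroup V] [Module F V] [Fintype κ] [DecidableEq κ]
  {Q : QuadraticForm F V} {e : Basis κ F V} {α : F} {M : Subgroup (OG Q)}

/-- An orthogonal frame whose stabiliser lies in `M`. -/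
structure OF5 (Q : QuadraticForm F V) (e : Basis κ F V) (α : F) (M : Subgroup (OG Q)) : Prop where
  nd : ND Q
  two : (2 : F) ≠ 0
  ne : α ≠ 0
  nat : ∀ c : F, ∃ n : ℕ, c = n
  q : ∀ i, Q (e i) = α
  orth : ∀ i j, i ≠ j → polar Q (e i) (e j) = 0
  le : ∀ g ∈ commutator (OG Q), g.1 ∈ mon e → g ∈ M

namespace OF5
variable (h : OF5 Q e α M) {a b c i j k l : κ} {u v w x y : V} {J : Finset κ}
include h

theorem pb (i : κ) (x : V) : polar Q (e i) x = 2 * α * e.repr x i := by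
  conv_lhs => rw [← e.sum_repr x]
  rw [p_sum_right, Finset.sum_eq_single i (fun j _ hj => by simp [h.orth _ _ hj.symm]) (by simp),
    p_smul_right, p_self, h.q]
  ring

theorem pol (x y : V) : polar Q x y = 2 * α * ∑ i, e.repr x i * e.repr y i := by
  conv_lhs => rw [← e.sum_repr x]
  rw [p_sum_left, Finset.mul_sum]
  exact Finset.sum_congr rfl fun i _ => by rw [p_smul_left, h.pb]; ring

theorem qq (x : V) : Q x = α * ∑ i, e.repr x i ^ 2 := mul_left_cancel₀ h.two (by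
  rw [← p_self, h.pol, mul_assoc]
  simp only [pow_two])

theorem q_pj (J : Finset κ) (x : V) : Q (pj e J x) = α * ∑ i ∈ J, e.repr x i ^ 2 := by
  simp [h.qq, repr_pj]

theorem orth_of (H : ∀ i, e.repr x i ≠ 0 → e.repr y i = 0) : polar Q x y = 0 := by
  rw [h.pol, Finset.sum_eq_zero fun i _ => ?_, mul_zero]
  by_cases hi : e.repr x i = 0 <;> simp [hi, H]

theorem pol_pj (J : Finset κ) (x : V) : polar Q (pj e J x) (x - pj e J x) = 0 :=
  h.orth_of fun i hi => by
    by_cases e : i ∈ J <;> simp_all [repr_pj]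

theorem q_sub_pj (J : Finset κ) (x : V) : Q (x - pj e J x) = Q x - Q (pj e J x) := by
  have := q_add Q (pj e J x) (x - pj e J x)
  rw [h.pol_pj, add_sub_cancel] at this
  linear_combination -this

theorem qb_ne (i : κ) : Q (e i) ≠ 0 := h.q i ▸ h.ne

theorem q_bsub (hij : i ≠ j) : Q (e i - e j) = 2 * α := by
  rw [q_sub, h.q, h.q, h.orth _ _ hij]
  ring

theorem q_badd (hij : i ≠ j) : Q (e i + e j) = 2 * α := by
  rw [q_add, h.q, h.q, h.orth _ _ hij]
  ring

theorem ne2 : 2 * α ≠ 0 := mul_ne_zero h.two h.ne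

theorem refl_b (i : κ) : (refl Q (e i)).1 = sg e {i} := e.ext' fun j => by
  rw [sgn_basis]
  split_ifs with hj
  · rw [Finset.mem_singleton.mp hj, refl_apply_self (h.qb_ne i)]
  · exact refl_apply_of_orth (h.orth _ _ fun e => hj (by simp [e]))

theorem refl_bsub (hij : i ≠ j) : (refl Q (e i - e j)).1 = pm e (Equiv.swap i j) :=
  e.ext' fun k => by
    rw [pm_basis, refl_apply, h.q_bsub hij, polar_sub_left, h.pb, h.pb, ← mul_sub,
      inv_mul_cancel_left₀ h.ne2, repr_basis, repr_basis, Equiv.swap_apply_def]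
    split_ifs <;> simp_all

theorem refl_badd (hij : i ≠ j) :
    refl Q (e i + e j) = refl Q (e j) * refl Q (e i - e j) * refl Q (e j) := by
  have := refl_conj (refl Q (e j)) (e i - e j)
  rwa [refl_inv, map_sub, refl_apply_self (h.qb_ne j), refl_apply_of_orth (h.orth _ _ hij.symm),
    sub_neg_eq_add, eq_comm] at this

variable [FiniteDimensional F V]

theorem mon_b (i : κ) : (refl Q (e i)).1 ∈ mon e := h.refl_b i ▸ sg_mem _

theorem mon_s (hij : i ≠ j) : (refl Q (e i - e j)).1 ∈ mon e := h.refl_bsub hij ▸ pm_mem _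

theorem rr (i j : κ) : refl Q (e i) * refl Q (e j) ∈ M :=
  h.le _ (h.nd.refl_mul_refl_mem_commutator (h.qb_ne i) ((h.q i).trans (h.q j).symm))
    (mul_mem (h.mon_b i) (h.mon_b j))

theorem ss (hij : i ≠ j) (hkl : k ≠ l) : refl Q (e i - e j) * refl Q (e k - e l) ∈ M :=
  h.le _ (h.nd.refl_mul_refl_mem_commutator (h.q_bsub hij ▸ h.ne2)
    ((h.q_bsub hij).trans (h.q_bsub hkl).symm)) (mul_mem (h.mon_s hij) (h.mon_s hkl))

theorem ts (hij : i ≠ j) (hkl : k ≠ l) : refl Q (e i + e j) * refl Q (e k - e l) ∈ M :=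
  h.le _ (h.nd.refl_mul_refl_mem_commutator (h.q_badd hij ▸ h.ne2)
    ((h.q_badd hij).trans (h.q_bsub hkl).symm)) (mul_mem (by
      rw [h.refl_badd hij]
      exact mul_mem (mul_mem (h.mon_b j) (h.mon_s hij)) (h.mon_b j)) (h.mon_s hkl))

omit [FiniteDimensional F V] in
theorem fix_b (hi : e.repr x i = 0) : (refl Q (e i)).1 x = x :=
  refl_apply_of_orth (by rw [h.pb, hi, mul_zero])

omit [FiniteDimensional F V] in
theorem fix_s (hi : e.repr x i = e.repr x j) : (refl Q (e i - e j)).1 x = x :=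
  refl_apply_of_orth (by rw [polar_sub_left, h.pb, h.pb, hi, sub_self])

variable [Finite F]

omit [FiniteDimensional F V] in
theorem exists_sing3 (hab : a ≠ b) (hac : a ≠ c) (hbc : b ≠ c) : ∃ u, Q u = 0 ∧
    e.repr u c = 1 ∧ ∀ i, e.repr u i ≠ 0 → i ∈ ({a, b, c} : Finset κ) := by
  obtain ⟨s, t, H⟩ := exists_binary_eq h.two one_ne_zero one_ne_zero (-1)
  refine ⟨s • e a + t • e b + e c, ?_, by simp [repr_basis, hac, hbc], fun i hi => ?_⟩
  · simp only [q_add, q_smul, h.q, polar_add_left, p_smul_left, p_smul_right, h.orth _ _ hab,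
      h.orth _ _ hac, h.orth _ _ hbc]
    linear_combination α * H
  · by_contra hc
    simp only [Finset.mem_insert, Finset.mem_singleton, not_or] at hc
    simp [repr_basis, Ne.symm hc.1, Ne.symm hc.2.1, Ne.symm hc.2.2] at hi

omit [Finite F] in
theorem rf_of (hv : Q v = α) (H : refl Q v * refl Q (e i) ∈ M) : RF e α M v := ⟨hv, fun j => by
  simpa [mul_assoc, refl_cancel] using mul_mem H (h.rr i j)⟩

omit [Finite F] in
theorem rf_b (i : κ) : RF e α M (e i) := ⟨h.q i, h.rr i⟩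

omit h [Finite F] [FiniteDimensional F V] [DecidableEq κ] in
theorem rf_mul (i : κ) (hv : RF e α M v) (hw : RF e α M w) : refl Q v * refl Q w ∈ M := by
  simpa [mul_assoc, refl_cancel] using mul_mem (hv.2 i) (inv_mem (hw.2 i))

omit h [Finite F] [FiniteDimensional F V] [DecidableEq κ] in
theorem rf_refl (hv : RF e α M v) (hw : RF e α M w) : RF e α M ((refl Q w).1 v) :=
  ⟨(OG.map_Q _ _).trans hv.1, fun i => by
    rw [← refl_conj, refl_inv, mul_assoc]
    exact mul_mem (rf_mul i hw hv) (hw.2 i)⟩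

omit [Finite F] in
theorem rf_sg (hv : RF e α M v) (J : Finset κ) : RF e α M (sg e J v) := by
  induction J using Finset.induction_on with
  | empty => convert hv; exact e.ext_elem fun i => by simp
  | insert i J hi ih =>
    convert rf_refl ih (h.rf_b i) using 1
    refine e.ext_elem fun j => ?_
    simp only [h.refl_b, repr_sgn, Finset.mem_insert, Finset.mem_singleton]
    by_cases h1 : j = i <;> simp [h1, hi]

omit [Finite F] in
theorem conj_rf (hv : RF e α M v) {g : OG Q} (hg : g ∈ commutator (OG Q)) (hg' : g.1 ∈ mon e)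
    (i : κ) : refl Q v * g * refl Q v ∈ M := by
  have := h.le _ (Subgroup.Normal.conj_mem inferInstance g hg (refl Q (e i)))
    (mul_mem (mul_mem (h.mon_b i) hg') (inv_mem (h.mon_b i)))
  simpa [mul_assoc, refl_cancel] using
    mul_mem (mul_mem (hv.2 i) this) (inv_mem (hv.2 i))

omit [Finite F] [FiniteDimensional F V] in
theorem subfield (K : Subfield F) : K = ⊤ := eq_top_iff.mpr fun c _ => by
  obtain ⟨n, rfl⟩ := h.nat c
  exact natCast_mem K n

omit h [Finite F] [FiniteDimensional F V] in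
theorem oe_of_full {n : V} (H : ∀ a b : V, (∃ x y s : F, a = x • v + y • w + s • n) →
    (∃ x y s : F, b = x • v + y • w + s • n) → Q a ≠ 0 → Q a = Q b → refl Q a * refl Q b ∈ M)
    (hu : Q u = 0) (h1 : polar Q u y = 0) (h2 : Q y ≠ 0) (h3 : ∃ x y s : F, u = x • v + y • w + s • n)
    (h4 : ∃ x z s : F, y = x • v + z • w + s • n) : y ∈ OE M u := ⟨h1, fun c => by
  by_cases hc : c = 0
  · simp [hc]
  have h5 : Q (c • y) ≠ 0 := by
    rw [q_smul]
    exact mul_ne_zero (pow_ne_zero 2 hc) h2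
  have h6 : polar Q u (c • y) = 0 := by rw [p_smul_right, h1, mul_zero]
  rw [eich_eq_refl_mul_refl hu h6 h5]
  refine H _ _ ?_ ?_ h5 (q_sub_smul_eich hu h6 _).symm
  · obtain ⟨x, z, s, rfl⟩ := h4
    exact ⟨c * x, c * z, c * s, by module⟩
  · generalize Q (c • y) = d
    obtain ⟨x, z, s, rfl⟩ := h4
    obtain ⟨x', z', s', rfl⟩ := h3
    exact ⟨c * x - d * x', c * z - d * z', c * s - d * s', by module⟩⟩

omit [Finite F] in
theorem exists_rot (hij : i ≠ j) (hik : i ≠ k) (hil : i ≠ l) (hjk : j ≠ k) (hjl : j ≠ l)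
    (hkl : k ≠ l) : ∃ ρ ∈ commutator (OG Q), ρ.1 ∈ mon e ∧ ∀ x, e.repr (ρ.1 x) i = e.repr x j ∧
      e.repr (ρ.1 x) j = -e.repr x i ∧ e.repr (ρ.1 x) k = e.repr x l ∧
      e.repr (ρ.1 x) l = -e.repr x k ∧
      ∀ m, m ∉ ({i, j, k, l} : Finset κ) → e.repr (ρ.1 x) m = e.repr x m := by
  refine ⟨refl Q (e i - e j) * refl Q (e k - e l) * (refl Q (e i) * refl Q (e k)), mul_mem
    (h.nd.refl_mul_refl_mem_commutator (h.q_bsub hij ▸ h.ne2)
      ((h.q_bsub hij).trans (h.q_bsub hkl).symm))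
    (h.nd.refl_mul_refl_mem_commutator (h.qb_ne i) ((h.q i).trans (h.q k).symm)),
    mul_mem (mul_mem (h.mon_s hij) (h.mon_s hkl)) (mul_mem (h.mon_b i) (h.mon_b k)), fun x => ?_⟩
  simp only [OG.mul_apply, h.refl_b, h.refl_bsub hij, h.refl_bsub hkl, repr_pm, repr_sgn,
    Equiv.symm_swap, Equiv.swap_apply_def, Finset.mem_singleton, Finset.mem_insert, not_or]
  refine ⟨?_, ?_, ?_, ?_, fun m hm => ?_⟩ <;> simp [*, Ne.symm]

theorem full (h3 : (3 : F) ≠ 0) (hv : RF e α M v) (hij : i ≠ j)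
    (hik : i ≠ k) (hil : i ≠ l) (hjk : j ≠ k) (hjl : j ≠ l) (hkl : k ≠ l)
    (hc : c ∉ ({i, j, k, l} : Finset κ)) (hall : ∀ m, m ∉ ({i, j, k, l} : Finset κ) → m = c)
    (vc : e.repr v c ≠ 0) (vc1 : e.repr v c ^ 2 ≠ 1) (vc2 : 2 * e.repr v c ^ 2 ≠ 1) :
    ∃ w w' : V, v = w + e.repr v c • e c ∧ e.repr w c = 0 ∧ e.repr w' c = 0 ∧
      e.repr w' i = e.repr v j ∧ e.repr w' j = -e.repr v i ∧ e.repr w' k = e.repr v l ∧
      e.repr w' l = -e.repr v k ∧ polar Q w w' = 0 ∧ Q w' = Q w ∧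
      Q w = α * (1 - e.repr v c ^ 2) ∧ ∀ a b : V, (∃ x y s : F, a = x • w + y • w' + s • e c) →
        (∃ x y s : F, b = x • w + y • w' + s • e c) → Q a ≠ 0 → Q a = Q b →
        refl Q a * refl Q b ∈ M := by
  set I : Finset κ := {i, j, k, l} with hI
  obtain ⟨ρ, ρ1, ρ2, ρ3⟩ := h.exists_rot hij hik hil hjk hjl hkl
  rw [← hI] at ρ3
  obtain ⟨n, hn⟩ : ∃ n, n = e.repr v c • e c := ⟨_, rfl⟩
  obtain ⟨w, hw⟩ : ∃ w, w = v - n := ⟨_, rfl⟩
  have hvv : v = w + n := by simp [hw]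
  have n1 : ∀ m ∈ I, e.repr n m = 0 := fun m hm => by
    simp [hn, repr_basis, show c ≠ m from fun e => hc (e ▸ hm)]
  have wc : e.repr w c = 0 := by simp [hw, hn]
  have w1 : ∀ m, m ∉ I → e.repr w m = 0 := fun m hm => hall m hm ▸ wc
  have w3 : ∀ m ∈ I, e.repr w m = e.repr v m := fun m hm => by simp [hw, n1 m hm]
  have wn : polar Q w n = 0 := by rw [hn, p_smul_right, polar_comm, h.pb, wc]; simp
  have hq : Q n = α * e.repr v c ^ 2 := by rw [hn, q_smul, h.q, mul_comm]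
  have hq' : Q w = α * (1 - e.repr v c ^ 2) := by
    have := hv.1
    rw [hvv, q_add, wn, hq] at this
    linear_combination this
  have w0 : Q w ≠ 0 := hq' ▸ mul_ne_zero h.ne (sub_ne_zero.mpr vc1.symm)
  have n0 : Q n ≠ 0 := hq ▸ mul_ne_zero h.ne (pow_ne_zero 2 vc)
  have w2 : ∀ m, m ∉ I → e.repr (ρ.1 w) m = 0 := fun m hm => ((ρ3 w).2.2.2.2 m hm).trans (w1 m hm)
  have cs : ∀ {x y : V}, e.repr x i = e.repr y i → e.repr x j = e.repr y j →
      e.repr x k = e.repr y k → e.repr x l = e.repr y l →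
      (∀ m, m ∉ I → e.repr x m = e.repr y m) → x = y := fun h1 h2 h3 h4 h5 =>
    e.ext_elem fun m => by
      by_cases hm : m ∈ I
      · simp only [hI, Finset.mem_insert, Finset.mem_singleton] at hm
        rcases hm with rfl | rfl | rfl | rfl <;> assumption
      · exact h5 m hm
  have r1 : ρ.1 (ρ.1 w) = -w := cs (by simp [ρ3]) (by simp [ρ3]) (by simp [ρ3]) (by simp [ρ3])
    fun m hm => by simp [ρ3, hm, w1]
  have r2 : ρ.1 n = n := cs (by simp [ρ3, n1, hI]) (by simp [ρ3, n1, hI]) (by simp [ρ3, n1, hI])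
    (by simp [ρ3, n1, hI]) fun m hm => by simp [ρ3, hm]
  have o1 : polar Q w (ρ.1 w) = 0 := mul_left_cancel₀ h.two (by
    have := OG.map_polar ρ w (ρ.1 w)
    rw [r1, polar_neg_right, polar_comm] at this
    linear_combination -this)
  have o2 : polar Q (ρ.1 w) n = 0 := by rw [← r2, OG.map_polar, wn]
  have q1 : Q (w + ρ.1 w) = 2 * Q w := by
    rw [q_add, o1, OG.map_Q]
    ring
  have a1 : (refl Q (w + ρ.1 w)).1 w = -ρ.1 w := by
    rw [refl_apply, q1, polar_add_left, p_self, polar_comm, o1, add_zero,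
      inv_mul_cancel₀ (mul_ne_zero h.two w0)]
    simp
  have a2 : (refl Q (w + ρ.1 w)).1 (ρ.1 w) = -w := by
    rw [refl_apply, q1, polar_add_left, p_self, o1, zero_add, OG.map_Q,
      inv_mul_cancel₀ (mul_ne_zero h.two w0)]
    simp
  set A := refl Q (w + ρ.1 w) * refl Q w with hA
  have z1 : (A⁻¹ * ρ).1 w = w := by
    rw [OG.mul_apply, show ρ.1 w = A.1 w by
      rw [hA, OG.mul_apply, refl_apply_self w0, map_neg, a1, neg_neg], OG.inv_apply_self]
  have z2 : (A⁻¹ * ρ).1 (ρ.1 w) = ρ.1 w := by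
    rw [OG.mul_apply, show ρ.1 (ρ.1 w) = A.1 (ρ.1 w) by
      rw [hA, OG.mul_apply, refl_apply_of_orth o1, a2, r1], OG.inv_apply_self]
  have z3 : (A⁻¹ * ρ).1 n = n := by
    rw [OG.mul_apply, show ρ.1 n = A.1 n by
      rw [hA, OG.mul_apply, refl_apply_of_orth wn, refl_apply_of_orth (by
        rw [polar_add_left, wn, o2, add_zero]), r2], OG.inv_apply_self]
  have z4 : A * (A⁻¹ * ρ) = (A⁻¹ * ρ) * A := by
    rw [eq_comm, ← mul_inv_eq_iff_eq_mul, hA, ← conj_mul, refl_conj, refl_conj, map_add, z1, z2]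
  have z5 : refl Q (ρ.1 w) * refl Q w = A * A := by
    have := refl_conj (refl Q (w + ρ.1 w)) w
    rw [a1, refl_neg, refl_inv] at this
    rw [hA, ← this]
    simp only [mul_assoc]
  obtain ⟨L, L1, L2, L3⟩ := exists_ext M (refl_mul_self (Q := Q) v)
  have hρ : ρ ∈ L := L3 _ (h.le _ ρ1 ρ2) (h.conj_rf hv ρ1 ρ2 i)
  have hvv' : v = (1 : F) • w + (0 : F) • ρ.1 w + (1 : F) • n := by simpa using hvv
  have full := fun a b => o3 (w := w) (w' := ρ.1 w) (n := n) (x := 1) (y := 0) (s := 1) (c := 1)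
    (S := {1}) (C := {A⁻¹ * ρ, A⁻¹ * ρ * (A⁻¹ * ρ)}) (a := a) (b := b) h.two
    ⟨2, h.two, fun e => h3 (by linear_combination e)⟩ w0 (by simpa) n0 o1 wn o2 L1
    (by simp [mul_assoc]) (by
      rintro _ (rfl | rfl)
      · exact ⟨z1, z2, z3⟩
      · simp only [OG.mul_apply (A⁻¹ * ρ), z1, z2, z3, and_self])
    (hvv' ▸ L2 _ (by simp) (by simp)) (by rw [← hvv', hv.1]; exact h.ne)
    ⟨_, Or.inr rfl, by
      rw [z5, (show Commute A (A⁻¹ * ρ) from z4).mul_mul_mul_comm]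
      simpa using mul_mem hρ hρ⟩
    (by
      rintro _ rfl
      exact ⟨by simpa [← two_mul] using mul_ne_zero h.two w0, _, Or.inl rfl, by simpa [← hA]⟩)
    rfl one_ne_zero one_ne_zero (by simpa) (fun _ e => vc2 (mul_left_cancel₀ h.ne (by
      rw [hq, hq'] at e
      linear_combination e))) (fun K _ => h.subfield K)
  have tr : ∀ a : V, (∃ x y s : F, a = x • w + y • ρ.1 w + s • e c) →
      ∃ x y s : F, a = x • w + y • ρ.1 w + s • n := fun a ⟨x, y, s, ha⟩ =>
    ⟨x, y, s / e.repr v c, by rw [ha, hn, smul_smul, div_mul_cancel₀ _ vc]⟩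
  exact ⟨w, ρ.1 w, hn ▸ hvv, wc, w2 c hc, by simp [ρ3, w3, hI], by simp [ρ3, w3, hI],
    by simp [ρ3, w3, hI], by simp [ρ3, w3, hI], o1, OG.map_Q _ _, hq',
    fun a b ha hb => full a b (tr a ha) (tr b hb)⟩

end OF5
end

theorem of5_ex3 : ∀ c i k : Fin 5, c ≠ i → c ≠ k → i ≠ k → ∃ j l : Fin 5, i ≠ j ∧ i ≠ l ∧ j ≠ k ∧
    j ≠ l ∧ k ≠ l ∧ c ∉ ({i, j, k, l} : Finset (Fin 5)) ∧
    ∀ m, m ∉ ({i, j, k, l} : Finset (Fin 5)) → m = c := by decide

theorem of5_ex2 : ∀ c i : Fin 5, ∃ k : Fin 5, c ≠ k ∧ i ≠ k := by decide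

variable {F V : Type*} [Field F] [AddCommGroup V] [Module F V]
  {Q : QuadraticForm F V} {e : Basis (Fin 5) F V} {α : F} {M : Subgroup (OG Q)}
  [FiniteDimensional F V] [Finite F]

namespace OF5
variable (h : OF5 Q e α M) {a b c i j k l : Fin 5} {u v w x y : V}
include h

theorem eng (hx : Q x = 0) (hx0 : x ≠ 0) (xc : e.repr x c = 0) (hy : e c ∈ OE M x) :
    commutator (OG Q) ≤ M := by
  obtain ⟨i, hi⟩ := exists_repr_ne (e := e) hx0
  have hci : c ≠ i := fun e => hi (e ▸ xc)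
  have A : ∀ {i j k l : Fin 5}, i ≠ j → i ≠ k → i ≠ l → j ≠ k → j ≠ l → k ≠ l →
      c ∉ ({i, j, k, l} : Finset (Fin 5)) → (∀ m, m ∉ ({i, j, k, l} : Finset (Fin 5)) → m = c) →
      e.repr x j • e i - e.repr x i • e j + (e.repr x l • e k - e.repr x k • e l) ∈ OE M x :=
    fun {i j k l} hij hik hil hjk hjl hkl hc hall => by
      obtain ⟨ρ, ρ1, ρ2, ρ3⟩ := h.exists_rot hij hik hil hjk hjl hkl
      have hc' := hc
      simp only [Finset.mem_insert, Finset.mem_singleton, not_or] at hc'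
      have cs : ∀ {x y : V}, e.repr x i = e.repr y i → e.repr x j = e.repr y j →
          e.repr x k = e.repr y k → e.repr x l = e.repr y l → e.repr x c = e.repr y c → x = y :=
        fun h1 h2 h3 h4 h5 => e.ext_elem fun m => by
          by_cases hm : m ∈ ({i, j, k, l} : Finset (Fin 5))
          · simp only [Finset.mem_insert, Finset.mem_singleton] at hm
            rcases hm with rfl | rfl | rfl | rfl <;> assumption
          · exact hall m hm ▸ h5
      have r1 : ρ.1 (e c) = e c := cs (by simp [ρ3, repr_basis, hc']) (by simp [ρ3, repr_basis, hc'])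
        (by simp [ρ3, repr_basis, hc']) (by simp [ρ3, repr_basis, hc']) ((ρ3 _).2.2.2.2 c hc)
      have r2 : ρ.1 x = e.repr x j • e i - e.repr x i • e j +
          (e.repr x l • e k - e.repr x k • e l) :=
        cs (by simp [ρ3, repr_basis, *, Ne.symm]) (by simp [ρ3, repr_basis, *, Ne.symm])
          (by simp [ρ3, repr_basis, *, Ne.symm]) (by simp [ρ3, repr_basis, *, Ne.symm])
          (by rw [(ρ3 _).2.2.2.2 c hc]; simp [repr_basis, *, Ne.symm])
      have h1 : polar Q (ρ.1 x) (e c) = 0 := by rw [← r1, OG.map_polar, hy.1]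
      have := OE.grow hy (u := ρ.1 x) (b := e c) ((OG.map_Q _ _).trans hx)
        (r1 ▸ OE.map hy (h.le _ ρ1 ρ2)) (by
          rw [r2]
          simp only [polar_add_left, polar_sub_left, p_smul_left, h.pb]
          ring) (polar_comm Q x _ ▸ hy.1)
      rwa [h1, mul_zero, sub_zero, zero_smul, sub_zero, p_self, h.q,
        (OE M x).smul_mem_iff h.ne2, r2] at this
  have B : ∀ j, c ≠ j → e.repr x j • e i - e.repr x i • e j ∈ OE M x := fun j hcj => by
    by_cases hij : i = j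
    · simp [hij]
    obtain ⟨k, l, h1, h2, h3, h4, h5, h6, h7⟩ := of5_ex3 c i j hci hcj hij
    have e1 : ({i, j, k, l} : Finset (Fin 5)) = {i, k, j, l} := by
      rw [Finset.insert_comm j]
    have e2 : ({i, j, l, k} : Finset (Fin 5)) = {i, k, j, l} := by
      rw [Finset.pair_comm l, Finset.insert_comm j]
    refine ((OE M x).smul_mem_iff h.two).mp ?_
    convert add_mem (A hij h1 h2 h3.symm h5 h4 (e1 ▸ h6) (e1 ▸ h7))
      (A hij h2 h1 h5 h3.symm h4.symm (e2 ▸ h6) (e2 ▸ h7)) using 1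
    module
  have h6 : OP M x := ⟨hx, fun v hv => by
    have h1 : ∑ j, e.repr x j * e.repr v j = 0 := by
      rw [h.pol] at hv
      exact (mul_eq_zero.mp hv).resolve_left h.ne2
    have h2 : ∑ j, e.repr v j • (e.repr x j • e i - e.repr x i • e j) ∈ OE M x :=
      Submodule.sum_mem _ fun j _ => Submodule.smul_mem _ _ (by
        by_cases hcj : c = j
        · rw [← hcj, xc, zero_smul, zero_sub]
          exact neg_mem (Submodule.smul_mem _ _ hy)
        · exact B j hcj)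
    simp only [smul_sub, Finset.sum_sub_distrib, smul_smul, ← Finset.sum_smul,
      mul_comm (e.repr v _), h1, zero_smul, zero_sub, neg_mem_iff] at h2
    simp only [mul_smul, ← Finset.smul_sum, e.sum_repr] at h2
    exact ((OE M x).smul_mem_iff hi).mp h2⟩
  refine om_le_of_pair h.nd (by rw [finrank_eq_card_basis e]; simp) h6 (h6.map (h.rr i c)) ?_
  rw [OG.mul_apply, h.fix_b xc, refl_apply, polar_sub_right, p_self, hx,
    p_smul_right, polar_comm Q x, h.pb, h.q]
  simp [h.ne, h.two, hi]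

theorem one (hv : RF e α M v) (h1 : e.repr v c ^ 2 = 1) (hv' : ¬ FV e v) :
    commutator (OG Q) ≤ M := by
  have vc : e.repr v c ≠ 0 := fun e => by simp [e] at h1
  obtain ⟨u, hu⟩ : ∃ u, u = v - e.repr v c • e c := ⟨_, rfl⟩
  have uc : e.repr u c = 0 := by simp [hu]
  have h2 : polar Q u (e c) = 0 := by rw [polar_comm, h.pb, uc, mul_zero]
  have h3 : Q u = 0 := by
    rw [hu, q_sub, q_smul, p_smul_right, polar_comm, h.pb, h.q, hv.1]
    linear_combination -α * h1
  have h4 : polar Q u v = 0 := by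
    rw [show v = u + e.repr v c • e c by simp [hu], polar_add_right, p_self, p_smul_right, h2, h3]
    simp
  have hu' : Q ((2 / α) • u) = 0 := by rw [q_smul, h3, mul_zero]
  have h1' : polar Q ((2 / α) • u) v = 0 := by rw [p_smul_left, h4, mul_zero]
  have h5 : eich Q ((2 / α) • u) v ∈ M := by
    rw [eich_eq_refl_mul_refl hu' h1' (hv.1 ▸ h.ne)]
    convert rf_mul c hv (h.rf_sg hv {c}ᶜ) using 3
    refine e.ext_elem fun j => ?_
    have := h.ne
    by_cases hj : j = c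
    · simp [hj, uc]
    · simp [hu, repr_basis, hj, Ne.symm hj, hv.1]
      field_simp
      ring
  have h6 : v ∈ OE M u := OE.of_smul h3 (div_ne_zero h.two h.ne) ⟨h1', fun c => by
    obtain ⟨n, rfl⟩ := h.nat c
    induction n with
    | zero => simp
    | succ n ih =>
      rw [Nat.cast_succ, add_smul, one_smul,
        ← eich_mul hu' (by rw [p_smul_right, h1', mul_zero]) h1']
      exact mul_mem ih h5⟩
  refine h.eng h3 (fun e' => hv' ⟨c, fun j hj => ?_⟩) uc (((OE M u).smul_mem_iff vc).mp ?_)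
  · simpa [hu, repr_basis, Ne.symm hj] using congrArg (e.repr · j) e'
  · simpa [hu] using sub_mem h6 (OE.self h3)

theorem gen (h3 : (3 : F) ≠ 0) (H : ¬ commutator (OG Q) ≤ M) (hv : RF e α M v) (hv' : ¬ FV e v)
    (c : Fin 5) : e.repr v c = 0 ∨ 2 * e.repr v c ^ 2 = 1 := by
  by_contra hc
  push Not at hc
  obtain ⟨vc, vc2⟩ := hc
  have vc1 : e.repr v c ^ 2 ≠ 1 := fun e => H (h.one hv e hv')
  obtain ⟨i, hic, vi⟩ : ∃ m, m ≠ c ∧ e.repr v m ≠ 0 := by
    by_contra hc
    push Not at hc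
    exact hv' ⟨c, hc⟩
  have qw : ∀ {w w' : V}, e.repr w c = 0 → e.repr w' c = 0 → polar Q w w' = 0 → Q w' = Q w →
      ∀ x y s : F, Q (x • w + y • w' + s • e c) = (x ^ 2 + y ^ 2) * Q w + s ^ 2 * α :=
    fun {w w'} h1 h2 h4 h5 x y s => by
      rw [q_add, q_add, q_smul, q_smul, q_smul, p_smul_left, p_smul_right, p_smul_right, h4, h5,
        h.q, polar_comm, h.pb]
      simp [h1, h2]
      ring
  by_cases hs : IsSquare (-1 : F)
  · obtain ⟨ι, hι⟩ := hs
    obtain ⟨k, hck, hik⟩ := of5_ex2 c i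
    obtain ⟨j, l, hij, hil, hjk, hjl, hkl, hc, hall⟩ := of5_ex3 c i k hic.symm hck hik
    obtain ⟨w, w', -, wc, wc', -, -, -, -, o1, q1, q2, full⟩ :=
      h.full h3 hv hij hik hil hjk hjl hkl hc hall vc vc1 vc2
    have hu : Q ((1 : F) • w + ι • w') = 0 := by
      have := qw wc wc' o1 q1 1 ι 0
      rw [pow_two ι, ← hι] at this
      simpa using this
    refine H (h.eng (c := c) hu (fun e' => mul_ne_zero h.two
      (q2 ▸ mul_ne_zero h.ne (sub_ne_zero.mpr vc1.symm) : Q w ≠ 0) ?_) (by simp [wc, wc'])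
      (oe_of_full full hu (by rw [polar_comm, h.pb]; simp [wc, wc']) (h.qb_ne c)
        ⟨1, ι, 0, by simp⟩ ⟨0, 0, 1, by simp⟩))
    simpa [p_self, o1] using congrArg (polar Q w) e'
  have ss : ∀ x y : F, x ^ 2 + y ^ 2 = 0 → x = 0 := fun x y e => by_contra fun hx =>
    hs ⟨y / x, by field_simp; linear_combination -e⟩
  have e5 : (5 : F) ≠ 0 := fun e => hs ⟨2, by linear_combination -e⟩
  have e4 : (4 : F) ≠ 0 := fun e => mul_ne_zero h.two h.two (by linear_combination e)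
  obtain ⟨v', hv1, hv2, hv3, k, hck, hik, hv4⟩ : ∃ v', RF e α M v' ∧ e.repr v' c = e.repr v c ∧
      e.repr v' i ≠ 0 ∧ ∃ k, c ≠ k ∧ i ≠ k ∧ e.repr v' k ≠ 0 := by
    by_cases h0 : ∃ k, c ≠ k ∧ i ≠ k ∧ e.repr v k ≠ 0
    · exact ⟨v, hv, rfl, vi, h0⟩
    push Not at h0
    obtain ⟨k, hck, hik⟩ := of5_ex2 c i
    obtain ⟨j, l, hij, hil, hjk, hjl, hkl, hc, hall⟩ := of5_ex3 c i k hic.symm hck hik
    obtain ⟨w, w', hw, wc, wc', w1, w2, -, -, o1, q1, q2, full⟩ :=
      h.full h3 hv hij hik hil hjk hjl hkl hc hall vc vc1 vc2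
    have hcj : c ≠ j := fun e => hc (by simp [e])
    have w3 : ∀ m, c ≠ m → e.repr w m = e.repr v m := fun m hm => by
      conv_rhs => rw [hw]
      simp [repr_basis, hm]
    have hq : Q ((3 / 5 : F) • w + (4 / 5 : F) • w' + e.repr v c • e c) = α := by
      rw [qw wc wc' o1 q1, q2]
      field_simp
      ring
    refine ⟨_, h.rf_of (i := c) hq (full _ _ ⟨_, _, _, rfl⟩ ⟨0, 0, 1, by simp⟩ (hq ▸ h.ne)
      (hq.trans (h.q c).symm)), by simp [wc, wc'], ?_, j, hcj, hij, ?_⟩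
    · simp [repr_basis, hic.symm, w1, w3, h0 j hcj hij, h3, e5, vi]
    · simp [repr_basis, hcj, w2, w3, h0 j hcj hij, e4, e5, vi]
  rw [← hv2] at vc vc1 vc2
  clear hv hv' vi hv2
  obtain ⟨j, l, hij, hil, hjk, hjl, hkl, hc, hall⟩ := of5_ex3 c i k hic.symm hck hik
  obtain ⟨w, w', hw, wc, wc', w1, w2, w4, w5, o1, q1, q2, full⟩ :=
    h.full h3 hv1 hij hik hil hjk hjl hkl hc hall vc vc1 vc2
  have hcl : c ≠ l := fun e => hc (by simp [e])
  have w3 : ∀ m, c ≠ m → e.repr w m = e.repr v' m := fun m hm => by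
    conv_rhs => rw [hw]
    simp [repr_basis, hm]
  have N0 : e.repr v' i ^ 2 + e.repr v' j ^ 2 ≠ 0 := fun e => hv3 (ss _ _ e)
  obtain ⟨t, s, hts⟩ := exists_binary_eq h.two (div_ne_zero (sub_ne_zero.mpr vc1.symm) N0)
    one_ne_zero (1 - (1 - e.repr v' c ^ 2) / (e.repr v' i ^ 2 + e.repr v' j ^ 2))
  obtain ⟨x, hx⟩ : ∃ x, x = (e.repr v' i + t * e.repr v' j) /
    (e.repr v' i ^ 2 + e.repr v' j ^ 2) := ⟨_, rfl⟩
  obtain ⟨y, hy⟩ : ∃ y, y = (e.repr v' j - t * e.repr v' i) /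
    (e.repr v' i ^ 2 + e.repr v' j ^ 2) := ⟨_, rfl⟩
  have h1 : x * e.repr v' i + y * e.repr v' j = 1 := by
    rw [hx, hy]
    field_simp
    ring
  have h2 : x ^ 2 + y ^ 2 = (1 + t ^ 2) / (e.repr v' i ^ 2 + e.repr v' j ^ 2) := by
    rw [hx, hy]
    field_simp
    ring
  have hq : Q (x • w + y • w' + s • e c) = α := by
    rw [qw wc wc' o1 q1, q2, h2]
    linear_combination α * hts
  have h4 : e.repr (x • w + y • w' + s • e c) i = 1 := by
    simp [repr_basis, hic.symm, w1, w3, h1]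
  refine H (h.one (c := i) (h.rf_of (i := c) hq (full _ _ ⟨_, _, _, rfl⟩ ⟨0, 0, 1, by simp⟩
    (hq ▸ h.ne) (hq.trans (h.q c).symm))) (by rw [h4, one_pow]) fun hf => ?_)
  have h5 := hf.eq_zero (h4 ▸ one_ne_zero) hik.symm
  have h6 := hf.eq_zero (h4 ▸ one_ne_zero) hil.symm
  simp [repr_basis, hck, hcl, w3, w4, w5] at h5 h6
  have h7 : x ^ 2 + y ^ 2 ≠ 0 := fun e => by
    simp [ss x y e, ss y x (by linear_combination e)] at h1
  refine hv4 (ss _ (e.repr v' l) ((mul_eq_zero.mp ?_).resolve_left h7))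
  linear_combination (x * e.repr v' k + y * e.repr v' l) * h5 +
    (x * e.repr v' l - y * e.repr v' k) * h6

theorem fv_three (h3 : (3 : F) = 0) (H : ¬ commutator (OG Q) ≤ M) (hv : RF e α M v) :
    FV e v := by
  by_contra hv'
  have sq : ∀ c : F, c ≠ 0 → c ^ 2 = 1 := fun c hc => by
    obtain ⟨n, rfl⟩ := h.nat c
    have : (n : F) = ((n % 3 : ℕ) : F) := by
      conv_lhs => rw [← Nat.mod_add_div n 3]
      simp [h3]
    rw [this] at hc ⊢
    have : n % 3 < 3 := Nat.mod_lt _ (by norm_num)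
    interval_cases n % 3
    · simp at hc
    · simp
    · linear_combination h3
  obtain ⟨i, hi⟩ := exists_repr_ne (e := e) (ne_zero_of_Q_ne_zero (hv.1 ▸ h.ne))
  exact H (h.one hv (sq _ hi) hv')

theorem four_ne (h3 : (3 : F) ≠ 0) (H : ¬ commutator (OG Q) ≤ M)
    (hv : RF e α M v) (i : Fin 5) : 4 * e.repr v i ^ 2 ≠ 1 := fun h4 => by
  by_cases hv' : FV e v
  · have h5 : e.repr v i ≠ 0 := fun e => by simp [e] at h4
    have := hv.1
    rw [eq_smul_basis fun j hj => hv'.eq_zero h5 hj, q_smul, h.q] at this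
    exact mul_ne_zero h3 h.ne (by linear_combination α * h4 - 4 * this)
  · rcases h.gen h3 H hv hv' i with e | e
    · simp [e] at h4
    · exact one_ne_zero (α := F) (by linear_combination h4 - 2 * e)

theorem mon_of (H : ¬ commutator (OG Q) ≤ M) {g : OG Q}
    (key : ∀ v, RF e α M v → RF e α M (g.1 v)) : g.1 ∈ mon e := by
  refine mem_mon fun a => by_contra fun ha => ?_
  by_cases h3 : (3 : F) = 0
  · exact ha (h.fv_three h3 H (key _ (h.rf_b a)))
  have h6 := h.gen h3 H (key _ (h.rf_b a)) ha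
  obtain ⟨i, hi⟩ := exists_repr_ne (e := e) (x := g.1 (e a)) (by
    rw [Ne, OG.apply_eq_zero]
    exact e.ne_zero a)
  obtain ⟨k, hk⟩ : ∃ k, e.repr (g.1 (e a)) k = 0 := by
    by_contra hc
    push Not at hc
    have A := fun m => (h6 m).resolve_left (hc m)
    have B := (h.qq _).symm.trans (key _ (h.rf_b a)).1
    rw [Fin.sum_univ_five] at B
    exact mul_ne_zero h3 h.ne (by
      linear_combination 2 * B - α * (A 0 + A 1 + A 2 + A 3 + A 4))
  obtain ⟨b, hb⟩ : ∃ b, e.repr (g.1 (e b)) k ≠ 0 := by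
    by_contra hc
    push Not at hc
    have := repr_of_basis (e := e) (g := g.1) (l := k) (l' := k) (a := 0) (by simpa)
      ((g⁻¹).1 (e k))
    simp at this
  have hab : a ≠ b := fun e => hb (e ▸ hk)
  have h7 := (h6 i).resolve_left hi
  obtain ⟨s, hs⟩ : ∃ s, e.repr (g.1 (e a)) i = s := ⟨_, rfl⟩
  rw [hs] at hi h7
  have h8 : Q (s • (e a - e b)) = α := by
    rw [q_smul, h.q_bsub hab]
    linear_combination α * h7
  have h9 := key _ (h.rf_of (i := a) h8 (h.le _ (h.nd.refl_mul_refl_mem_commutator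
    (h8.trans_ne h.ne) (h8.trans (h.q a).symm)) (by
      rw [refl_smul hi]
      exact mul_mem (h.mon_s hab) (h.mon_b a))))
  have h10 := h.four_ne h3 H h9
  simp only [map_smul, map_sub, Finsupp.smul_apply, Finsupp.sub_apply, smul_eq_mul] at h10
  by_cases hb' : FV e (g.1 (e b))
  · refine h10 i ?_
    rw [hs, hb'.eq_zero hb fun e' : i = k => hi (by rw [← hs, e', hk])]
    linear_combination (2 * s ^ 2 + 1) * h7
  · have := (h.gen h3 H (key _ (h.rf_b b)) hb' k).resolve_left hb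
    refine h10 k ?_
    rw [hk]
    linear_combination 2 * s ^ 2 * this + h7

theorem exists_not_mon : ∃ g ∈ commutator (OG Q), g.1 ∉ mon e := by
  obtain ⟨u, hu, uc, hu'⟩ := h.exists_sing3 (a := 0) (b := 1) (c := 2) (by decide) (by decide)
    (by decide)
  have ud : e.repr u 3 = 0 := by_contra fun e => absurd (hu' 3 e) (by decide)
  have h1 : polar Q u (e 3) = 0 := by rw [polar_comm, h.pb, ud, mul_zero]
  refine ⟨eich Q u (e 3), h.nd.eich_mem_commutator (good_of_two_ne_zero h.two) _ _, fun hm => ?_⟩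
  have := (hm (e 3)).mp (FV.basis 3)
  rw [eich_apply hu h1, h1, h.pb] at this
  have hcd : (2 : Fin 5) ≠ 3 := by decide
  simpa [repr_basis, hcd.symm, uc, h.ne, h.two] using this.eq_zero (i := 3) (by simp [ud]) hcd

theorem main (hg : ∃ g ∈ M, g.1 ∉ mon e) : commutator (OG Q) ≤ M := by
  by_contra H
  obtain ⟨g, hg, hg'⟩ := hg
  obtain ⟨z, hz⟩ : ∃ z, z = refl Q (e 1) * refl Q (e 2) * (refl Q (e 3) * refl Q (e 4)) :=
    ⟨_, rfl⟩
  have h1 : z ∈ M := hz ▸ mul_mem (h.rr _ _) (h.rr _ _)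
  have h2 : ∀ x, (refl Q (e 0) * z).1 x = -x := fun x => e.ext_elem fun i => by
    simp only [hz, OG.mul_apply, h.refl_b, repr_sgn]
    fin_cases i <;> simp
  have h3 : g * (refl Q (e 0) * z) * g⁻¹ = refl Q (e 0) * z := OG.ext fun x => by
    rw [OG.mul_apply, OG.mul_apply g, h2, h2, map_neg, OG.apply_inv_self]
  refine hg' (h.mon_of H fun v hv => h.rf_of (i := 0) ((OG.map_Q _ _).trans hv.1) ?_)
  rw [← refl_conj, ← mul_mem_cancel_right h1, mul_assoc, ← h3, conj_mul, ← mul_assoc _ _ z]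
  exact mul_mem (mul_mem hg (mul_mem (hv.2 0) h1)) (inv_mem hg)

end OF5

theorem max_om_frame5 {F : Type*} [Field F] [Fintype F] {ι : Type} [Fintype ι] [DecidableEq ι]
    {Q : QuadraticForm F (ι → F)} {D : Fin 5 → Submodule F (ι → F)} (hQ : ND Q)
    (hp : (Fintype.card F).Prime) (hD : Geo.IsOrthogonalMDecomposition ⇑Q 1 D) :
    Geo.IsMaximalIn (Geo.omegaGL ⇑Q) (Geo.decompositionStabilizer D ⊓ Geo.omegaGL ⇑Q) := by
  obtain ⟨e, α, h2, h3, h4, h5, rfl⟩ := exists_oFr hD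
  have h : ∀ M : Subgroup (OG Q), (∀ g ∈ commutator (OG Q), g.1 ∈ mon e → g ∈ M) → OF5 Q e α M :=
    fun M hM => ⟨hQ, h3, h2, exists_nat_cast hp, h4, h5, hM⟩
  exact isMaximalIn_Om (· ∈ mon e) (fun g => mem_decStab g |>.trans mem_mon_iff.symm)
    (h ⊤ fun _ _ _ => trivial).exists_not_mon fun M hM _ => (h M hM).main

end Cfsg.Agent.Max
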