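import Mathlib
import Cfsg.Agent.Max.Un
import Cfsg.Agent.Max.SubSp

/-!
# Maximal subgroups of unitary groups: decompositions
-/

set_option autoImplicit false

namespace Cfsg.Agent.Max

open Module Herm

variable {F V : Type*} [Field F] [AddCommGroup V] [Module F V] [FiniteDimensional F V]
  {σ : F →+* F} {B : V →ₛₗ[σ] V →ₗ[F] F} {hB : HF B} {M : Subgroup (UG B)}

theorem UT.exists_diag {e f : V} (he : UT hB M e) (hf : UT hB M f) (hef : B e f = 1) {b : F}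
    (hb : σ b = b) (hb0 : b ≠ 0) : ∃ t ∈ M, t.1 e = b • e ∧ t.1 f = b⁻¹ • f ∧
      ∀ x, B e x = 0 → B f x = 0 → t.1 x = x := by
  have hfe := hB.one_symm hef
  have W : ∀ c : F, c ≠ 0 → c + σ c = 0 → ∃ t ∈ M, t.1 e = -c⁻¹ • f ∧ t.1 f = c • e ∧
      ∀ x, B e x = 0 → B f x = 0 → t.1 x = x := by
    intro c hc0 hc
    have hc' : -c⁻¹ + σ (-c⁻¹) = 0 := by
      rw [map_neg, map_inv₀, eq_neg_of_add_eq_zero_right hc]; simp
    refine ⟨hB.qr e c * hB.qr f (-c⁻¹) * hB.qr e c, mul_mem (mul_mem (he.2 _) (hf.2 _)) (he.2 _),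
      ?_, ?_, fun x h1 h2 => ?_⟩
    · simp [hB.tv_apply he.1 hc, hB.tv_apply hf.1 hc', he.1, hef, hfe, hc0]
    · simp [hB.tv_apply he.1 hc, hB.tv_apply hf.1 hc', he.1, hf.1, hef, hfe, hc0]
    · rw [UG.mul_apply, UG.mul_apply, hB.qr_apply_of_orth _ h1, hB.qr_apply_of_orth _ h2,
        hB.qr_apply_of_orth _ h1]
  obtain ⟨c, hc0, hc⟩ := hB.exists_skew
  obtain ⟨t1, ht1, h1, h2, h3⟩ := W c hc0 hc
  obtain ⟨t2, ht2, h4, h5, h6⟩ := W (-(b * c)) (by simp [hb0, hc0]) (by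
    rw [map_neg, map_mul, hb]; linear_combination (-b) * hc)
  refine ⟨t2 * t1, mul_mem ht2 ht1, ?_, ?_, fun x hx hx' => ?_⟩
  · rw [UG.mul_apply, h1, map_smul, h5, smul_smul]; congr 1; field_simp
  · rw [UG.mul_apply, h2, map_smul, h4, smul_smul]; congr 1; field_simp
  · rw [UG.mul_apply, h3 x hx hx', h6 x hx hx']

/-- Three transvection groups generate Eichler transformations. -/
theorem UT.ua_of_three {x f y : V} (hx : UT hB M x) (hf : UT hB M f) (hy : UT hB M y)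
    (hxf : B x f = 1) (hxy : B x y = 1) {b : F} (hb : σ b = b) (hb0 : b ≠ 0) :
    (b - 1) • (y - f) ∈ UA hB M x := by
  obtain ⟨h1, h2⟩ := mem_perp_pair.mp (hB.hyp_proj_mem hx.1 hf.1 hxf y)
  obtain ⟨z, hz⟩ : ∃ z, z = y - B f y • x - B x y • f := ⟨_, rfl⟩
  rw [← hz] at h1 h2
  have h3 : y = f + B f y • x + z := by rw [hz, hxy]; module
  generalize B f y = a at h3
  have h4 : -a + σ (-a) = B (-z) (-z) := by
    have := hy.1
    rw [h3] at this
    simp [hx.1, hf.1, hxf, hB.one_symm hxf, h1, h2, hB.zero_symm h1, hB.zero_symm h2] at this ⊢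
    linear_combination -this
  have h5 : B x (-z) = 0 := by simp [h1]
  have h6 : (hB.eich x (-z) (-a)).1 f = y := by
    rw [hB.eich_apply hx.1 h5 h4, h3]
    simp [hxf, hB.zero_symm h2]
  obtain ⟨t, ht, h7, -, h8⟩ := UT.exists_diag (hB := hB)
    (M := M ⊓ M.comap (MulAut.conj (hB.eich x (-z) (-a))).toMonoidHom) (e := x) (f := f)
    ⟨hx.1, fun s => ⟨hx.2 s, by simpa [hB.qr_conj, hB.eich_apply_left] using hx.2 s⟩⟩
    ⟨hf.1, fun s => ⟨hf.2 s, by simpa [hB.qr_conj, h6] using hy.2 s⟩⟩ hxf hb hb0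
  have h9 : hB.eich x (-z) (-a) * (t * (hB.eich x (-z) (-a))⁻¹ * t⁻¹) ∈ M := by
    have := mul_mem (Subgroup.mem_comap.mp (Subgroup.mem_inf.mp ht).2)
      (inv_mem (Subgroup.mem_inf.mp ht).1)
    rwa [MulEquiv.coe_toMonoidHom, MulAut.conj_apply, mul_assoc, mul_assoc, ← mul_assoc t] at this
  have h10 : σ (-a) + σ (σ (-a)) = B (- -z) (- -z) := by
    rw [hB.invol, add_comm, h4]
    simp
  have h11 : b * σ b * σ (-a) + σ (b * σ b * σ (-a)) = B (σ b • - -z) (σ b • - -z) := by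
    simp only [map_mul, hB.invol, b_smul_left, map_smul, smul_eq_mul, ← h10]
    ring
  rw [hB.eich_inv hx.1 h5 h4, hB.eich_conj, h7, h8 _ (by simp [h1]) (by simp [h2]),
    hB.eich_smul_left hx.1 (by simp [h1]) h10, hB.eich_mul hx.1 h5 h4 (by simp [h1]) h11] at h9
  have h12 : -z + σ b • - -z ∈ UA hB M x := ⟨by simp [h1], _, hB.trace_add h4 h11, h9⟩
  convert add_mem h12 (UA.self hx.1 ((b - 1) * a)) using 1
  rw [h3, hb]
  module

theorem exists_sq_ne (h : Inv σ) [Finite F] : ∃ a : F, a + σ a ≠ 0 ∧ a - σ a ≠ 0 := by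
  by_contra hc
  push Not at hc
  have : ∀ a : F, σ (a ^ 2) = a ^ 2 := fun a => by
    by_cases h1 : a + σ a = 0
    · rw [map_pow, eq_neg_of_add_eq_zero_right h1]; ring
    · rw [map_pow, ← sub_eq_zero.mp (hc a h1)]
  obtain ⟨t, ht⟩ := h.ne
  obtain ⟨x, y, rfl⟩ := exists_sq_sub_sq t
  exact ht (by rw [map_sub, this, this])

theorem UE.of_sq [Finite F] {x a : V} (h : ∀ c : F, c ≠ 0 → c ^ 2 • a ∈ UA hB M x) :
    a ∈ UE hB M x := fun c => by
  have h' : ∀ c : F, c ^ 2 • a ∈ UA hB M x := fun c => by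
    by_cases hc : c = 0
    · simp [hc]
    · exact h c hc
  obtain ⟨s, t, rfl⟩ := exists_sq_sub_sq c
  rw [sub_smul]
  exact sub_mem (h' s) (h' t)

theorem exists_diag_pair (hB : HF B) {p p' r r' : V} (h1 : B p p = 0) (h2 : B p' p' = 0)
    (h3 : B p p' = 1) (h4 : B r r = 0) (h5 : B r' r' = 0) (h6 : B r r' = 1) (h7 : B p r = 0)
    (h8 : B p' r = 0) {a : F} (ha : a ≠ 0) : ∃ g ∈ SUG B,
      (∀ W : Submodule F V, (p ∈ W ∧ p' ∈ W ∨ p ∈ perp B W ∧ p' ∈ perp B W) →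
        (r ∈ W ∧ r' ∈ W ∨ r ∈ perp B W ∧ r' ∈ perp B W) → ∀ x ∈ W, g.1 x ∈ W) ∧
      ∀ z, B p z = 0 → B r z = 0 → g.1 z = z + ((a - 1) * B p' z) • p + ((σ a - 1) * B r' z) • r := by
  have ha' : σ a ≠ 0 := by simpa using ha
  obtain ⟨g, hg, hg'⟩ := hB.exists_diag h1 h2 h3 ha
  obtain ⟨k, hk, hk'⟩ := hB.exists_diag h4 h5 h6 ha'
  have key : ∀ {p p' : V} {g : UG B} {c d : F}, (∀ x, g.1 x = x + (c * B p' x) • p + (d * B p x) • p') →
      ∀ W : Submodule F V, (p ∈ W ∧ p' ∈ W ∨ p ∈ perp B W ∧ p' ∈ perp B W) → ∀ x ∈ W, g.1 x ∈ W :=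
    fun hg W hW x hx => by
      rw [hg]
      rcases hW with hW | hW
      · exact W.add_mem (W.add_mem hx (W.smul_mem _ hW.1)) (W.smul_mem _ hW.2)
      · simpa [hB.mem_perp'.mp hW.1 x hx, hB.mem_perp'.mp hW.2 x hx] using hx
  refine ⟨g * k, ?_, fun W a1 a2 x hx => key hg' W a1 _ (key hk' W a2 x hx), fun z a1 a2 => ?_⟩
  · rw [mem_SUG, map_mul, Units.val_mul, hg, hk, hB.invol]
    field_simp
  · rw [UG.mul_apply, hk', hg']
    simp only [a1, a2, map_add, map_smul, h7, h8, smul_eq_mul]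
    module

variable [Finite F]

theorem un_exists_isom (hB : HF B) {U W : Submodule F V} (hU : NDU B U) (hW : NDU B W)
    (h : finrank F U = finrank F W) :
    ∃ g : UG B, (∀ x ∈ U, g.1 x ∈ W) ∧ ∀ x ∈ W, g.1.symm x ∈ U := by
  obtain ⟨b, hb⟩ := (hU.hf hB).exists_orthonormal h
  obtain ⟨c, hc⟩ := (hW.hf hB).exists_orthonormal rfl
  obtain ⟨g, hg⟩ := hB.witt_family (fun i => (b i : V)) (fun i => (c i : V))
    (b.linearIndependent.map' U.subtype U.ker_subtype)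
    (c.linearIndependent.map' W.subtype W.ker_subtype) fun i j => (hc i j).trans (hb i j).symm
  exact ⟨g, map_eq_of_basis b c g.1 hg⟩

variable {κ : Type*} [Fintype κ] {D : κ → Submodule F V} {π : κ → V →ₗ[F] V} {k : ℕ}

/-- An orthogonal decomposition whose stabiliser lies in `M`. -/
structure UDec (hB : HF B) (M : Subgroup (UG B)) (D : κ → Submodule F V) (π : κ → V →ₗ[F] V)
    (k : ℕ) : Prop where
  dec : IsDec D π
  rk : ∀ i, finrank F (D i) = k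
  nd : ∀ i, NDU B (D i)
  orth : ∀ i j, i ≠ j → ∀ x ∈ D i, ∀ y ∈ D j, B x y = 0
  le : ∀ g ∈ SUG B, PermD D g.1 → g ∈ M

namespace UDec
variable (h : UDec hB M D π k)
include h

omit [Finite F] in
theorem mem_or {i : κ} {a : V} (ha : a ∈ D i) (j : κ) : a ∈ D j ∨ a ∈ perp B (D j) := by
  by_cases hij : j = i
  · exact Or.inl (hij ▸ ha)
  · exact Or.inr (mem_perp.mpr fun w hw => h.orth j i hij w hw a ha)

omit [Finite F] in
theorem mem_or₂ {i : κ} {a b : V} (ha : a ∈ D i) (hb : b ∈ D i) (j : κ) :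
    (a ∈ D j ∧ b ∈ D j) ∨ (a ∈ perp B (D j) ∧ b ∈ perp B (D j)) := by
  by_cases hij : j = i
  · exact Or.inl (hij ▸ ⟨ha, hb⟩)
  · exact Or.inr ⟨mem_perp.mpr fun w hw => h.orth j i hij w hw a ha,
      mem_perp.mpr fun w hw => h.orth j i hij w hw b hb⟩

omit [Finite F] in
theorem ut {i : κ} {a : V} (ha : a ∈ D i) (h0 : B a a = 0) : UT hB M a :=
  ⟨h0, fun s => h.le _ (hB.tv_mem_SUG h0 s) (h.dec.permD_of_fix fun j _ =>
    qr_mem_sub hB (h.mem_or ha j) s)⟩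

omit [Finite F] in
theorem ue {i : κ} {x v : V} (hx : x ∈ D i) (hv : v ∈ D i) (h0 : B x v = 0) : v ∈ UE hB M x :=
  fun c => UA.of_forall (by simp [h0]) fun l => h.le _ (hB.eich_mem_SUG _ _ _)
    (h.dec.permD_of_fix fun j _ => ueich_mem_sub' hB (h.mem_or₂ hx ((D i).smul_mem c hv) j) l)

omit [Finite F] in
theorem diag {i j : κ} (hij : i ≠ j) {p p' r r' : V} (hp : p ∈ D i) (hp' : p' ∈ D i)
    (hr : r ∈ D j) (hr' : r' ∈ D j) (h1 : B p p = 0) (h2 : B p' p' = 0)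
    (h3 : B p p' = 1) (h4 : B r r = 0) (h5 : B r' r' = 0) (h6 : B r r' = 1) {a : F} (ha : a ≠ 0) :
    ∃ g ∈ M, ∀ z, B p z = 0 → B r z = 0 →
      g.1 z = z + ((a - 1) * B p' z) • p + ((σ a - 1) * B r' z) • r := by
  obtain ⟨g, hg, a1, a2⟩ := exists_diag_pair hB h1 h2 h3 h4 h5 h6 (h.orth i j hij _ hp _ hr)
    (h.orth i j hij _ hp' _ hr) ha
  exact ⟨g, h.le g hg (h.dec.permD_of_fix fun l => a1 _ (h.mem_or₂ hp hp' l) (h.mem_or₂ hr hr' l)),
    a2⟩

theorem swap {i j : κ} (hij : i ≠ j) : ∃ w ∈ M, (∀ y ∈ D j, ∃ x ∈ D i, w.1 x = y) ∧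
    ∀ k, k ≠ i → k ≠ j → ∀ x ∈ D k, w.1 x = x := by
  obtain ⟨g, h1, h2⟩ := un_exists_isom hB (h.nd i) (h.nd j) ((h.rk i).trans (h.rk j).symm)
  obtain ⟨w, a0, a1, a2, a3, a4⟩ := h.dec.exists_swap hij g.1 h1 h2
  refine ⟨⟨w, h.dec.isom h.orth a4 fun l x hx y hy => ?_⟩, h.le _ (mem_SUG.mpr (congrArg Units.val a0)) a4,
    fun y hy => ⟨_, h2 y hy, (a1 _ (h2 y hy)).trans (g.1.apply_symm_apply y)⟩, a3⟩
  by_cases hi : l = i
  · subst hi
    rw [a1 x hx, a1 y hy, UG.map_b]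
  by_cases hj : l = j
  · subst hj
    rw [a2 x hx, a2 y hy]
    simpa using UG.map_b g⁻¹ x y
  rw [a3 l hi hj x hx, a3 l hi hj y hy]

theorem fin (hn : 3 ≤ finrank F V) (hk : 2 ≤ k) {i : κ} {x z : V} (hx : x ∈ D i) (hx0 : x ≠ 0)
    (hx1 : B x x = 0) (hz : z ∈ UA hB M x) (hz' : z ∉ D i) : SUG B ≤ M := by
  obtain ⟨f, hf, hf1, hf2, -⟩ := (h.nd i).exists_hyp hB hx hx0 hx1
  obtain ⟨j, hj, hj'⟩ := h.dec.exists_of_not_mem hz'
  obtain ⟨a, ha, ha1, ha2⟩ := (h.nd j).exists_iso hB (by rw [h.rk]; exact hk)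
    (X := LinearMap.ker (B z)) fun e => hj' (h.nd j _ (h.dec.mem j z) fun y hy => by
      rw [h.dec.b_proj h.orth hy]
      exact hB.zero_symm (e hy))
  replace ha2 : B a z ≠ 0 := fun e => ha2 (hB.zero_symm e)
  obtain ⟨a', ha', ha3, ha4, -⟩ := (h.nd j).exists_hyp hB ha (ne_zero_of_b ha2) ha1
  obtain ⟨s, hs0, hs⟩ := hB.toInv.exists_skew
  have hax := h.orth j i hj a ha x hx
  have h1 := sub_mem (UA.map_fix hz ((h.ut ha ha1).2 s) (hB.qr_apply_of_orth s hax)) hz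
  rw [hB.tv_apply ha1 hs, add_sub_cancel_left] at h1
  have h2 : a ∈ UE hB M x := ((UE hB M x).smul_mem_iff (mul_ne_zero hs0 ha2)).mp (UE.of_sq
    fun c hc => by
      obtain ⟨g, hg, hg'⟩ := h.diag hj ha ha' hx hf ha1 ha3 ha4 hx1 hf1 hf2 hc
      have := UA.map_smul hx1 h1 hg (a := σ c) (by simpa using hc) (by
        rw [hg' x hax hx1, h.orth j i hj a' ha' x hx, hB.one_symm hf2]
        module)
      rw [map_smul, hg' a ha1 (hB.zero_symm hax), hB.one_symm ha4, h.orth i j hj.symm f hf a ha,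
        hB.invol] at this
      convert this using 1
      module)
  have h3 : D j ≤ UE hB M x := by
    refine ((h.nd j).iso_into hB (by rw [h.rk]; exact hk) (Y := perp B (UE hB M x))
      (fun _ hy _ hy' => mem_perp.mp hy' _ hy) fun b hb hb0 => ?_).resolve_right fun e => ?_
    · refine or_iff_not_imp_right.mpr fun e => ?_
      rw [hB.mem_perp'] at e
      push Not at e
      obtain ⟨y, hy, hy'⟩ := e
      exact (h.ut hb hb0).grow hy (h.orth j i hj b hb x hx) hy'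
    · simpa [ha4] using mem_perp.mp (e ha') a h2
  refine un_le_of_ut (hB := hB) hn ⟨hx1, fun y hy => UE.ua ?_⟩ (h.ut hf hf1)
    (by simp [hB.one_symm hf2])
  rw [← h.dec.sum y]
  refine Submodule.sum_mem _ fun l _ => ?_
  by_cases hl : l = i
  · exact h.ue hx (hl ▸ h.dec.mem l y) (by rwa [hl, h.dec.b_proj h.orth hx])
  by_cases hl' : j = l
  · exact h3 (hl' ▸ h.dec.mem j y)
  obtain ⟨w, hw, hw1, hw2⟩ := h.swap hl'
  obtain ⟨v, hv, e⟩ := hw1 _ (h.dec.mem l y)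
  exact e ▸ UE.map_fix (h3 hv) hw (hw2 i hj.symm (Ne.symm hl) x hx)

theorem exists_ut (hk : 2 ≤ k) (hg : ∃ g ∈ M, ¬ PermD D g.1) : ∃ y, UT hB M y ∧ ∀ j, y ∉ D j := by
  obtain ⟨g, hg, hg'⟩ := hg
  by_contra hc
  push Not at hc
  refine hg' (h.dec.permD_of h.rk (by omega) fun i => ?_)
  obtain ⟨e, he, he0, he1⟩ := herm_exists_iso hB (D i) (by rw [h.rk]; exact hk)
  obtain ⟨j, hj⟩ := hc _ ((h.ut he he1).map hg)
  refine ⟨j, ((h.nd i).iso_into hB (by rw [h.rk]; exact hk) (X := (D j).comap (g.1 : V →ₗ[F] V))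
    (Y := (perp B (D j)).comap (g.1 : V →ₗ[F] V)) (fun x hx y hy => ?_)
    fun a ha ha0 => ?_).resolve_right fun e' => he0 ?_⟩
  · rw [← UG.map_b g]
    exact mem_perp.mp hy _ hx
  · obtain ⟨l, hl⟩ := hc _ ((h.ut ha ha0).map hg)
    exact h.mem_or hl j
  · exact (UG.apply_eq_zero g).mp (h.nd j _ hj (mem_perp.mp (e' he)))

theorem of_fix (hn : 3 ≤ finrank F V) (hk : 2 ≤ k) {b : F} (hb : σ b = b) (hb0 : b ≠ 0)
    (hb1 : b ≠ 1) (hg : ∃ g ∈ M, ¬ PermD D g.1) : SUG B ≤ M := by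
  obtain ⟨y, hy, hy'⟩ := h.exists_ut hk hg
  obtain ⟨i, hi⟩ := h.dec.exists_ne_zero (x := y) (by
    rintro rfl
    obtain ⟨g, -, hg⟩ := hg
    rcases isEmpty_or_nonempty κ with e | ⟨⟨i⟩⟩
    · exact hg ⟨1, fun i => isEmptyElim i⟩
    · exact hy' i (zero_mem _))
  obtain ⟨x, hx, hx1, hx2⟩ := (h.nd i).exists_iso hB (by rw [h.rk]; exact hk)
    (X := LinearMap.ker (B y)) fun e => hi (h.nd i _ (h.dec.mem i y) fun z hz => by
      rw [h.dec.b_proj h.orth hz]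
      exact hB.zero_symm (e hz))
  replace hx2 : B x y ≠ 0 := fun e => hx2 (hB.zero_symm e)
  obtain ⟨f, hf, hf1, hf2, -⟩ := (h.nd i).exists_hyp hB hx (ne_zero_of_b hx2) hx1
  refine h.fin hn hk hx (ne_zero_of_b hx2) hx1 ((h.ut hx hx1).ua_of_three (h.ut hf hf1)
    (hy.smul (B x y)⁻¹) hf2 (by simp [hx2]) hb hb0) fun e => hy' i ?_
  rw [(D i).smul_mem_iff (sub_ne_zero.mpr hb1), (D i).sub_mem_iff_left hf] at e
  exact ((D i).smul_mem_iff (inv_ne_zero hx2)).mp e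

theorem of_noniso (hn : 3 ≤ finrank F V) (hk : 3 ≤ k) {y : V} (hy : UT hB M y) {i : κ}
    (hi : B (π i y) (π i y) ≠ 0) : SUG B ≤ M := by
  obtain ⟨x, ⟨hx, hx2⟩, hx0, hx1⟩ := herm_exists_iso hB (D i ⊓ LinearMap.ker (B y)) (by
    have := finrank_le_inf_ker (D i) (B y)
    rw [h.rk] at this
    omega)
  have h1 : B y (π i y) ≠ 0 := fun e => hi (by
    rw [h.dec.b_proj h.orth (h.dec.mem i y)]
    exact hB.zero_symm e)
  refine h.fin hn (by omega) hx hx0 hx1 (UE.ua (hy.grow (h.ue hx (h.dec.mem i y) (by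
    rw [h.dec.b_proj h.orth hx]
    exact hB.zero_symm hx2)) hx2 h1)) fun e => hi ?_
  rw [h.dec.of_mem e, hy.1]

theorem of_three (hn : 3 ≤ finrank F V) (hk : 3 ≤ k) (hg : ∃ g ∈ M, ¬ PermD D g.1) :
    SUG B ≤ M := by
  obtain ⟨y, hy, hy'⟩ := h.exists_ut (by omega) hg
  by_cases hc : ∃ i, B (π i y) (π i y) ≠ 0
  · obtain ⟨i, hi⟩ := hc
    exact h.of_noniso hn hk hy hi
  push Not at hc
  obtain ⟨i', -⟩ := h.dec.exists_ne_zero (x := y) (by
    rintro rfl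
    obtain ⟨g, -, hg⟩ := hg
    rcases isEmpty_or_nonempty κ with e | ⟨⟨i⟩⟩
    · exact hg ⟨1, fun i => isEmptyElim i⟩
    · exact hy' i (zero_mem _))
  obtain ⟨i, -, hi⟩ := h.dec.exists_of_not_mem (hy' i')
  obtain ⟨j, hji, hj⟩ := h.dec.exists_of_not_mem (hy' i)
  have hp := h.dec.mem i y
  have hr := h.dec.mem j y
  obtain ⟨p', hp', a1, a2, -⟩ := (h.nd i).exists_hyp hB hp hi (hc i)
  obtain ⟨r', hr', a3, a4, -⟩ := (h.nd j).exists_hyp hB hr hj (hc j)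
  obtain ⟨a, ha1, ha2⟩ := exists_sq_ne hB.toInv
  have ha : a ≠ 0 := by rintro rfl; simp at ha1
  obtain ⟨s, hs0, hs⟩ := hB.toInv.exists_skew
  obtain ⟨g, hg, hg'⟩ := h.diag hji.symm hp hp' hr hr' (hc i) a1 a2 (hc j) a3 a4 ha
  have b1 : B (π i y) y = 0 := by rw [← h.dec.b_proj h.orth hp, hc]
  have b2 : B (π j y) y = 0 := by rw [← h.dec.b_proj h.orth hr, hc]
  have b3 : B p' y = 1 := by rw [← h.dec.b_proj h.orth hp', hB.one_symm a2]
  have b4 : B r' y = 1 := by rw [← h.dec.b_proj h.orth hr', hB.one_symm a4]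
  have h1 := hy.add ((h.ut hr' a3).add ((h.ut hp' a1).add (hy.map hg) hs) hs) hs
  rw [hg' y b1 b2] at h1
  refine h.of_noniso hn hk h1 (i := i) ?_
  have hs' : σ s = -s := eq_neg_of_add_eq_zero_right hs
  simp only [map_add, map_smul, b3, b4, h.dec.idem, h.dec.orth hji.symm, h.dec.of_mem hp',
    h.dec.of_ne hji.symm hr', smul_zero, add_zero, hB.one_symm a2, hB.one_symm a4, hy.1,
    hB.zero_symm b1, hB.zero_symm b2, hB.one_symm b3, hB.one_symm b4, smul_eq_mul,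
    h.orth i j hji.symm _ hp' _ hr, h.orth j i hji _ hr' _ hp, h.orth j i hji _ hr' _ hp',
    LinearMap.add_apply, b_smul_left, hc i, a1, a2, map_mul, map_sub, map_one, hB.invol, hs',
    mul_zero, mul_one, zero_add]
  intro e
  exact mul_ne_zero (mul_ne_zero (pow_ne_zero 3 hs0) ha1) ha2 (by linear_combination e)

end UDec

variable {E E' : Submodule F V}

omit [Finite F] in
theorem un_lag_swap (hB : HF B) (h : LagPair B E E') {m : ℕ} (hm : finrank F E = m)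
    (hm' : finrank F E' = m) (hm0 : 0 < m) :
    ∃ w ∈ SUG B, (∀ x ∈ E, w.1 x ∈ E') ∧ ∀ x ∈ E', w.1 x ∈ E := by
  obtain ⟨e, f, hef⟩ := h.exists_basis hB.exists_dual_eq hm hm'
  have hd : Disjoint E E' := Submodule.disjoint_def.mpr fun x hx hx' => hB.nd x fun v => by
    obtain ⟨a, ha, b, hb, rfl⟩ := h.dec v
    rw [map_add, h.iso x hx a ha, h.iso' x hx' b hb, add_zero]
  have li : ∀ {E E' : Submodule F V} (e : Basis (Fin m) F E) (f : Basis (Fin m) F E'),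
      Disjoint E E' → LinearIndependent F (Sum.elim (fun i => (e i : V)) fun i => (f i : V)) :=
    fun {E E'} e f hd => (e.linearIndependent.map' E.subtype E.ker_subtype).sum_type
      (f.linearIndependent.map' E'.subtype E'.ker_subtype) (hd.mono
        (Submodule.span_le.mpr (by rintro _ ⟨i, rfl⟩; exact (e i).2))
        (Submodule.span_le.mpr (by rintro _ ⟨i, rfl⟩; exact (f i).2)))
  have hfe : ∀ i j, B (e i) (f j) = if i = j then 1 else 0 := fun i j => by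
    rw [← hB.symm, hef]
    by_cases hij : i = j <;> simp [hij, eq_comm]
  obtain ⟨g, hg⟩ := hB.witt_family _ _ (li e f hd) (li f e hd.symm) (by
      rintro (i | i) (j | j)
      · exact (h.iso' _ (f i).2 _ (f j).2).trans (h.iso _ (e i).2 _ (e j).2).symm
      · simp [hef, hfe]
      · simp [hef, hfe]
      · exact (h.iso _ (e i).2 _ (e j).2).trans (h.iso' _ (f i).2 _ (f j).2).symm)
  obtain ⟨a, ha, ha'⟩ := hB.toInv.hilbert90 (mem_normOne.mp (hB.detU_mem g⁻¹))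
  obtain ⟨k, hk, hk'⟩ := hB.exists_diag (h.iso _ (e ⟨0, hm0⟩).2 _ (e ⟨0, hm0⟩).2)
    (h.iso' _ (f ⟨0, hm0⟩).2 _ (f ⟨0, hm0⟩).2) (by simp [hfe]) ha
  refine ⟨g * k, ?_, fun x hx => (map_eq_of_basis e f g.1 fun i => hg (Sum.inl i)).1 _ ?_,
    fun x hx => (map_eq_of_basis f e g.1 fun i => hg (Sum.inr i)).1 _ ?_⟩
  · rw [mem_SUG, map_mul, Units.val_mul, hk, ← mul_assoc, mul_inv_eq_one₀ (by simpa using ha)]
    conv_lhs => rw [ha']
    simp
  · change k.1 x ∈ _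
    rw [hk', h.iso _ (e _).2 x hx]
    simpa using E.add_mem hx (E.smul_mem _ (e _).2)
  · change k.1 x ∈ _
    rw [hk', h.iso' _ (f _).2 x hx]
    simpa using E'.add_mem hx (E'.smul_mem _ (f _).2)

theorem un_lagA (hn : 3 ≤ finrank F V) (h : LagPair B E E') (hm : 3 ≤ finrank F E)
    (hS : ∀ u ∈ E, ∀ f ∈ E', B u f = 0 → f ∈ UE hB M u)
    (hw : ∃ w ∈ M, ∀ x ∈ E, w.1 x ∈ E') {u z : V} (hu : u ∈ E) (hu0 : u ≠ 0)
    (hz : z ∈ UE hB M u) (hz' : z ∉ E' ⊔ F ∙ u) : SUG B ≤ M := by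
  obtain ⟨x, hx, y, hy, rfl⟩ := h.dec z
  have h1 : x ∈ UE hB M u := ((UE hB M u).add_mem_iff_left (hS u hu y hy (by
    simpa [h.iso u hu x hx] using UE.orth hz))).mp hz
  have h2 : x ∉ F ∙ u := fun e => hz' (add_mem (Submodule.mem_sup_right e)
    (Submodule.mem_sup_left hy))
  have hmove : ∀ v ∈ E, ∀ f ∈ E', B v f = 0 → ∃ g ∈ M, ∀ a ∈ E, g.1 a = a + B f a • v :=
    fun v hv f hf h3 => by
      obtain ⟨-, l, h4, h5⟩ := UE.ua (hS v hv f hf h3)
      exact ⟨_, h5, fun a ha => by simp [hB.eich_apply (h.iso v hv v hv) h3 h4, h.iso v hv a ha]⟩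
  have h3 : ∀ v ∈ E, v ∈ UE hB M u := by
    obtain ⟨a, ha, ha'⟩ := exists_not_mem_of_finrank_lt (W := Submodule.span F {u, x}) (U := E)
      (by have := finrank_span_pair_le (F := F) u x; omega)
    refine fun v hv => forall_of_add (F := F) (W := E) (X := Submodule.span F ({u, x} : Set V))
      (P := fun v => v ∈ UE (F := F) hB M u) (fun x y h h' => (UE hB M u).sub_mem h h')
      ha ha' (fun v hv hv' => ?_) hv
    obtain ⟨φ, h4, h5, h6⟩ := exists_dual_three (F := F) (a := u) (b := v) (x := x) fun e => by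
      obtain ⟨a, b, e⟩ := Submodule.mem_span_pair.mp e
      have hb : b ≠ 0 := by
        rintro rfl
        exact h2 (Submodule.mem_span_singleton.mpr ⟨a, by simpa using e⟩)
      exact hv' (Submodule.mem_span_pair.mpr ⟨-(b⁻¹ * a), b⁻¹, by
        rw [← e]
        match_scalars <;> field_simp <;> ring⟩)
    obtain ⟨f, hf, hf'⟩ := h.exists_dual hB.exists_dual_eq φ
    obtain ⟨g, hg, hg'⟩ := hmove v hv f hf (hB.zero_symm ((hf' v hv).trans h5))
    have := (UE hB M u).sub_mem (UE.map_fix h1 hg (by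
      rw [hg' u hu, hf' u hu, h4, zero_smul, add_zero])) h1
    rwa [hg' x hx, hf' x hx, h6, one_smul, add_sub_cancel_left] at this
  have h4 : UP hB M u := ⟨h.iso u hu u hu, fun v hv => by
    obtain ⟨a, ha, b, hb, rfl⟩ := h.dec v
    exact UE.ua ((UE hB M u).add_mem (h3 a ha) (hS u hu b hb (by simpa [h.iso u hu a ha] using hv)))⟩
  obtain ⟨w, hw, hw'⟩ := hw
  have h5 := h4.map hw
  by_cases h6 : B (w.1 u) u = 0
  swap
  · exact un_le_of_pair hn h5 h4 h6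
  obtain ⟨v, hv, hv'⟩ : ∃ v ∈ E, B (w.1 u) v ≠ 0 := by
    by_contra hc
    push Not at hc
    refine hu0 ((UG.apply_eq_zero w).mp (hB.nd _ fun v => ?_))
    obtain ⟨a, ha, b, hb, rfl⟩ := h.dec v
    rw [map_add, hc a ha, zero_add]
    exact h.iso' _ (hw' u hu) b hb
  obtain ⟨φ, h7, h8⟩ := exists_dual_two (F := F) (a := v - u) (x := u) fun e => by
    obtain ⟨k, hk⟩ := Submodule.mem_span_singleton.mp e
    have := congrArg (fun x => B (w.1 u) x) hk
    simp only [map_smul, map_sub, h6, sub_zero, smul_eq_mul, mul_eq_zero, hv', or_false] at this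
    exact hu0 (by rw [← hk, this, zero_smul])
  obtain ⟨f, hf, hf'⟩ := h.exists_dual hB.exists_dual_eq φ
  obtain ⟨g, hg, hg'⟩ := hmove _ (E.sub_mem hv hu) f hf
    (hB.zero_symm ((hf' _ (E.sub_mem hv hu)).trans h7))
  have := h4.map hg
  rw [hg' u hu, hf' u hu, h8, one_smul, add_sub_cancel] at this
  exact un_le_of_pair hn h5 this hv'

theorem un_lagB (hn : 3 ≤ finrank F V) (h : LagPair B E E') (hm : 5 ≤ finrank F E)
    (hS : ∀ u ∈ E, ∀ f ∈ E', B u f = 0 → f ∈ UE hB M u)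
    (hw : ∃ w ∈ M, ∀ x ∈ E, w.1 x ∈ E') {x y b : V} (hx : x ∈ E) (hy : y ∈ E') (hx0 : x ≠ 0)
    (hq : B (x + y) (x + y) = 0) (hb : b ∈ UE hB M (x + y)) (hb' : b ∉ E' ⊔ F ∙ x) :
    SUG B ≤ M := by
  obtain ⟨φ, h1, h2⟩ := exists_dual _ hb'
  obtain ⟨f, hf, hf'⟩ := h.exists_dual hB.exists_dual_eq φ
  have h3 : B (x + y) f = 0 := hB.zero_symm (by
    rw [map_add, hf' x hx, h.iso' f hf y hy,
      h1 x (Submodule.mem_sup_right (Submodule.mem_span_singleton_self x)), add_zero])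
  have h4 : B b f = 1 := hB.one_symm (by
    obtain ⟨a, ha, c, hc, rfl⟩ := h.dec b
    rw [map_add, hf' a ha, h.iso' f hf c hc, ← h2, map_add, h1 c (Submodule.mem_sup_left hc)])
  obtain ⟨u, ⟨⟨⟨hu, h5⟩, h6⟩, h7⟩, hux⟩ := exists_not_mem_of_finrank_lt (W := F ∙ x)
    (U := E ⊓ LinearMap.ker (B (x + y)) ⊓ LinearMap.ker (B b) ⊓ LinearMap.ker (B f)) (by
      have := finrank_le_inf_ker E (B (x + y))
      have := finrank_le_inf_ker (E ⊓ LinearMap.ker (B (x + y))) (B b)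
      have := finrank_le_inf_ker (E ⊓ LinearMap.ker (B (x + y)) ⊓ LinearMap.ker (B b)) (B f)
      have := finrank_span_one_le (F := F) x
      omega)
  obtain ⟨l, h8⟩ := UE.grow (hS u hu f hf (hB.zero_symm h7)) hq (UE.ua hb) h5 h6
  rw [h3, h4, mul_zero, sub_zero, one_smul, zero_smul, sub_zero] at h8
  refine un_lagA hn h (by omega) hS hw hu (by rintro rfl; exact hux (zero_mem _)) h8 fun e => ?_
  obtain ⟨c, hc, _, hz, e⟩ := Submodule.mem_sup.mp e
  obtain ⟨k, rfl⟩ := Submodule.mem_span_singleton.mp hz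
  have h9 : x - k • u = 0 := hB.nd _ fun v => by
    obtain ⟨a, ha, d, hd, rfl⟩ := h.dec v
    rw [map_add, h.iso _ (E.sub_mem hx (E.smul_mem k hu)) a ha, zero_add,
      show x - k • u = c - y by linear_combination (norm := module) -e]
    exact h.iso' _ (E'.sub_mem hc hy) d hd
  rw [sub_eq_zero] at h9
  have hk : k ≠ 0 := by
    rintro rfl
    exact hx0 (by simpa using h9)
  exact hux (Submodule.mem_span_singleton.mpr ⟨k⁻¹, by rw [h9, smul_smul, inv_mul_cancel₀ hk,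
    one_smul]⟩)

/-- The stabiliser of a pair of complementary totally isotropic subspaces. -/
theorem un_lag (hB : HF B) {D : Fin 2 → Submodule F V} {π : Fin 2 → V →ₗ[F] V} (h : IsDec D π)
    {m : ℕ} (hm : ∀ i, finrank F (D i) = m) (hm5 : 5 ≤ m)
    (hi : ∀ i, ∀ x ∈ D i, ∀ y ∈ D i, B x y = 0)
    (hH : ∀ g ∈ SUG B, PermD D g.1 → g ∈ M) (hg : ∃ g ∈ M, ¬ PermD D g.1) : SUG B ≤ M := by
  obtain ⟨g, hg, hg'⟩ := hg
  have hn : 3 ≤ finrank F V := by have := Submodule.finrank_le (D 0); rw [hm] at this; omega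
  have hL := lagPair_of h hi
  have hS : ∀ i j, i ≠ j → ∀ u ∈ D i, ∀ f ∈ D j, B u f = 0 → f ∈ UE hB M u :=
    fun i j hij u hu f hf e c => ⟨by simp [e], 0, by simp [hi j f hf f hf], hH _
      (hB.eich_mem_SUG _ _ _) (h.permD_of_fix fun l x hx => by
        rw [hB.eich_apply (hi i u hu u hu) (by simp [e]) (by simp [hi j f hf f hf])]
        by_cases hl : l = i
        · subst hl
          simpa [hi l u hu x hx] using (D l).add_mem hx ((D l).smul_mem _ hu)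
        · obtain rfl : l = j := by omega
          simpa [hi l f hf x hx] using (D l).sub_mem hx ((D l).smul_mem _ ((D l).smul_mem c hf)))⟩
  obtain ⟨w, hw, hw1, hw2⟩ := un_lag_swap hB hL (hm 0) (hm 1) (by omega)
  have hwM := hH w hw (permD_two h hm (by omega) hw1 hw2)
  obtain ⟨i, a, ha, hga⟩ := h.exists_not_mem hm (by omega) hg'
  obtain ⟨x, hx, y, hy, e⟩ := hL.dec (g.1 a)
  have hx0 : x ≠ 0 := by
    rintro rfl
    exact hga 1 (by simpa [← e] using hy)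
  have hy0 : y ≠ 0 := by
    rintro rfl
    exact hga 0 (by simpa [← e] using hx)
  obtain ⟨j, hj⟩ := exists_ne i
  have hq : B (x + y) (x + y) = 0 := by rw [e, UG.map_b, hi i a ha a ha]
  obtain ⟨_, ⟨b, hb, rfl⟩, hb'⟩ := exists_not_mem_of_finrank_lt (W := Submodule.span F {x, y})
    (U := (D j ⊓ LinearMap.ker (B a)).map (g.1 : V →ₗ[F] V)) (by
      have := finrank_le_inf_ker (D j) (B a)
      have := finrank_span_pair_le (F := F) x y
      rw [LinearEquiv.finrank_map_eq, hm] at *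
      omega)
  have h1 : g.1 b ∈ UE hB M (x + y) := e ▸ UE.map (hS i j hj.symm a ha b hb.1 hb.2) hg
  by_cases h2 : g.1 b ∈ D 1 ⊔ F ∙ x
  · refine un_lagB hn hL.symm (by rw [hm]; exact hm5) (hS 1 0 (by simp)) ⟨w, hwM, hw2⟩ hy hx hy0
      (add_comm x y ▸ hq) (add_comm x y ▸ h1) fun h3 => hb' ?_
    obtain ⟨c, hc, _, hz, e1⟩ := Submodule.mem_sup.mp h2
    obtain ⟨k, rfl⟩ := Submodule.mem_span_singleton.mp hz
    obtain ⟨d, hd, _, hz, e2⟩ := Submodule.mem_sup.mp h3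
    obtain ⟨l, rfl⟩ := Submodule.mem_span_singleton.mp hz
    have h4 : c - l • y = 0 := h.eq_zero_of_mem (i := 1) (j := 0) (by simp)
      ((D 1).sub_mem hc ((D 1).smul_mem _ hy)) (by
        rw [show c - l • y = d - k • x by linear_combination (norm := module) e1 - e2]
        exact (D 0).sub_mem hd ((D 0).smul_mem _ hx))
    exact Submodule.mem_span_pair.mpr ⟨k, l, by
      change _ = g.1 b
      linear_combination (norm := module) e1 - h4⟩
  · exact un_lagB hn hL (by rw [hm]; exact hm5) (hS 0 1 (by simp)) ⟨w, hwM, hw1⟩ hx hy hx0 hq h1 h2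

theorem exists_su_not_stab (hB : HF B) (hn : 3 ≤ finrank F V) {W : Submodule F V} (h0 : W ≠ ⊥)
    (h1 : W ≠ ⊤) : ∃ g ∈ SUG B, ¬ ∀ v, v ∈ W ↔ g.1 v ∈ W := by
  by_contra hc
  push Not at hc
  obtain ⟨w, hw, hw0⟩ := Submodule.exists_mem_ne_zero_of_ne_bot h0
  have h2 : NDU B ⊤ := fun w _ h => hB.nd' w fun y => h y trivial
  obtain ⟨s, hs0, hs⟩ := hB.toInv.exists_skew
  refine ((h2.iso_into hB (by rw [finrank_top]; omega) (X := W) (Y := perp B W)
    (fun x hx y hy => mem_perp.mp hy x hx) fun a _ ha => or_iff_not_imp_right.mpr fun e => ?_).elim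
    (fun e => h1 (top_le_iff.mp e)) fun e => hw0 (hB.nd w fun y => mem_perp.mp (e trivial) w hw))
  rw [hB.mem_perp'] at e
  push Not at e
  obtain ⟨y, hy, hy'⟩ := e
  have := (hc _ (hB.tv_mem_SUG ha s) y).mp hy
  rwa [hB.tv_apply ha hs, W.add_mem_iff_right hy, W.smul_mem_iff (mul_ne_zero hs0 hy')] at this

theorem exists_su_not_mem (hB : HF B) (h : IsDec D π) (hk : ∀ i, finrank F (D i) = k)
    (hn : k + 3 ≤ finrank F V) {i : κ} {x : V} (hx : x ∈ D i) (hx0 : x ≠ 0) :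
    ∃ g ∈ SUG B, ∀ j, g.1 x ∉ D j := by
  obtain ⟨y, ⟨h1, h2⟩, hy0, hy⟩ := herm_exists_iso hB (LinearMap.ker (π i) ⊓ LinearMap.ker (B x)) (by
    have := finrank_le_inf_ker (LinearMap.ker (π i)) (B x)
    have := (π i).finrank_range_add_finrank_ker
    have := Submodule.finrank_mono (show LinearMap.range (π i) ≤ D i by
      rintro _ ⟨v, rfl⟩; exact h.mem i v)
    rw [hk] at this
    omega)
  replace h2 : B x y = 0 := h2
  have h3 : π i (x + y) = x := by rw [map_add, h.of_mem hx, h1, add_zero]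
  obtain ⟨g, hg, hg'⟩ : ∃ g ∈ SUG B, g.1 x = x + y := by
    by_cases h4 : B x x = 0
    · exact hB.SUG_trans_iso (by omega) hx0 (fun e => hx0 (by rw [← h3, e, map_zero])) h4
        (by simp [h4, h2, hB.zero_symm h2, hy])
    · exact hB.SUG_trans (by omega) h4 (by simp [h2, hB.zero_symm h2, hy])
  refine ⟨g, hg, fun j h4 => ?_⟩
  rw [hg'] at h4
  by_cases e : i = j
  · exact hy0 (by simpa [h3] using (h.of_mem (e ▸ h4 : x + y ∈ D i)).symm)
  · exact hx0 (by rw [← h3, h.of_ne e h4])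

theorem exists_su_not_perm (hB : HF B) (h : IsDec D π) (hk : ∀ i, finrank F (D i) = k)
    (hk0 : 0 < k) (hn : k + 3 ≤ finrank F V) (i : κ) : ∃ g ∈ SUG B, ¬ PermD D g.1 := by
  obtain ⟨x, hx, hx0⟩ := exists_not_mem_of_finrank_lt (W := ⊥) (U := D i) (by simp [hk, hk0])
  obtain ⟨g, hg, hg'⟩ := exists_su_not_mem hB h hk hn hx (by simpa using hx0)
  exact ⟨g, hg, fun ⟨s, hs⟩ => hg' (s i) (hs i ▸ ⟨x, hx, rfl⟩)⟩

omit [FiniteDimensional F V] [Finite F] [Fintype κ] in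
theorem PermD.mem_iff {g : V ≃ₗ[F] V} (h : PermD D g) (v : V) : (∃ i, v ∈ D i) ↔ ∃ i, g v ∈ D i := by
  obtain ⟨s, hs⟩ := h
  refine ⟨fun ⟨i, hi⟩ => ⟨s i, hs i ▸ ⟨v, hi, rfl⟩⟩, fun ⟨j, hj⟩ => ?_⟩
  obtain ⟨i, rfl⟩ := s.surjective j
  rw [← hs] at hj
  obtain ⟨w, hw, e⟩ := hj
  exact ⟨i, g.injective e ▸ hw⟩

/-- The stabiliser of a set of vectors. -/
def setStab {ι : Type} [Fintype ι] [DecidableEq ι] (S : Set (ι → F)) : Subgroup (GL ι F) where
  carrier := {g | ∀ v, v ∈ S ↔ Orth.glEquiv ι F g v ∈ S}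
  one_mem' v := by simp
  mul_mem' {a b} ha hb v := by
    rw [map_mul, LinearEquiv.mul_apply, ← ha, ← hb]
  inv_mem' {a} ha v := by
    rw [ha (Orth.glEquiv ι F a⁻¹ v), ← LinearEquiv.mul_apply, ← map_mul]
    simp

omit [Finite F] in
theorem un_two_dim (hB : HF B) (h2 : ∀ c, σ c = c → c = 0 ∨ c = 1) {W : Submodule F V}
    (hW : NDU B W) (hd : finrank F W = 2) {a v : V} (ha : a ∈ W) (ha1 : B a a = 1) (hv : v ∈ W)
    (hv1 : B v v ≠ 0) : B a v = 0 ∨ v ∈ F ∙ a := by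
  by_contra hc
  push Not at hc
  have h1 : B a (v - B a v • a) = 0 := by simp [ha1]
  have h3 : v - B a v • a ∉ F ∙ a := fun e => hc.2 (by
    simpa using add_mem e (Submodule.smul_mem _ (B a v) (Submodule.mem_span_singleton_self a)))
  have hm := W.sub_mem hv (W.smul_mem (B a v) ha)
  have h4 : Submodule.span F {a, v - B a v • a} = W := Submodule.eq_of_le_of_finrank_eq
    (Submodule.span_le.mpr (by rintro _ (rfl | rfl); exacts [ha, hm]))
    ((Orth.finrank_span_pair_eq (Orth.linearIndependent_pair_of_notMem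
      (ne_zero_of_b (by simp [ha1] : B a a ≠ 0)) h3)).trans hd.symm)
  have h5 := (h2 _ (hB.fix (v - B a v • a))).resolve_left fun e => h3 (by
    rw [hW _ hm (mem_perp.mp (h4 ▸ mem_perp_pair.mpr ⟨h1, e⟩))]
    exact zero_mem _)
  have h6 := (h2 (σ (B a v) * B a v) (by rw [map_mul, hB.invol, mul_comm])).resolve_left
    (mul_ne_zero (by simpa using hc.1) hc.1)
  have h7 := (h2 (1 + 1) (by simp)).resolve_right (by simp)
  simp only [map_sub, map_smul, LinearMap.sub_apply, b_smul_left, smul_eq_mul, ha1,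
    ← hB.symm a v] at h5
  have h8 := (h2 _ (hB.fix v)).resolve_left hv1
  exact one_ne_zero (by linear_combination -h5 + h8 - h6 : (1 : F) = 0)

/-! ### The geometric statements -/

section geo
variable {n q : ℕ} (hF : Nat.card F = q ^ 2)

theorem mem_SU' (g : GL (Fin n) F) : g ∈ Cfsg.GU n F q ⊓ Geo.specialLinear (Fin n) F ↔
    Orth.glEquiv (Fin n) F g ∈ (SUG (sB hF n)).map (UG (sB hF n)).subtype := by
  rw [Subgroup.mem_inf, mem_SL, mem_GU hF]
  exact ⟨fun h => ⟨⟨Orth.glEquiv (Fin n) F g, h.1⟩, mem_SUG.mpr (congrArg Units.val h.2), rfl⟩,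
    fun ⟨x, hx, e⟩ => ⟨fun u v => by
      have := x.2 u v
      rw [show x.1 = _ from e] at this
      exact this, e ▸ Units.ext (mem_SUG.mp hx)⟩⟩

theorem isMaximalIn_SU {H : Subgroup (GL (Fin n) F)} (P : ((Fin n → F) ≃ₗ[F] (Fin n → F)) → Prop)
    (hH : ∀ g, g ∈ H ↔ P (Orth.glEquiv _ F g)) (h1 : ∃ g ∈ SUG (sB hF n), ¬ P g.1)
    (h2 : ∀ M : Subgroup (UG (sB hF n)), (∀ g ∈ SUG (sB hF n), P g.1 → g ∈ M) →
      M ≤ SUG (sB hF n) → (∃ g ∈ M, ¬ P g.1) → SUG (sB hF n) ≤ M) :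
    Geo.IsMaximalIn (Cfsg.GU n F q ⊓ Geo.specialLinear (Fin n) F)
      (H ⊓ (Cfsg.GU n F q ⊓ Geo.specialLinear (Fin n) F)) := by
  refine isMaximalIn_of_equiv (Orth.glEquiv _ F)
    (fun g => g ∈ (SUG (sB hF n)).map (UG (sB hF n)).subtype)
    P (mem_SU' hF) hH ?_ fun M h3 h4 ⟨g, hg, hg'⟩ => ?_
  · obtain ⟨g, hg, hg'⟩ := h1
    exact ⟨g.1, ⟨g, hg, rfl⟩, hg'⟩
  · obtain ⟨g, -, rfl⟩ := h4 g hg
    rintro _ ⟨k, hk, rfl⟩
    refine h2 (M.subgroupOf (UG _)) (fun g hg h => h3 _ ⟨g, hg, rfl⟩ h) (fun x hx => ?_)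
      ⟨g, hg, hg'⟩ hk
    obtain ⟨y, hy, e⟩ := h4 _ hx
    exact (Subtype.ext e : y = x) ▸ hy

theorem exists_between_SU {H K : Subgroup (GL (Fin n) F)}
    (P P' : ((Fin n → F) ≃ₗ[F] (Fin n → F)) → Prop)
    (hH : ∀ g, g ∈ H ↔ P (Orth.glEquiv _ F g)) (hK : ∀ g, g ∈ K ↔ P' (Orth.glEquiv _ F g))
    (h1 : ∀ g ∈ SUG (sB hF n), P g.1 → P' g.1)
    (h2 : ∃ g ∈ SUG (sB hF n), P' g.1 ∧ ¬ P g.1) (h3 : ∃ g ∈ SUG (sB hF n), ¬ P' g.1) :
    ∃ L : Subgroup (GL (Fin n) F), H ⊓ (Cfsg.GU n F q ⊓ Geo.specialLinear (Fin n) F) < L ∧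
      L < Cfsg.GU n F q ⊓ Geo.specialLinear (Fin n) F := by
  refine ⟨K ⊓ (Cfsg.GU n F q ⊓ Geo.specialLinear (Fin n) F),
    lt_of_le_not_ge (fun g hg => ⟨?_, hg.2⟩) fun h => ?_, lt_of_le_not_ge inf_le_right fun h => ?_⟩
  · obtain ⟨x, hx, e⟩ := (mem_SU' hF g).mp hg.2
    exact (hK g).mpr (e ▸ h1 x hx (e ▸ (hH g).mp hg.1 :))
  · obtain ⟨g, hg, h4, h5⟩ := h2
    obtain ⟨x, hx⟩ := (Orth.glEquiv _ F).surjective g.1
    exact h5 (hx ▸ (hH x).mp (h ⟨(hK x).mpr (hx ▸ h4), (mem_SU' hF x).mpr ⟨g, hg, hx.symm⟩⟩).1)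
  · obtain ⟨g, hg, h4⟩ := h3
    obtain ⟨x, hx⟩ := (Orth.glEquiv _ F).surjective g.1
    exact h4 (hx ▸ (hK x).mp (h ((mem_SU' hF x).mpr ⟨g, hg, hx.symm⟩)).1)

theorem ndu_of {W : Submodule F (Fin n → F)} (h : Geo.IsNondegenerateOn (hermForm n F q) W) :
    NDU (sB hF n) W := fun w hw e => by
  by_contra h0
  obtain ⟨x, hx, hx'⟩ := (h w hw h0).2
  exact hx' ((hermForm_eq hF n _ _).trans (e x hx))

include hF

theorem max_un_parab (hn : 3 ≤ n) {W : Submodule F (Fin n → F)} (h0 : W ≠ ⊥)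
    (hW : Geo.IsTotallySingularFor (hermForm n F q) W) :
    Geo.IsMaximalIn (Cfsg.GU n F q ⊓ Geo.specialLinear (Fin n) F)
      (Geo.subspaceStabilizer W ⊓ (Cfsg.GU n F q ⊓ Geo.specialLinear (Fin n) F)) := by
  have hn' : 3 ≤ finrank F (Fin n → F) := by simpa using hn
  have hW' : Iso (sB hF n) W := fun u hu v hv => (hermForm_eq hF n _ _).symm.trans (hW v hv u hu)
  refine isMaximalIn_SU hF (fun g => ∀ v, v ∈ W ↔ g v ∈ W) (fun _ => Iff.rfl)
    (exists_su_not_stab (hf_sB hF n) hn' h0 ?_) fun M hH _ hg =>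
      un_parab (hf_sB hF n) hn' hW' hH hg
  rintro rfl
  have := (hf_sB hF n).two_mul_finrank_le hW'
  rw [finrank_top] at this
  omega

theorem max_un_nondeg (hn : 7 ≤ n) {W : Submodule F (Fin n → F)} (h0 : W ≠ ⊥)
    (hW : Geo.IsNondegenerateOn (hermForm n F q) W) (hd : 2 * finrank F W < n) :
    Geo.IsMaximalIn (Cfsg.GU n F q ⊓ Geo.specialLinear (Fin n) F)
      (Geo.subspaceStabilizer W ⊓ (Cfsg.GU n F q ⊓ Geo.specialLinear (Fin n) F)) := by
  have hn' : finrank F (Fin n → F) = n := by simp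
  have h2 := (hf_sB hF n).finrank_perp_add W
  refine isMaximalIn_SU hF (fun g => ∀ v, v ∈ W ↔ g v ∈ W) (fun _ => Iff.rfl)
    (exists_su_not_stab (hf_sB hF n) (by omega) h0 ?_) fun M hH _ ⟨g, hg, hg'⟩ =>
      un_nondeg (hf_sB hF n) (ndu_of hF hW) (by omega) hH ⟨g, hg, hg', fun e => ?_⟩
  · rintro rfl
    rw [finrank_top] at hd
    omega
  · have h1 := Submodule.finrank_mono (show (perp _ W).map (g.1 : _ →ₗ[F] _) ≤ W from
      Submodule.map_le_iff_le_comap.mpr e)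
    rw [LinearEquiv.finrank_map_eq] at h1
    omega

theorem max_un_lag {m : ℕ} (hm : 5 ≤ m) (hn : 2 * m = n) {D : Fin 2 → Submodule F (Fin n → F)}
    (hD : Geo.IsMDecomposition m D) (hts : ∀ i, Geo.IsTotallySingularFor (hermForm n F q) (D i)) :
    Geo.IsMaximalIn (Cfsg.GU n F q ⊓ Geo.specialLinear (Fin n) F)
      (Geo.decompositionStabilizer D ⊓ (Cfsg.GU n F q ⊓ Geo.specialLinear (Fin n) F)) := by
  obtain ⟨π, h⟩ := exists_isDec hD.indep hD.iSup_eq_top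
  exact isMaximalIn_SU hF (PermD D) mem_decStab (exists_su_not_perm (hf_sB hF n) h hD.finrank_eq
      hD.pos (by simp; omega) 0)
    fun M hH _ hg => un_lag (hf_sB hF n) h hD.finrank_eq hm
      (fun i u hu v hv => (hermForm_eq hF n _ _).symm.trans (hts i v hv u hu)) hH hg

theorem not_max_un_two (hq : q = 2) (hn : 5 ≤ n) {t : ℕ} {D : Fin t → Submodule F (Fin n → F)}
    (hD : Geo.IsNondegenerateMDecomposition (hermForm n F q) 2 D) :
    ∃ K : Subgroup (GL (Fin n) F), Geo.decompositionStabilizer D ⊓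
      (Cfsg.GU n F q ⊓ Geo.specialLinear (Fin n) F) < K ∧
      K < Cfsg.GU n F q ⊓ Geo.specialLinear (Fin n) F := by
  obtain ⟨π, h⟩ := exists_isDec hD.decomp.indep hD.decomp.iSup_eq_top
  have hB := hf_sB hF n
  have h2 : ∀ c, frob hF c = c → c = 0 ∨ c = 1 := fun c hc => by
    rw [frob_apply, hq] at hc
    exact or_iff_not_imp_left.mpr fun e => mul_left_cancel₀ e (by linear_combination hc)
  have h7 : (1 : F) + frob hF 1 = 0 := by
    simpa using (h2 (1 + 1) (by simp)).resolve_right (by simp)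
  have hk := hD.decomp.finrank_eq
  have hnd := fun i => ndu_of hF (hD.nondegenerate i)
  have ho : ∀ i j, i ≠ j → ∀ x ∈ D i, ∀ y ∈ D j, sB hF n x y = 0 := fun i j hij x hx y hy =>
    (hermForm_eq hF n _ _).symm.trans (hD.orthogonal j i hij.symm y hy x hx)
  have : Nontrivial (Fin t) := Fin.nontrivial_iff_two_le.mpr hD.decomp.two_le
  obtain ⟨i, j, hij⟩ := exists_pair_ne (Fin t)
  obtain ⟨a, ha, ha1⟩ := (hnd i).exists_norm hB (by rw [hk]; omega) (map_one _)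
  obtain ⟨b, hb, hb1⟩ := (hnd j).exists_norm hB (by rw [hk]; omega) (map_one _)
  have hab := ho i j hij a ha b hb
  have hba := hB.zero_symm hab
  have h1 : sB hF n (a + b) (a + b) = 0 := by simpa [ha1, hb1, hab, hba] using h7
  have h3 : ∀ x, (hB.qr (a + b) 1).1 x = x + sB hF n (a + b) x • (a + b) := fun x => by
    rw [hB.tv_apply h1 h7, one_mul]
  have h8 : ∀ x : Fin n → F, x + x = 0 := fun x => by
    rw [← one_smul F x, ← add_smul, show (1 : F) + 1 = 0 by simpa using h7, zero_smul]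
  have h4 : (hB.qr (a + b) 1).1 a = b := by
    rw [h3]
    simp [ha1, hba, ← add_assoc, h8]
  have h5 : (hB.qr (a + b) 1).1 b = a := by
    rw [h3]
    simp [hb1, hab, add_left_comm b a, h8]
  have h6 : ∀ v, (sB hF n v v ≠ 0 ∧ ∃ i, v ∈ D i) → ∃ i, (hB.qr (a + b) 1).1 v ∈ D i := by
    rintro v ⟨hv, l, hl⟩
    by_cases e1 : v ∈ F ∙ a
    · obtain ⟨c, rfl⟩ := Submodule.mem_span_singleton.mp e1
      exact ⟨j, by rw [map_smul, h4]; exact (D j).smul_mem c hb⟩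
    by_cases e2 : v ∈ F ∙ b
    · obtain ⟨c, rfl⟩ := Submodule.mem_span_singleton.mp e2
      exact ⟨i, by rw [map_smul, h5]; exact (D i).smul_mem c ha⟩
    have key : ∀ {i a}, a ∈ D i → sB hF n a a = 1 → v ∉ F ∙ a → sB hF n a v = 0 :=
      fun {i a} ha ha1 e => by
        by_cases e' : i = l
        · exact (un_two_dim hB h2 (hnd l) (hk l) (e' ▸ ha) ha1 hl hv).resolve_right e
        · exact ho i l e' a ha v hl
    exact ⟨l, by rwa [hB.qr_apply_of_orth _ (by simp [key ha ha1 e1, key hb hb1 e2])]⟩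
  refine exists_between_SU hF (K := setStab {v | sB hF n v v ≠ 0 ∧ ∃ i, v ∈ D i}) (PermD D)
    (fun g => ∀ v, (sB hF n v v ≠ 0 ∧ ∃ i, v ∈ D i) ↔ (sB hF n (g v) (g v) ≠ 0 ∧ ∃ i, g v ∈ D i))
    mem_decStab (fun _ => Iff.rfl) (fun g _ hg v => by rw [UG.map_b, hg.mem_iff])
    ⟨_, hB.tv_mem_SUG h1 1, fun v => ⟨fun e => ⟨by simpa using e.1, h6 v e⟩, fun e =>
      ⟨by simpa using e.1, ?_⟩⟩, fun ⟨s, hs⟩ => ?_⟩ ?_
  · have := h6 _ e
    rwa [← UG.mul_apply, hB.tv_mul h1 h7 h7, show (1 : F) + 1 = 0 by simpa using h7, hB.qr_zero,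
      UG.one_apply] at this
  · obtain ⟨c, ⟨hc, hc1⟩, hc0⟩ := exists_not_mem_of_finrank_lt (W := ⊥)
      (U := D i ⊓ LinearMap.ker (sB hF n a)) (by
        have := finrank_le_inf_ker (D i) (sB hF n a)
        rw [hk] at this
        simp only [finrank_bot]
        omega)
    have e1 : b ∈ D (s i) := hs i ▸ ⟨a, ha, h4⟩
    have e2 : c ∈ D (s i) := hs i ▸ ⟨c, hc, hB.qr_apply_of_orth _ (by
      simp [show sB hF n a c = 0 from hc1, ho j i hij.symm b hb c hc])⟩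
    by_cases e : s i = i
    · simpa [hb1] using ho j i hij.symm b hb b (e ▸ e1)
    · exact hc0 (h.eq_zero_of_mem e e2 hc)
  · obtain ⟨g, hg, hg'⟩ := exists_su_not_mem hB h hk (by simpa using hn) ha
      (ne_zero_of_b (by simp [ha1] : sB hF n a a ≠ 0))
    refine ⟨g, hg, fun e => ?_⟩
    obtain ⟨l, hl⟩ := ((e a).mp ⟨by simp [ha1], i, ha⟩).2
    exact hg' l hl

end geo

end Cfsg.Agent.Max
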