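import Mathlib
import Cfsg.Agent.Max.ODec
import Cfsg.Agent.Max.Un2

/-!
# Orthogonal decompositions whose stabilisers are not maximal
-/

set_option autoImplicit false

namespace Cfsg.Agent.Max

open Module QuadraticMap Orth
open scoped MatrixGroups

variable {F V : Type*} [Field F] [AddCommGroup V] [Module F V] {Q : QuadraticForm F V}

theorem iff_of_mapsTo {α : Type*} [Finite α] {S : Set α} {g : α → α} (hg : Function.Injective g)
    (h : ∀ v ∈ S, g v ∈ S) (v : α) : v ∈ S ↔ g v ∈ S := by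
  refine ⟨h v, fun e => ?_⟩
  obtain ⟨w, hw, e'⟩ := ((Set.toFinite S).injOn_iff_bijOn_of_mapsTo h).1 hg.injOn |>.surjOn e
  exact hg e' ▸ hw

theorem PermD.proj {κ : Type*} [Fintype κ] {D : κ → Submodule F V} {π : κ → V →ₗ[F] V}
    (h : IsDec D π) {g : V ≃ₗ[F] V} (hg : PermD D g) :
    ∃ s : Equiv.Perm κ, ∀ i x, π (s i) (g x) = g (π i x) := by
  obtain ⟨s, hs⟩ := hg
  have h1 : ∀ i x, g (π i x) ∈ D (s i) := fun i x => hs i ▸ ⟨_, h.mem i x, rfl⟩
  refine ⟨s, fun i x => ?_⟩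
  conv_lhs => rw [← h.sum x, map_sum, map_sum]
  rw [Finset.sum_eq_single i (fun j _ hj => h.of_ne (s.injective.ne hj.symm) (h1 j x)) (by simp),
    h.of_mem (h1 i x)]

variable [FiniteDimensional F V]

theorem finrank_inf_ker_lt {W : Submodule F V} {φ : Dual F V} {x : V} (hx : x ∈ W) (h : φ x ≠ 0) :
    finrank F ↥(W ⊓ LinearMap.ker φ) < finrank F W :=
  Submodule.finrank_lt_finrank_of_lt (lt_of_le_of_ne inf_le_left fun e => h (e.ge hx).2)

theorem mem_span_of_finrank_le {W : Submodule F V} (h : finrank F W ≤ 1) {x y : V} (hx : x ∈ W)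
    (h0 : x ≠ 0) (hy : y ∈ W) : y ∈ F ∙ x := by
  rwa [Submodule.eq_of_le_of_finrank_le ((Submodule.span_singleton_le_iff_mem _ _).2 hx)
    (by rwa [finrank_span_singleton h0])]

theorem NDS.exists_polar {W : Submodule F V} (h : NDS Q W) {a : V} (ha : a ∈ W) (h0 : a ≠ 0) :
    ∃ y ∈ W, polar Q a y = 1 := by
  obtain ⟨y, hy, -, e⟩ := h.exists_orth bot_le ha h0
  exact ⟨y, hy, e⟩

/-- In dimension three the values on the perps of singular vectors form one square class. -/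
theorem NDS.three_val {W : Submodule F V} (h : NDS Q W) (h3 : finrank F W = 3) {w w' u u' : V}
    (hw : w ∈ W) (hw' : w' ∈ W) (hu : u ∈ W) (hu' : u' ∈ W) (h0 : w ≠ 0) (h0' : w' ≠ 0)
    (h1 : Q w = 0) (h1' : Q w' = 0) (h2 : polar Q w u = 0) (h2' : polar Q w' u' = 0)
    (h4 : Q u ≠ 0) : ∃ s, Q u' = s ^ 2 * Q u := by
  obtain ⟨g, hg⟩ := witt_one h.nd (u := ⟨w', hw'⟩) (v := ⟨w, hw⟩) (by simpa using h0')
    (by simpa using h0) (h1'.trans h1.symm)
  obtain ⟨y, hy, e⟩ := h.exists_polar hw h0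
  have h5 := finrank_inf_ker_lt (φ := Q.polarBilin w) hy (by simp [e])
  have h6 : Submodule.span F {u, w} = W ⊓ LinearMap.ker (Q.polarBilin w) :=
    Submodule.eq_of_le_of_finrank_le (Submodule.span_le.2 (by
      rintro _ (rfl | rfl)
      exacts [⟨hu, h2⟩, ⟨hw, by simp [p_self, h1]⟩])) (by
      rw [finrank_span_pair_eq (linearIndependent_pair_of_notMem (ne_zero_of_Q_ne_zero h4)
        fun e => ?_)]
      · omega
      obtain ⟨c, rfl⟩ := Submodule.mem_span_singleton.1 e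
      rw [q_smul, mul_eq_zero_iff_right h4, pow_eq_zero_iff two_ne_zero] at h1
      simp [h1] at h0)
  have h7 := OG.map_polar g ⟨w', hw'⟩ ⟨u', hu'⟩
  rw [hg, polar_restrict, polar_restrict, h2'] at h7
  obtain ⟨s, t, e⟩ := Submodule.mem_span_pair.1 (h6.ge ⟨(g.1 ⟨u', hu'⟩).2, h7⟩)
  refine ⟨s, (OG.map_Q g ⟨u', hu'⟩).symm.trans ?_⟩
  change Q (g.1 ⟨u', hu'⟩).1 = _
  rw [← e, q_add, q_smul, q_smul, p_smul_left, p_smul_right, polar_comm _ u, h1, h2]
  ring

theorem NDS.plane {W : Submodule F V} (h : NDS Q W) (h2 : finrank F W = 2) {e : V} (he : e ∈ W)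
    (h0 : e ≠ 0) (h1 : Q e = 0) [Finite F] : ∃ f, ∀ u ∈ W, ∀ v ∈ W, ∃ x y x' y' : F,
      u = x • e + y • f ∧ v = x' • e + y' • f ∧ Q u = x * y ∧ Q v = x' * y' ∧
        polar Q u v = x * y' + y * x' := by
  obtain ⟨f, hf, hf1, hf2, -⟩ := h.exists_hyp he h0 h1
  have hsp : Submodule.span F {e, f} = W := Submodule.eq_of_le_of_finrank_eq
    (Submodule.span_le.mpr (by rintro _ (rfl | rfl); exacts [he, hf]))
    ((finrank_span_pair_eq (hyp_linearIndependent h1 hf1 hf2)).trans h2.symm)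
  refine ⟨f, fun u hu v hv => ?_⟩
  obtain ⟨x, y, rfl⟩ := Submodule.mem_span_pair.1 (hsp.ge hu)
  obtain ⟨x', y', rfl⟩ := Submodule.mem_span_pair.1 (hsp.ge hv)
  refine ⟨x, y, x', y', rfl, rfl, ?_, ?_, ?_⟩ <;>
    simp [q_add, q_smul, p_self, h1, hf1, hf2, polar_comm _ f e] <;> ring

/-- Vectors of value `c` in `W` form a frame. -/
def FrQ (Q : QuadraticForm F V) (W : Submodule F V) (c : F) : Prop :=
  ∀ u ∈ W, ∀ v ∈ W, Q u = c → Q v = c → v = u ∨ v = -u ∨ polar Q u v = 0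

omit [FiniteDimensional F V] in
theorem fr_of_three (h3 : ∀ x : F, x = 0 ∨ x = 1 ∨ x = -1) {W : Submodule F V} {c : F}
    (hc : c ≠ 0) (h2 : (2 : F) ≠ 0)
    (h : ∀ u ∈ W, ∀ w ∈ W, Q u = c → Q w = 0 → polar Q w u = 0 → w = 0) : FrQ Q W c :=
  fun u hu v hv e e' => by
    have key : ∀ v ∈ W, Q v = c → polar Q u v = 2 * c → v = u := fun v hv e' e'' =>
      sub_eq_zero.1 (h u hu _ (W.sub_mem hv hu) e (by rw [q_sub, polar_comm, e, e', e'']; ring)
        (by rw [polar_sub_left, polar_comm, p_self, e, e'']; ring))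
    rcases h3 (polar Q u v / (2 * c)) with h4 | h4 | h4 <;>
      rw [div_eq_iff (mul_ne_zero h2 hc)] at h4
    · exact .inr (.inr (by simpa using h4))
    · exact .inl (key v hv e' (by simpa using h4))
    · exact .inr (.inl (neg_eq_iff_eq_neg.1 (key (-v) (W.neg_mem hv) (by simpa using e')
        (by simp [h4]))))

theorem NDS.fr_two (h3 : ∀ x : F, x = 0 ∨ x = 1 ∨ x = -1) (h2 : (2 : F) ≠ 0) {W : Submodule F V}
    (h : NDS Q W) (hd : finrank F W = 2) : FrQ Q W 1 :=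
  fr_of_three h3 one_ne_zero h2 fun u hu w hw e e' e'' => by
    by_contra h0
    obtain ⟨y, hy, h4⟩ := h.exists_polar hw h0
    have h5 := finrank_inf_ker_lt (φ := Q.polarBilin w) hy (by simp [h4])
    obtain ⟨s, rfl⟩ := Submodule.mem_span_singleton.1 (mem_span_of_finrank_le
      (W := W ⊓ LinearMap.ker (Q.polarBilin w)) (by omega) ⟨hw, by simp [p_self, e']⟩ h0 ⟨hu, e''⟩)
    simp [q_smul, e'] at e

theorem NDS.fr_five [Finite F] (h5 : ∀ x : F, x ≠ 0 → x ^ 4 = 1) {W : Submodule F V}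
    (h : NDS Q W) (hd : finrank F W = 2) (hp : ∃ e ∈ W, e ≠ 0 ∧ Q e = 0) : FrQ Q W 1 :=
  fun u hu v hv e e' => by
    obtain ⟨z, hz, h0, h1⟩ := hp
    obtain ⟨f, hf⟩ := h.plane hd hz h0 h1
    obtain ⟨x, y, x', y', rfl, rfl, h2, h3, h4⟩ := hf u hu v hv
    rw [e] at h2
    rw [e'] at h3
    have hx := left_ne_zero_of_mul_eq_one h2.symm
    have hx' := left_ne_zero_of_mul_eq_one h3.symm
    have h6 : (x' - x) * ((x' + x) * (x ^ 2 + x' ^ 2)) = 0 := by
      linear_combination h5 x' hx' - h5 x hx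
    rcases mul_eq_zero.1 h6 with h7 | h7
    · obtain rfl := sub_eq_zero.1 h7
      exact .inl (by rw [mul_left_cancel₀ hx (h2.symm.trans h3)])
    rcases mul_eq_zero.1 h7 with h7 | h7
    · obtain rfl := eq_neg_of_add_eq_zero_left h7
      obtain rfl : y' = -y := mul_left_cancel₀ hx (by linear_combination h3 - h2)
      exact .inr (.inl (by module))
    · refine .inr (.inr (mul_left_cancel₀ (mul_ne_zero hx hx') ?_))
      rw [h4]
      linear_combination h7 - x ^ 2 * h3 - x' ^ 2 * h2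

theorem NDS.cube [Finite F] (h2 : (2 : F) = 0) (h5 : ∀ x : F, x ≠ 0 → x ^ 3 = 1)
    {W : Submodule F V} (h : NDS Q W) (hd : finrank F W = 2) (hp : ∃ e ∈ W, e ≠ 0 ∧ Q e = 0)
    {u v : V} (hu : u ∈ W) (hv : v ∈ W) (e : Q u = 1) (e' : Q v = 1) :
    v = u ∨ polar Q u v = 1 := by
  obtain ⟨z, hz, h0, h1⟩ := hp
  obtain ⟨f, hf⟩ := h.plane hd hz h0 h1
  obtain ⟨x, y, x', y', rfl, rfl, h2', h3, h4⟩ := hf u hu v hv
  rw [e] at h2'
  rw [e'] at h3
  have hx := left_ne_zero_of_mul_eq_one h2'.symm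
  have hx' := left_ne_zero_of_mul_eq_one h3.symm
  have h6 : (x' - x) * (x ^ 2 + x * x' + x' ^ 2) = 0 := by
    linear_combination h5 x' hx' - h5 x hx
  rcases mul_eq_zero.1 h6 with h7 | h7
  · obtain rfl := sub_eq_zero.1 h7
    exact .inl (by rw [mul_left_cancel₀ hx (h2'.symm.trans h3)])
  · refine .inr (mul_left_cancel₀ (mul_ne_zero hx hx') ?_)
    rw [h4]
    linear_combination h7 - x ^ 2 * h3 - x' ^ 2 * h2' - x * x' * h2

theorem NDS.four_two (h2 : (2 : F) = 0) (hF : ∀ x : F, x = 0 ∨ x = 1) {W U : Submodule F V}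
    (h : NDS Q W) (hd : finrank F W = 4) (hU : U ≤ W) (hs : Sing Q U) (hU2 : finrank F U = 2)
    {a b v : V} (ha : a ∈ W) (hb : b ∈ W) (hv : v ∈ W) (e1 : Q a = 1) (e2 : Q b = 1)
    (e3 : polar Q a b = 1) (e4 : Q v = 1) :
    (∃ x y : F, v = x • a + y • b) ∨ (polar Q a v = 0 ∧ polar Q b v = 0) := by
  have haa : polar Q a a = 0 := by rw [p_self, h2, zero_mul]
  have hbb : polar Q b b = 0 := by rw [p_self, h2, zero_mul]
  have hba : polar Q b a = 1 := by rw [polar_comm, e3]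
  have hm : ∀ v ∈ W, v - (polar Q b v • a + polar Q a v • b) ∈ W := fun v hv =>
    W.sub_mem hv (W.add_mem (W.smul_mem _ ha) (W.smul_mem _ hb))
  have hq : ∀ v, Q (v - (polar Q b v • a + polar Q a v • b)) = 0 → Q v = 0 →
      polar Q a v = 0 ∧ polar Q b v = 0 := fun v e e' => by
    simp only [q_sub, q_add, q_smul, polar_add_right, p_smul_left, p_smul_right, e', e1, e2, e3,
      polar_comm _ v] at e
    rcases hF (polar Q a v) with h3 | h3 <;> rcases hF (polar Q b v) with h4 | h4 <;>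
      simp [h3, h4] at e ⊢
  by_contra hc
  push Not at hc
  set z := v - (polar Q b v • a + polar Q a v • b) with hz
  have hz0 : z ≠ 0 := fun e => hc.1 _ _ (sub_eq_zero.1 e)
  have hza : polar Q a z = 0 := by simp [hz, haa, e3]
  have hzb : polar Q b z = 0 := by simp [hz, hbb, hba]
  have hz1 : Q z = 0 := by
    simp only [hz, q_sub, q_add, q_smul, polar_add_left, p_smul_left, p_smul_right, e4, e1, e2, e3,
      polar_comm _ v]
    rcases hF (polar Q a v) with h3 | h3 <;> rcases hF (polar Q b v) with h4 | h4 <;>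
      simp only [h3, h4]
    · exact absurd h4 (hc.2 h3)
    all_goals linear_combination h2
  obtain ⟨y, hy, h4⟩ := h.exists_polar (hm v hv) hz0
  have h5 := finrank_inf_ker_lt (φ := Q.polarBilin z) hy (by simp [hz ▸ h4])
  have h6 := finrank_inf_ker_lt (W := W ⊓ LinearMap.ker (Q.polarBilin z)) (φ := Q.polarBilin a)
    ⟨hb, by simp [polar_comm _ z, hzb]⟩ (by simp [e3])
  have h7 := finrank_inf_ker_lt (W := W ⊓ LinearMap.ker (Q.polarBilin z) ⊓
    LinearMap.ker (Q.polarBilin a)) (φ := Q.polarBilin b)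
    ⟨⟨ha, by simp [polar_comm _ z, hza]⟩, haa⟩ (by simp [hba])
  have key : ∀ u ∈ U, polar Q z u = 0 → u ∈ F ∙ z := fun u hu e => by
    have h8 := mem_span_of_finrank_le (W := W ⊓ LinearMap.ker (Q.polarBilin z) ⊓
      LinearMap.ker (Q.polarBilin a) ⊓ LinearMap.ker (Q.polarBilin b)) (by omega)
      ⟨⟨⟨hm v hv, (p_self Q z).trans (by rw [hz1, mul_zero])⟩, hza⟩, hzb⟩ hz0
      (y := u - (polar Q b u • a + polar Q a u • b))
      ⟨⟨⟨hm u (hU hu), by simp [e, polar_comm _ z a, polar_comm _ z b, hza, hzb]⟩,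
        by simp [haa, e3]⟩, by simp [hbb, hba]⟩
    obtain ⟨s, hs'⟩ := Submodule.mem_span_singleton.1 h8
    obtain ⟨h9, h10⟩ := hq u (by rw [← hs', q_smul, hz1, mul_zero]) (hs u hu)
    simpa [h9, h10] using h8
  obtain ⟨u, ⟨hu, hu1⟩, hu0⟩ := exists_not_mem_of_finrank_lt (W := ⊥)
    (U := U ⊓ LinearMap.ker (Q.polarBilin z)) (by
      have := finrank_le_inf_ker U (Q.polarBilin z)
      simp only [finrank_bot]
      omega)
  obtain ⟨s, rfl⟩ := Submodule.mem_span_singleton.1 (key u hu hu1)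
  have h8 : z ∈ U := (U.smul_mem_iff (left_ne_zero_of_smul hu0)).1 hu
  have := Submodule.finrank_mono (show U ≤ F ∙ z from fun u hu =>
    key u hu (mem_perp.1 (le_perp_of_singular hs hu) z h8))
  have := finrank_span_one_le (F := F) z
  omega

variable {κ : Type*} [Fintype κ] {D : κ → Submodule F V} {π : κ → V →ₗ[F] V} {k : ℕ}
  {M : Subgroup (OG Q)}

namespace ODec
variable (h : ODec M D π k) {i j l : κ}
include h

theorem exists_out [Finite F] (hij : i ≠ j) {a : V} (ha : a ∈ D i) (ha0 : a ≠ 0) :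
    ∃ g ∈ commutator (OG Q), ∀ l, g.1 a ∉ D l := by
  have h1 := h.nd.finrank_perp_add (D i)
  have h2 := Submodule.finrank_mono (h.le_perp hij.symm)
  have h3 := h.hn
  rw [h.rk] at h1 h2
  obtain ⟨c, hc, hc0, hc1⟩ := exists_sing_mem Q (perp Q (D i)) (by omega)
  obtain ⟨e, he, h4⟩ := (h.nds i).exists_polar ha ha0
  have h5 := mem_perp'.mp hc
  refine ⟨eich Q c e, h.nd.eich_mem_commutator (good_of_five_le (by omega)) _ _, fun l h6 => ?_⟩
  rw [eich_apply hc1 (h5 e he), h5 a ha, polar_comm, h4] at h6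
  simp only [mul_zero, sub_zero, one_smul, zero_smul] at h6
  by_cases h7 : l = i
  · exact hc0 (h.nds i c (((D i).add_mem_iff_right ha).mp (h7 ▸ h6)) h5)
  · simpa [h4, h5 e he] using h.orth _ _ h7 _ h6 e he

omit h in
theorem not_perm (h : IsDec D π) (hij : i ≠ j) {g : V ≃ₗ[F] V} {a z : V} (ha : a ∈ D i)
    (h0 : a ≠ 0) (hz : z ∈ D i) (hz0 : z ≠ 0) (e : g a ∈ D j) (e' : g z ∈ D i) : ¬ PermD D g :=
  fun ⟨s, hs⟩ => by
    by_cases h1 : s i = i
    · exact h0 (g.map_eq_zero_iff.1 (h.eq_zero_of_mem hij (h1 ▸ hs i ▸ ⟨a, ha, rfl⟩) e))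
    · exact hz0 (g.map_eq_zero_iff.1 (h.eq_zero_of_mem h1 (hs i ▸ ⟨z, hz, rfl⟩) e'))

theorem non_frame [Finite F] (hk : 2 ≤ k) (h2 : (2 : F) ≠ 0) (hij : i ≠ j) {c : F} (hc : c ≠ 0)
    (hs : ∀ l, FrQ Q (D l) c) : ∃ g ∈ commutator (OG Q),
      (∀ v, (Q v = c ∧ ∃ l, v ∈ D l) → ∃ l, g.1 v ∈ D l) ∧ ¬ PermD D g.1 := by
  obtain ⟨a, ha, ha1⟩ := (h.nds i).exists_Q_eq (by rwa [h.rk]) c
  obtain ⟨b, hb, hb1⟩ := (h.nds j).exists_Q_eq (by rwa [h.rk]) c
  obtain ⟨d, hd, hd1⟩ := (h.nds i).exists_Q_eq (by rwa [h.rk]) (2 * c)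
  have hab := h.orth i j hij a ha b hb
  have h1 : Q (b - a) = 2 * c := by rw [q_sub, polar_comm, hab, ha1, hb1]; ring
  have h3 : (refl Q (b - a)).1 a = b := refl_sub_apply (ha1.trans hb1.symm) (by
    simp [hab, p_self, ha1, h2, hc])
  have h4 : (refl Q (b - a)).1 b = a := by
    have := congrArg (refl Q (b - a)).1 h3
    rw [← OG.mul_apply, refl_mul_self, OG.one_apply] at this
    exact this.symm
  have h5 : ∀ l x, x ∈ D l → (refl Q d).1 x ∈ D l := fun l x hx => refl_mem_sub (h.mem_or hd l) hx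
  have h6 : ∀ x, (refl Q d).1 ((refl Q d).1 x) = x := fun x => by
    rw [← OG.mul_apply, refl_mul_self, OG.one_apply]
  obtain ⟨z, ⟨hz, hz1⟩, hz0⟩ := exists_not_mem_of_finrank_lt (W := ⊥)
    (U := D i ⊓ LinearMap.ker (Q.polarBilin a)) (by
      have := finrank_le_inf_ker (D i) (Q.polarBilin a)
      rw [h.rk] at this
      simp only [finrank_bot]
      omega)
  refine ⟨refl Q (b - a) * refl Q d, h.nd.refl_mul_refl_mem_commutator
    (h1 ▸ mul_ne_zero h2 hc) (h1.trans hd1.symm), fun v ⟨hv, l, hl⟩ => ?_,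
    not_perm h.dec hij (h5 i a ha) (by simpa using ne_zero_of_Q_ne_zero (ha1 ▸ hc)) (h5 i z hz)
      (by simpa using hz0) (by rwa [OG.mul_apply, h6, h3]) ?_⟩
  · rw [OG.mul_apply]
    have h7 := h5 l v hl
    rw [← OG.map_Q (refl Q d)] at hv
    generalize (refl Q d).1 v = x at *
    have key : ∀ {i a}, a ∈ D i → Q a = c → x = a ∨ x = -a ∨ polar Q a x = 0 :=
      fun {i a} ha ha1 => by
        by_cases e : i = l
        exacts [hs l a (e ▸ ha) x h7 ha1 hv, .inr (.inr (h.orth i l e a ha x h7))]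
    rcases key ha ha1 with rfl | rfl | e1
    · exact ⟨j, by rwa [h3]⟩
    · exact ⟨j, by rw [map_neg, h3]; exact neg_mem hb⟩
    rcases key hb hb1 with rfl | rfl | e2
    · exact ⟨i, by rwa [h4]⟩
    · exact ⟨i, by rw [map_neg, h4]; exact neg_mem ha⟩
    exact ⟨l, by rwa [refl_apply_of_orth (by simp [e1, e2])]⟩
  · rwa [OG.mul_apply, h6, refl_apply_of_orth (by
      simp [h.orth j i hij.symm b hb z hz, show polar Q a z = 0 from hz1])]

theorem non_four (hk : k = 4) (h2 : (2 : F) = 0) (hF : ∀ x : F, x = 0 ∨ x = 1) (hij : i ≠ j)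
    (hp : ∀ l, ∃ U ≤ D l, Sing Q U ∧ finrank F U = 2) : ∃ g ∈ commutator (OG Q),
      (∀ v, (Q v = 1 ∧ ∃ l, v ∈ D l) → ∃ l, g.1 v ∈ D l) ∧ ¬ PermD D g.1 := by
  have : Finite F := Finite.of_surjective (fun b : Bool => if b then (1 : F) else 0) fun x => by
    rcases hF x with rfl | rfl
    exacts [⟨false, rfl⟩, ⟨true, rfl⟩]
  have h8 : ∀ x : V, x + x = 0 := fun x => by rw [← two_smul F, h2, zero_smul]
  have ex : ∀ l, ∃ a ∈ D l, ∃ b ∈ D l, Q a = 1 ∧ Q b = 1 ∧ polar Q a b = 1 := fun l => by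
    obtain ⟨U, h1, h3, h4⟩ := hp l
    obtain ⟨e, he, he0⟩ := exists_not_mem_of_finrank_lt (W := ⊥) (U := U) (by simp [h4])
    obtain ⟨f, hf, h5, h6, X, h7, h9, h10, h11⟩ := (h.nds l).exists_hyp (h1 he) he0 (h3 e he)
    obtain ⟨y, hy, hy1⟩ := h9.exists_Q_eq (by rw [h.rk] at h10; omega) 1
    exact ⟨e + f, add_mem (h1 he) hf, e + y, add_mem (h1 he) (h7 hy),
      by simp [q_add, h3 e he, h5, h6], by simp [q_add, h3 e he, hy1, h11 y hy],
      by simp [p_self, h3 e he, h11 y hy, polar_comm _ f e, h6]⟩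
  obtain ⟨a, ha, a', ha', a1, a2, a3⟩ := ex i
  obtain ⟨b, hb, b', hb', b1, b2, b3⟩ := ex j
  have ho := h.orth i j hij
  have ho' := h.orth j i hij.symm
  have h1 : Q (a + b) = 0 := by rw [q_add, a1, b1, ho a ha b hb]; linear_combination h2
  have h1' : Q (a' + b') = 0 := by rw [q_add, a2, b2, ho a' ha' b' hb']; linear_combination h2
  have h3 : polar Q (a + b) (a' + b') = 0 := by
    simp only [polar_add_left, polar_add_right, a3, b3, ho a ha b' hb', ho' b hb a' ha']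
    linear_combination h2
  have h4 : ∀ x, (eich Q (a + b) (a' + b')).1 x = x + (polar Q a' x + polar Q b' x) • (a + b) +
      (polar Q a x + polar Q b x) • (a' + b') := fun x => by
    rw [eich_apply h1 h3, h1', sub_eq_add_neg, neg_eq_of_add_eq_zero_left (h8 _)]
    simp
  obtain ⟨z, ⟨⟨hz, hz1⟩, hz2⟩, hz0⟩ := exists_not_mem_of_finrank_lt (W := ⊥)
    (U := D i ⊓ LinearMap.ker (Q.polarBilin a) ⊓ LinearMap.ker (Q.polarBilin a')) (by
      have := finrank_le_inf_ker (D i) (Q.polarBilin a)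
      have := finrank_le_inf_ker (D i ⊓ LinearMap.ker (Q.polarBilin a)) (Q.polarBilin a')
      have := h.rk i
      simp only [finrank_bot]
      omega)
  have h5 : ∀ x y : F, (eich Q (a + b) (a' + b')).1 (x • a + y • a') ∈ D j := fun x y => by
    have : (eich Q (a + b) (a' + b')).1 (x • a + y • a') = x • b + y • b' := by
      simp only [h4, polar_add_right, p_smul_right, p_self, h2, a3, polar_comm _ a' a,
        ho' b hb a ha, ho' b hb a' ha', ho' b' hb' a ha, ho' b' hb' a' ha']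
      linear_combination (norm := module) x • h8 a + y • h8 a'
    exact this ▸ add_mem (Submodule.smul_mem _ _ hb) (Submodule.smul_mem _ _ hb')
  have h6 : ∀ x y : F, (eich Q (a + b) (a' + b')).1 (x • b + y • b') ∈ D i := fun x y => by
    have : (eich Q (a + b) (a' + b')).1 (x • b + y • b') = x • a + y • a' := by
      simp only [h4, polar_add_right, p_smul_right, p_self, h2, b3, polar_comm _ b' b,
        ho a ha b hb, ho a ha b' hb', ho a' ha' b hb, ho a' ha' b' hb']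
      linear_combination (norm := module) x • h8 b + y • h8 b'
    exact this ▸ add_mem (Submodule.smul_mem _ _ ha) (Submodule.smul_mem _ _ ha')
  refine ⟨eich Q (a + b) (a' + b'), h.nd.eich_mem_commutator
    (good_of_five_le (by have := h.hn; omega)) _ _, fun v ⟨hv, l, hl⟩ => ?_,
    not_perm h.dec hij ha (ne_zero_of_Q_ne_zero (Q := Q) (by simp [a1])) hz hz0
      (by simpa using h5 1 0) ?_⟩
  · have key : ∀ {i a b}, a ∈ D i → b ∈ D i → Q a = 1 → Q b = 1 → polar Q a b = 1 →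
        (∃ x y : F, v = x • a + y • b) ∨ (polar Q a v = 0 ∧ polar Q b v = 0) :=
      fun {i a b} ha hb e1 e2 e3 => by
        by_cases e : i = l
        · obtain ⟨U, u1, u2, u3⟩ := hp l
          exact (h.nds l).four_two h2 hF ((h.rk l).trans hk) u1 u2 u3 (e ▸ ha) (e ▸ hb) hl e1 e2 e3 hv
        · exact .inr ⟨h.orth i l e a ha v hl, h.orth i l e b hb v hl⟩
    rcases key ha ha' a1 a2 a3 with ⟨x, y, rfl⟩ | e1
    · exact ⟨j, h5 x y⟩
    rcases key hb hb' b1 b2 b3 with ⟨x, y, rfl⟩ | e2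
    · exact ⟨i, h6 x y⟩
    exact ⟨l, by simpa [h4, e1, e2] using hl⟩
  · simpa [h4, show polar Q a z = 0 from hz1, show polar Q a' z = 0 from hz2, ho' b hb z hz,
      ho' b' hb' z hz] using hz

theorem fr_three [Finite F] (hk : k = 3) (h3 : ∀ x : F, x = 0 ∨ x = 1 ∨ x = -1) (h2 : (2 : F) ≠ 0)
    (i : κ) : ∃ c ≠ 0, ∀ l, FrQ Q (D l) c := by
  have hr := (h.rk i).trans hk
  obtain ⟨e, he, he0, he1⟩ := exists_sing_mem Q (D i) hr.ge
  obtain ⟨f, -, -, -, U, u1, u2, u3, u4⟩ := (h.nds i).exists_hyp he he0 he1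
  obtain ⟨z, hz, hz0⟩ := u2.exists_nonsing (by omega)
  refine ⟨-Q z, neg_ne_zero.2 hz0, fun l => fr_of_three h3 (neg_ne_zero.2 hz0) h2
    fun u hu w hw e1 e2 e3 => by_contra fun h0 => ?_⟩
  obtain ⟨g, hg⟩ := h.iso l i
  obtain ⟨s, hs⟩ := (h.nds i).three_val hr he (hg w hw) (u1 hz) (hg u hu) he0 (by simpa using h0)
    he1 (by simpa) (u4 z hz).1 (by simpa) hz0
  rw [OG.map_Q, e1] at hs
  rcases h3 s with rfl | rfl | rfl
  · exact hz0 (by linear_combination -hs)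
  all_goals exact mul_ne_zero h2 hz0 (by linear_combination -hs)

theorem non_sum [Finite F] (h2 : (2 : F) = 0) (hij : i ≠ j) (hil : i ≠ l) (hjl : j ≠ l)
    (hk : 2 ≤ k) (hp : ∃ e ∈ D j, e ≠ 0 ∧ Q e = 0)
    (hs : ∀ l, ∀ u ∈ D l, ∀ v ∈ D l, Q u = 1 → Q v = 1 → v = u ∨ polar Q u v = 1) :
    (∃ g ∈ commutator (OG Q), (∀ v, (∀ m, π m v = 0 ∨ Q (π m v) = 1) →
      ∀ m, π m (g.1 v) = 0 ∨ Q (π m (g.1 v)) = 1) ∧ ¬ PermD D g.1) ∧
    ∃ g ∈ commutator (OG Q), ∃ v, (∀ m, π m v = 0 ∨ Q (π m v) = 1) ∧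
      ¬ ∀ m, π m (g.1 v) = 0 ∨ Q (π m (g.1 v)) = 1 := by
  have h8 : ∀ x : V, x + x = 0 := fun x => by rw [← two_smul F, h2, zero_smul]
  set P := fun v : V => ∀ m, π m v = 0 ∨ Q (π m v) = 1 with hP
  have add : ∀ x y, P x → P y → P (x + y) := fun x y hx hy m => by
    rw [map_add]
    rcases hx m with e | e
    · simpa [e] using hy m
    rcases hy m with e' | e'
    · simp [e, e']
    rcases hs m _ (h.dec.mem m x) _ (h.dec.mem m y) e e' with e'' | e''
    · exact .inl (by rw [e'', h8])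
    · exact .inr (by rw [q_add, e, e', e'']; linear_combination h2)
  have gen : ∀ {m a}, a ∈ D m → Q a = 1 → P a := fun {m a} ha e m' => by
    by_cases e' : m' = m
    · exact .inr (by rwa [e', h.dec.of_mem ha])
    · exact .inl (h.dec.of_ne e' ha)
  have pol : ∀ {m a}, a ∈ D m → Q a = 1 → ∀ x, P x → polar Q a x = 0 ∨ polar Q a x = 1 :=
    fun {m a} ha e x hx => by
      rw [← h.proj ha]
      rcases hx m with e' | e'
      · simp [e']
      rcases hs m a ha _ (h.dec.mem m x) e e' with e'' | e''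
      · exact .inl (by rw [e'', p_self, h2, zero_mul])
      · exact .inr e''
  have rf : ∀ u, P u → Q u = 1 → (∀ x, P x → polar Q u x = 0 ∨ polar Q u x = 1) →
      ∀ x, P x → P ((refl Q u).1 x) := fun u hu e e' x hx => by
    rw [refl_apply, e]
    rcases e' x hx with e'' | e'' <;> simp only [e'', inv_one, mul_zero, mul_one, zero_smul,
      one_smul, sub_zero, sub_eq_add_neg, neg_eq_of_add_eq_zero_left (h8 _), add_zero, hx]
    exact add _ _ hx hu
  obtain ⟨a, ha, a1⟩ := (h.nds i).exists_Q_eq (by rwa [h.rk]) 1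
  obtain ⟨b, hb, b1⟩ := (h.nds j).exists_Q_eq (by rwa [h.rk]) 1
  obtain ⟨c, hc, c1⟩ := (h.nds l).exists_Q_eq (by rwa [h.rk]) 1
  have a0 : a ≠ 0 := ne_zero_of_Q_ne_zero (Q := Q) (by simp [a1])
  obtain ⟨y, hy, y1⟩ := (h.nds i).exists_polar ha a0
  have h1 : Q (a + b + c) = 1 := by
    simp only [q_add, polar_add_left, a1, b1, c1, h.orth i j hij a ha b hb,
      h.orth i l hil a ha c hc, h.orth j l hjl b hb c hc]
    linear_combination h2
  have h5 : ∀ x ∈ D i, (refl Q a).1 x ∈ D i := fun x hx => refl_mem_sub (.inl ha) hx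
  have h6 : ∀ x, (refl Q a).1 ((refl Q a).1 x) = x := fun x => by
    rw [← OG.mul_apply, refl_mul_self, OG.one_apply]
  refine ⟨⟨refl Q (a + b + c) * refl Q a, h.nd.refl_mul_refl_mem_commutator (by simp [h1])
    (h1.trans a1.symm), fun v hv => rf _ (add _ _ (add _ _ (gen ha a1) (gen hb b1)) (gen hc c1)) h1
      (fun x hx => ?_) _ (rf a (gen ha a1) a1 (pol ha a1) v hv), fun ⟨s, hs⟩ => ?_⟩, ?_⟩
  · rw [polar_add_left, polar_add_left]
    have : (1 : F) + 1 = 0 := by linear_combination h2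
    rcases pol ha a1 x hx with e1 | e1 <;> rcases pol hb b1 x hx with e2 | e2 <;>
      rcases pol hc c1 x hx with e3 | e3 <;> simp [e1, e2, e3, this]
  · have h7 : ∀ x ∈ D i, (refl Q (a + b + c)).1 x ∈ D (s i) := fun x hx =>
      hs i ▸ ⟨_, h5 x hx, congrArg (refl Q (a + b + c)).1 (h6 x)⟩
    have h9 := h7 a ha
    rw [refl_apply_of_orth (by simp [p_self, h2, h.orth j i hij.symm b hb a ha,
      h.orth l i hil.symm c hc a ha])] at h9
    have h10 : s i = i := by_contra fun e => a0 (h.dec.eq_zero_of_mem e h9 ha)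
    have h11 := h.dec.of_ne hij.symm (h10 ▸ h7 y hy)
    simp [refl_apply, h1, y1, h.orth j i hij.symm b hb y hy, h.orth l i hil.symm c hc y hy,
      h.dec.of_ne hij.symm hy, h.dec.of_ne hij.symm ha, h.dec.of_mem hb, h.dec.of_ne hjl hc] at h11
    simp [h11] at b1
  · obtain ⟨e, he, he0, he1⟩ := hp
    refine ⟨eich Q e y, h.nd.eich_mem_commutator (good_of_five_le (by have := h.hn; omega)) _ _,
      a, gen ha a1, fun hc => ?_⟩
    have := hc j
    rw [eich_apply he1 (h.orth j i hij.symm e he y hy), h.orth j i hij.symm e he a ha, polar_comm,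
      y1] at this
    simp [h.dec.of_ne hij.symm ha, h.dec.of_mem he, he0, he1] at this

end ODec

section geo
variable {ι : Type} [Fintype ι] [DecidableEq ι] {Q : QuadraticForm F (ι → F)} {t : ℕ}
  {D : Fin t → Submodule F (ι → F)} [Finite F]

omit [FiniteDimensional F V] in
theorem between_set {H : Subgroup (GL ι F)} (P : ((ι → F) ≃ₗ[F] (ι → F)) → Prop)
    (hH : ∀ g, g ∈ H ↔ P (glEquiv ι F g)) (S : Set (ι → F))
    (h1 : ∀ g : OG Q, P g.1 → ∀ v ∈ S, g.1 v ∈ S)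
    (h2 : ∃ g ∈ commutator (OG Q), (∀ v ∈ S, g.1 v ∈ S) ∧ ¬ P g.1)
    (h3 : ∃ g ∈ commutator (OG Q), ∃ v ∈ S, g.1 v ∉ S) :
    ∃ L : Subgroup (GL ι F), H ⊓ Geo.omegaGL ⇑Q < L ∧ L < Geo.omegaGL ⇑Q :=
  exists_between_Om (K := setStab S) P (fun g => ∀ v, v ∈ S ↔ g v ∈ S) hH (fun _ => Iff.rfl)
    (fun g _ hg => iff_of_mapsTo g.1.injective (h1 g hg))
    (h2.imp fun g hg => ⟨hg.1, iff_of_mapsTo g.1.injective hg.2.1, hg.2.2⟩)
    (h3.imp fun _ ⟨hg, v, hv, hv'⟩ => ⟨hg, fun e => hv' ((e v).1 hv)⟩)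

omit [FiniteDimensional F V] in
theorem ODec.between {π : Fin t → (ι → F) →ₗ[F] (ι → F)} (h : ODec (⊤ : Subgroup (OG Q)) D π k)
    (hk : 2 ≤ k) {i j : Fin t} (hij : i ≠ j) {c : F} (hc : c ≠ 0) (h2 : ∃ g ∈ commutator (OG Q),
      (∀ v, (Q v = c ∧ ∃ l, v ∈ D l) → ∃ l, g.1 v ∈ D l) ∧ ¬ PermD D g.1) :
    ∃ L : Subgroup (GL ι F), Geo.decompositionStabilizer D ⊓ Geo.omegaGL ⇑Q < L ∧
      L < Geo.omegaGL ⇑Q := by
  obtain ⟨a, ha, ha1⟩ := (h.nds i).exists_Q_eq (by rwa [h.rk]) c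
  obtain ⟨g, hg, hg'⟩ := h.exists_out hij ha (ne_zero_of_Q_ne_zero (ha1 ▸ hc))
  exact between_set (PermD D) mem_decStab {v | Q v = c ∧ ∃ l, v ∈ D l}
    (fun g hg v hv => ⟨by simpa using hv.1, (hg.mem_iff v).1 hv.2⟩)
    (h2.imp fun g hg => ⟨hg.1, fun v hv => ⟨by simpa using hv.1, hg.2.1 v hv⟩, hg.2.2⟩)
    ⟨g, hg, a, ⟨ha1, i, ha⟩, fun ⟨_, l, e⟩ => hg' l e⟩

omit [FiniteDimensional F V] [Finite F] in
theorem not_max_om_dec [Fintype F] (hQ : ND Q) (hn : 13 ≤ Fintype.card ι)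
    (hD : Geo.IsOrthogonalMDecomposition ⇑Q k D)
    (hc : (k = 2 ∧ (Fintype.card F = 3 ∨ ((∀ i, Geo.IsPlusTypeOn ⇑Q (D i)) ∧
      (Fintype.card F = 2 ∨ Fintype.card F = 4 ∨ Fintype.card F = 5)))) ∨
      (k = 3 ∧ Fintype.card F = 3) ∨
      (k = 4 ∧ Fintype.card F = 2 ∧ ∀ i, Geo.IsPlusTypeOn ⇑Q (D i))) :
    ∃ L : Subgroup (GL ι F), Geo.decompositionStabilizer D ⊓ Geo.omegaGL ⇑Q < L ∧
      L < Geo.omegaGL ⇑Q := by
  obtain ⟨π, h⟩ := exists_oDec hQ hn hD
  replace h := h ⊤ fun _ _ _ => trivial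
  have h1 := card_eq_of_dec hD.decomp.decomp
  have ht : 3 ≤ t := by
    by_contra e
    have : t * k ≤ 2 * 4 := Nat.mul_le_mul (by omega) (by omega)
    omega
  have hij : (⟨0, by omega⟩ : Fin t) ≠ ⟨1, by omega⟩ := by simp
  have h3 : Fintype.card F = 3 → (∀ x : F, x = 0 ∨ x = 1 ∨ x = -1) ∧ (2 : F) ≠ 0 := fun e =>
    ⟨fun x => by
      have := FiniteField.pow_card x
      rw [e] at this
      have : x * ((x - 1) * (x + 1)) = 0 := by linear_combination this
      simpa [sub_eq_zero, add_eq_zero_iff_eq_neg] using this,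
    two_ne_zero_of_odd (by simp [e]; decide)⟩
  have h4 : ∀ x : F, x ≠ 0 → x ^ (Fintype.card F - 1) = 1 := FiniteField.pow_card_sub_one_eq_one
  have h5 : Even (Fintype.card F) → (2 : F) = 0 := fun e => by_contra fun e' =>
    Nat.not_odd_iff_even.2 e (odd_card_of_two_ne_zero e')
  rcases hc with ⟨rfl, e | ⟨hp, e⟩⟩ | ⟨rfl, e⟩ | ⟨rfl, e, hp⟩
  · exact h.between le_rfl hij one_ne_zero (h.non_frame le_rfl (h3 e).2 hij one_ne_zero
      fun l => (h.nds l).fr_two (h3 e).1 (h3 e).2 (h.rk l))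
  · replace hp := fun i => (plus_two_iff (h.rk i)).1 (hp i)
    rcases or_assoc.2 e with e | e
    · have h6 := h5 (by rcases e with e | e <;> simp [e] <;> decide)
      obtain ⟨h7, h8⟩ := h.non_sum (l := ⟨2, by omega⟩) h6 hij (by simp) (by simp) le_rfl (hp _)
        fun l u hu v hv => (h.nds l).cube h6 (fun x hx => by
          have := h4 x hx
          rcases e with e | e <;> simp_all) (h.rk l) (hp l) hu hv
      refine between_set (PermD D) mem_decStab {v | ∀ m, π m v = 0 ∨ Q (π m v) = 1}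
        (fun g hg v hv m => ?_) h7 h8
      obtain ⟨s, hs⟩ := hg.proj h.dec
      obtain ⟨m, rfl⟩ := s.surjective m
      simpa [hs] using hv m
    · exact h.between le_rfl hij one_ne_zero (h.non_frame le_rfl
        (two_ne_zero_of_odd (by simp [e]; decide)) hij one_ne_zero
        fun l => (h.nds l).fr_five (by simpa [e] using h4) (h.rk l) (hp l))
  · obtain ⟨c, hc, hc'⟩ := h.fr_three rfl (h3 e).1 (h3 e).2 ⟨0, by omega⟩
    exact h.between (by omega) hij hc (h.non_frame (by omega) (h3 e).2 hij hc hc')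
  · refine h.between (by omega) hij one_ne_zero (h.non_four rfl (h5 (by simp [e]))
      (fun x => or_iff_not_imp_left.2 fun hx => by simpa [e] using h4 x hx) hij fun l => ?_)
    obtain ⟨U, u1, u2, u3⟩ := hp l
    exact ⟨U, u1, u2, by rw [h.rk] at u3; omega⟩

end geo

end Cfsg.Agent.Max
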