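import Mathlib
import Cfsg.Agent.Max3.SW6
import Cfsg.Agent.Max2.OO1

/-!
# Tensor powers of an orthogonal space: definitions
-/

set_option autoImplicit false

namespace Cfsg.Agent.Max

open Module Cfsg.Agent.Max2 Cfsg.Agent.Max3 TensorProduct Function Cfsg.Agent.Orth QuadraticMap

variable {F U W : Type*} [Field F] [AddCommGroup U] [Module F U] [AddCommGroup W] [Module F W]

/-- The admissible orthogonal factors. -/
structure OF (S : QuadraticForm F W) : Prop where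
  nd : ND S
  two : (2 : F) ≠ 0
  k3 : 3 ≤ finrank F W
  q3 : finrank F W = 3 → ∃ s : F, s ≠ 0 ∧ s ^ 2 ≠ 1
  k4 : finrank F W = 4 → ¬ IsPlus S

/-- The polar form of `Q` is a multiple of the tensor power of the polar form of `S`. -/
structure TFO {I : Type} [DecidableEq I] [Fintype I] (T : TP I F U W)
    (Q : QuadraticForm F (U ⊗[F] W)) (S : QuadraticForm F W) (κ : F) : Prop extends OF S where
  pure : ∀ a b, polar Q (T.pt a) (T.pt b) = κ * ∏ j, polar S (a j) (b j)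
  k0 : κ ≠ 0
  nQ : ND Q

/-- `M` contains `Ω` of the factor. -/
def FacO (S : QuadraticForm F W) (M : Subgroup ((U ⊗[F] W) ≃ₗ[F] (U ⊗[F] W)))
    (g : (U ⊗[F] W) ≃ₗ[F] (U ⊗[F] W)) : Prop := ∀ σ ∈ commutator (OG S), fE g σ.1 ∈ M

/-- The unipotent radical of the stabiliser of `g (U ⊗ u)` in `M` lies in the factor. -/
def StdO (S : QuadraticForm F W) (M : Subgroup ((U ⊗[F] W) ≃ₗ[F] (U ⊗[F] W)))
    (g : (U ⊗[F] W) ≃ₗ[F] (U ⊗[F] W)) : Prop :=
  ∀ u ≠ 0, S u = 0 → ∀ y ∈ M, (∀ x ∈ Lg g u, y x = x) →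
    (∀ x, cW U (S.polarBilin u) (g.symm x) = 0 → y x - x ∈ Lg g u) →
      ∃ w, polar S u w = 0 ∧ y = fE g (eich S u w).1

end Cfsg.Agent.Max
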