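import Mathlib
import Cfsg.Agent.Max.OW0
import Cfsg.Agent.Max.ODec

/-!
# Tensor powers of an orthogonal space: geometry of the factor
-/

set_option autoImplicit false
set_option linter.unusedSectionVars false
set_option linter.unusedSimpArgs false

namespace Cfsg.Agent.Max

open Module Cfsg.Agent.Max2 Cfsg.Agent.Max3 TensorProduct Function Cfsg.Agent.Orth QuadraticMap

variable {F W : Type*} [Field F] [AddCommGroup W] [Module F W] {S : QuadraticForm F W}
  {u f w v : W}

/-- The skew map `x ↦ β(b,x) a - β(a,x) b`. -/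
def XE (S : QuadraticForm F W) : W →ₗ[F] W →ₗ[F] Module.End F W :=
  LinearMap.mk₂ F (fun a b => r1 (S.polarBilin b) a - r1 (S.polarBilin a) b)
    (fun a a' b => by ext x; simp only [map_add, LinearMap.sub_apply, LinearMap.add_apply,
      LinearMap.smulRight_apply]; module)
    (fun c a b => by ext x; simp only [map_smul, LinearMap.sub_apply, LinearMap.smul_apply,
      LinearMap.smulRight_apply, smul_eq_mul]; module)
    (fun a b b' => by ext x; simp only [map_add, LinearMap.sub_apply, LinearMap.add_apply,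
      LinearMap.smulRight_apply]; module)
    (fun c a b => by ext x; simp only [map_smul, LinearMap.sub_apply, LinearMap.smul_apply,
      LinearMap.smulRight_apply, smul_eq_mul]; module)

/-- The symmetric rank one map `x ↦ β(u,x) u`. -/
abbrev EE (S : QuadraticForm F W) (u : W) : Module.End F W := r1 (S.polarBilin u) u

theorem XE_apply (a b x : W) : XE S a b x = polar S b x • a - polar S a x • b := rfl

theorem XE_def (a b : W) : XE S a b = r1 (S.polarBilin b) a - r1 (S.polarBilin a) b := rfl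

theorem EE_apply (a x : W) : EE S a x = polar S a x • a := rfl

theorem XE_self (a : W) : XE S a a = 0 := sub_self _

theorem XE_swap (a b : W) : XE S b a = -XE S a b := (neg_sub _ _).symm

theorem XE_skew (a b x y : W) : polar S (XE S a b x) y = -polar S x (XE S a b y) := by
  simp only [XE_apply, polar_sub_left, polar_sub_right, p_smul_left, p_smul_right,
    polar_comm S x]
  ring

theorem XE_mul (hu : S u = 0) (hw : polar S u w = 0) (hv : polar S u v = 0) :
    XE S u w * XE S u v = -polar S w v • EE S u := by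
  ext x
  simp only [Module.End.mul_apply, XE_apply, LinearMap.smul_apply, EE_apply, polar_sub_right,
    p_smul_right, p_self, hu, hv, polar_comm S w u, hw]
  module

theorem XE_EE (hu : S u = 0) (hw : polar S u w = 0) : XE S u w * EE S u = 0 := by
  ext x; simp [XE_apply, EE_apply, hu, polar_comm S w u, hw]

theorem EE_XE (hu : S u = 0) (hw : polar S u w = 0) : EE S u * XE S u w = 0 := by
  ext x; simp [XE_apply, EE_apply, hu, hw]

theorem EE_EE (hu : S u = 0) : EE S u * EE S u = 0 := by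
  ext x; simp [EE_apply, hu]

theorem eich_coe (hu : S u = 0) (hw : polar S u w = 0) :
    (eich S u w).1.toLinearMap = 1 + XE S u w - S w • EE S u := by
  ext x
  simp only [LinearEquiv.coe_coe, eich_apply hu hw, LinearMap.sub_apply, LinearMap.add_apply,
    Module.End.one_apply, XE_apply, LinearMap.smul_apply, EE_apply]
  module

/-- A hyperbolic pair. -/
structure Hy (S : QuadraticForm F W) (u f : W) : Prop where
  u0 : S u = 0
  f0 : S f = 0
  uf : polar S u f = 1

/-- The orthogonal complement of a hyperbolic pair. -/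
abbrev W0 (S : QuadraticForm F W) (u f : W) : Submodule F W := perp S (Submodule.span F {u, f})

theorem W0.pu (h : w ∈ W0 S u f) : polar S u w = 0 := (mem_perp_pair.1 h).1

theorem W0.pf (h : w ∈ W0 S u f) : polar S f w = 0 := (mem_perp_pair.1 h).2

theorem W0.up (h : w ∈ W0 S u f) : polar S w u = 0 := by rw [polar_comm]; exact W0.pu h

theorem W0.fp (h : w ∈ W0 S u f) : polar S w f = 0 := by rw [polar_comm]; exact W0.pf h

theorem W0.symm (h : w ∈ W0 S u f) : w ∈ W0 S f u := mem_perp_pair.2 ⟨W0.pf h, W0.pu h⟩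

namespace Hy

variable (h : Hy S u f)
include h

theorem fu : polar S f u = 1 := by rw [polar_comm]; exact h.uf

theorem symm : Hy S f u := ⟨h.f0, h.u0, h.fu⟩

theorem ne : u ≠ 0 := by rintro rfl; simpa using h.uf

theorem uu : polar S u u = 0 := by simp [h.u0]

theorem ff : polar S f f = 0 := by simp [h.f0]

theorem dec (x : W) : ∃ w ∈ W0 S u f, x = polar S f x • u + w + polar S u x • f :=
  ⟨_, hyp_proj_mem h.u0 h.f0 h.uf x, by abel⟩

theorem dec' {x : W} (hx : polar S u x = 0) : ∃ w ∈ W0 S u f, x = polar S f x • u + w := by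
  simpa [hx] using h.dec x

theorem ext {Z : Type*} [AddCommGroup Z] [Module F Z] {a b : W →ₗ[F] Z} (h1 : a u = b u)
    (h2 : a f = b f) (h3 : ∀ w ∈ W0 S u f, a w = b w) : a = b := LinearMap.ext fun x => by
  obtain ⟨w, hw, e⟩ := h.dec x
  rw [e]; simp [h1, h2, h3 w hw]

theorem eich_f (hw : w ∈ W0 S u f) : (eich S u w).1 f = f - w - S w • u := by
  rw [eich_apply h.u0 (W0.pu hw), W0.fp hw, h.uf]; module

theorem XE_f (hw : w ∈ W0 S u f) : XE S u w f = -w := by simp [XE_apply, W0.fp hw, h.uf]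

theorem XE_u (hw : polar S u w = 0) : XE S u w u = 0 := by
  simp [XE_apply, polar_comm S w, hw, h.uu]

variable [FiniteDimensional F W]

theorem torus (hS : ND S) {l : F} (hl : l ≠ 0) : ∃ t ∈ commutator (OG S), t.1 u = l ^ 2 • u ∧
    t.1 f = (l ^ 2)⁻¹ • f ∧ ∀ w ∈ W0 S u f, t.1 w = w := by
  have a1 : S (u - f) = -1 := by simp [q_sub, h.u0, h.f0, h.uf]
  have a2 : S (u - l ^ 2 • f) = -l ^ 2 := by simp [q_sub, q_smul, h.u0, h.f0, h.uf]
  refine ⟨_, hS.refl_mul_refl_mem_commutator' (u := u - f) (v := u - l ^ 2 • f) (by simp [a1])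
    (by simp [a2, hl]) ⟨l, by rw [a1, a2]; ring⟩, ?_, ?_, fun w hw => ?_⟩
  iterate 2
    simp only [OG.mul_apply, refl_apply, a1, a2, polar_sub_left, polar_sub_right, p_smul_left,
      p_smul_right, p_self, h.u0, h.f0, h.uf, h.fu]
    match_scalars <;> field_simp <;> ring
  simp [refl_apply, W0.pu hw, W0.pf hw]

theorem eq_eich (hS : ND S) (h2 : (2 : F) ≠ 0) (b : OG S) (h1 : b.1 u = u)
    (h3 : ∀ w ∈ W0 S u f, b.1 w - w ∈ F ∙ u) : ∃ w ∈ W0 S u f, b = eich S u w := by
  obtain ⟨w, hw, e⟩ := h.dec (b.1 f)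
  have a1 : polar S u (b.1 f) = 1 := by conv_lhs => rw [← h1, OG.map_polar, h.uf]
  rw [a1, one_smul] at e
  generalize polar S f (b.1 f) = c at e
  have a2 : c = -S w := by
    have := OG.map_Q b f
    rw [e] at this
    simp only [q_add, q_smul, polar_add_left, p_smul_left, p_smul_right, h.u0, h.f0, h.uf,
      W0.pu hw, W0.fp hw] at this
    linear_combination this
  have hw' := neg_mem hw
  refine ⟨-w, hw', Subtype.ext (LinearEquiv.toLinearMap_injective (h.ext ?_ ?_ fun x hx => ?_))⟩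
  · simp [h1, eich_apply_left h.u0 (W0.pu hw')]
  · simp only [LinearEquiv.coe_coe, h.eich_f hw', e, a2, QuadraticMap.map_neg]; module
  obtain ⟨d, hd⟩ := Submodule.mem_span_singleton.1 (h3 x hx)
  have a3 := OG.map_polar b x f
  rw [e, show b.1 x = x + d • u by rw [hd]; abel] at a3
  simp only [polar_add_left, polar_add_right, p_smul_left, p_smul_right, h.uu, h.uf, W0.pu hw,
    W0.up hx, W0.fp hx] at a3
  simp only [LinearEquiv.coe_coe, eich_apply h.u0 (W0.pu hw'), W0.pu hx, polar_neg_left,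
    polar_comm S w x]
  linear_combination (norm := module) -hd + a3 • u

end Hy

theorem sim_conj {b : W ≃ₗ[F] W} {l : F} (hb : ∀ x, S (b x) = l * S x) (hl : l ≠ 0) {σ : OG S}
    (hσ : σ ∈ commutator (OG S)) : ∃ τ ∈ commutator (OG S), τ.1 = b⁻¹ * σ.1 * b :=
  ⟨_, map_mem_commutator (MonoidHom.mk' (fun σ : OG S => (⟨b⁻¹ * σ.1 * b, fun x =>
    mul_left_cancel₀ hl (by rw [← hb, ← hb]; simp [LinearEquiv.coe_inv])⟩ : OG S))
      fun a c => Subtype.ext (by simp [mul_assoc])) hσ, rfl⟩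

theorem dual3 {a b c : W} (ha : a ≠ 0) (hb : b ∉ F ∙ a) (hc : c ∉ Submodule.span F {a, b}) :
    ∃ φ ψ χ : Dual F W, (φ a = 1 ∧ φ b = 0 ∧ φ c = 0) ∧ (ψ a = 0 ∧ ψ b = 1 ∧ ψ c = 0) ∧
      (χ a = 0 ∧ χ b = 0 ∧ χ c = 1) := by
  obtain ⟨χ, c1, c2, c3⟩ := exists_dual_three hc
  obtain ⟨ψ, b1, b2⟩ := exists_dual_two hb
  obtain ⟨φ, a1⟩ := exists_dual_one (F := F) ha
  exact ⟨φ - φ b • (ψ - ψ c • χ) - φ c • χ, ψ - ψ c • χ, χ, by simp [*], by simp [*], by simp [*]⟩

theorem eq_zero_of_nilp {n : Module.End F W} (hn : IsNilpotent n) {c : F} (hv : v ≠ 0)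
    (e : n v = c • v) : c = 0 := by
  obtain ⟨m, hm⟩ := hn
  have : ∀ j : ℕ, (n ^ j) v = c ^ j • v := fun j => by
    induction j with
    | zero => simp
    | succ j ih => rw [pow_succ', Module.End.mul_apply, ih, map_smul, e, smul_smul, pow_succ]
  have := this m
  rw [hm, LinearMap.zero_apply, eq_comm, smul_eq_zero] at this
  exact pow_eq_zero_iff'.1 (this.resolve_right hv) |>.1

theorem ker_perp (b : OG S) {x : W} (hx : b.1 x = x) (y : W) : polar S x (b.1 y - y) = 0 := by
  rw [polar_sub_right]; conv_lhs => rw [← hx, OG.map_polar, hx, sub_self]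

namespace OF

variable (H : OF S) [FiniteDimensional F W]
include H

theorem hyp (hu0 : u ≠ 0) (hu : S u = 0) : ∃ f, Hy S u f :=
  let ⟨f, h1, h2⟩ := H.nd.exists_hyp hu0 hu
  ⟨f, hu, h2, h1⟩

theorem nds (h : Hy S u f) : NDS S (W0 S u f) := nds_hyp H.nd h.u0 h.f0 h.uf

theorem dim0 (h : Hy S u f) : finrank F (W0 S u f) + 2 = finrank F W :=
  H.nd.finrank_perp_hyp h.u0 h.f0 h.uf

theorem ne (hu : u ≠ 0) : S.polarBilin u ≠ 0 := fun e =>
  hu (H.nd u fun y => LinearMap.congr_fun e y)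

theorem exists_ns (h : Hy S u f) (hv : v ∈ W0 S u f) (h0 : v ≠ 0) :
    ∃ x ∈ W0 S u f, S x ≠ 0 ∧ polar S v x ≠ 0 := by
  by_contra hn
  push Not at hn
  exact h0 (H.nds h v hv fun x hx => ns_le H.two (X := LinearMap.ker (S.polarBilin v)) (H.nds h)
    (fun a ha h1 => hn a ha h1) hx)

theorem ns (h : Hy S u f) : ∃ c ∈ W0 S u f, S c ≠ 0 :=
  let ⟨c, h1, h2, h3⟩ := exists_ns_hyp H.nd H.k3 h.u0 h.f0 h.uf
  ⟨c, mem_perp_pair.2 ⟨h1, h2⟩, h3⟩

theorem mem_G (u w : W) : eich S u w ∈ commutator (OG S) :=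
  H.nd.eich_mem_commutator (good_of_two_ne_zero H.two) u w

theorem not_plane (h4 : finrank F W ≤ 4) (hu0 : u ≠ 0) (hv : v ∉ F ∙ u) (hu : S u = 0)
    (hv0 : S v = 0) (huv : polar S u v = 0) : False := by
  have hs : Sing S (Submodule.span F {u, v}) := fun x hx => by
    obtain ⟨a, b, rfl⟩ := Submodule.mem_span_pair.1 hx
    simp [q_add, q_smul, hu, hv0, huv]
  have d := Orth.finrank_span_pair_eq (Orth.linearIndependent_pair_of_notMem hu0 hv)
  have := H.nd.two_mul_finrank_le hs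
  exact H.k4 (by omega) ⟨_, hs, by omega⟩

theorem aniso (h4 : finrank F W ≤ 4) (h : Hy S u f) (hv : v ∈ W0 S u f) (h0 : S v = 0) : v = 0 :=
  by_contra fun e => H.not_plane h4 h.ne (fun k => by
    obtain ⟨c, rfl⟩ := Submodule.mem_span_singleton.1 k
    exact e (by rw [show c = 0 by simpa [h.fu] using W0.pf hv, zero_smul])) h.u0 h0 (W0.pu hv)

theorem span_pair (h4 : finrank F W ≤ 4) (h : Hy S u f) {x y : W} (hx : x ∈ W0 S u f)
    (hy : y ∈ W0 S u f) (x0 : S x ≠ 0) (y0 : S y ≠ 0) (xy : polar S x y = 0)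
    (hw : w ∈ W0 S u f) : ∃ a b : F, a • x + b • y = w := by
  have d := Orth.finrank_span_pair_eq (Orth.linearIndependent_pair_of_notMem (F := F) (u := x) (v := y)
    (by rintro rfl; simp at x0) fun e => by
      obtain ⟨c, rfl⟩ := Submodule.mem_span_singleton.1 e
      simp [H.two, x0] at xy
      simp [xy] at y0)
  have := H.dim0 h
  rw [← Submodule.eq_of_le_of_finrank_le (Submodule.span_le.2 (Set.pair_subset hx hy))
    (by omega)] at hw
  exact Submodule.mem_span_pair.1 hw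

theorem skew_span {Y : Submodule F (Module.End F W)} [Finite F]
    (h : ∀ u w, S u = 0 → polar S u w = 0 → S w ≠ 0 → XE S u w ∈ Y) (a b : W) : XE S a b ∈ Y := by
  have h1 : ∀ u w, S u = 0 → polar S u w = 0 → XE S u w ∈ Y := fun u w hu hw => by
    by_cases u0 : u = 0
    · simp [u0]
    obtain ⟨f, hf⟩ := H.hyp u0 hu
    obtain ⟨v, hv, e⟩ := hf.dec' hw
    rw [e, map_add, map_smul, XE_self, smul_zero, zero_add]
    exact ns_le H.two (X := Y.comap (XE S u)) (H.nds hf) (fun a ha => h u a hu (W0.pu ha)) hv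
  have h2 : ∀ u, S u = 0 → ∀ x, XE S u x ∈ Y := fun u hu x => by
    by_cases u0 : u = 0
    · simp [u0]
    obtain ⟨f, hf⟩ := H.hyp u0 hu
    obtain ⟨v, hv, e⟩ := hf.dec x
    obtain ⟨c, hc, c0⟩ := H.ns hf
    have k := h1 ((eich S f c).1 u) ((eich S f c).1 c) (by simp [hu]) (by simp [W0.pu hc])
    rw [hf.symm.eich_f (W0.symm hc), eich_apply hf.f0 (W0.pf hc), W0.pf hc] at k
    rw [e, map_add, map_add, map_smul, map_smul, XE_self, smul_zero, zero_add]
    refine add_mem (h1 u v hu (W0.pu hv)) (Y.smul_mem _ ((Y.smul_mem_iff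
      (mul_ne_zero H.two c0)).1 ?_))
    convert sub_mem (sub_mem k (h1 u c hu (W0.pu hc))) (Y.smul_mem (S c) (h1 f c hf.f0 (W0.pf hc)))
      using 1
    simp only [map_add, map_sub, map_smul, LinearMap.add_apply, LinearMap.sub_apply,
      LinearMap.smul_apply, XE_self, XE_swap f c, p_self]
    module
  obtain ⟨e, he0, he⟩ := exists_singular S H.k3
  exact H.nd.singular_induction he0 he (fun a => XE S a b ∈ Y) (fun a ha => h2 a ha b)
    (fun a c ha hc => by simpa using add_mem ha hc) a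

theorem alg_ind {Y : Submodule F (Module.End F W)} [Finite F] (hm : ∀ x ∈ Y, ∀ y ∈ Y, x * y ∈ Y)
    (h : ∀ a b, XE S a b ∈ Y) (x : Module.End F W) : x ∈ Y := by
  have h0 : ∀ u, S u = 0 → EE S u ∈ Y := fun u hu => by
    by_cases u0 : u = 0
    · simp [u0, r1]
    obtain ⟨f, hf⟩ := H.hyp u0 hu
    obtain ⟨c, hc, c0⟩ := H.ns hf
    have := hm _ (h u c) _ (h u c)
    rwa [XE_mul hu (W0.pu hc) (W0.pu hc), Y.smul_mem_iff (by simp [H.two, c0])] at this
  have h1 : ∀ u, S u = 0 → ∀ a, r1 (S.polarBilin a) u ∈ Y := fun u hu a => by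
    by_cases u0 : u = 0
    · simp [u0, r1]
    obtain ⟨f, hf⟩ := H.hyp u0 hu
    convert add_mem (hm _ (h0 u hu) _ (h f a))
      (Y.smul_mem (polar S u a) (hm _ (h0 u hu) _ (h0 f hf.f0))) using 1
    ext x
    simp only [LinearMap.smulRight_apply, polarBilin_apply_apply, LinearMap.add_apply,
      Module.End.mul_apply, XE_apply, polar_sub_right, p_smul_right, hf.uf, LinearMap.smul_apply]
    module
  obtain ⟨e, he0, he⟩ := exists_singular S H.k3
  have h2 : ∀ v a, r1 (S.polarBilin a) v ∈ Y := fun v a =>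
    H.nd.singular_induction he0 he (fun v => r1 (S.polarBilin a) v ∈ Y) (fun v hv => h1 v hv a)
      (fun v w hv hw => by convert add_mem hv hw using 1; ext; simp) v
  let b := Module.finBasis F W
  rw [show x = ∑ i, r1 (b.coord i) (x (b i)) from b.ext fun i => by
    simp [LinearMap.sum_apply, Finsupp.single_apply]]
  refine Y.sum_mem fun i _ => ?_
  obtain ⟨a, ha⟩ := om_exists_dual H.nd (b.coord i)
  exact ha ▸ h2 _ a

variable [Finite F]

theorem pair (hq : ∀ s : F, s ≠ 0 → s ^ 2 = 1) (h : Hy S u f) {x : W} (hx : x ∈ W0 S u f)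
    (h0 : S x ≠ 0) : ∃ y ∈ W0 S u f, polar S x y = 0 ∧ S y = S x := by
  have h4 : finrank F W ≠ 3 := fun e => let ⟨s, h1, h2⟩ := H.q3 e; h2 (hq s h1)
  have a1 := (H.nds h).perp_one H.two hx h0
  have a2 := finrank_le_inf_ker (W0 S u f) (S.polarBilin x)
  have a3 := H.dim0 h
  have := H.k3
  by_cases h5 : finrank F W ≤ 4
  · obtain ⟨y, hy, y0⟩ := a1.exists_nonsing (by omega)
    have xy : polar S x y = 0 := hy.2
    refine ⟨y, hy.1, xy, ?_⟩
    have := hq (S y / S x) (div_ne_zero y0 h0)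
    rw [div_pow, div_eq_one_iff_eq (pow_ne_zero 2 h0), sq_eq_sq_iff_eq_or_eq_neg] at this
    refine this.resolve_right fun e => ?_
    have := congrArg (polar S x) (H.aniso h5 h (add_mem hx hy.1) (by simp [q_add, xy, e]))
    simp [xy, H.two, h0] at this
  · obtain ⟨y, hy, e⟩ := a1.exists_Q_eq (by omega) (S x)
    exact ⟨y, hy.1, hy.2, e⟩

theorem rr_mem {x y : W} (h0 : S x ≠ 0) (e : S y = S x) :
    refl S x * refl S y ∈ commutator (OG S) := H.nd.refl_mul_refl_mem_commutator h0 e.symm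

theorem move (h : Hy S u f) (hv : v ∈ W0 S u f) (h0 : v ≠ 0) : ∃ t ∈ commutator (OG S), ∃ μ : F,
    μ ≠ 0 ∧ t.1 u = μ • u ∧ t.1 f = μ⁻¹ • f ∧ μ • t.1 v ≠ v := by
  by_cases hq : ∀ s : F, s ≠ 0 → s ^ 2 = 1
  · obtain ⟨x, hx, x0, xv⟩ := H.exists_ns h hv h0
    obtain ⟨y, hy, xy, e⟩ := H.pair hq h hx x0
    refine ⟨_, H.rr_mem x0 e, 1, one_ne_zero, by simp [refl_apply, W0.up hx, W0.up hy],
      by simp [refl_apply, W0.fp hx, W0.fp hy], fun k => xv ?_⟩
    have := congrArg (polar S x) k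
    simp only [one_smul, OG.mul_apply, refl_apply, polar_sub_right, p_smul_right, xy, p_self,
      polar_comm S v] at this ⊢
    field_simp at this
    exact mul_left_cancel₀ H.two (by linear_combination -this)
  push Not at hq
  obtain ⟨s, s0, s1⟩ := hq
  obtain ⟨t, ht, h1, h2, h3⟩ := h.torus H.nd s0
  refine ⟨t, ht, s ^ 2, pow_ne_zero 2 s0, h1, h2, fun e => s1 ?_⟩
  rw [h3 v hv] at e
  simpa [sub_eq_zero, h0] using (show (s ^ 2 - 1) • v = 0 by rw [sub_smul, e, one_smul, sub_self])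

theorem scale (h4 : finrank F W ≤ 4) (h : Hy S u f) : ∃ t ∈ commutator (OG S), ∃ ν : F, ν ≠ 1 ∧
    ∀ w ∈ W0 S u f, t * eich S u w * t⁻¹ = eich S u (ν • w) := by
  by_cases hq : ∀ s : F, s ≠ 0 → s ^ 2 = 1
  · obtain ⟨x, hx, x0⟩ := H.ns h
    obtain ⟨y, hy, xy, e⟩ := H.pair hq h hx x0
    refine ⟨_, H.rr_mem x0 e, -1, fun k => H.two (by linear_combination -k), fun w hw => ?_⟩
    obtain ⟨a, b, rfl⟩ := H.span_pair h4 h hx hy x0 (e ▸ x0) xy hw
    rw [eich_conj]
    congr 1
    · simp [refl_apply, W0.up hx, W0.up hy]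
    · simp only [OG.mul_apply, map_add, map_smul, refl_apply_self x0, refl_apply_self (e ▸ x0 :),
        refl_apply_of_orth xy, refl_apply_of_orth ((polar_comm S y x).trans xy), map_neg]
      module
  push Not at hq
  obtain ⟨s, s0, s1⟩ := hq
  obtain ⟨t, ht, h1, -, h3⟩ := h.torus H.nd s0
  exact ⟨t, ht, s ^ 2, s1, fun w hw => by
    rw [eich_conj, h1, h3 w hw, eich_smul_left h.u0 (W0.pu hw)]⟩

theorem avg [Fintype F] (h : Hy S u f) : ∃ A : Submodule F W, A ≤ W0 S u f ∧
    (∀ w ∈ A, S w = 0 → w = 0) ∧ 3 < (Fintype.card F - 1) * finrank F A := by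
  classical
  obtain ⟨x, hx, x0⟩ := H.ns h
  have x1 : x ≠ 0 := by rintro rfl; simp at x0
  have m1 : (-1 : F) ≠ 1 := fun k => H.two (by linear_combination -k)
  by_cases hq : ∀ s : F, s ≠ 0 → s ^ 2 = 1
  · obtain ⟨y, hy, xy, e⟩ := H.pair hq h hx x0
    have d := Orth.finrank_span_pair_eq (Orth.linearIndependent_pair_of_notMem (F := F) (u := x) (v := y)
      x1 fun k => by
        obtain ⟨c, rfl⟩ := Submodule.mem_span_singleton.1 k
        simp [H.two, x0] at xy
        simp [xy, x0.symm] at e)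
    refine ⟨_, Submodule.span_le.2 (Set.pair_subset hx hy), fun w hw w0 => ?_, ?_⟩
    · obtain ⟨a, b, rfl⟩ := Submodule.mem_span_pair.1 hw
      simp only [q_add, q_smul, p_smul_left, p_smul_right, xy, e] at w0
      replace w0 : a ^ 2 + b ^ 2 = 0 := mul_right_cancel₀ x0 (by linear_combination w0)
      by_cases a0 : a = 0 <;> by_cases b0 : b = 0
      · simp [a0, b0]
      · simp [a0, b0] at w0
      · simp [a0, b0] at w0
      · exact absurd (by linear_combination w0 - hq a a0 - hq b b0) H.two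
    · have : ({0, 1, -1} : Finset F).card ≤ Fintype.card F := Finset.card_le_univ _
      rw [Finset.card_eq_three.2 ⟨0, 1, -1, by simp, by simp, m1.symm, rfl⟩] at this
      rw [d]; omega
  push Not at hq
  obtain ⟨s, s0, s1⟩ := hq
  refine ⟨F ∙ x, (Submodule.span_singleton_le_iff_mem _ _).2 hx, fun w hw w0 => ?_, ?_⟩
  · obtain ⟨a, rfl⟩ := Submodule.mem_span_singleton.1 hw
    simp [q_smul, x0] at w0
    simp [w0]
  · have : ({0, 1, -1, s, -s} : Finset F).card ≤ Fintype.card F := Finset.card_le_univ _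
    have a1 : s ≠ 1 := by rintro rfl; simp at s1
    have a2 : s ≠ -1 := by rintro rfl; simp at s1
    have a3 : s ≠ -s := fun k => s0 (mul_left_cancel₀ H.two (by linear_combination k))
    rw [Finset.card_insert_of_notMem (by simp [s0, s0.symm]),
      Finset.card_insert_of_notMem (by
        simpa [m1.symm, a1.symm] using fun k : 1 = -s => a2 (by linear_combination k)),
      Finset.card_insert_of_notMem (by simp [a1.symm, a2.symm]), Finset.card_pair a3] at this
    rw [finrank_span_singleton x1]; omega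

theorem rank_two (b : OG S) (hn : IsNilpotent (b.1.toLinearMap - 1)) {x : W} (hx : b.1 x ≠ x) :
    ∃ y, b.1 y - y ∉ F ∙ (b.1 x - x) := by
  by_contra hc
  push Not at hc
  have hv := sub_ne_zero.2 hx
  obtain ⟨v, ev⟩ : ∃ v, v = b.1 x - x := ⟨_, rfl⟩
  rw [← ev] at hc hv
  obtain ⟨c, hc'⟩ := Submodule.mem_span_singleton.1 (hc v)
  have bv : b.1 v = v := by
    rw [eq_zero_of_nilp hn hv (c := c) (by simpa using hc'.symm), zero_smul] at hc'
    exact (sub_eq_zero.1 hc'.symm)
  have v0 : S v = 0 := mul_left_cancel₀ H.two (by simpa [← ev] using ker_perp b bv x)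
  have k : ∀ y, b.1 y = y ∨ polar S v y = 0 := fun y => by
    obtain ⟨d, hd⟩ := Submodule.mem_span_singleton.1 (hc y)
    have := OG.map_Q b y
    rw [show b.1 y = y + d • v by rw [hd]; abel] at this ⊢
    simpa [q_add, q_smul, v0, hv, polar_comm S y] using this
  obtain ⟨y, -, h1, h2⟩ := exists_not_mem_two (W := ⊤) (X := LinearMap.ker (b.1.toLinearMap - 1))
    (Y := LinearMap.ker (S.polarBilin v)) (fun e => hx (by simpa [sub_eq_zero] using e (x := x) trivial))
    fun e => hv (H.nd v fun y => e (x := y) trivial)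
  exact (k y).elim (fun e => h1 (by simp [e])) h2

theorem three_vec (h4 : 4 ≤ finrank F W) (b : OG S) (hn : IsNilpotent (b.1.toLinearMap - 1))
    {x : W} (hx : b.1 x ≠ x) : ∃ y z : W, ∃ φ ψ χ : Dual F W,
      (φ (b.1 x - x) = 1 ∧ φ (b.1 y - y) = 0 ∧ φ (b.1 z - z) = 0) ∧
      (ψ (b.1 x - x) = 0 ∧ ψ (b.1 y - y) = 1 ∧ ψ (b.1 z - z) = 0) ∧
      (χ (b.1 x - x) = 0 ∧ χ (b.1 y - y) = 0) ∧
      (χ (b.1 z - z) = 1 ∨ (b.1 z = z ∧ φ z = 0 ∧ ψ z = 0 ∧ χ z = 1)) := by
  obtain ⟨y, hy⟩ := H.rank_two b hn hx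
  have hv := sub_ne_zero.2 hx
  by_cases hz : ∃ z, b.1 z - z ∉ Submodule.span F {b.1 x - x, b.1 y - y}
  · obtain ⟨z, hz⟩ := hz
    obtain ⟨φ, ψ, χ, h1, h2, h3, h4, h5⟩ := dual3 hv hy hz
    exact ⟨y, z, φ, ψ, χ, h1, h2, ⟨h3, h4⟩, Or.inl h5⟩
  push Not at hz
  obtain ⟨z, z1, z2⟩ : ∃ z, b.1 z = z ∧ z ∉ Submodule.span F {b.1 x - x, b.1 y - y} := by
    by_contra hc
    push Not at hc
    have d := Orth.finrank_span_pair_eq (Orth.linearIndependent_pair_of_notMem hv hy)
    have a1 := LinearMap.finrank_range_add_finrank_ker (b.1.toLinearMap - 1)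
    have a2 := Submodule.finrank_mono (s := LinearMap.range (b.1.toLinearMap - 1))
      (by rintro _ ⟨z, rfl⟩; exact hz z)
    have a3 : LinearMap.ker (b.1.toLinearMap - 1) ≤ Submodule.span F {b.1 x - x, b.1 y - y} :=
      fun z hz => hc z (by simpa [sub_eq_zero] using hz)
    have a4 := Submodule.finrank_mono a3
    have a5 := Submodule.eq_of_le_of_finrank_le a3 (by omega)
    have k : ∀ z ∈ Submodule.span F {b.1 x - x, b.1 y - y}, b.1 z = z := fun z hz => by
      rw [← a5] at hz; simpa [sub_eq_zero] using hz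
    have k1 := k _ (Submodule.subset_span (Set.mem_insert _ _))
    have k2 := k _ (Submodule.subset_span (Set.mem_insert_of_mem _ rfl))
    exact H.not_plane (by omega) hv hy
      (mul_left_cancel₀ H.two (by rw [← p_self, ker_perp b k1, mul_zero]))
      (mul_left_cancel₀ H.two (by rw [← p_self, ker_perp b k2, mul_zero])) (ker_perp b k1 y)
  obtain ⟨φ, ψ, χ, h1, h2, h3, h4, h5⟩ := dual3 hv hy z2
  exact ⟨y, z, φ, ψ, χ, ⟨h1.1, h1.2.1, by simp [z1]⟩, ⟨h2.1, h2.2.1, by simp [z1]⟩, ⟨h3, h4⟩,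
    Or.inr ⟨z1, h1.2.2, h2.2.2, h5⟩⟩

theorem eich_three (h3 : finrank F W = 3) (b : OG S) (hn : IsNilpotent (b.1.toLinearMap - 1))
    {x : W} (hx : b.1 x ≠ x) : ∃ u f, Hy S u f ∧ ∃ w ∈ W0 S u f, S w ≠ 0 ∧ b = eich S u w := by
  obtain ⟨m, hm⟩ := id hn
  obtain ⟨u, u0, u1, y, u2⟩ : ∃ u, u ≠ 0 ∧ b.1 u = u ∧ ∃ y, b.1 y - y = u := by
    by_contra hc
    push Not at hc
    have : ∀ j : ℕ, ((b.1.toLinearMap - 1) ^ (j + 1)) x ≠ 0 := fun j => by
      induction j with
      | zero => simpa [sub_eq_zero] using hx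
      | succ j ih =>
        intro e
        rw [pow_succ', Module.End.mul_apply] at e
        refine hc _ ih (by simpa [sub_eq_zero] using e) (((b.1.toLinearMap - 1) ^ j) x) ?_
        rw [pow_succ']; rfl
    exact this m (by rw [pow_succ, hm, zero_mul]; rfl)
  have hu : S u = 0 := mul_left_cancel₀ H.two (by simpa [u2] using ker_perp b u1 y)
  obtain ⟨f, hf⟩ := H.hyp u0 hu
  obtain ⟨c, hc, c0⟩ := H.ns hf
  have c1 : c ≠ 0 := by rintro rfl; simp at c0
  have d := H.dim0 hf
  have sp : ∀ w ∈ W0 S u f, w ∈ F ∙ c := fun w hw => by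
    rwa [← Submodule.eq_of_le_of_finrank_le ((Submodule.span_singleton_le_iff_mem c _).2 hc)
      (by rw [finrank_span_singleton c1]; omega)] at hw
  obtain ⟨w, hw, e⟩ := hf.eq_eich H.nd H.two b u1 fun w hw => by
    obtain ⟨a, rfl⟩ := Submodule.mem_span_singleton.1 (sp w hw)
    obtain ⟨z, hz, ez⟩ := hf.dec' (ker_perp b u1 c)
    obtain ⟨r, rfl⟩ := Submodule.mem_span_singleton.1 (sp z hz)
    generalize polar S f (b.1 c - c) = s at ez
    have r0 : r = 0 := by_contra fun r0 => r0 (eq_zero_of_nilp hn (v := s • u + r • c) (fun k => by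
      simpa [W0.up hc, r0, H.two, c0] using congrArg (polar S c) k) (by
        simp only [LinearMap.sub_apply, LinearEquiv.coe_coe, map_add, map_smul, u1,
          Module.End.one_apply]
        rw [ez]; module))
    rw [map_smul, ← smul_sub, ez, r0, zero_smul, add_zero]
    exact Submodule.smul_mem _ _ (Submodule.smul_mem _ _ (Submodule.mem_span_singleton_self u))
  exact ⟨u, f, hf, w, hw, fun k => hx (by simp [e, H.aniso (by omega) hf hw k]), e⟩

end OF

end Cfsg.Agent.Max
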