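import Mathlib
import Cfsg.Agent.Max.OW1

/-!
# Tensor powers of an orthogonal space: two structures with a common standard subspace
-/

set_option autoImplicit false
set_option linter.unusedSectionVars false
set_option linter.unusedSimpArgs false

namespace Cfsg.Agent.Max

open Module Cfsg.Agent.Max2 Cfsg.Agent.Max3 TensorProduct Function Cfsg.Agent.Orth QuadraticMap

variable {F U W : Type*} [Field F] [AddCommGroup U] [Module F U] [AddCommGroup W] [Module F W]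
  {S : QuadraticForm F W} {Q : QuadraticForm F (U ⊗[F] W)} {p : LinearMap.BilinForm F U}
  {M : Subgroup ((U ⊗[F] W) ≃ₗ[F] (U ⊗[F] W))} {g g' h y t : (U ⊗[F] W) ≃ₗ[F] (U ⊗[F] W)}
  {u f w v u' f' w' : W}

theorem og_pol (hg : g ∈ OG Q) (x z : U ⊗[F] W) : polar Q (g x) (g z) = polar Q x z :=
  OG.map_polar ⟨g, hg⟩ x z

theorem fE_one (σ : W ≃ₗ[F] W) (a : U) (x : W) :
    fE (1 : (U ⊗[F] W) ≃ₗ[F] (U ⊗[F] W)) σ (a ⊗ₜ x) = a ⊗ₜ σ x := fE_tmul 1 σ a x

theorem fE_eq (g : (U ⊗[F] W) ≃ₗ[F] (U ⊗[F] W)) (σ : W ≃ₗ[F] W) :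
    fE g σ = g * fE 1 σ * g⁻¹ := by rw [← fE_mul, mul_one]

theorem cU_rh (ψ : Dual F U) (x : Module.End F W) (z : U ⊗[F] W) :
    cU W ψ (rh 1 x z) = x (cU W ψ z) := by
  induction z with
  | zero => simp
  | tmul a b => simp [rh_one_tmul]
  | add a b ha hb => simp [ha, hb]

theorem cW_rh (φ : Dual F W) (x : Module.End F W) (z : U ⊗[F] W) :
    cW U φ (rh 1 x z) = cW U (φ ∘ₗ x) z := by
  induction z with
  | zero => simp
  | tmul a b => simp [rh_one_tmul]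
  | add a b ha hb => simp [ha, hb]

theorem facO_cM : FacO S (cM h M) g ↔ FacO S M (h * g) := by simp only [FacO, mem_cM, fE_mul]

theorem stdO_cM : StdO S (cM h M) g ↔ StdO S M (h * g) := by
  refine forall_congr' fun w => forall_congr' fun _ => forall_congr' fun _ =>
    ⟨fun e y hy h1 h2 => ?_, fun e y hy h1 h2 => ?_⟩
  · obtain ⟨z, h3, h4⟩ := e (h⁻¹ * y * h) (by simpa [mem_cM, mul_assoc] using hy)
      (fun x hx => by
        simp [h1 (h x) (by rw [Lg_mul]; exact apply_mem_im.2 hx), LinearEquiv.coe_inv])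
      fun x hx => by
        have := h2 (h x) (by rwa [show (h * g).symm (h x) = g.symm x by
          simp [LinearEquiv.symm_apply_eq]])
        rw [Lg_mul, mem_im] at this
        simpa [LinearEquiv.coe_inv] using this
    exact ⟨z, h3, by rw [fE_mul, ← h4]; group⟩
  · obtain ⟨z, h3, h4⟩ := e _ (mem_cM.1 hy) (fun x hx => by
        rw [Lg_mul, mem_im] at hx
        simp [h1 _ hx, LinearEquiv.coe_inv]) fun x hx => by
        obtain ⟨x, rfl⟩ := h.surjective x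
        rw [show (h * g).symm (h x) = g.symm x by simp [LinearEquiv.symm_apply_eq]] at hx
        rw [Lg_mul]
        simpa [LinearEquiv.coe_inv] using (apply_mem_im (g := h)).2 (h2 x hx)
    rw [fE_mul] at h4
    exact ⟨z, h3, mul_left_cancel (mul_right_cancel h4)⟩

/-- The local hypotheses on a structure. -/
structure LO (Q : QuadraticForm F (U ⊗[F] W)) (S : QuadraticForm F W)
    (M : Subgroup ((U ⊗[F] W) ≃ₗ[F] (U ⊗[F] W))) (g : (U ⊗[F] W) ≃ₗ[F] (U ⊗[F] W)) : Prop where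
  le : M ≤ OG Q
  iso : g ∈ OG Q
  fac : FacO S M g
  std : StdO S M g

theorem LO.cM (e : LO Q S M (h * g)) (hh : h ∈ OG Q) : LO Q S (cM h M) g :=
  ⟨fun x hx => by
    have := e.le (mem_cM.1 hx)
    rwa [(OG Q).mul_mem_cancel_right ((OG Q).inv_mem hh), (OG Q).mul_mem_cancel_left hh] at this,
    ((OG Q).mul_mem_cancel_left hh).1 e.iso, facO_cM.2 e.fac, stdO_cM.2 e.std⟩

theorem LO.mul (e : LO Q S M g) (hy : y ∈ M) : LO Q S M (y * g) :=
  ⟨e.le, mul_mem (e.le hy) e.iso, facO_cM.1 (by rw [cM_of_mem hy]; exact e.fac),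
    stdO_cM.1 (by rw [cM_of_mem hy]; exact e.std)⟩

theorem LO.mem (e : LO Q S M 1) (hy : y ∈ M) : LO Q S M y := by simpa using e.mul hy

theorem LO.one (e : LO Q S M g) : LO Q S (Max3.cM g M) 1 := LO.cM (by simpa using e) e.iso

theorem LO.rel (e : LO Q S M g) (hh : h ∈ OG Q) : LO Q S (Max3.cM h M) (h⁻¹ * g) :=
  LO.cM (by simpa using e) hh

theorem FacO.sim (e : FacO S M g) {a : U ≃ₗ[F] U} {b : W ≃ₗ[F] W} {l : F}
    (hb : ∀ x, S (b x) = l * S x) (hl : l ≠ 0) (h : ∀ x z, g (x ⊗ₜ z) = y (a x ⊗ₜ b z)) :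
    FacO S M y := fun σ hσ => by
  obtain ⟨τ, hτ, k⟩ := sim_conj hb hl hσ
  convert e τ hτ using 1
  refine LinearEquiv.toLinearMap_injective (ext_g g fun x z => ?_)
  simp only [LinearEquiv.coe_coe]
  rw [fE_tmul, h, h, fE_tmul, k]
  simp [LinearEquiv.coe_inv]

theorem rh_XE (h2 : (2 : F) ≠ 0) (hu : S u = 0) (hw : polar S u w = 0) :
    rh g (XE S u w) = ((fE g (eich S u w).1).toLinearMap - 1) -
      (2 : F)⁻¹ • ((fE g (eich S u w).1).toLinearMap - 1) ^ 2 := by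
  have : (eich S u w).1.toLinearMap - 1 = XE S u w - S w • EE S u := by rw [eich_coe hu hw]; abel
  rw [fE_coe, ← map_one (rh g), ← map_sub, ← map_pow, ← map_smul, ← map_sub, this]
  congr 1
  simp only [pow_two, mul_sub, sub_mul, mul_smul_comm, smul_mul_assoc, XE_mul hu hw hw, XE_EE hu hw,
    EE_XE hu hw, EE_EE hu, p_self]
  match_scalars <;> field_simp
  ring

theorem rh_sq (hu : S u = 0) (hw : polar S u w = 0) :
    ((fE g (eich S u w).1).toLinearMap - 1) ^ 2 = -(2 * S w) • rh g (EE S u) := by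
  have : (eich S u w).1.toLinearMap - 1 = XE S u w - S w • EE S u := by rw [eich_coe hu hw]; abel
  rw [fE_coe, ← map_one (rh g), ← map_sub, ← map_pow, ← map_smul, this]
  congr 1
  simp [pow_two, mul_sub, sub_mul, XE_mul hu hw hw, XE_EE hu hw, EE_XE hu hw, EE_EE hu]

/-- The unipotent radical of the stabiliser of `U ⊗ u`. -/
def QL (U : Type*) [AddCommGroup U] [Module F U] (S : QuadraticForm F W) (u : W) (hu : S u = 0) :
    Subgroup ((U ⊗[F] W) ≃ₗ[F] (U ⊗[F] W)) where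
  carrier := {t | (∀ x ∈ LW F U u, t x = x) ∧
    ∀ x, cW U (S.polarBilin u) x = 0 → t x - x ∈ LW F U u}
  one_mem' := ⟨fun _ _ => rfl, fun x _ => by simp⟩
  mul_mem' := by
    rintro a b ⟨h1, h2⟩ ⟨h3, h4⟩
    refine ⟨fun x hx => by simp [h1 x hx, h3 x hx], fun x hx => ?_⟩
    have := h1 _ (h4 x hx)
    rw [map_sub, sub_eq_iff_eq_add] at this
    convert add_mem (h2 x hx) (h4 x hx) using 1
    rw [LinearEquiv.mul_apply, this]; abel
  inv_mem' := by
    rintro a ⟨h1, h2⟩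
    refine ⟨fun x hx => by simp [LinearEquiv.coe_inv, LinearEquiv.symm_apply_eq, h1 x hx],
      fun x hx => ?_⟩
    convert neg_mem (h2 x hx) using 1
    rw [sub_eq_iff_eq_add, LinearEquiv.coe_inv, LinearEquiv.symm_apply_eq, map_add, map_neg,
      h1 _ (h2 x hx)]
    abel

theorem LO.ql (e : LO Q S M 1) (hu0 : u ≠ 0) {hu : S u = 0} (ht : t ∈ M) (h : t ∈ QL U S u hu) :
    ∃ w, polar S u w = 0 ∧ t = fE 1 (eich S u w).1 :=
  e.std u hu0 hu t ht (by rw [Lg_one]; exact h.1) (by rw [Lg_one]; exact h.2)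

theorem ql_of [FiniteDimensional F W] (H : OF S) (hu0 : u ≠ 0) (hu : S u = 0)
    (h1 : ∀ a, t (a ⊗ₜ u) = a ⊗ₜ u) (h2 : ∀ a x, polar S u x = 0 → t (a ⊗ₜ x) - a ⊗ₜ x ∈ LW F U u) :
    t ∈ QL U S u hu :=
  ⟨by rintro _ ⟨a, rfl⟩; exact h1 a, fun x hx => by
    exact (Submodule.Quotient.mk_eq_zero _).1 (eq_zero_of_ker
      (f := (LW F U u).mkQ ∘ₗ (t.toLinearMap - 1)) (H.ne hu0)
      (fun a x hx => (Submodule.Quotient.mk_eq_zero _).2 (h2 a x hx)) hx)⟩

theorem scalar_of_eigen {γ : Module.End F U} (h : ∀ a, γ a ∈ F ∙ a) : ∃ c : F, ∀ a, γ a = c • a := by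
  by_contra hn
  push Not at hn
  obtain ⟨a, ha⟩ := exists_not_eigen (γ := γ) fun c e => let ⟨a, ha⟩ := hn c; ha (by simp [e])
  exact ha (h a)

/-- The polar form is a tensor product with an admissible orthogonal factor. -/
structure SO (Q : QuadraticForm F (U ⊗[F] W)) (p : LinearMap.BilinForm F U)
    (S : QuadraticForm F W) : Prop extends OF S where
  tb : TB Q.polarBilin p S.polarBilin
  ndU : ∀ a, (∀ b, p a b = 0) → a = 0
  sym : ∀ a b, p a b = p b a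

namespace SO

variable (H : SO Q p S) [FiniteDimensional F W]
include H

theorem pu (a b : U) (x z : W) : polar Q (a ⊗ₜ x) (b ⊗ₜ z) = p a b * polar S x z := H.tb a x b z

theorem lf (a : U) (x : W) (z : U ⊗[F] W) :
    polar Q (a ⊗ₜ x) z = p a (cW U (S.polarBilin x) z) := H.tb.left a x z

theorem ndU' {a : U} (h : ∀ b, p b a = 0) : a = 0 := H.ndU a fun b => by rw [H.sym, h]

theorem og_of (h : ∀ a x b z, polar Q (g (a ⊗ₜ x)) (g (b ⊗ₜ z)) = p a b * polar S x z) :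
    g ∈ OG Q := fun x => mul_left_cancel₀ H.two (by
  have := LinearMap.congr_fun₂ (show Q.polarBilin.compl₁₂ g.toLinearMap g.toLinearMap =
    Q.polarBilin from TensorProduct.ext' fun a x => TensorProduct.ext' fun b z => by
      simpa [H.pu] using h a x b z) x x
  simpa using this)

theorem fE_og (hg : g ∈ OG Q) (σ : OG S) : fE g σ.1 ∈ OG Q := by
  rw [fE_eq]
  exact mul_mem (mul_mem hg (H.og_of fun a x b z => by simp [fE_one, H.pu])) (inv_mem hg)

theorem perp_iff (hg : g ∈ OG Q) {x : U ⊗[F] W} :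
    cW U (S.polarBilin u) (g.symm x) = 0 ↔ ∀ l ∈ Lg g u, polar Q l x = 0 := by
  obtain ⟨x, rfl⟩ := g.surjective x
  rw [LinearEquiv.symm_apply_apply]
  refine ⟨fun e l hl => ?_, fun e => H.ndU' fun a => ?_⟩
  · obtain ⟨a, rfl⟩ := mem_Lg.1 hl
    rw [og_pol hg, H.lf, e, map_zero]
  · rw [← H.lf, ← og_pol hg]; exact e _ (mem_Lg.2 ⟨a, rfl⟩)

theorem perp_one {x : U ⊗[F] W} :
    cW U (S.polarBilin u) x = 0 ↔ ∀ l ∈ LW F U u, polar Q l x = 0 := by
  rw [← Lg_one]; exact H.perp_iff (g := 1) (one_mem _)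

theorem ql_conj {hu : S u = 0} (hy : y ∈ QL U S u hu) (ht : t ∈ OG Q)
    (e : im (LW F U u) t = LW F U u) : t * y * t⁻¹ ∈ QL U S u hu := by
  refine ⟨fun x hx => ?_, fun x hx => ?_⟩
  · simp [LinearEquiv.coe_inv, hy.1 _ (mem_im.1 (e.ge hx))]
  · have := (apply_mem_im (g := t)).2 (hy.2 _ ((H.perp_iff ht).2 (by
      rw [Lg, e]; exact H.perp_one.1 hx)))
    simpa [e, LinearEquiv.coe_inv] using this

theorem trans (h1 : LO Q S M 1) (h2 : LO Q S M g) (hf : Hy S u f) (hu' : S u' = 0) (h0 : u' ≠ 0)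
    (e : Lg g u' = LW F U u) (hw : polar S u' w' = 0) :
    ∃ w ∈ W0 S u f, rh g (XE S u' w') = rh 1 (XE S u w) := by
  have k : fE 1 (eich S u' w').1 ∈ QL U S u' hu' := ql_of H.toOF h0 hu'
    (fun a => by rw [fE_one, eich_apply_left hu' hw]) fun a x hx => by
      rw [fE_one, eich_apply hu' hw, hx, ← tmul_sub]
      simpa using Submodule.smul_mem _ _ (tmul_mem_LW a u')
  obtain ⟨w, h3, h4⟩ := h1.ql hf.ne (hu := hf.u0) (h2.fac _ (H.mem_G u' w'))
    ⟨fun x hx => by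
      obtain ⟨a, rfl⟩ := mem_Lg.1 (e.ge hx)
      rw [fE_tmul, eich_apply_left hu' hw], fun x hx => by
      have := (apply_mem_im (g := g)).2 (k.2 _ ((H.perp_iff h2.iso).2 (by
        rw [e]; exact H.perp_one.1 hx)))
      rw [fE_eq, ← e]
      simpa [LinearEquiv.coe_inv] using this⟩
  obtain ⟨w₀, h5, h6⟩ := hf.dec' h3
  refine ⟨w₀, h5, ?_⟩
  rw [rh_XE H.two hu' hw, h4, ← rh_XE H.two hf.u0 h3, h6]
  simp [XE_self]

variable [FiniteDimensional F U] [Nontrivial U]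

theorem lemP0 (h1 : LO Q S M 1) (h2 : LO Q S M g) (hf : Hy S u f) (hu' : S u' = 0) (h0 : u' ≠ 0)
    (e : Lg g u' = LW F U u) : ∃ y ∈ OG Q, Same g y ∧ FacO S M y ∧ y ∈ QL U S u hf.u0 ∧
      ∀ a, cW U (S.polarBilin u) (y (a ⊗ₜ f)) = a := by
  obtain ⟨f', hf'⟩ := H.hyp h0 hu'
  have tr := fun w' (hw : w' ∈ W0 S u' f') => H.trans h1 h2 hf hu' h0 e (W0.pu hw)
  have sq : ∀ w' ∈ W0 S u' f', ∀ w ∈ W0 S u f, rh g (XE S u' w') = rh 1 (XE S u w) →
      S w' • rh g (EE S u') = S w • rh 1 (EE S u) := fun w' hw' w hw k => by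
    have := congrArg₂ (· * ·) k k
    simp only [← map_mul, XE_mul hu' (W0.pu hw') (W0.pu hw'), XE_mul hf.u0 (W0.pu hw) (W0.pu hw),
      p_self, map_smul, neg_smul, map_neg, neg_inj, mul_smul] at this
    exact smul_right_injective _ H.two this
  obtain ⟨l, hl⟩ : ∃ l : F, rh g (EE S u') = l • rh 1 (EE S u) := by
    obtain ⟨c, hc, c0⟩ := H.ns hf'
    obtain ⟨w, hw, k⟩ := tr c hc
    exact ⟨(S c)⁻¹ * S w, by rw [mul_smul, ← sq c hc w hw k, inv_smul_smul₀ c0]⟩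
  have l0 : l ≠ 0 := by
    rintro rfl
    exact r1_ne (H.ne h0) h0 (rh_eq_zero (g := g) (by simpa using hl))
  obtain ⟨a₀, ha₀⟩ := exists_ne (0 : U)
  obtain ⟨ψ, hψ⟩ := exists_dual_one (F := F) ha₀
  let π : W →ₗ[F] W := LinearMap.id - r1 (S.polarBilin u') f'
  let b : W →ₗ[F] W := r1 (S.polarBilin u') f + r1 (S.polarBilin f') (l • u) -
    cU W ψ ∘ₗ LinearMap.applyₗ (a₀ ⊗ₜ f) ∘ₗ (rh g).toLinearMap ∘ₗ XE S u' ∘ₗ π
  have b1 : b f' = f := by simp [b, π, hf'.uf, hf'.f0]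
  have b2 : b u' = l • u := by simp [b, π, hf'.fu, hu', XE_self]
  have b3 : ∀ w' ∈ W0 S u' f', b w' ∈ W0 S u f ∧ rh g (XE S u' w') = rh 1 (XE S u (b w')) ∧
      S (b w') = l * S w' := fun w' hw' => by
    obtain ⟨w, hw, k⟩ := tr w' hw'
    have : b w' = w := by simp [b, π, W0.pu hw', W0.pf hw', k, rh_one_tmul, hf.XE_f hw, hψ]
    have e1 := sq w' hw' w hw k
    rw [hl, smul_smul, ← sub_eq_zero, ← sub_smul, smul_eq_zero] at e1
    rw [this]
    exact ⟨hw, k, by linear_combination -e1.resolve_right fun e => r1_ne (H.ne hf.ne) hf.ne (rh_eq_zero e)⟩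
  have b4 : ∀ x, S (b x) = l * S x := fun x => by
    obtain ⟨z, hz, e⟩ := hf'.dec x
    obtain ⟨k1, -, k3⟩ := b3 z hz
    rw [e]
    simp only [map_add b, map_smul b, b1, b2, q_add, q_smul, polar_add_left, p_smul_left,
      p_smul_right, hf.u0, hf.f0, hf.uf, hu', hf'.f0, hf'.uf, k3, W0.pu k1, W0.fp k1, W0.pu hz,
      W0.fp hz]
    ring
  have b5 : ∀ x z, polar S (b x) (b z) = l * polar S x z := fun x z => by
    simp only [polar, ← map_add b, b4]; ring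
  let b' := LinearEquiv.ofInjectiveEndo b (LinearMap.ker_eq_bot.1 (LinearMap.ker_eq_bot'.2
    fun x hx => H.nd x fun z => by simpa [hx, l0] using b5 x z))
  let φ : U →ₗ[F] U := cW U (S.polarBilin u) ∘ₗ g.toLinearMap ∘ₗ inW F U f'
  have g1 : ∀ a, g (a ⊗ₜ u') = l • φ a ⊗ₜ u := fun a => by
    have := LinearMap.congr_fun hl (g (a ⊗ₜ f'))
    rwa [rh_tmul, EE_apply, hf'.uf, one_smul, LinearMap.smul_apply, rh_one_r1] at this
  have p1 : ∀ a a', l * p (φ a) (φ a') = p a a' := fun a a' => by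
    have := og_pol h2.iso (a ⊗ₜ u') (a' ⊗ₜ f')
    rwa [g1, p_smul_left, H.lf, H.pu, hf'.uf, mul_one] at this
  let φ' := LinearEquiv.ofInjectiveEndo φ (LinearMap.ker_eq_bot.1 (LinearMap.ker_eq_bot'.2
    fun x hx => H.ndU x fun z => by simpa [hx] using (p1 x z).symm))
  have y1 : ∀ a x, g (a ⊗ₜ x) = (g * (TensorProduct.congr φ' b')⁻¹) (φ' a ⊗ₜ b' x) := fun a x => by
    simp [LinearEquiv.coe_inv, ← TensorProduct.congr_tmul]
  generalize hy : g * (TensorProduct.congr φ' b')⁻¹ = y at y1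
  have y2 : ∀ a, cW U (S.polarBilin u) (y (a ⊗ₜ f)) = a := fun a => by
    obtain ⟨a, rfl⟩ := φ'.surjective a
    rw [← b1]; exact congrArg _ (y1 a f').symm
  refine ⟨y, hy ▸ mul_mem h2.iso (inv_mem (H.og_of fun a x a' z => ?_)),
    same_iff.2 ⟨φ', b', y1⟩, h2.fac.sim (b := b') b4 l0 y1, ql_of H.toOF hf.ne _ ?_ ?_, y2⟩
  · simp only [TensorProduct.congr_tmul, H.pu, ← p1 a a']
    exact (congrArg _ (b5 x z)).trans (mul_left_comm _ _ _ |>.trans (mul_assoc _ _ _).symm)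
  · intro a
    obtain ⟨a, rfl⟩ := φ'.surjective a
    refine smul_right_injective _ l0 ?_
    change l • _ = l • _
    rw [← map_smul, ← tmul_smul, ← b2]
    exact (y1 a u').symm.trans ((g1 a).trans (by rw [b2, tmul_smul]; rfl))
  intro a x hx
  obtain ⟨a, rfl⟩ := φ'.surjective a
  obtain ⟨x, rfl⟩ := b'.surjective x
  replace hx : polar S u' x = 0 := by
    have := b5 u' x
    rw [b2, p_smul_left, mul_right_inj' l0] at this
    exact this ▸ hx
  obtain ⟨z, hz, k⟩ := hf'.dec' hx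
  obtain ⟨k1, k2, -⟩ := b3 z hz
  have k3 := LinearMap.congr_fun k2 (g (a ⊗ₜ f'))
  rw [rh_tmul, hf'.XE_f hz, XE_def, map_sub, LinearMap.sub_apply, rh_one_r1, rh_one_r1, tmul_neg,
    map_neg, neg_eq_iff_eq_neg] at k3
  rw [← y1, k, tmul_add, map_add, k3, tmul_smul, map_smul, g1]
  change _ - φ a ⊗ₜ b _ ∈ _
  rw [map_add, map_smul, b2, tmul_add, tmul_smul, tmul_smul]
  convert (LW F U u).neg_mem (tmul_mem_LW (cW U (S.polarBilin (b z)) (g (a ⊗ₜ f'))) u) using 1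
  change _ + -(_ - φ a ⊗ₜ _) - _ = _
  abel

theorem lemP [Finite F] (h1 : LO Q S M 1) (h2 : LO Q S M g) (hf : Hy S u f) (hu' : S u' = 0)
    (h0 : u' ≠ 0) (e : Lg g u' = LW F U u) : ∃ y ∈ OG Q, Same g y ∧ FacO S M y ∧
      ∃ γ : Module.End F U, (∀ a b, p (γ a) b = -p a (γ b)) ∧
        ∀ x, y x = x + Dm γ (S.polarBilin u) u x := by
  obtain ⟨y, y1, y2, y3, y4, y5⟩ := H.lemP0 h1 h2 hf hu' h0 e
  have k1 : ∀ a (ψ : Dual F U), ψ a = 0 → cU W ψ (y (a ⊗ₜ f)) ∈ F ∙ u := fun a ψ hψ => by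
    obtain ⟨z, hz, k⟩ := hf.dec' (x := cU W ψ (y (a ⊗ₜ f)))
      ((dual_cU ψ (S.polarBilin u) _).trans (by rw [y5, hψ]))
    by_cases z0 : z = 0
    · rw [k, z0, add_zero]; exact Submodule.smul_mem _ _ (Submodule.mem_span_singleton_self u)
    obtain ⟨t, ht, μ, μ0, t1, t2, t3⟩ := H.move hf hz z0
    have k2 : y * (fE 1 t.1 * y⁻¹ * (fE 1 t.1)⁻¹) ∈ QL U S u hf.u0 :=
      mul_mem y4 (H.ql_conj (inv_mem y4) (H.fE_og (one_mem _) t) (im_eq_of (by
        rintro _ ⟨a, rfl⟩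
        rw [inW_apply, fE_one, t1, tmul_smul]
        exact Submodule.smul_mem _ _ (tmul_mem_LW a u))))
    obtain ⟨w, hw, k3⟩ := h1.ql hf.ne (by
      simpa only [mul_assoc, fE_eq y] using mul_mem (y3 t ht) (inv_mem (h1.fac t ht))) k2
    have k4 : y * fE 1 t.1 = fE 1 (eich S u w).1 * fE 1 t.1 * y := by rw [← k3]; group
    have k5 := congrArg (cU W ψ) (LinearEquiv.congr_fun k4 (a ⊗ₜ f))
    simp only [LinearEquiv.mul_apply, fE_one, t2, tmul_smul, map_smul] at k5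
    rw [fE_apply, fE_apply, cU_rh, cU_rh, k] at k5
    have a1 : polar S u (t.1 z) = 0 := by
      have := OG.map_polar t u z
      rw [t1, p_smul_left, W0.pu hz] at this
      exact (mul_eq_zero.1 this).resolve_left μ0
    have a2 : polar S f (t.1 z) = 0 := by
      have := OG.map_polar t f z
      rw [t2, p_smul_left, W0.pf hz] at this
      exact (mul_eq_zero.1 this).resolve_left (inv_ne_zero μ0)
    generalize polar S f (cU W ψ (y (a ⊗ₜ f))) = c at k5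
    simp only [LinearEquiv.coe_coe, map_add, map_smul, t1, eich_apply_left hf.u0 hw,
      eich_apply hf.u0 hw (t.1 z), a1] at k5
    have k6 := congrArg (polar S f) k5
    simp only [polar_add_right, polar_sub_right, p_smul_right, hf.fu, a2, W0.pf hz] at k6
    refine absurd ?_ t3
    rw [eq_comm, ← inv_smul_eq_iff₀ μ0]
    linear_combination (norm := module) k5 - k6 • u
  obtain ⟨a₀, ha₀⟩ := exists_ne (0 : U)
  obtain ⟨ψ, hψ⟩ := exists_dual_one (F := F) ha₀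
  obtain ⟨w₀, hw₀, k2⟩ := hf.dec' (x := cU W ψ (y (a₀ ⊗ₜ f)) - f) (by
    rw [polar_sub_right, hf.uf, sub_eq_zero]
    exact (dual_cU ψ (S.polarBilin u) _).trans (by rw [y5, hψ]))
  have k3 : ∀ a, y (a ⊗ₜ f) - a ⊗ₜ (f + w₀) ∈ LW F U u := fun a => mem_LW_of hf.ne fun χ hχ => by
    obtain ⟨c, hc⟩ := scalar_of_eigen (γ := cW U χ ∘ₗ y.toLinearMap ∘ₗ inW F U f) fun a =>
      by_contra fun hn => by
        obtain ⟨ψ, h3, h4⟩ := exists_dual_two hn
        obtain ⟨d, hd⟩ := Submodule.mem_span_singleton.1 (k1 a ψ h3)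
        have := dual_cU ψ χ (y (a ⊗ₜ f))
        rw [← hd, map_smul, hχ, smul_zero] at this
        exact zero_ne_one (this.trans h4)
    have k4 := congrArg χ k2
    rw [map_sub, dual_cU, show cW U χ (y (a₀ ⊗ₜ f)) = _ from hc a₀, map_smul, hψ] at k4
    rw [map_sub, show cW U χ (y (a ⊗ₜ f)) = _ from hc a, cW_tmul, ← sub_smul]
    simp only [map_add, map_smul, hχ, smul_eq_mul] at k4 ⊢
    rw [show c - (χ f + χ w₀) = 0 by linear_combination k4, zero_smul]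
  have hs := W0.pu hw₀
  obtain ⟨z, hz⟩ : ∃ z, z = y * fE 1 (eich S u w₀).1 := ⟨_, rfl⟩
  have z1 : z ∈ OG Q := hz ▸ mul_mem y1 (H.fE_og (one_mem _) _)
  have z2 : ∀ a x, y (a ⊗ₜ x) = z ((1 : U ≃ₗ[F] U) a ⊗ₜ
      (eich S u w₀)⁻¹.1 x) := fun a x => by simp [hz, fE_one]
  have z3 : z ∈ QL U S u hf.u0 := hz ▸ mul_mem y4 (ql_of H.toOF hf.ne _
    (fun a => by rw [fE_one, eich_apply_left hf.u0 hs]) fun a x hx => by
      rw [fE_one, eich_apply hf.u0 hs, hx, ← tmul_sub]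
      simpa using Submodule.smul_mem _ _ (tmul_mem_LW a u))
  have z4 : ∀ a, z (a ⊗ₜ f) - a ⊗ₜ f ∈ LW F U u := fun a => by
    rw [hz, LinearEquiv.mul_apply, fE_one, hf.eich_f hw₀, tmul_sub, tmul_sub, map_sub, map_sub,
      tmul_smul, map_smul, y4.1 _ (tmul_mem_LW a u)]
    convert sub_mem (sub_mem (k3 a) (y4.2 (a ⊗ₜ w₀) (by simp [hs])))
      (Submodule.smul_mem _ (S w₀) (tmul_mem_LW a u)) using 1
    rw [tmul_add]; abel
  refine ⟨_, z1, y2.trans (same_iff.2 ⟨1, _, z2⟩),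
    y3.sim (l := 1) (fun x => by rw [one_mul, OG.map_Q]) one_ne_zero z2, ?_⟩
  let γ : Module.End F U := cW U (S.polarBilin f) ∘ₗ (z.toLinearMap - 1) ∘ₗ inW F U f
  have z5 : ∀ a, z (a ⊗ₜ f) = a ⊗ₜ f + γ a ⊗ₜ u := fun a =>
    sub_eq_iff_eq_add'.1 (eq_of_mem_LW (φ := S.polarBilin f) hf.fu (z4 a)).symm
  refine ⟨γ, fun a b => ?_, fun x => LinearMap.congr_fun (show z.toLinearMap = 1 + Dm γ _ u from
    TensorProduct.ext (LinearMap.ext fun a => hf.ext ?_ ?_ fun w hw => ?_)) x⟩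
  · have := og_pol z1 (a ⊗ₜ f) (b ⊗ₜ f)
    simp only [z5, polar_add_left, polar_add_right, H.pu, hf.ff, hf.uu, hf.uf, hf.fu] at this
    linear_combination this
  · simp [Dm_apply, hf.u0, z3.1 _ (tmul_mem_LW a u)]
  · simp [Dm_apply, hf.uf, z5]
  obtain ⟨c, hc⟩ := mem_LW.1 (z3.2 (a ⊗ₜ w) (by simp [W0.pu hw]))
  have : c = 0 := H.ndU c fun b => by
    have := og_pol z1 (a ⊗ₜ w) (b ⊗ₜ f)
    rw [sub_eq_iff_eq_add'.1 hc.symm] at this
    simpa [z5, H.pu, W0.fp hw, W0.up hw, hf.u0, hf.uf] using this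
  simpa [Dm_apply, W0.pu hw, this, sub_eq_zero] using hc.symm

theorem zero_of (h1 : LO Q S M 1) (hy : FacO S M y) {γ : Module.End F U}
    (hγ : ∀ a b, p (γ a) b = -p a (γ b)) (hu : S u = 0)
    (e : ∀ x, y x = x + Dm γ (S.polarBilin u) u x) {n : OG S} (hn : n ∈ commutator (OG S))
    (h3 : polar S u (n.1 u) = 0) (h0 : v ≠ 0) (hv : S v = 0) (k1 : (EE S u - EE S (n.1 u)) v = 0)
    (k2 : ∀ x, polar S v x = 0 → (EE S u - EE S (n.1 u)) x ∈ F ∙ v)
    (k3 : EE S u - EE S (n.1 u) ≠ 0) : y = 1 := by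
  have y1 : ∀ x, y.symm x = x - Dm γ (S.polarBilin u) u x := fun x => by
    rw [LinearEquiv.symm_apply_eq, e, map_sub, Dm_Dm _ _ _ _ (by simp [hu])]; simp
  have k : ∀ a x, (fE y n.1 * (fE 1 n.1)⁻¹ : (U ⊗[F] W) ≃ₗ[F] (U ⊗[F] W)) (a ⊗ₜ x) =
      a ⊗ₜ x + γ a ⊗ₜ (EE S u - EE S (n.1 u)) x := fun a x => by
    obtain ⟨x, rfl⟩ := n.1.surjective x
    rw [LinearEquiv.mul_apply, LinearEquiv.coe_inv, ← fE_one, LinearEquiv.symm_apply_apply, fE_eq y]
    simp only [LinearEquiv.mul_apply, LinearEquiv.coe_inv, LinearEquiv.symm_apply_apply, y1,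
      Dm_apply, cW_tmul, map_sub, map_smul, fE_one, e, ← smul_tmul', polarBilin_apply_apply, h3,
      LinearMap.sub_apply, EE_apply, tmul_sub, tmul_smul, OG.map_polar]
    module
  obtain ⟨w, -, k4⟩ := h1.ql h0 (mul_mem (hy n hn) (inv_mem (h1.fac n hn))) (ql_of H.toOF h0 hv
    (fun a => by rw [k, k1]; simp) fun a x hx => by
      obtain ⟨c, hc⟩ := Submodule.mem_span_singleton.1 (k2 x hx)
      rw [k, ← hc, add_sub_cancel_left, tmul_smul]
      exact Submodule.smul_mem _ _ (tmul_mem_LW _ v))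
  obtain ⟨x, hx⟩ : ∃ x, (EE S u - EE S (n.1 u)) x ≠ 0 := by
    by_contra hn; push Not at hn; exact k3 (LinearMap.ext hn)
  obtain ⟨c, hc⟩ := scalar_of_eigen (γ := γ) fun a => mem_span_of_tmul_eq hx
    (w' := (eich S v w).1 x - x) (by rw [tmul_sub, ← fE_one, ← k4, k, add_sub_cancel_left])
  obtain ⟨a, ha⟩ := exists_ne (0 : U)
  have c0 : c = 0 := by_contra fun c0 => ha (H.ndU a fun b => mul_left_cancel₀
    (mul_ne_zero H.two c0) (by simpa [hc, eq_neg_iff_add_eq_zero, two_mul, add_mul] using hγ a b))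
  exact LinearEquiv.ext fun x => by simp [e, Dm_apply, hc, c0]

theorem strong [Finite F] (hk : 5 ≤ finrank F W ∨ ∃ s : F, s ≠ 0 ∧ s ^ 4 ≠ 1) (h1 : LO Q S M 1)
    (h2 : LO Q S M g) (hu0 : u ≠ 0) (hu : S u = 0) (hu' : S u' = 0) (h0 : u' ≠ 0)
    (e : Lg g u' = LW F U u) : Same g 1 := by
  obtain ⟨f, hf⟩ := H.hyp hu0 hu
  obtain ⟨y, -, y2, y3, γ, hγ, y4⟩ := H.lemP h1 h2 hf hu' h0 e
  suffices y = 1 from this ▸ y2
  rcases hk with hk | ⟨s, s0, s1⟩
  · have := H.dim0 hf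
    obtain ⟨v, hv, v0, v1⟩ := (H.nds hf).exists_sing (by omega) (X := ⊥) fun e => by
      rw [le_bot_iff.1 e, finrank_bot] at this; omega
    obtain ⟨n, hn, rfl⟩ := sing_trans H.nd (good_of_two_ne_zero H.two) (by omega) hu0 v1 hu v0
    refine H.zero_of h1 y3 hγ hu y4 hn (W0.pu hv) (v := u + n.1 u) (fun e => ?_)
      (by rw [q_add, hu, v0, W0.pu hv]; simp) ?_ (fun x hx => ?_) fun e => hu0 ?_
    · simpa [hf.fu, W0.pf hv] using congrArg (polar S f) e
    · simp only [LinearMap.sub_apply, EE_apply, polar_add_right, p_self, hu, v0, W0.pu hv, W0.up hv]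
      simp
    · refine Submodule.mem_span_singleton.2 ⟨polar S u x, ?_⟩
      rw [polar_add_left] at hx
      simp only [LinearMap.sub_apply, EE_apply]
      linear_combination (norm := module) hx • n.1 u
    · simpa [EE_apply, hf.uf, W0.fp hv] using LinearMap.congr_fun e f
  obtain ⟨t, ht, t1, -⟩ := hf.torus H.nd s0
  have k : EE S u - EE S (t.1 u) = (1 - s ^ 4) • EE S u := by
    ext x
    simp only [t1, LinearMap.sub_apply, EE_apply, LinearMap.smul_apply, p_smul_left]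
    module
  exact H.zero_of h1 y3 hγ hu y4 ht (by simp [t1, hu]) hu0 hu (by simp [k, hu])
    (fun x hx => by simp [k, hx]) (by
      rw [k]; exact smul_ne_zero (sub_ne_zero.2 s1.symm) (r1_ne (H.ne hu0) hu0))

end SO

end Cfsg.Agent.Max
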