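import Mathlib
import Cfsg.Agent.Max.OW2

/-!
# Tensor powers of an orthogonal space: Eichler transformations normalising a structure
-/

set_option autoImplicit false
set_option linter.unusedSectionVars false
set_option linter.unusedSimpArgs false

namespace Cfsg.Agent.Max

open Module Cfsg.Agent.Max2 Cfsg.Agent.Max3 TensorProduct Function Cfsg.Agent.Orth QuadraticMap

theorem nilp_of_pow {F V : Type*} [Field F] [Finite F] [AddCommGroup V] [Module F V] [Nontrivial V]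
    {a : Module.End F V} (h : a ^ ringChar F = 1) : IsNilpotent (a - 1) := by
  have : Fact (ringChar F).Prime := ⟨CharP.char_is_prime F _⟩
  have : CharP (Module.End F V) (ringChar F) :=
    charP_of_injective_algebraMap (algebraMap F (Module.End F V)).injective _
  exact ⟨ringChar F, by
    rw [sub_pow_char_of_commute _ (Commute.one_right _), h, one_pow, sub_self]⟩

theorem quartic {F V : Type*} [Field F] [AddCommGroup V] [Module F V] (h2 : (2 : F) ≠ 0) {s : F}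
    (s0 : s ≠ 0) (s1 : s ^ 2 ≠ 1) {a b c d : V}
    (h : ∀ x : F, x • a + x ^ 2 • b + x ^ 3 • c + x ^ 4 • d = 0) : c = 0 ∧ d = 0 := by
  have k := sub_ne_zero.2 s1
  exact ⟨(smul_eq_zero_iff_right (mul_ne_zero h2 (mul_ne_zero s0 k))).1 (by
      linear_combination (norm := module) h s - h (-s) - s • (h 1 - h (-1))),
    (smul_eq_zero_iff_right (mul_ne_zero h2 (mul_ne_zero (pow_ne_zero 2 s0) k))).1 (by
      linear_combination (norm := module) h s + h (-s) - s ^ 2 • (h 1 + h (-1)))⟩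

variable {F U W : Type*} [Field F] [AddCommGroup U] [Module F U] [AddCommGroup W] [Module F W]
  {S : QuadraticForm F W} {Q : QuadraticForm F (U ⊗[F] W)} {p : LinearMap.BilinForm F U}
  {M : Subgroup ((U ⊗[F] W) ≃ₗ[F] (U ⊗[F] W))} {g g' h y t : (U ⊗[F] W) ≃ₗ[F] (U ⊗[F] W)}
  {u f w v u' f' w' : W}

theorem eich_pow (hu : S u = 0) (hw : polar S u w = 0) (n : ℕ) :
    eich S u w ^ n = eich S u ((n : F) • w) := by
  induction n with
  | zero => simp
  | succ n ih => rw [pow_succ, ih, eich_mul hu (by simp [hw]) hw, Nat.cast_succ, add_smul, one_smul]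

theorem inj3 {a : Module.End F U} (ha : IsNilpotent (a - 1)) {b : Module.End F W}
    {t : Module.End F (U ⊗[F] W)} (e : ∀ x z, t (x ⊗ₜ z) = a x ⊗ₜ b z) {x y z : W}
    {φ ψ χ : Dual F W} (h1 : φ (b x - x) = 1 ∧ φ (b y - y) = 0 ∧ φ (b z - z) = 0)
    (h2 : ψ (b x - x) = 0 ∧ ψ (b y - y) = 1 ∧ ψ (b z - z) = 0)
    (h3 : χ (b x - x) = 0 ∧ χ (b y - y) = 0)
    (h4 : χ (b z - z) = 1 ∨ (b z = z ∧ φ z = 0 ∧ ψ z = 0 ∧ χ z = 1)) (c d r : U)
    (h : (t - 1) (c ⊗ₜ x + d ⊗ₜ y + r ⊗ₜ z) = 0) : c = 0 ∧ d = 0 ∧ (a - 1) r = 0 := by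
  obtain ⟨m, hm⟩ := ha
  have e1 : ∀ x z, (t - 1) (x ⊗ₜ z) = (a - 1) x ⊗ₜ b z + x ⊗ₜ (b z - z) := fun x z => by
    simp [e, sub_tmul, tmul_sub]
  have c1 : ∀ v, (t - 1) ((a - 1).rTensor W v) = (a - 1).rTensor W ((t - 1) v) := fun v =>
    LinearMap.congr_fun (show (t - 1) ∘ₗ (a - 1).rTensor W = (a - 1).rTensor W ∘ₗ (t - 1) from
      TensorProduct.ext' fun x z => by simp [e, sub_tmul]; abel) v
  generalize a - 1 = n at *
  suffices ∀ j : ℕ, ∀ c d r : U, (n ^ j) c = 0 → (n ^ j) d = 0 → (n ^ j) r = 0 →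
      (t - 1) (c ⊗ₜ x + d ⊗ₜ y + r ⊗ₜ z) = 0 → c = 0 ∧ d = 0 ∧ n r = 0 from
    this m c d r (by simp [hm]) (by simp [hm]) (by simp [hm]) h
  intro j
  induction j with
  | zero => intro c d r k1 k2 k3 _; exact ⟨k1, k2, by rw [show r = 0 from k3, map_zero]⟩
  | succ j ih =>
    intro c d r k1 k2 k3 h
    obtain ⟨a1, a2, a3⟩ := ih (n c) (n d) (n r) (by rwa [pow_succ] at k1) (by rwa [pow_succ] at k2)
      (by rwa [pow_succ] at k3) (by
        have := c1 (c ⊗ₜ x + d ⊗ₜ y + r ⊗ₜ z)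
        rw [h, map_zero] at this
        simpa only [map_add, LinearMap.rTensor_tmul] using this)
    simp only [map_add, e1, a1, a2, zero_tmul, zero_add] at h
    have b1 := congrArg (cW U φ) h
    have b2 := congrArg (cW U ψ) h
    have b3 := congrArg (cW U χ) h
    simp only [map_add, cW_tmul, h1, h2, h3, one_smul, zero_smul, map_zero, add_zero,
      zero_add] at b1 b2 b3
    have b4 : n r = 0 ∧ φ (b z) • n r = 0 ∧ ψ (b z) • n r = 0 := by
      rcases h4 with h4 | ⟨h4, h5, h6, h7⟩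
      · have : n r = 0 := by simpa [h4, a3] using congrArg n b3
        simp [this]
      · have : n r = 0 := by simpa [h4, h7] using b3
        simp [this]
    exact ⟨by simpa [b4] using b1, by simpa [b4] using b2, b4.1⟩

/-- The algebra `End U ⊗ (F + F E_u)`. -/
def FE (U : Type*) [AddCommGroup U] [Module F U] (S : QuadraticForm F W) (u : W) (hu : S u = 0) :
    Subalgebra F (Module.End F (U ⊗[F] W)) where
  carrier := {ξ | ∃ α δ : Module.End F U, ∀ a x, ξ (a ⊗ₜ x) = α a ⊗ₜ x + polar S u x • δ a ⊗ₜ u}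
  mul_mem' := by
    rintro _ _ ⟨α, δ, e⟩ ⟨α', δ', e'⟩
    exact ⟨α * α', α * δ' + δ * α', fun a x => by simp [e, e', hu, add_tmul]; abel⟩
  add_mem' := by
    rintro _ _ ⟨α, δ, e⟩ ⟨α', δ', e'⟩
    exact ⟨α + α', δ + δ', fun a x => by simp [e, e', add_tmul]; abel⟩
  algebraMap_mem' c := ⟨c • 1, 0, fun a x => by simp [smul_tmul']⟩

theorem CA.fe {ξ : Module.End F (U ⊗[F] W)} (h : CA 1 ξ) (hu : S u = 0) : ξ ∈ FE U S u hu :=
  let ⟨α, e⟩ := h.exists
  ⟨α, 0, fun a x => by simpa using e a x⟩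

/-- The elements commuting with the Eichler transformations based at `u`. -/
def CU (U : Type*) [AddCommGroup U] [Module F U] (S : QuadraticForm F W) (u f : W) :
    Subgroup ((U ⊗[F] W) ≃ₗ[F] (U ⊗[F] W)) where
  carrier := {t | ∀ w ∈ W0 S u f, ∀ x, t (rh 1 (XE S u w) x) = rh 1 (XE S u w) (t x)}
  one_mem' _ _ _ := rfl
  mul_mem' ha hb w hw x := by simp [ha w hw, hb w hw]
  inv_mem' {a} ha w hw x := by
    rw [LinearEquiv.coe_inv, LinearEquiv.symm_apply_eq, ha w hw, LinearEquiv.apply_symm_apply]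

/-- The shift of an element on `U ⊗ f`. -/
def Pw (u f : W) (t : (U ⊗[F] W) ≃ₗ[F] (U ⊗[F] W)) (w : W) : Prop :=
  ∃ α : Module.End F U, (∀ a, α a = 0 → a = 0) ∧ ∀ a, t (a ⊗ₜ f) - α a ⊗ₜ (f + w) ∈ LW F U u

theorem Pw.uniq [Nontrivial U] (hf : Hy S u f) (hw : w ∈ W0 S u f) (hv : v ∈ W0 S u f)
    (h1 : Pw u f t w) (h2 : Pw u f t v) : w = v := by
  obtain ⟨α, a1, a2⟩ := h1
  obtain ⟨β, -, b2⟩ := h2
  obtain ⟨a, ha⟩ := exists_ne (0 : U)
  have k := sub_mem (b2 a) (a2 a)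
  have e : α a = β a := by
    simpa [hf.uf, W0.pu hw, W0.pu hv, sub_eq_zero] using cW_LW (φ := S.polarBilin u) hf.uu k
  obtain ⟨c, hc⟩ := mem_LW.1 k
  rw [← e, sub_sub_sub_cancel_left, ← tmul_sub, add_sub_add_left_eq_sub] at hc
  obtain ⟨d, hd⟩ := Submodule.mem_span_singleton.1
    (mem_span_of_tmul_eq' (fun e => ha (a1 a e)) hc.symm)
  have := congrArg (polar S f) hd
  simp only [p_smul_right, hf.fu, polar_sub_right, W0.pf hw, W0.pf hv, mul_one, sub_zero] at this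
  rw [this, zero_smul] at hd
  exact sub_eq_zero.1 hd.symm

theorem cu_w (hf : Hy S u f) (ht : t ∈ CU U S u f) (hw : w ∈ W0 S u f) (a : U) :
    t (a ⊗ₜ w) = -rh 1 (XE S u w) (t (a ⊗ₜ f)) := by
  rw [← ht w hw, rh_one_tmul, hf.XE_f hw, tmul_neg, map_neg, neg_neg]

theorem XE_LW (hf : Hy S u f) (hw : w ∈ W0 S u f) {x : U ⊗[F] W} (hx : x ∈ LW F U u) :
    rh 1 (XE S u w) x = 0 := by
  obtain ⟨a, rfl⟩ := hx
  simp [rh_one_tmul, hf.XE_u (W0.pu hw)]

namespace SO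

variable (H : SO Q p S) [FiniteDimensional F W] [FiniteDimensional F U] [Nontrivial U] [Finite F]
include H

theorem norm (ht : t ∈ OG Q) (hT : t ∈ TG F U W) (hp : t ^ ringChar F = 1) :
    ∃ (a : Module.End F U) (b : OG S), IsNilpotent (a - 1) ∧ IsNilpotent (b.1.toLinearMap - 1) ∧
      (∀ x, a x = 0 → x = 0) ∧ ∀ x z, t (x ⊗ₜ z) = a x ⊗ₜ b.1 z := by
  have : Nontrivial W := Module.nontrivial_of_finrank_pos (R := F) (by have := H.k3; omega)
  have : Fact (ringChar F).Prime := ⟨CharP.char_is_prime F _⟩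
  obtain ⟨a, b, e⟩ := hT
  have pw : ∀ (a : Module.End F U) (b : Module.End F W), (∀ x z, t (x ⊗ₜ z) = a x ⊗ₜ b z) →
      ∀ x z, x ⊗ₜ[F] z = (a ^ ringChar F) x ⊗ₜ (b ^ ringChar F) z := fun a b e x z => by
    have : ∀ n : ℕ, (t ^ n) (x ⊗ₜ z) = (a ^ n) x ⊗ₜ (b ^ n) z := fun n => by
      induction n with
      | zero => rfl
      | succ n ih => simp [pow_succ', ih, e]
    rw [← this, hp]; rfl
  obtain ⟨x₀, hx₀⟩ := exists_ne (0 : U)
  obtain ⟨z₀, hz₀⟩ := exists_ne (0 : W)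
  obtain ⟨c, hc⟩ := scalar_of_eigen (γ := b.toLinearMap ^ ringChar F) fun z =>
    mem_span_of_tmul_eq' (fun k => by
      by_cases z0 : z = 0
      · exact tmul_ne_zero hx₀ hz₀ (by rw [pw a b e, k, zero_tmul])
      · exact tmul_ne_zero hx₀ z0 (by rw [pw a b e, k, zero_tmul])) (pw a b e x₀ z).symm
  obtain ⟨l, rfl⟩ := surjective_frobenius F (ringChar F) c
  have l0 : l ≠ 0 := by
    rintro rfl
    exact tmul_ne_zero hx₀ hz₀ (by rw [pw a b e, hc]; simp)
  have e' : ∀ x z, t (x ⊗ₜ z) = (l • a.toLinearMap) x ⊗ₜ (l⁻¹ • b.toLinearMap) z := fun x z => by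
    simp [e, smul_tmul, smul_smul, l0]
  have b1 : (l⁻¹ • b.toLinearMap) ^ ringChar F = 1 := LinearMap.ext fun z => by
    simp [smul_pow, hc, frobenius_def, smul_smul, l0]
  have a0 : ∀ x, (l • a.toLinearMap) x = 0 → x = 0 := fun x hx => by simpa [l0] using hx
  generalize l • a.toLinearMap = a at e' a0
  generalize l⁻¹ • b.toLinearMap = b at e' b1
  have a1 : a ^ ringChar F = 1 := LinearMap.ext fun x =>
    tmul_left_inj hz₀ (by simpa [b1] using (pw a b e' x z₀).symm)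
  obtain ⟨x₁, hx₁⟩ : ∃ x₁, p x₀ x₁ ≠ 0 := by
    by_contra hn; push Not at hn; exact hx₀ (H.ndU _ hn)
  have k : ∀ z z', p (a x₀) (a x₁) / p x₀ x₁ * polar S (b z) (b z') = polar S z z' := fun z z' => by
    have := og_pol ht (x₀ ⊗ₜ z) (x₁ ⊗ₜ z')
    rw [e', e', H.pu, H.pu] at this
    field_simp; exact this
  generalize p (a x₀) (a x₁) / p x₀ x₁ = m at k
  have k1 : ∀ n : ℕ, ∀ z z', m ^ n * polar S ((b ^ n) z) ((b ^ n) z') = polar S z z' := fun n => by
    induction n with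
    | zero => simp
    | succ n ih =>
      intro z z'
      rw [pow_succ m, pow_succ' b, mul_assoc, Module.End.mul_apply, Module.End.mul_apply, k, ih]
  obtain rfl : m = 1 := by
    obtain ⟨z₁, hz₁⟩ : ∃ z₁, polar S z₀ z₁ ≠ 0 := by
      by_contra hn; push Not at hn; exact hz₀ (H.nd _ hn)
    have := k1 (ringChar F) z₀ z₁
    rw [b1, Module.End.one_apply, Module.End.one_apply, mul_eq_right₀ hz₁] at this
    exact sub_eq_zero.1 (pow_eq_zero_iff'.1 (by rw [sub_pow_char, this, one_pow, sub_self])).1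
  exact ⟨a, H.nd.ogOfLin b fun z => mul_left_cancel₀ H.two (by simpa using k z z), nilp_of_pow a1,
    nilp_of_pow b1, a0, e'⟩

theorem dichJ (hg : g ∈ OG Q) (hu : S u = 0) (hw : polar S u w = 0)
    (hT : fE g (eich S u w).1 ∈ TG F U W) :
    CA 1 (fE g (eich S u w).1).toLinearMap ∨ (∃ b, (fE g (eich S u w).1).toLinearMap = rh 1 b) ∨
      (finrank F W = 3 ∧ (3 : F) = 0 ∧ ∃ (a : Module.End F U) (u' f' w' : W), Hy S u' f' ∧
        w' ∈ W0 S u' f' ∧ S w' ≠ 0 ∧ (∀ x, a x = 0 → x = 0) ∧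
        ∀ x z, fE g (eich S u w).1 (x ⊗ₜ z) = a x ⊗ₜ (eich S u' w').1 z) := by
  obtain ⟨a, b, ha, hb, a0, e⟩ := H.norm (H.fE_og hg _) hT (by
    rw [← map_pow, ← Subgroup.coe_pow, eich_pow hu hw, ringChar.Nat.cast_ringChar, zero_smul,
      eich_zero_right]; exact map_one _)
  have e1 : (fE g (eich S u w).1).toLinearMap - 1 = rh g (XE S u w - S w • EE S u) := by
    rw [fE_coe, eich_coe hu hw, ← map_one (rh g), ← map_sub]; congr 1; abel
  generalize (fE g) (eich S u w).1 = t at *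
  by_cases b1 : ∀ x, b.1 x = x
  · exact Or.inl (ca_of (α := a) fun x z => by simp [e, b1])
  by_cases a1 : ∀ x, a x = x
  · exact Or.inr (Or.inl ⟨b.1, TensorProduct.ext' fun x z => by simp [e, a1, rh_one_tmul]⟩)
  push Not at a1 b1
  obtain ⟨x, hx⟩ := b1
  obtain ⟨r, hr⟩ := a1
  by_cases h4 : 4 ≤ finrank F W
  · obtain ⟨y, z, φ, ψ, χ, h1, h2, h3, h4⟩ := H.three_vec h4 b hb hx
    let j : (U × U) × F →ₗ[F] U ⊗[F] W := (t.toLinearMap - 1) ∘ₗ
      ((inW F U x).coprod (inW F U y)).coprod (LinearMap.toSpanSingleton F _ (r ⊗ₜ z))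
    have hj : Injective j := LinearMap.ker_eq_bot.1 (LinearMap.ker_eq_bot'.2 fun ⟨⟨c, d⟩, s⟩ k => by
      obtain ⟨rfl, rfl, k3⟩ := inj3 ha (b := b.1.toLinearMap) e h1 h2 h3 h4 c d (s • r) k
      rw [show s = 0 by simpa [sub_eq_zero, hr] using k3]; rfl)
    have d1 := LinearMap.finrank_range_of_inj hj
    have d2 := Submodule.finrank_mono (s := LinearMap.range j) (t := Lg g u ⊔ Lg g w) (by
      rintro _ ⟨v, rfl⟩
      rw [LinearMap.comp_apply, e1, XE_def, map_sub, map_sub, map_smul]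
      exact sub_mem (sub_mem (Submodule.mem_sup_left (rh_mem _ _ _ _))
        (Submodule.mem_sup_right (rh_mem _ _ _ _)))
        (Submodule.mem_sup_left (Submodule.smul_mem _ _ (rh_mem _ _ _ _))))
    have d3 := Submodule.finrank_add_le_finrank_add_finrank (Lg g u) (Lg g w)
    have d4 : ∀ v, finrank F (Lg g v) ≤ finrank F U := fun v => by
      rw [finrank_im]; exact LinearMap.finrank_range_le _
    have := d4 u
    have := d4 w
    simp only [Module.finrank_prod, Module.finrank_self] at d1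
    omega
  have h3 : finrank F W = 3 := by have := H.k3; omega
  obtain ⟨u', f', hf, w', hw', w0, rfl⟩ := H.eich_three h3 b hb hx
  refine Or.inr (Or.inr ⟨h3, by_contra fun k => ?_, a, u', f', w', hf, hw', w0, a0, e⟩)
  have e3 : (t.toLinearMap - 1) ^ 3 = 0 := by
    rw [e1, ← map_pow, pow_three]
    simp [mul_sub, sub_mul, XE_mul hu hw hw, XE_EE hu hw, EE_XE hu hw, EE_EE hu]
  have := congrArg (cW U (S.polarBilin f')) (LinearMap.congr_fun e3 (r ⊗ₜ f'))
  simp only [pow_three, Module.End.mul_apply, LinearMap.sub_apply, LinearEquiv.coe_coe,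
    Module.End.one_apply, map_sub, map_add, map_smul, e, hf.eich_f hw',
    eich_apply_left hf.u0 (W0.pu hw'), eich_apply hf.u0 (W0.pu hw') w', W0.pu hw', cW_tmul,
    polarBilin_apply_apply, polar_sub_right, polar_add_right, p_smul_right, hf.ff, hf.fu,
    W0.pf hw', p_self, LinearMap.zero_apply, map_zero] at this
  have k1 := a0 ((3 : F) • (a - 1) (a r - r) + (2 : F) • (a r - r))
    ((smul_eq_zero_iff_right (mul_ne_zero k w0)).1 (by
      simp only [map_add, map_smul, map_sub, LinearMap.sub_apply, Module.End.one_apply]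
      linear_combination (norm := module) -this))
  have k2 := eq_zero_of_nilp ha (sub_ne_zero.2 hr) (c := -2 / 3)
    (smul_right_injective _ k (by
      simp only [smul_smul, mul_div_cancel₀ _ k]
      linear_combination (norm := module) k1))
  simp [H.two, k] at k2

theorem sing_of (hg : g ∈ OG Q) (hu : S u = 0) (e : Lg g v = LW F U u) : S v = 0 := by
  obtain ⟨a, ha⟩ := exists_ne (0 : U)
  refine by_contra fun k => ha (H.ndU a fun b => ?_)
  obtain ⟨a', h1⟩ := mem_LW.1 (e.le (mem_Lg.2 ⟨a, rfl⟩))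
  obtain ⟨b', h2⟩ := mem_LW.1 (e.le (mem_Lg.2 ⟨b, rfl⟩))
  have := og_pol hg (a ⊗ₜ v) (b ⊗ₜ v)
  rw [← h1, ← h2] at this
  simpa [H.pu, hu, k, H.two] using this

theorem lg_of (hu0 : u ≠ 0) (hu : S u = 0) (hw : polar S u w = 0) (w0 : S w ≠ 0)
    {b : Module.End F W} (e : (fE g (eich S u w).1).toLinearMap = rh g' b) :
    ∃ v, v ≠ 0 ∧ Lg g' v = Lg g u := by
  have := rh_sq (g := g) hu hw
  rw [e, ← map_one (rh g'), ← map_sub, ← map_pow] at this
  exact Lg_eq_of_rh (H.ne hu0) hu0 (ν := (-(2 * S w))⁻¹ • (b - 1) ^ 2)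
    (by rw [map_smul, this, inv_smul_smul₀ (by simp [H.two, w0])])

theorem not_ca (hu0 : u ≠ 0) (hu : S u = 0) (hw : polar S u w = 0) (w0 : S w ≠ 0) :
    ¬ CA g (fE g (eich S u w).1).toLinearMap := fun k => by
  have k1 := (k.sub CA.one).mul (k.sub CA.one)
  rw [← pow_two, rh_sq hu hw] at k1
  exact not_ca_r1 (H.ne hu0) hu0 (by simp [hu]) fun x =>
    (Commute.smul_left_iff₀ (by simp [H.two, w0])).1 (k1 x)

theorem comm_of (hu : S u = 0) (hw : polar S u w = 0) (w0 : S w ≠ 0)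
    (e : Commute t (fE 1 (eich S u w).1)) : Commute t.toLinearMap (rh 1 (XE S u w)) ∧
      Commute t.toLinearMap (rh 1 (EE S u)) ∧ Lg t u = LW F U u := by
  have k : Commute t.toLinearMap ((fE 1 (eich S u w).1).toLinearMap - 1) :=
    Commute.sub_right (congrArg LinearEquiv.toLinearMap e.eq) (Commute.one_right _)
  have k1 := k.pow_right 2
  rw [rh_sq hu hw, Commute.smul_right_iff₀ (by simp [H.two, w0])] at k1
  refine ⟨by rw [rh_XE H.two hu hw]; exact k.sub_right ((k.pow_right 2).smul_right _), k1,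
    im_eq_of ?_⟩
  by_cases u0 : u = 0
  · rintro _ ⟨a, rfl⟩; simp [u0]
  rw [← Lg_one, ← range_rh (H.ne u0)]
  rintro _ ⟨a, rfl⟩
  exact ⟨t a, (LinearMap.congr_fun k1.eq a).symm⟩

theorem cu_u (hf : Hy S u f) (ht : t ∈ CU U S u f) (a : U) :
    t (a ⊗ₜ u) = cW U (S.polarBilin u) (t (a ⊗ₜ f)) ⊗ₜ u := by
  obtain ⟨c, hc, c0⟩ := H.ns hf
  have k := fun x => LinearMap.congr_fun (congrArg (rh (1 : (U ⊗[F] W) ≃ₗ[F] _))
    (XE_mul hf.u0 (W0.pu hc) (W0.pu hc))) x
  simp only [map_mul, map_smul, Module.End.mul_apply, LinearMap.smul_apply, rh_one_r1] at k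
  have := k (t (a ⊗ₜ f))
  rw [← ht c hc, ← ht c hc, k, map_smul, cW_tmul, polarBilin_apply_apply, hf.uf, one_smul] at this
  exact smul_right_injective _ (by simp [H.two, c0]) this

theorem pw_mul (hf : Hy S u f) (ht : t ∈ CU U S u f) (hw : w ∈ W0 S u f) (hv : v ∈ W0 S u f) (h1 : Pw u f t w)
    (h2 : Pw u f y v) : Pw u f (t * y) (w + v) := by
  obtain ⟨α, a1, a2⟩ := h1
  obtain ⟨β, b1, b2⟩ := h2
  refine ⟨α * β, fun a k => b1 _ (a1 _ k), fun a => ?_⟩
  obtain ⟨c, hc⟩ := mem_LW.1 (b2 a)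
  have k1 := XE_LW hf hv (a2 (β a))
  rw [map_sub, sub_eq_zero, rh_one_tmul, map_add, hf.XE_f hv] at k1
  rw [LinearEquiv.mul_apply, sub_eq_iff_eq_add.1 hc.symm, tmul_add, map_add, map_add,
    cu_w hf ht hv, k1, H.cu_u hf ht, XE_apply, W0.pu hw]
  convert add_mem (a2 (β a)) (tmul_mem_LW (cW U (S.polarBilin u) (t (c ⊗ₜ f)) -
    polar S v w • α (β a)) u) using 1
  simp only [tmul_add, tmul_sub, sub_tmul, neg_tmul, tmul_neg, ← smul_tmul', tmul_smul,
    Module.End.mul_apply]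
  module

theorem pw_fe (hf : Hy S u f) (ht : t ∈ CU U S u f) (h1 : Pw u f t 0) :
    t.toLinearMap ∈ FE U S u hf.u0 := by
  obtain ⟨α, -, a2⟩ := h1
  let δ : Module.End F U := cW U (S.polarBilin f) ∘ₗ t.toLinearMap ∘ₗ inW F U f
  have k : ∀ a, t (a ⊗ₜ f) = α a ⊗ₜ f + δ a ⊗ₜ u := fun a => by
    simpa [sub_eq_iff_eq_add', δ, hf.f0] using (eq_of_mem_LW (φ := S.polarBilin f) hf.fu (a2 a)).symm
  refine ⟨α, δ, fun a x => LinearMap.congr_fun (show t.toLinearMap ∘ₗ TensorProduct.mk F U W a =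
    TensorProduct.mk F U W (α a) + (S.polarBilin u).smulRight (δ a ⊗ₜ u) from
      hf.ext ?_ ?_ fun w hw => ?_) x⟩
  · simp [H.cu_u hf ht, k, hf.uf, hf.u0]
  · simp [k, hf.uf]
  · simp [cu_w hf ht hw, k, rh_one_tmul, hf.XE_f hw, hf.XE_u (W0.pu hw), W0.pu hw, tmul_neg]

theorem pw_ex (h1 : LO Q S M 1) (hf : Hy S u f) (hm : t ∈ M) (e : Lg t u = LW F U u)
    (ht : t ∈ CU U S u f) : ∃ w ∈ W0 S u f, Pw u f t w := by
  obtain ⟨y, -, y2, -, γ, -, y4⟩ := H.lemP h1 (h1.mem hm) hf hf.u0 hf.ne e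
  obtain ⟨a, b, k⟩ := same_iff.1 y2
  obtain ⟨z, hz, k1⟩ := hf.dec (b f)
  have k2 : ∀ x, t (x ⊗ₜ u) = polar S u (b f) • a x ⊗ₜ u := fun x => by
    simp [H.cu_u hf ht, k, y4, Dm_apply, hf.u0, smul_tmul']
  obtain ⟨x₀, hx₀⟩ := exists_ne (0 : U)
  have c0 : polar S u (b f) ≠ 0 := fun e => tmul_ne_zero hx₀ hf.ne (by simpa [e] using k2 x₀)
  refine ⟨(polar S u (b f))⁻¹ • z, Submodule.smul_mem _ _ hz, polar S u (b f) • a.toLinearMap,
    fun x hx => by simpa [c0] using hx, fun x => ?_⟩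
  convert add_mem (tmul_mem_LW (polar S f (b f) • a x) u) (Dm_mem γ (S.polarBilin u) u
    (a x ⊗ₜ b f)) using 1
  rw [k, y4]
  generalize Dm γ _ u _ = r
  generalize polar S u (b f) = c at k1 c0
  generalize polar S f (b f) = d at k1
  simp only [k1, LinearMap.smul_apply, LinearEquiv.coe_coe, ← smul_tmul', tmul_add, tmul_smul]
  match_scalars <;> field_simp <;> ring

theorem cu_sq (h4 : finrank F W ≤ 4) (h1 : LO Q S M 1) (hf : Hy S u f) (hw : w ∈ W0 S u f)
    (w0 : S w ≠ 0) (hm : t ∈ M) (e : Commute t (fE 1 (eich S u w).1)) :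
    t * t ∈ CU U S u f ∧ (finrank F W = 3 → t ∈ CU U S u f) := by
  obtain ⟨c1, c2, c3⟩ := H.comm_of hf.u0 (W0.pu hw) w0 e
  have c4 : ∀ c : F, ∀ x, t (rh 1 (XE S u (c • w)) x) = rh 1 (XE S u (c • w)) (t x) :=
    fun c x => by simpa using congrArg (c • ·) (LinearMap.congr_fun c1.eq x)
  have d := H.dim0 hf
  have w1 : w ≠ 0 := by rintro rfl; simp at w0
  by_cases h3 : finrank F W = 3
  · have : t ∈ CU U S u f := fun v hv => by
      rw [← Submodule.eq_of_le_of_finrank_le ((Submodule.span_singleton_le_iff_mem w _).2 hw)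
        (by rw [finrank_span_singleton w1]; omega)] at hv
      obtain ⟨c, rfl⟩ := Submodule.mem_span_singleton.1 hv
      exact c4 c
    exact ⟨mul_mem this this, fun _ => this⟩
  refine ⟨fun v hv x => ?_, fun e => absurd e h3⟩
  have := H.k3
  have a2 := finrank_le_inf_ker (W0 S u f) (S.polarBilin w)
  obtain ⟨y, ⟨hy, wy⟩, y0⟩ := ((H.nds hf).perp_one H.two hw w0).exists_nonsing (by omega)
  replace wy : polar S w y = 0 := wy
  obtain ⟨z, hz, k⟩ := H.trans h1 (h1.mem hm) hf hf.u0 hf.ne c3 (W0.pu hy)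
  have r : ∀ x, t.toLinearMap * rh 1 x = rh t x * t.toLinearMap := fun x => by
    simpa using (rh_mul t 1 x).symm
  have r1 : ∀ x, Commute t.toLinearMap (rh 1 x) → rh t x = rh 1 x := fun x hx =>
    LinearMap.ext fun v => by
      obtain ⟨v, rfl⟩ := t.surjective v
      exact LinearMap.congr_fun ((r x).symm.trans hx.eq) v
  have m : ∀ {a b c d : W}, a ∈ W0 S u f → b ∈ W0 S u f → c ∈ W0 S u f → d ∈ W0 S u f →
      rh t (XE S u a) = rh 1 (XE S u c) → rh t (XE S u b) = rh 1 (XE S u d) →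
      polar S a b = polar S c d := fun ha hb hc hd e1 e2 => by
    have := congrArg₂ (· * ·) e1 e2
    simp only [← map_mul, XE_mul hf.u0 (W0.pu ha) (W0.pu hb), XE_mul hf.u0 (W0.pu hc) (W0.pu hd),
      map_smul, r1 _ c2] at this
    exact neg_injective (smul_left_injective F (fun e => r1_ne (H.ne hf.ne) hf.ne (rh_eq_zero e)) this)
  have m1 := m hw hy hw hz (r1 _ c1) k
  have m2 := m hy hy hz hz k k
  obtain ⟨a, b, rfl⟩ := H.span_pair h4 hf hw hy w0 y0 wy hz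
  obtain rfl : a = 0 := by simpa [wy, H.two, w0] using m1
  have b1 : b * b = 1 := mul_right_cancel₀ (mul_ne_zero H.two y0) (by
    simp only [zero_smul, zero_add, p_smul_left, p_smul_right, p_self, q_smul] at m2
    linear_combination -m2)
  have k1 : ∀ x, t (rh 1 (XE S u y) x) = b • rh 1 (XE S u y) (t x) := fun x => by
    simpa [k] using LinearMap.congr_fun (r (XE S u y)) x
  obtain ⟨c, d, rfl⟩ := H.span_pair h4 hf hw hy w0 y0 wy hv
  simp only [map_add, LinearMap.add_apply, LinearEquiv.mul_apply, c4]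
  simp [k1, smul_smul, mul_assoc, b1]

theorem stepC (h1 : LO Q S M 1) (h2 : LO Q S M g) (hf : Hy S u f) (hw : w ∈ W0 S u f)
    (w0 : S w ≠ 0) (hc : CA g (fE 1 (eich S u w).1).toLinearMap) (hu' : S u' = 0)
    (hw' : polar S u' w' = 0) (w1 : S w' ≠ 0) :
    (fE g (eich S u' w').1).toLinearMap ∈ FE U S u hf.u0 := by
  have cm : ∀ σ : W ≃ₗ[F] W, Commute (fE g σ) (fE 1 (eich S u w).1) := fun σ =>
    LinearEquiv.toLinearMap_injective (by simpa [fE_coe g] using (hc σ).symm.eq)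
  have lg := fun σ => (H.comm_of hf.u0 (W0.pu hw) w0 (cm σ)).2.2
  by_cases u0 : u' = 0
  · rw [u0, eich_zero_left]; exact (map_one (fE g)).symm ▸ one_mem _
  by_cases h5 : 5 ≤ finrank F W
  · have k := H.strong (Or.inl h5) h1 (h1.mem (h2.fac _ (H.mem_G u' w'))) hf.ne hf.u0 hf.u0 hf.ne
      (lg _)
    rcases H.dichJ h2.iso hu' hw' (by simpa [Same] using k) with k | ⟨b, k⟩ | k
    · exact CA.fe k _
    · obtain ⟨v, v0, k⟩ := H.lg_of u0 hu' hw' w1 k
      rw [Lg_one] at k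
      have v1 : S v = 0 := H.sing_of (inv_mem h2.iso) hu' (by
        rw [Lg, k, Lg, ← im_mul, inv_mul_cancel, im_one])
      exact absurd ((H.strong (Or.inl h5) h1 h2 v0 v1 hu' u0 k.symm).symm.ca hc)
        (H.not_ca hf.ne hf.u0 (W0.pu hw) w0)
    · omega
  have cu : ∀ σ ∈ commutator (OG S), fE g σ.1 ∈ CU U S u f := fun σ hσ => by
    by_cases h3 : finrank F W = 3
    · exact (H.cu_sq (by omega) h1 hf hw w0 (h2.fac σ hσ) (cm _)).2 h3
    have := H.k3
    rw [H.nd.commutator_eq_eichGroup (good_of_two_ne_zero H.two) (by omega)] at hσ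
    refine (Subgroup.closure_le (((CU U S u f).comap (fE g)).comap (OG S).subtype)).2 ?_ hσ
    rintro _ ⟨a, b, rfl⟩
    by_cases k : S a = 0 ∧ polar S a b = 0
    · have := (H.cu_sq (by omega) h1 hf hw w0 (h2.fac _ (H.mem_G a ((2 : F)⁻¹ • b))) (cm _)).1
      rwa [← map_mul, ← Subgroup.coe_mul, eich_mul k.1 (by simp [k.2]) (by simp [k.2]), ← add_smul,
        ← two_mul, mul_inv_cancel₀ H.two, one_smul] at this
    · rw [eich_of_not k]; exact one_mem _
  have ex := fun σ hσ => H.pw_ex h1 hf (h2.fac σ hσ) (lg _) (cu σ hσ)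
  have ml : ∀ σ ∈ commutator (OG S), ∀ τ : OG S, ∀ a ∈ W0 S u f, ∀ b ∈ W0 S u f,
      Pw u f (fE g σ.1) a → Pw u f (fE g τ.1) b → Pw u f (fE g (σ * τ).1) (a + b) :=
    fun σ hσ τ a ha b hb k1 k2 => by
      rw [Subgroup.coe_mul, map_mul]; exact H.pw_mul hf (cu σ hσ) ha hb k1 k2
  obtain ⟨f', hf'⟩ := H.hyp u0 hu'
  obtain ⟨z, hz, k⟩ := hf'.dec' hw'
  obtain ⟨t, ht, ν, ν1, k1⟩ := H.scale (by omega) hf'
  have hz' := Submodule.smul_mem _ (ν - 1)⁻¹ hz
  have k2 := mul_inv_eq_iff_eq_mul.1 (k1 _ hz')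
  have k3 : eich S u' w' * eich S u' ((ν - 1)⁻¹ • z) = eich S u' (ν • (ν - 1)⁻¹ • z) := by
    rw [k, add_comm, eich_add_smul_self hu' (W0.pu hz), eich_mul hu' (W0.pu hz) (W0.pu hz')]
    congr 1
    have := sub_ne_zero.2 ν1
    match_scalars; field_simp; ring
  obtain ⟨a, ha, pa⟩ := ex t ht
  obtain ⟨b, hb, pb⟩ := ex _ (H.mem_G u' ((ν - 1)⁻¹ • z))
  obtain ⟨c, hc, pc⟩ := ex _ (H.mem_G u' w')
  have q1 := ml _ (H.mem_G _ _) _ _ hc _ hb pc pb
  rw [k3] at q1
  have q2 := ml _ (H.mem_G _ _) _ _ (add_mem hc hb) _ ha q1 pa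
  rw [← k2] at q2
  have q3 := (ml _ ht _ _ ha _ hb pa pb).uniq hf (add_mem ha hb) (add_mem (add_mem hc hb) ha) q2
  obtain rfl : c = 0 := by linear_combination (norm := module) -q3
  exact H.pw_fe hf (cu _ (H.mem_G _ _)) pc

end SO

end Cfsg.Agent.Max
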