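import Mathlib
import Cfsg.Agent.Max.OW3

/-!
# Tensor powers of an orthogonal space: structures normalised by an Eichler transformation
-/

set_option autoImplicit false
set_option linter.unusedSectionVars false
set_option linter.unusedSimpArgs false

namespace Cfsg.Agent.Max

open Module Cfsg.Agent.Max2 Cfsg.Agent.Max3 TensorProduct Function Cfsg.Agent.Orth QuadraticMap

variable {F U W : Type*} [Field F] [AddCommGroup U] [Module F U] [AddCommGroup W] [Module F W]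
  {S : QuadraticForm F W} {Q : QuadraticForm F (U ⊗[F] W)} {p : LinearMap.BilinForm F U}
  {M : Subgroup ((U ⊗[F] W) ≃ₗ[F] (U ⊗[F] W))} {g g' h y t : (U ⊗[F] W) ≃ₗ[F] (U ⊗[F] W)}
  {u f w v u' f' w' : W}

theorem OF.s4 [FiniteDimensional F W] (H : OF S) (h3 : finrank F W = 3) (p3 : (3 : F) = 0) :
    ∃ s : F, s ≠ 0 ∧ s ^ 4 ≠ 1 := by
  obtain ⟨s, s0, s1⟩ := H.q3 h3
  by_cases k : s ^ 2 = -1
  · exact ⟨s + 1, fun e => s1 (by rw [eq_neg_of_add_eq_zero_left e]; ring), fun e => H.two (by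
      linear_combination -e + (s ^ 2 + 4 * s + 5) * k - p3)⟩
  · exact ⟨s, s0, fun e => mul_ne_zero (sub_ne_zero.2 s1) (sub_ne_zero.2 k)
      (by linear_combination e)⟩

theorem OF.line [FiniteDimensional F W] (H : OF S) (h3 : finrank F W = 3) (hf : Hy S u f)
    (hw : w ∈ W0 S u f) (w0 : S w ≠ 0) (hv : v ∈ W0 S u f) : ∃ c : F, c • w = v := by
  have d := H.dim0 hf
  have w1 : w ≠ 0 := by rintro rfl; simp at w0
  rw [← Submodule.eq_of_le_of_finrank_le ((Submodule.span_singleton_le_iff_mem w _).2 hw)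
    (by rw [finrank_span_singleton w1]; omega)] at hv
  exact Submodule.mem_span_singleton.1 hv

namespace SO

variable (H : SO Q p S) [FiniteDimensional F W] [FiniteDimensional F U] [Nontrivial U] [Finite F]
include H

theorem shape (h3 : finrank F W = 3) (hf : Hy S u f) (hw : w ∈ W0 S u f) (w0 : S w ≠ 0)
    (ht : t ∈ OG Q) (hT : t ∈ TG F U W) (hp : t ^ ringChar F = 1)
    (hc : Commute t (fE 1 (eich S u w).1)) : ∃ (a : Module.End F U) (φ : F),
      IsNilpotent (a - 1) ∧ ∀ x z, t (x ⊗ₜ z) = a x ⊗ₜ (eich S u (φ • w)).1 z := by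
  obtain ⟨a, b, ha, hb, a0, e⟩ := H.norm ht hT hp
  obtain ⟨c1, -, c3⟩ := H.comm_of hf.u0 (W0.pu hw) w0 hc
  obtain ⟨x, hx⟩ := exists_ne (0 : U)
  have x0 : a x ≠ 0 := fun k => hx (a0 _ k)
  obtain ⟨x', k⟩ := mem_LW.1 (c3.le (mem_Lg.2 ⟨x, rfl⟩))
  obtain ⟨c, k1⟩ := Submodule.mem_span_singleton.1 (mem_span_of_tmul_eq' x0 (k.trans (e _ _)).symm)
  have k2 : b.1 u = u := by
    rw [← k1, sub_eq_zero.1 (eq_zero_of_nilp hb hf.ne (c := c - 1) (by simp [← k1, sub_smul])),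
      one_smul]
  have k3 : polar S u (b.1 w) = 0 := by rw [← k2, OG.map_polar, W0.pu hw]
  have k4 := LinearMap.congr_fun c1.eq (x ⊗ₜ w)
  simp only [Module.End.mul_apply, LinearEquiv.coe_coe, rh_one_tmul, e, XE_apply, k3, W0.pu hw,
    zero_smul, sub_zero, map_smul, k2] at k4
  have k5 := smul_left_injective F hf.ne (tmul_right_inj x0 k4)
  obtain ⟨z, hz, k6⟩ := hf.dec' k3
  obtain ⟨d, rfl⟩ := H.line h3 hf hw w0 hz
  obtain rfl : d = 1 := by
    rw [k6] at k5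
    simpa [W0.up hw, H.two, w0] using k5.symm
  obtain ⟨z, hz, rfl⟩ := hf.eq_eich H.nd H.two b k2 fun v hv => by
    obtain ⟨d, rfl⟩ := H.line h3 hf hw w0 hv
    rw [map_smul, ← smul_sub, k6, one_smul, add_sub_cancel_right]
    exact Submodule.smul_mem _ _ (Submodule.smul_mem _ _ (Submodule.mem_span_singleton_self _))
  obtain ⟨φ, rfl⟩ := H.line h3 hf hw w0 hz
  exact ⟨a, φ, ha, e⟩

theorem PL (h3 : finrank F W = 3) (hg : g ∈ OG Q) (hf : Hy S u f) (hw : w ∈ W0 S u f)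
    (w0 : S w ≠ 0) (hu' : S u' = 0) (hw' : polar S u' w' = 0)
    (hT : ∀ c : F, fE g (eich S u' (c • w')).1 ∈ TG F U W)
    (hc : ∀ c : F, Commute (fE g (eich S u' (c • w')).1) (fE 1 (eich S u w).1)) :
    CA 1 (fE g (eich S u' w').1).toLinearMap ∨
      ∃ b, (fE g (eich S u' w').1).toLinearMap = rh 1 b := by
  choose a φ ha e using fun c : F => H.shape h3 hf hw w0 (H.fE_og hg _) (hT c) (by
    rw [← map_pow, ← Subgroup.coe_pow, eich_pow hu' (by simp [hw']), ringChar.Nat.cast_ringChar,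
      zero_smul, eich_zero_right]; exact map_one _) (hc c)
  obtain ⟨s, s0, s1⟩ := H.q3 h3
  have e1 : ∀ c : F, ∀ z, fE g (eich S u' (c • w')).1 z =
      z + c • rh g (XE S u' w') z - c ^ 2 • S w' • rh g (EE S u') z := fun c z => by
    rw [fE_apply, eich_coe hu' (by simp [hw'])]
    simp [pow_two, smul_smul, q_smul]
  have y1 := rh_XE (g := g) H.two hu' hw'
  have y2 := rh_sq (g := g) hu' hw'
  have e2 := e 1
  rw [one_smul] at e2
  obtain ⟨a₀, a1, a2⟩ : ∃ a₀, (a 1 - 1) a₀ = 0 ∧ a₀ ≠ 0 := Submodule.exists_mem_ne_zero_of_ne_bot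
    fun k => (ha 1).not_isUnit ((LinearMap.isUnit_iff_ker_eq_bot _).2 k)
  have a3 : ((fE g (eich S u' w').1).toLinearMap - 1) (a₀ ⊗ₜ u) = 0 := by
    simpa [e2, eich_apply_left hf.u0 (W0.pu (Submodule.smul_mem _ _ hw)), ← sub_tmul] using
      congrArg (· ⊗ₜ[F] u) a1
  have a4 : ∀ c, a c a₀ = a₀ := fun c => tmul_left_inj hf.ne (by
    have k := LinearMap.congr_fun y2 (a₀ ⊗ₜ u)
    rw [pow_two, Module.End.mul_apply, a3, map_zero, eq_comm, LinearMap.smul_apply, neg_smul,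
      neg_eq_zero, mul_smul, smul_eq_zero_iff_right H.two] at k
    have := e1 c (a₀ ⊗ₜ u)
    rw [e, eich_apply_left hf.u0 (W0.pu (Submodule.smul_mem _ _ hw)), k, y1] at this
    simpa [pow_two, a3] using this)
  generalize rh g (XE S u' w') = Y at e1
  generalize rh g (EE S u') = Z at e1
  have P : ∀ (v : W) (c : F) x, polar S v (f - φ c • w - (φ c ^ 2 * S w) • u) • a c x =
      polar S v f • x + c • cW U (S.polarBilin v) (Y (x ⊗ₜ f)) -
        c ^ 2 • S w' • cW U (S.polarBilin v) (Z (x ⊗ₜ f)) := fun v c x => by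
    have := congrArg (cW U (S.polarBilin v)) (e1 c (x ⊗ₜ f))
    rw [e, hf.eich_f (Submodule.smul_mem _ _ hw)] at this
    simpa [pow_two, q_smul] using this
  have P0 := P u
  have P1 := fun c => P w c a₀
  have P2 := P f
  simp only [polar_sub_right, p_smul_right, hf.uf, hf.uu, hf.ff, hf.fu, W0.pu hw, W0.pf hw,
    W0.up hw, W0.fp hw, p_self, a4] at P0 P1 P2
  obtain ⟨ψ, hψ⟩ := exists_dual_one (F := F) a2
  obtain ⟨α, β, k⟩ : ∃ α β : F, ∀ c, φ c = α * c + β * c ^ 2 :=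
    ⟨-ψ (cW U (S.polarBilin w) (Y (a₀ ⊗ₜ f))) / (2 * S w),
      S w' * ψ (cW U (S.polarBilin w) (Z (a₀ ⊗ₜ f))) / (2 * S w), fun c => by
      have := congrArg ψ (P1 c)
      have k := H.two
      simp only [map_sub, map_add, map_smul, hψ, smul_eq_mul] at this
      field_simp
      linear_combination -this⟩
  obtain rfl : β = 0 := by
    have := (quartic (V := F) H.two s0 s1 (a := ψ (cW U (S.polarBilin f) (Y (a₀ ⊗ₜ f))))
      (b := α ^ 2 * S w - S w' * ψ (cW U (S.polarBilin f) (Z (a₀ ⊗ₜ f)))) (c := 2 * α * β * S w)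
      (d := β ^ 2 * S w) fun c => by
        have := congrArg ψ (P2 c a₀)
        simp only [map_sub, map_add, map_smul, hψ, smul_eq_mul, a4, k] at this ⊢
        linear_combination -this).2
    simpa [w0] using this
  by_cases α0 : α = 0
  · exact Or.inl (ca_of (α := a 1) fun x z => by simp [e2, k, α0])
  refine Or.inr ⟨(eich S u (φ 1 • w)).1, TensorProduct.ext' fun x z => ?_⟩
  obtain ⟨k1, k2⟩ := quartic H.two s0 s1 (a := cW U (S.polarBilin f) (Y (x ⊗ₜ f)))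
    (b := (α ^ 2 * S w) • x - S w' • cW U (S.polarBilin f) (Z (x ⊗ₜ f)))
    (c := (α ^ 2 * S w) • cW U (S.polarBilin u) (Y (x ⊗ₜ f)))
    (d := -(α ^ 2 * S w) • S w' • cW U (S.polarBilin u) (Z (x ⊗ₜ f))) fun c => by
      have := P2 c x
      rw [k] at this
      linear_combination (norm := module) -this - (α ^ 2 * S w * c ^ 2) • P0 c x
  have k3 : α ^ 2 * S w ≠ 0 := mul_ne_zero (pow_ne_zero _ α0) w0
  rw [smul_eq_zero_iff_right k3] at k1
  rw [smul_eq_zero_iff_right (neg_ne_zero.2 k3)] at k2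
  have := P0 1 x
  rw [k1, k2] at this
  rw [LinearEquiv.coe_coe, e2, rh_one_tmul, show a 1 x = x by simpa using this]; rfl

theorem CL (h1 : LO Q S M 1) (h2 : LO Q S M g) (hf : Hy S u f) (hw : w ∈ W0 S u f) (w0 : S w ≠ 0)
    (hs : Same (fE 1 (eich S u w).1 * g) g) : (∃ u', u' ≠ 0 ∧ S u' = 0 ∧ Lg g u' = LW F U u) ∨
      ∀ a b, rh g (XE S a b) ∈ FE U S u hf.u0 := by
  have gi : g⁻¹ ∈ OG Q := inv_mem h2.iso
  have r : fE g⁻¹ (eich S u w).1 = g⁻¹ * fE 1 (eich S u w).1 * g := by rw [fE_eq, inv_inv]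
  have r1 : ∀ σ : W ≃ₗ[F] W, cjm g (fE g⁻¹ σ).toLinearMap = (fE 1 σ).toLinearMap := fun σ => by
    rw [fE_coe, cjm_rh, mul_inv_cancel, fE_coe]
  rcases H.dichJ gi hf.u0 (W0.pu hw) (by rw [r, mul_assoc]; exact hs) with
    k | ⟨b, k⟩ | ⟨h3, p3, a, u', f', w', hf', hw', w1, a0, e⟩
  · have k1 := k.conj g
    rw [mul_one, r1] at k1
    refine Or.inr (H.skew_span (Y := (Subalgebra.toSubmodule (FE U S u hf.u0)).comap
      (rh g).toLinearMap) fun u' w' hu' hw' w1 => ?_)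
    have k2 := sub_mem (H.stepC h1 h2 hf hw w0 k1 hu' hw' w1) (one_mem _)
    change rh g _ ∈ FE U S u hf.u0
    rw [rh_XE H.two hu' hw']
    exact sub_mem k2 (Subalgebra.smul_mem _ (pow_mem k2 2) _)
  · obtain ⟨v, v0, k1⟩ := H.lg_of (g := 1) (g' := g) (b := b) hf.ne hf.u0 (W0.pu hw) w0
      (by rw [← r1, k, cjm_rh, mul_one])
    rw [Lg_one] at k1
    exact Or.inl ⟨v, v0, H.sing_of h2.iso hf.u0 k1, k1⟩
  have hk := Or.inr (a := 5 ≤ finrank F W) (H.s4 h3 p3)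
  have hc : ∀ c : F, Commute (fE g (eich S u' (c • w')).1) (fE 1 (eich S u w).1) := fun c => by
    have e1 : ∀ x z, fE 1 (eich S u w).1 (g (x ⊗ₜ z)) = g (a x ⊗ₜ (eich S u' w').1 z) :=
      fun x z => by simp [← e, r]
    have hc' := W0.pu (Submodule.smul_mem _ c hw')
    refine LinearEquiv.toLinearMap_injective (ext_g g fun x z => ?_)
    simp only [LinearEquiv.coe_coe, LinearEquiv.mul_apply, e1, fE_tmul]
    rw [← LinearEquiv.mul_apply, ← LinearEquiv.mul_apply (eich S u' w').1, ← Subgroup.coe_mul,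
      ← Subgroup.coe_mul, eich_mul hf'.u0 hc' (W0.pu hw'), eich_mul hf'.u0 (W0.pu hw') hc',
      add_comm]
  rcases H.PL h3 h2.iso hf hw w0 hf'.u0 (W0.pu hw') (fun c => by
    simpa [Same] using H.strong hk h1 (h1.mem (h2.fac _ (H.mem_G u' (c • w')))) hf.ne hf.u0 hf.u0
      hf.ne (H.comm_of hf.u0 (W0.pu hw) w0 (hc c)).2.2) hc with k | ⟨b, k⟩
  · have k1 := k.conj g⁻¹
    rw [mul_one, fE_coe, cjm_rh, inv_mul_cancel, ← fE_coe] at k1
    obtain ⟨α, δ, k2⟩ := H.stepC h2.one (mul_one g⁻¹ ▸ h1.rel h2.iso) hf' hw' w1 k1 hf.u0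
      (W0.pu hw) w0
    obtain ⟨x, hx⟩ := exists_ne (0 : U)
    have := congrArg (cW U (S.polarBilin w')) (k2 x f')
    simp only [LinearEquiv.coe_coe, e, hf'.eich_f hw'] at this
    exact absurd (a0 x (by simpa [W0.up hw', W0.fp hw', H.two, w1] using this)) hx
  · obtain ⟨v, v0, k1⟩ := H.lg_of hf'.ne hf'.u0 (W0.pu hw') w1 k
    rw [Lg_one] at k1
    obtain ⟨a, b, k2⟩ := same_iff.1 (H.strong hk h1 h2 v0 (H.sing_of gi hf'.u0 (by
      rw [Lg, k1, Lg, ← im_mul, inv_mul_cancel, im_one])) hf'.u0 hf'.ne k1.symm)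
    have k3 : Lg g (b.symm u) = LW F U u := Submodule.ext fun z => by
      simp only [mem_Lg, k2, mem_LW]
      exact ⟨fun ⟨x, e⟩ => ⟨a x, by simpa using e⟩, fun ⟨x, e⟩ => ⟨a.symm x, by simpa using e⟩⟩
    exact Or.inl ⟨_, by simpa using hf.ne, H.sing_of h2.iso hf.u0 k3, k3⟩

end SO

end Cfsg.Agent.Max
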