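import Mathlib
import Cfsg.Agent.Max.OW4
import Cfsg.Agent.Max3.OX1

/-!
# Tensor powers of an orthogonal space: the invariant of a tensor structure and averaging
-/

set_option autoImplicit false
set_option linter.unusedSectionVars false
set_option linter.unusedSimpArgs false
set_option maxSynthPendingDepth 3

namespace Cfsg.Agent.Max

open Module Cfsg.Agent.Max2 Cfsg.Agent.Max3 TensorProduct Function Cfsg.Agent.Orth QuadraticMap

variable {F U W : Type*} [Field F] [AddCommGroup U] [Module F U] [AddCommGroup W] [Module F W]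
  {S : QuadraticForm F W} {Q : QuadraticForm F (U ⊗[F] W)} {p : LinearMap.BilinForm F U}
  {M : Subgroup ((U ⊗[F] W) ≃ₗ[F] (U ⊗[F] W))} {g g' h y t : (U ⊗[F] W) ≃ₗ[F] (U ⊗[F] W)}
  {u f w v u' f' w' : W} {ξ : Module.End F (U ⊗[F] W)}

/-- The defect of symmetry in the second factor. -/
noncomputable def AS (Q : QuadraticForm F (U ⊗[F] W)) (h : (U ⊗[F] W) ≃ₗ[F] (U ⊗[F] W))
    (a b : U) : Module.End F (U ⊗[F] W) →ₗ[F] W →ₗ[F] W →ₗ[F] F where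
  toFun ξ := Q.polarBilin.compl₁₂ (ξ ∘ₗ h.toLinearMap ∘ₗ TensorProduct.mk F U W a)
      (h.toLinearMap ∘ₗ TensorProduct.mk F U W b) -
    (Q.polarBilin.compl₁₂ (ξ ∘ₗ h.toLinearMap ∘ₗ TensorProduct.mk F U W a)
      (h.toLinearMap ∘ₗ TensorProduct.mk F U W b)).flip
  map_add' ξ η := by ext; simp; ring
  map_smul' c ξ := by ext; simp; ring

theorem AS_apply (a b : U) (x z : W) : AS Q h a b ξ x z =
    polar Q (ξ (h (a ⊗ₜ x))) (h (b ⊗ₜ z)) - polar Q (ξ (h (a ⊗ₜ z))) (h (b ⊗ₜ x)) := rfl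

/-- Endomorphisms symmetric in the second factor. -/
noncomputable def Sy (Q : QuadraticForm F (U ⊗[F] W)) (h : (U ⊗[F] W) ≃ₗ[F] (U ⊗[F] W)) :
    Submodule F (Module.End F (U ⊗[F] W)) := ⨅ a, ⨅ b, LinearMap.ker (AS Q h a b)

theorem mem_Sy : ξ ∈ Sy Q h ↔ ∀ a b x z,
    polar Q (ξ (h (a ⊗ₜ x))) (h (b ⊗ₜ z)) = polar Q (ξ (h (a ⊗ₜ z))) (h (b ⊗ₜ x)) := by
  simp only [Sy, Submodule.mem_iInf, LinearMap.mem_ker, LinearMap.ext_iff, AS_apply,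
    LinearMap.zero_apply, sub_eq_zero]

theorem Sy.as (e : ξ ∈ Sy Q h) (a b : U) : AS Q h a b ξ = 0 := by
  simp only [Sy, Submodule.mem_iInf] at e
  exact e a b

/-- Skew endomorphisms. -/
def Sk (Q : QuadraticForm F (U ⊗[F] W)) : Submodule F (Module.End F (U ⊗[F] W)) where
  carrier := {ξ | ∀ x z, polar Q (ξ x) z = -polar Q x (ξ z)}
  add_mem' ha hb x z := by simp [ha x z, hb x z]; ring
  zero_mem' x z := by simp
  smul_mem' c ξ h x z := by simp [h x z]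

/-- Bilinear maps to the endomorphisms. -/
abbrev KK (F U W : Type*) [Field F] [AddCommGroup U] [Module F U] [AddCommGroup W] [Module F W] :=
  (U ⊗[F] W) →ₗ[F] (U ⊗[F] W) →ₗ[F] Module.End F (U ⊗[F] W)

/-- The contraction to the skew endomorphisms of the second factor. -/
noncomputable def kW (p : LinearMap.BilinForm F U) (S : QuadraticForm F W) :
    (U ⊗[F] W) →ₗ[F] (U ⊗[F] W) →ₗ[F] Module.End F W :=
  (LinearMap.BilinMap.tensorDistrib F F (p ⊗ₜ XE S)).compr₂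
    (TensorProduct.lid F (Module.End F W)).toLinearMap

theorem kW_tmul (a b : U) (x z : W) : kW p S (a ⊗ₜ x) (b ⊗ₜ z) = p a b • XE S x z := by
  simp [kW]

theorem kW_mem {Y : Submodule F (Module.End F W)} (e : ∀ a b, XE S a b ∈ Y) (x z : U ⊗[F] W) :
    kW p S x z ∈ Y := by
  induction x with
  | zero => simp
  | add a b ha hb => simpa using add_mem ha hb
  | tmul a x =>
    induction z with
    | zero => simp
    | add a b ha hb => simpa using add_mem ha hb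
    | tmul b z => rw [kW_tmul]; exact Y.smul_mem _ (e _ _)

/-- The invariant of a structure. -/
noncomputable def kap (p : LinearMap.BilinForm F U) (S : QuadraticForm F W)
    (g : (U ⊗[F] W) ≃ₗ[F] (U ⊗[F] W)) : KK F U W :=
  ((kW p S).compl₁₂ g.symm.toLinearMap g.symm.toLinearMap).compr₂ (rh g).toLinearMap

theorem kap_apply (x z : U ⊗[F] W) : kap p S g x z = rh g (kW p S (g.symm x) (g.symm z)) := rfl

theorem kap_tmul (a b : U) (x z : W) :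
    kap p S g (g (a ⊗ₜ x)) (g (b ⊗ₜ z)) = p a b • rh g (XE S x z) := by
  simp [kap_apply, kW_tmul]

theorem kap_mem {Y : Submodule F (Module.End F (U ⊗[F] W))} (e : ∀ a b, rh g (XE S a b) ∈ Y)
    (x z : U ⊗[F] W) : kap p S g x z ∈ Y := by
  rw [kap_apply]
  exact kW_mem (Y := Y.comap (rh g).toLinearMap) e _ _

/-- The action on bilinear maps. -/
noncomputable def act (h : (U ⊗[F] W) ≃ₗ[F] (U ⊗[F] W)) : KK F U W ≃ₗ[F] KK F U W :=
  h.arrowCongr (h.arrowCongr h.conj)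

theorem act_apply (κ : KK F U W) (x z : U ⊗[F] W) :
    act h κ x z = cjm h (κ (h.symm x) (h.symm z)) := rfl

theorem act_mul (κ : KK F U W) : act (h * g) κ = act h (act g κ) := rfl

theorem act_one (κ : KK F U W) : act 1 κ = κ := rfl

theorem act_kap : act h (kap p S g) = kap p S (h * g) :=
  LinearMap.ext fun x => LinearMap.ext fun z => by rw [act_apply, kap_apply, cjm_rh]; rfl

theorem og_symm (hg : g ∈ OG Q) (x z : U ⊗[F] W) : polar Q (g x) z = polar Q x (g.symm z) := by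
  rw [← og_pol hg x, LinearEquiv.apply_symm_apply]

theorem Sy.conj (e : ξ ∈ Sy Q h) (ht : t ∈ OG Q) (hs : Same (t * h) h) : cjm t ξ ∈ Sy Q h := by
  have := (hs.left t⁻¹).symm
  rw [inv_mul_cancel_left] at this
  obtain ⟨α, β, k⟩ := same_iff.1 this
  refine mem_Sy.2 fun a b x z => ?_
  have k1 : ∀ a x, t.symm (h (a ⊗ₜ x)) = h (α a ⊗ₜ β x) := k
  simp only [cjm_apply, og_symm ht, k1, mem_Sy.1 e (α a) (α b) (β x)]

theorem Sy.frame (e : ξ ∈ Sy Q g) (hh : h ∈ OG Q) : cjm h ξ ∈ Sy Q (h * g) :=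
  mem_Sy.2 fun a b x z => by
    simpa only [cjm_apply, LinearEquiv.mul_apply, LinearEquiv.symm_apply_apply, og_pol hh] using
      mem_Sy.1 e a b x z

/-- Values symmetric in the factor. -/
def TS (Q : QuadraticForm F (U ⊗[F] W)) (h : (U ⊗[F] W) ≃ₗ[F] (U ⊗[F] W)) (κ : KK F U W) : Prop :=
  ∀ x z, κ x z ∈ Sy Q h

/-- The invariant of a structure sharing the subspace `h (U ⊗ u)`. -/
def TI (Q : QuadraticForm F (U ⊗[F] W)) (p : LinearMap.BilinForm F U) (S : QuadraticForm F W)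
    (h : (U ⊗[F] W) ≃ₗ[F] (U ⊗[F] W)) (u : W) (κ : KK F U W) : Prop :=
  ∃ g ∈ OG Q, κ = kap p S g ∧ ∃ u', u' ≠ 0 ∧ Lg g u' = Lg h u

theorem TS.act {κ : KK F U W} (e : TS Q h κ) (ht : t ∈ OG Q) (hs : Same (t * h) h) :
    TS Q h (act t κ) := fun _ _ => Sy.conj (e _ _) ht hs

theorem TI.act {κ : KK F U W} (e : TI Q p S h u κ) (ht : t ∈ OG Q) (hs : Lg (t * h) u = Lg h u) :
    TI Q p S h u (act t κ) := by
  obtain ⟨g, hg, rfl, u', k1, k2⟩ := e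
  exact ⟨t * g, mul_mem ht hg, act_kap, u', k1, by rw [Lg_mul, k2, ← Lg_mul, hs]⟩

theorem Lg_of (α : U ≃ₗ[F] U) (e : ∀ a, g (a ⊗ₜ u) = g' (α a ⊗ₜ v)) : Lg g u = Lg g' v :=
  Submodule.ext fun z => by
    simp only [mem_Lg, e]
    exact ⟨fun ⟨x, e⟩ => ⟨α x, e⟩, fun ⟨x, e⟩ => ⟨α.symm x, by simpa using e⟩⟩

theorem same_fE (h : (U ⊗[F] W) ≃ₗ[F] (U ⊗[F] W)) (σ : W ≃ₗ[F] W) : Same (fE h σ * h) h :=
  same_iff.2 ⟨1, σ, fun a x => fE_tmul h σ a x⟩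

theorem CA.Lg_eq [FiniteDimensional F U] [FiniteDimensional F W] (e : CA h t.toLinearMap) :
    Lg (t * h) u = Lg h u := by
  obtain ⟨α, k⟩ := e.exists
  rw [Lg_mul]
  refine im_eq_of fun x hx => ?_
  obtain ⟨a, rfl⟩ := mem_Lg.1 hx
  exact mem_Lg.2 ⟨α a, (k a u).symm⟩

/-- Homogeneous vectors. -/
def Dg (S : QuadraticForm F W) (u f : W) (d : ℕ) (x : W) : Prop :=
  (d = 0 ∧ x = u) ∨ (d = 1 ∧ x ∈ W0 S u f) ∨ (d = 2 ∧ x = f)

theorem Dg.symm {d : ℕ} (e : Dg S u f d v) : ∃ d', d + d' = 2 ∧ Dg S f u d' v := by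
  rcases e with ⟨rfl, e⟩ | ⟨rfl, e⟩ | ⟨rfl, e⟩
  exacts [⟨2, rfl, Or.inr (Or.inr ⟨rfl, e⟩)⟩, ⟨1, rfl, Or.inr (Or.inl ⟨rfl, W0.symm e⟩)⟩,
    ⟨0, rfl, Or.inl ⟨rfl, e⟩⟩]

theorem Hy.zero (hf : Hy S u f) {Z : Type*} [AddCommGroup Z] [Module F Z] {l : W →ₗ[F] Z}
    (e : ∀ d x, Dg S u f d x → l x = 0) : l = 0 :=
  hf.ext (e 0 _ (Or.inl ⟨rfl, rfl⟩)) (e 2 _ (Or.inr (Or.inr ⟨rfl, rfl⟩)))
    fun _ hw => e 1 _ (Or.inr (Or.inl ⟨rfl, hw⟩))

theorem Dg.low (hf : Hy S u f) {d₁ d₂ d₃ d₄ : ℕ} {x₁ x₂ x₃ x₄ : W} (h1 : Dg S u f d₁ x₁)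
    (h2 : Dg S u f d₂ x₂) (h3 : Dg S u f d₃ x₃) (h4 : Dg S u f d₄ x₄)
    (hs : d₁ + d₂ + d₃ + d₄ ≤ 4) : polar S u x₁ * polar S u x₂ * polar S x₃ x₄ = 0 ∧
      polar S u x₁ * polar S u x₂ * polar S u x₃ = 0 := by
  rcases h1 with ⟨rfl, rfl⟩ | ⟨rfl, h1⟩ | ⟨rfl, h1⟩
  · simp [hf.u0]
  · simp [W0.pu h1]
  rcases h2 with ⟨rfl, rfl⟩ | ⟨rfl, h2⟩ | ⟨rfl, h2⟩
  · simp [hf.u0]
  · simp [W0.pu h2]
  rcases h3 with ⟨rfl, rfl⟩ | ⟨rfl, h3⟩ | ⟨rfl, h3⟩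
  · rcases h4 with ⟨rfl, rfl⟩ | ⟨rfl, h4⟩ | ⟨rfl, h4⟩
    · simp [hf.u0]
    all_goals omega
  all_goals omega

section
variable {A : Type*} [AddCommGroup A] [Module F A] [FiniteDimensional F A]

theorem Dg.pd (h2 : (2 : F) ≠ 0) (hf : Hy S u f) (l : A →ₗ[F] W) (hl : ∀ k, l k ∈ W0 S u f) {d : ℕ}
    (e : Dg S u f d v) : ∃ (t : A → F) (r : A → W), PD F d t ∧
      (r = 0 ∨ ∃ e, d = e + 1 ∧ PD F e r) ∧ ∀ k, (eich S u (l k)).1 v = t k • u + r k := by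
  rcases e with ⟨rfl, rfl⟩ | ⟨rfl, e⟩ | ⟨rfl, rfl⟩
  · exact ⟨_, 0, PD.const 0 1, Or.inl rfl, fun k => by
      simp [eich_apply_left hf.u0 (W0.pu (hl k))]⟩
  · exact ⟨_, _, PD.lin (S.polarBilin.flip v ∘ₗ l), Or.inr ⟨0, rfl, PD.const 0 v⟩, fun k => by
      simp [eich_apply hf.u0 (W0.pu (hl k)), W0.pu e, add_comm]⟩
  · exact ⟨_, _, PD.bil (-(2 : F)⁻¹ • S.polarBilin) (PD.lin l) (PD.lin l),
      Or.inr ⟨1, rfl, (PD.const 1 v).sub (PD.lin l)⟩, fun k => by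
        simp [hf.eich_f (hl k), h2]; abel⟩

theorem Dg.pd' (h2 : (2 : F) ≠ 0) (hf : Hy S u f) (l : A →ₗ[F] W) (hl : ∀ k, l k ∈ W0 S u f)
    {d : ℕ} (e : Dg S u f d v) : PD F d fun k => (eich S u (l k)).1 v := by
  obtain ⟨t, r, h1, h3, h4⟩ := e.pd h2 hf l hl
  refine ((h1.map (LinearMap.toSpanSingleton F W u)).add (g := r) ?_).congr h4
  rcases h3 with rfl | ⟨e, rfl, h3⟩
  exacts [PD.const _ 0, h3.succ]

theorem pd_alt (h2 : (2 : F) ≠ 0) (hf : Hy S u f) (l : A →ₗ[F] W) (hl : ∀ k, l k ∈ W0 S u f)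
    {Λ : A → W →ₗ[F] W →ₗ[F] F} {n d e : ℕ} (hΛ : PD F n Λ) (h0 : ∀ k, Λ k u u = 0)
    (h3 : Dg S u f d v) (h4 : Dg S u f e w) (hs : n + d + e ≤ 4) :
    PD F 3 fun k => Λ k ((eich S u (l k)).1 v) ((eich S u (l k)).1 w) := by
  obtain ⟨t, r, a1, a2, a3⟩ := h3.pd h2 hf l hl
  obtain ⟨t', r', b1, b2, b3⟩ := h4.pd h2 hf l hl
  refine (PD.add (f := fun k => t k • Λ k u (r' k))
    (g := fun k => Λ k (r k) ((eich S u (l k)).1 w)) ?_ ?_).congr fun k => by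
      rw [a3, map_add, LinearMap.add_apply]; simp [b3, h0]
  · rcases b2 with rfl | ⟨e, rfl, b2⟩
    · exact (PD.const 3 0).congr fun k => by simp
    · exact (PD.bil (LinearMap.lsmul F F) a1 (PD.bil LinearMap.id
        (hΛ.map (LinearMap.applyₗ u)) b2)).mono (by omega)
  · rcases a2 with rfl | ⟨d, rfl, a2⟩
    · exact (PD.const 3 0).congr fun k => by simp
    · exact (PD.bil LinearMap.id (PD.bil LinearMap.id hΛ a2) (h4.pd' h2 hf l hl)).mono (by omega)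

end

namespace SO

variable (H : SO Q p S) [FiniteDimensional F W] [FiniteDimensional F U] [Nontrivial U] [Finite F]
include H

theorem ca_sy (hh : h ∈ OG Q) (e : CA h ξ) : ξ ∈ Sy Q h := by
  obtain ⟨α, k⟩ := e.exists
  exact mem_Sy.2 fun a b x z => by simp only [k, og_pol hh, H.pu, polar_comm S x]

theorem fe_sy {hu : S u = 0} (e : ξ ∈ FE U S u hu) : ξ ∈ Sy Q 1 := by
  obtain ⟨α, δ, k⟩ := e
  exact mem_Sy.2 fun a b x z => by simp [k, H.pu, polar_comm S x z]; ring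

theorem rh_sk (hg : g ∈ OG Q) (a b : W) : rh g (XE S a b) ∈ Sk Q := fun x z =>
  LinearMap.congr_fun₂ (show Q.polarBilin ∘ₗ rh g (XE S a b) =
    -Q.polarBilin.compl₂ (rh g (XE S a b)) from ext_g g fun c x => ext_g g fun d z => by
      simp [rh_tmul, og_pol hg, H.pu, XE_skew]) x z

theorem ex_p : ∃ a b, p a b ≠ 0 := by
  obtain ⟨a, ha⟩ := exists_ne (0 : U)
  by_contra hn
  push Not at hn
  exact ha (H.ndU a (hn a))

theorem kap_same (hg : g ∈ OG Q) (hg' : g' ∈ OG Q) (e : Same g g') : kap p S g = kap p S g' := by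
  obtain ⟨α, β, k⟩ := same_iff.1 e
  have k1 : ∀ a b x z, p a b * polar S x z = p (α a) (α b) * polar S (β x) (β z) :=
    fun a b x z => by rw [← H.pu, ← H.pu, ← og_pol hg, k, k, og_pol hg']
  refine ext_g g fun a x => ext_g g fun b z => ext_g g fun c v => ?_
  rw [kap_tmul, LinearMap.smul_apply, rh_tmul, k, k, k, k, kap_tmul, LinearMap.smul_apply, rh_tmul]
  simp only [XE_apply, map_sub, map_smul, tmul_sub, tmul_smul, smul_sub, smul_smul, ← k1]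

theorem kap_rh {Y : Submodule F (Module.End F (U ⊗[F] W))} (e : ∀ x z, kap p S g x z ∈ Y)
    (a b : W) : rh g (XE S a b) ∈ Y := by
  obtain ⟨c, d, k⟩ := H.ex_p
  rw [← Y.smul_mem_iff k, ← kap_tmul]
  exact e _ _

theorem same_of (e : ∀ a b, ∃ x, rh g (XE S a b) = rh g' x) : Same g g' :=
  same_of_rh (by have := H.k3; omega) fun x => by
    obtain ⟨y, k⟩ := H.alg_ind (Y := (LinearMap.range (rh g').toLinearMap).comap
      (rh g).toLinearMap) (by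
        rintro x ⟨x', k⟩ y ⟨y', k'⟩
        exact ⟨x' * y', by simp at k k' ⊢; rw [k, k']⟩)
      (fun a b => (e a b).imp fun _ => Eq.symm) x
    exact ⟨y, k.symm⟩

theorem same_kap (e : kap p S g = kap p S g') : Same g g' := H.same_of fun a b =>
  (H.kap_rh (Y := LinearMap.range (rh g').toLinearMap) (fun x z => e ▸ ⟨_, rfl⟩) a b).imp
    fun _ => Eq.symm

theorem ti_get (e : TI Q p S h u (kap p S g)) : ∃ u', u' ≠ 0 ∧ Lg g u' = Lg h u := by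
  obtain ⟨g', -, k, u', k1, k2⟩ := e
  obtain ⟨α, β, k3⟩ := same_iff.1 (H.same_kap k).symm
  exact ⟨β u', by simpa using k1, (Lg_of α fun a => k3 a u').symm.trans k2⟩

theorem CLh (h1 : LO Q S M h) (h2 : LO Q S M g) (hf : Hy S u f) (hw : w ∈ W0 S u f) (w0 : S w ≠ 0)
    (hs : Same (fE h (eich S u w).1 * g) g) :
    TI Q p S h u (kap p S g) ∨ TS Q h (kap p S g) := by
  refine (H.CL h1.one (h2.rel h1.iso) hf hw w0 (by
    simpa [fE_eq h, mul_assoc] using hs.left h⁻¹)).imp ?_ fun k => kap_mem fun a b => ?_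
  · rintro ⟨u', k1, -, k2⟩
    exact ⟨g, h2.iso, rfl, u', k1, by rw [Lg, Lg, ← k2, Lg, ← im_mul, mul_inv_cancel_left]⟩
  · simpa [cjm_rh] using Sy.frame (H.fe_sy (k a b)) h1.iso

theorem lemPh (h1 : LO Q S M h) (h2 : LO Q S M g) (hf : Hy S u f) (e : TI Q p S h u (kap p S g)) :
    ∃ y ∈ OG Q, Same g (h * y) ∧ ∃ γ : Module.End F U,
      (∀ x, y x = x + Dm γ (S.polarBilin u) u x) ∧ ∀ x, y.symm x = x - Dm γ (S.polarBilin u) u x := by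
  obtain ⟨u', k1, k2⟩ := H.ti_get e
  have k3 : Lg (h⁻¹ * g) u' = LW F U u := by
    rw [Lg_mul, k2, Lg, ← im_mul, inv_mul_cancel, im_one]
  have r := h2.rel h1.iso
  obtain ⟨y, y1, y2, -, γ, -, y3⟩ := H.lemP h1.one r hf (H.sing_of r.iso hf.u0 k3) k1 k3
  exact ⟨y, y1, by simpa using y2.left h, γ, y3, fun x => by
    rw [LinearEquiv.symm_apply_eq, y3, map_sub, Dm_Dm _ _ _ _ hf.uu]; abel⟩

open scoped _root_.Classical in
theorem red (h1 : LO Q S M h) (hf : Hy S u f) (Ω : Finset (KK F U W))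
    (c1 : ∀ κ ∈ Ω, ∃ g, LO Q S M g ∧ κ = kap p S g)
    (c2 : ∀ κ ∈ Ω, ∀ w ∈ W0 S u f, act (fE h (eich S u w).1) κ ∈ Ω) (G : KK F U W → F)
    (hG : ∀ A : Submodule F W, A ≤ W0 S u f → ∀ κ,
      PD F 3 fun w : A => G (act (fE h (eich S u w).1) κ)) :
    ∑ κ ∈ Ω, G κ = ∑ κ ∈ Ω with TI Q p S h u κ ∨ TS Q h κ, G κ := by
  have := Fintype.ofFinite F
  obtain ⟨A, hA, a1, a2⟩ := H.avg hf
  have : Finite A := Module.finite_of_finite F
  have := Fintype.ofFinite A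
  have ha : ∀ (k l : A) κ, act (fE h (eich S u (k + l : A)).1) κ =
      act (fE h (eich S u k).1) (act (fE h (eich S u l).1) κ) := fun k l κ => by
    rw [← act_mul, ← map_mul, ← Subgroup.coe_mul, eich_mul hf.u0 (W0.pu (hA k.2)) (W0.pu (hA l.2))]
    rfl
  have h0 : ∀ κ, act (fE h (eich S u (0 : A)).1) κ = κ := fun κ => by
    simp [act_one]
  rw [← Finset.sum_filter_add_sum_filter_not Ω fun κ => TI Q p S h u κ ∨ TS Q h κ,
    sum_free (fun (k : A) κ => act (fE h (eich S u k).1) κ) h0 ha G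
      (Ω.filter fun κ => ¬(TI Q p S h u κ ∨ TS Q h κ)) (fun κ hκ k => ?_)
      (fun κ hκ k e => ?_) fun κ _ => (hG A hA κ).sum_zero a2, add_zero]
  · rw [Finset.mem_filter] at hκ ⊢
    refine ⟨c2 κ hκ.1 k (hA k.2), fun e => hκ.2 ?_⟩
    rw [← h0 κ, ← neg_add_cancel k, ha]
    exact e.imp (fun e => e.act (H.fE_og h1.iso _) (Lg_of 1 fun a => by
      rw [LinearEquiv.mul_apply, fE_tmul, eich_apply_left hf.u0 (W0.pu (hA (-k).2))]; rfl))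
      fun e => e.act (H.fE_og h1.iso _) (same_fE _ _)
  · rw [Finset.mem_filter] at hκ
    obtain ⟨g, hg, rfl⟩ := c1 κ hκ.1
    refine Subtype.ext (a1 k k.2 (by_contra fun w0 => hκ.2 ?_))
    exact H.CLh h1 hg hf (hA k.2) w0 (H.same_kap (act_kap.symm.trans e))

theorem tI (hh : h ∈ OG Q) (hy : y ∈ OG Q) (hf : Hy S u f) {γ : Module.End F U}
    (e : ∀ x, y.symm x = x - Dm γ (S.polarBilin u) u x) {d₁ d₂ d₃ d₄ : ℕ} {x₁ x₂ x₃ x₄ : W}
    (h1 : Dg S u f d₁ x₁) (h2 : Dg S u f d₂ x₂) (h3 : Dg S u f d₃ x₃) (h4 : Dg S u f d₄ x₄)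
    (hs : d₁ + d₂ + d₃ + d₄ ≤ 4) (a₁ a₂ a₃ a₄ : U) :
    polar Q (kap p S (h * y) (h (a₁ ⊗ₜ x₁)) (h (a₂ ⊗ₜ x₂)) (h (a₃ ⊗ₜ x₃))) (h (a₄ ⊗ₜ x₄)) =
      polar Q (kap p S h (h (a₁ ⊗ₜ x₁)) (h (a₂ ⊗ₜ x₂)) (h (a₃ ⊗ₜ x₃))) (h (a₄ ⊗ₜ x₄)) := by
  have k14 := (h1.low hf h4 h2 h3 (by omega)).1
  have k13 := (h1.low hf h3 h2 h4 (by omega)).1
  have k23 := (h2.low hf h3 h1 h4 (by omega)).1
  have k24 := (h2.low hf h4 h1 h3 (by omega)).1
  have k := (h1.low hf h2 h3 h4 hs).2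
  rw [← mul_one y, ← act_kap, ← act_kap, kap_tmul]
  simp only [act_apply, cjm_apply, LinearEquiv.symm_apply_apply, og_pol hh, og_symm hy, e,
    LinearMap.smul_apply, rh_tmul, p_smul_left, kap_apply]
  simp only [LinearEquiv.one_eq_refl, LinearEquiv.refl_symm, LinearEquiv.refl_apply]
  simp only [← LinearEquiv.one_eq_refl, Dm_apply, cW_tmul, map_smul, map_sub, ← smul_tmul',
    LinearMap.sub_apply, LinearMap.smul_apply, kW_tmul, rh_one_tmul, XE_apply, tmul_sub, tmul_smul,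
    polar_sub_left, polar_sub_right, p_smul_left, p_smul_right, H.pu, polarBilin_apply_apply, hf.uu,
    polar_comm S x₁ u, polar_comm S x₂ u]
  linear_combination -(p (γ a₁) a₂ * p a₃ a₄ + p a₁ a₂ * p a₃ (γ a₄)) * k14 +
    (p (γ a₁) a₂ * p a₃ a₄ + p a₁ a₂ * p (γ a₃) a₄) * k13 -
    (p a₁ (γ a₂) * p a₃ a₄ + p a₁ a₂ * p (γ a₃) a₄) * k23 +
    (p a₁ (γ a₂) * p a₃ a₄ + p a₁ a₂ * p a₃ (γ a₄)) * k24 +
    (p (γ a₁) a₂ - p a₁ (γ a₂)) * (p (γ a₃) a₄ - p a₃ (γ a₄)) * polar S u x₄ * k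

open scoped _root_.Classical in
theorem avg1 (h1 : LO Q S M h) (hf : Hy S u f) (Ω : Finset (KK F U W))
    (c1 : ∀ κ ∈ Ω, ∃ g, LO Q S M g ∧ κ = kap p S g)
    (c2 : ∀ κ ∈ Ω, ∀ w ∈ W0 S u f, act (fE h (eich S u w).1) κ ∈ Ω)
    (c3 : ((Ω.filter (TI Q p S h u)).card : F) = 1) {d₁ d₂ d₃ d₄ : ℕ} {x₁ x₂ x₃ x₄ : W}
    (e1 : Dg S u f d₁ x₁) (e2 : Dg S u f d₂ x₂) (e3 : Dg S u f d₃ x₃) (e4 : Dg S u f d₄ x₄)
    (hs : d₁ + d₂ + d₃ + d₄ ≤ 4) (a₁ a₂ a₃ a₄ : U) :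
    AS Q h a₃ a₄ ((∑ κ ∈ Ω, κ - kap p S h) (h (a₁ ⊗ₜ x₁)) (h (a₂ ⊗ₜ x₂))) x₃ x₄ = 0 := by
  simp only [LinearMap.sub_apply, map_sub, LinearMap.sum_apply, map_sum]
  rw [H.red h1 hf Ω c1 c2 (fun κ => AS Q h a₃ a₄ (κ (h (a₁ ⊗ₜ x₁)) (h (a₂ ⊗ₜ x₂))) x₃ x₄) ?_,
    ← Finset.sum_subset (s₁ := Ω.filter (TI Q p S h u)) (Finset.monotone_filter_right _
      fun _ _ => Or.inl) ?_, Finset.sum_congr rfl (g := fun _ =>
        AS Q h a₃ a₄ (kap p S h (h (a₁ ⊗ₜ x₁)) (h (a₂ ⊗ₜ x₂))) x₃ x₄) ?_, Finset.sum_const,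
    nsmul_eq_mul, c3, one_mul, sub_self]
  · intro κ hκ
    rw [Finset.mem_filter] at hκ
    obtain ⟨g, hg, rfl⟩ := c1 κ hκ.1
    obtain ⟨y, y1, y2, γ, -, y3⟩ := H.lemPh h1 hg hf hκ.2
    rw [H.kap_same hg.iso (mul_mem h1.iso y1) y2, AS_apply, AS_apply,
      H.tI h1.iso y1 hf y3 e1 e2 e3 e4 hs, H.tI h1.iso y1 hf y3 e1 e2 e4 e3 (by omega)]
  · intro κ hκ hκ'
    simp only [Finset.mem_filter] at hκ hκ'
    rw [Sy.as (hκ.2.resolve_left (fun k => hκ' ⟨hκ.1, k⟩) _ _)]; rfl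
  · intro A hA κ
    have hl : ∀ k : A, (-A.subtype) k ∈ W0 S u f := fun k => neg_mem (hA k.2)
    refine (pd_alt H.two hf _ hl ((PD.bil (κ.compl₁₂ (h.toLinearMap ∘ₗ TensorProduct.mk F U W a₁)
      (h.toLinearMap ∘ₗ TensorProduct.mk F U W a₂)) (e1.pd' H.two hf _ hl)
      (e2.pd' H.two hf _ hl)).map (AS Q h a₃ a₄)) (fun k => sub_self _) e3 e4 hs).congr fun k => ?_
    have : ∀ a x, (fE h (eich S u k).1).symm (h (a ⊗ₜ x)) = h (a ⊗ₜ (eich S u (-k)).1 x) :=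
      fun a x => by
        rw [← eich_inv hf.u0 (W0.pu (hA k.2)), LinearEquiv.symm_apply_eq, fE_tmul,
          OG.apply_inv_self]
    simp only [AS_apply, act_apply, cjm_apply, og_symm (H.fE_og h1.iso _), this]
    rfl

end SO

end Cfsg.Agent.Max
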