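import Mathlib
import Cfsg.Agent.Max.OW5

/-!
# Tensor powers of an orthogonal space: the standard case
-/

set_option autoImplicit false
set_option linter.unusedSectionVars false
set_option linter.unusedSimpArgs false
set_option maxSynthPendingDepth 3

namespace Cfsg.Agent.Max

open Module Cfsg.Agent.Max2 Cfsg.Agent.Max3 TensorProduct Function Cfsg.Agent.Orth QuadraticMap

theorem conj_exp {F A : Type*} [Field F] [Ring A] [Algebra F A] {X E ξ : A} {c : F}
    (h1 : X * X = -(2 * c) • E) (h2 : E * ξ * E = 0) (h3 : X * ξ * E = E * ξ * X) :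
    (2 : F) • ((1 + X - c • E) * ξ * (1 - X - c • E)) = (2 : F) • ξ + (2 : F) • (X * ξ - ξ * X) +
      (X * (X * ξ - ξ * X) - (X * ξ - ξ * X) * X) := by
  have k1 := congrArg (· * ξ) h1
  have k2 := congrArg (ξ * ·) h1
  simp only [mul_add, add_mul, mul_sub, sub_mul, smul_mul_assoc, mul_smul_comm, mul_assoc, one_mul,
    mul_one] at *
  linear_combination (norm := module) -k1 - k2 + (2 * c * c) • h2 - (2 * c) • h3

variable {F U W : Type*} [Field F] [AddCommGroup U] [Module F U] [AddCommGroup W] [Module F W]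
  {S : QuadraticForm F W} {Q : QuadraticForm F (U ⊗[F] W)} {p : LinearMap.BilinForm F U}
  {M : Subgroup ((U ⊗[F] W) ≃ₗ[F] (U ⊗[F] W))} {g g' h y t : (U ⊗[F] W) ≃ₗ[F] (U ⊗[F] W)}
  {u f w v u' f' w' : W} {ξ : Module.End F (U ⊗[F] W)}
  {I : Type} [DecidableEq I] [Fintype I] {T : TP I F U W} {κ : F} {i j : I}

theorem EE_skew (a b : W) : EE S u * XE S a b * EE S u = 0 := by
  ext x
  simp [XE_apply, polar_comm S a u, polar_comm S b u, mul_comm]

theorem XE_skew_EE (a b : W) : XE S u w * XE S a b * EE S u = EE S u * XE S a b * XE S u w := by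
  ext x
  simp only [Module.End.mul_apply, EE_apply, XE_apply, map_smul, map_sub, polar_sub_right,
    p_smul_right, polar_comm S a u, polar_comm S b u, polar_comm S a w, polar_comm S b w]
  module

theorem pt_eq [Nontrivial W] (T : TP I F U W) (ws : I → W) (i : I) :
    ∃ a, ∀ x, T.pt (update ws i x) = T.s i (a ⊗ₜ x) := by
  obtain ⟨z, hz⟩ := exists_ne (0 : W)
  obtain ⟨φ, hφ⟩ := exists_dual_one (F := F) hz
  exact ⟨_, fun x => by simpa [hφ, rh_r1] using (T.rh_pt i (r1 φ x) (update ws i z)).symm⟩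

namespace TFO

variable (H : TFO T Q S κ) [FiniteDimensional F W]
include H

theorem nt : Nontrivial W := Module.nontrivial_of_finrank_pos (R := F) (by have := H.k3; omega)

theorem s_og (i : I) : T.s i ∈ OG Q := by
  obtain ⟨σ, e⟩ := T.s_eq i
  refine e ▸ fun x => mul_left_cancel₀ H.two ?_
  simpa using LinearMap.congr_fun₂ (show Q.polarBilin.compl₁₂ (T.PP σ).toLinearMap
    (T.PP σ).toLinearMap = Q.polarBilin from T.ext fun a => T.ext fun b => by
      simp only [LinearMap.compl₁₂_apply, LinearEquiv.coe_coe, T.PP_pt, polarBilin_apply_apply,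
        H.pure]
      rw [Equiv.prod_comp σ⁻¹ fun j => polar S (a j) (b j)]) x x

theorem so [Nonempty I] [Finite F] : ∃ p, SO Q p S := by
  obtain ⟨i⟩ := ‹Nonempty I›
  obtain ⟨e, he, e0⟩ := exists_singular S H.k3
  obtain ⟨f, hf⟩ := H.hyp he e0
  have tb : TB Q.polarBilin (Q.polarBilin.compl₁₂ (inW F U e) (inW F U f)) S.polarBilin :=
    fun a w a' w' => by
      have := LinearMap.congr_fun₂ (show Q.polarBilin ∘ₗ rh (T.s i) (r1 (S.polarBilin f) w) =
        Q.polarBilin.compl₂ (rh (T.s i) (r1 (S.polarBilin w) f)) from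
          T.ext fun a => T.ext fun b => by
            simp only [LinearMap.comp_apply, LinearMap.compl₂_apply, T.rh_pt,
              polarBilin_apply_apply, H.pure]
            congr 1
            refine Finset.prod_congr rfl fun j _ => ?_
            by_cases k : j = i
            · subst k; simp [polar_comm S f, mul_comm]
            · simp [k]) (T.s i (a ⊗ₜ e)) (T.s i (a' ⊗ₜ w'))
      simpa [rh_tmul, og_pol (H.s_og i), hf.fu, mul_comm] using this
  generalize Q.polarBilin.compl₁₂ (inW F U e) (inW F U f) = p at tb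
  refine ⟨p, H.toOF, tb, fun a ha => by_contra fun h0 => tmul_ne_zero h0 he (H.nQ _ fun x => ?_),
    fun a b => ?_⟩
  · simpa [ha] using tb.left a e x
  · simpa [hf.uf, hf.fu] using (tb a e b f).symm.trans ((polar_comm Q _ _).trans (tb b f a e))

theorem zl (h1 : ξ ∈ Sk Q) (h2 : ∀ i, ξ ∈ Sy Q (T.s i)) : ξ = 0 := by
  have := H.nt
  have k : ∀ (J : Finset I) a b, polar Q (ξ (T.pt a)) (T.pt b) =
      polar Q (ξ (T.pt (J.piecewise b a))) (T.pt (J.piecewise a b)) := fun J a b => by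
    induction J using Finset.induction_on with
    | empty => simp
    | insert j J hj ih =>
      obtain ⟨c, hc⟩ := pt_eq T (J.piecewise b a) j
      obtain ⟨d, hd⟩ := pt_eq T (J.piecewise a b) j
      rw [ih, Finset.piecewise_insert, Finset.piecewise_insert, hc, hd, ← mem_Sy.1 (h2 j), ← hc,
        ← hd, ← Finset.piecewise_eq_of_notMem _ b a hj, update_eq_self,
        ← Finset.piecewise_eq_of_notMem _ a b hj, update_eq_self]
  refine LinearMap.ext fun x => H.nQ _ fun z => LinearMap.congr_fun₂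
    (show Q.polarBilin ∘ₗ ξ = 0 from T.ext fun a => T.ext fun b => ?_) x z
  have k1 := k Finset.univ a b
  rw [Finset.piecewise_univ, Finset.piecewise_univ, h1 (T.pt b), polar_comm Q (T.pt b)] at k1
  exact mul_left_cancel₀ H.two (by simpa [two_mul] using add_eq_zero_iff_eq_neg.2 k1)

variable [FiniteDimensional F U] [Nontrivial U] [Finite F] (P : SO Q p S)
  (L : ∀ i, LO Q S M (T.s i))
include P

theorem not_both (hf : Hy S u f) (hij : i ≠ j) {k : KK F U W} (h1 : TI Q p S (T.s i) u k)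
    (h2 : TI Q p S (T.s j) u k) : False := by
  have := H.nt
  obtain ⟨g, -, rfl, a, -, k1⟩ := h1
  obtain ⟨b, -, k2⟩ := P.ti_get h2
  have m : ∀ i, T.pt (fun _ => u) ∈ Lg (T.s i) u := fun i => by
    obtain ⟨c, hc⟩ := pt_eq T (fun _ => u) i
    exact mem_Lg.2 ⟨c, by rw [← hc]; simp⟩
  refine (T.com i j hij).Lg_ne (by have := H.k3; omega) u hf.ne ?_
  rw [← k1, ← k2, Lg, Lg, LW_eq_of (mem_im.1 (k1.ge (m i))) (mem_im.1 (k2.ge (m j))) fun e => ?_]
  have := H.pure (fun _ => u) fun _ => f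
  rw [(LinearEquiv.map_eq_zero_iff _).1 e] at this
  simpa [hf.uf, H.k0] using this.symm

theorem ts_s (hij : j ≠ i) : TS Q (T.s j) (kap p S (T.s i)) :=
  kap_mem fun _ _ => P.ca_sy (H.s_og j) (T.com i j hij.symm _)

include L

theorem lemI (hf : Hy S u f) (hg : LO Q S M g) (h1 : TI Q p S (T.s i) u (kap p S g))
    (h2 : ∀ j ≠ i, TS Q (T.s j) (kap p S g)) : Same g (T.s i) := by
  obtain ⟨y, y1, y2, γ, y3, y4⟩ := P.lemPh (L i) hg hf h1
  have hy := mul_mem (H.s_og i) y1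
  rw [P.kap_same hg.iso hy y2] at h2
  have k : ∀ a x, (rh (T.s i * y) (XE S u f) - rh (T.s i) (XE S u f)) (T.s i (a ⊗ₜ x)) =
      -(2 * polar S u x) • T.s i (γ a ⊗ₜ u) := fun a x => by
    rw [LinearMap.sub_apply, rh_mul_apply, rh_apply y, y4, y3, rh_tmul]
    simp only [Dm_apply, cW_tmul, map_sub, map_smul, map_add, LinearMap.lTensor_tmul, XE_apply,
      tmul_sub, tmul_smul, ← smul_tmul', polarBilin_apply_apply, hf.uu, hf.uf, hf.fu]
    module
  have k1 := H.zl (sub_mem (P.rh_sk hy u f) (P.rh_sk (H.s_og i) u f)) fun j => by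
    by_cases e : j = i
    · rw [e]
      refine mem_Sy.2 fun a b x z => ?_
      simp only [k, p_smul_left, og_pol (H.s_og i), P.pu]
      ring
    · exact sub_mem (P.kap_rh (h2 j e) u f) (P.kap_rh (H.ts_s P e) u f)
  obtain rfl : y = 1 := LinearEquiv.ext fun x => by
    have := k (cW U (S.polarBilin u) x) f
    rw [k1, hf.uf, mul_one, eq_comm, LinearMap.zero_apply,
      smul_eq_zero_iff_right (neg_ne_zero.2 H.two), LinearEquiv.map_eq_zero_iff] at this
    rw [y3, Dm_apply, this, add_zero]; rfl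
  exact y2

open scoped _root_.Classical in
theorem count (hf : Hy S u f) (Ω : Finset (KK F U W))
    (hΩ : ∀ k, k ∈ Ω ↔ ∃ m ∈ M, ∃ l, k = kap p S (m * T.s l)) (i : I) :
    ((Ω.filter (TI Q p S (T.s i) u)).card : F) = 1 := by
  have key : ∀ J : Finset I, i ∉ J → ((Ω.filter (TI Q p S (T.s i) u)).card : F) =
      ∑ k ∈ Ω with TI Q p S (T.s i) u k ∧ ∀ j ∈ J, TS Q (T.s j) k, 1 := fun J hJ => by
    induction J using Finset.induction_on with
    | empty => simp
    | insert j J hj ih =>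
      rw [Finset.mem_insert, not_or] at hJ
      rw [ih hJ.2, P.red (L j) hf _ (fun k hk => ?_) (fun k hk w hw => ?_) (fun _ => 1)
        fun _ _ _ => PD.const _ _, Finset.filter_filter]
      · refine Finset.sum_congr (Finset.filter_congr fun k _ => ?_) fun _ _ => rfl
        simp only [Finset.forall_mem_insert]
        exact ⟨fun ⟨⟨a, b⟩, c⟩ => ⟨a, c.resolve_left (H.not_both P hf hJ.1 a), b⟩,
          fun ⟨a, b, c⟩ => ⟨⟨a, c⟩, Or.inr b⟩⟩
      · obtain ⟨m, hm, l, rfl⟩ := (hΩ k).1 (Finset.mem_filter.1 hk).1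
        exact ⟨_, (L l).mul hm, rfl⟩
      · obtain ⟨k1, k2, k3⟩ := Finset.mem_filter.1 hk
        obtain ⟨m, hm, l, rfl⟩ := (hΩ k).1 k1
        have og := P.fE_og (H.s_og j) (eich S u w)
        refine Finset.mem_filter.2 ⟨(hΩ _).2 ⟨_, mul_mem ((L j).fac _ (H.mem_G u w)) hm, l,
          by rw [act_kap, mul_assoc]⟩, k2.act og (CA.Lg_eq (T.com j i (Ne.symm hJ.1) _)),
          fun l hl => (k3 l hl).act og (CA.same_mul (T.com j l (fun e => hj (e ▸ hl)) _))⟩
  rw [key (Finset.univ.erase i) (by simp), Finset.sum_const, nsmul_eq_mul, mul_one,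
    Finset.card_eq_one.2 ⟨kap p S (T.s i), Finset.eq_singleton_iff_unique_mem.2 ⟨?_, ?_⟩⟩,
    Nat.cast_one]
  · exact Finset.mem_filter.2 ⟨(hΩ _).2 ⟨1, one_mem _, i, rfl⟩,
      ⟨_, H.s_og i, rfl, u, hf.ne, rfl⟩, fun j hj => H.ts_s P (Finset.ne_of_mem_erase hj)⟩
  · intro k hk
    obtain ⟨k1, k2, k3⟩ := Finset.mem_filter.1 hk
    obtain ⟨m, hm, l, rfl⟩ := (hΩ k).1 k1
    exact P.kap_same ((L l).mul hm).iso (H.s_og i)
      (H.lemI P L hf ((L l).mul hm) k2 fun j hj => k3 j (by simpa using hj))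

theorem total (Ω : Finset (KK F U W))
    (hΩ : ∀ k, k ∈ Ω ↔ ∃ m ∈ M, ∃ l, k = kap p S (m * T.s l)) :
    ∑ k ∈ Ω, k = ∑ l, kap p S (T.s l) := by
  obtain ⟨u, hu, u0⟩ := exists_singular S H.k3
  obtain ⟨f, hf⟩ := H.hyp hu u0
  have c1 : ∀ k ∈ Ω, ∃ g, LO Q S M g ∧ k = kap p S g := fun k hk => by
    obtain ⟨m, hm, l, rfl⟩ := (hΩ k).1 hk
    exact ⟨_, (L l).mul hm, rfl⟩
  have c2 : ∀ i u, ∀ k ∈ Ω, ∀ w, act (fE (T.s i) (eich S u w).1) k ∈ Ω := fun i u k hk w => by
    obtain ⟨m, hm, l, rfl⟩ := (hΩ k).1 hk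
    exact (hΩ _).2 ⟨_, mul_mem ((L i).fac _ (H.mem_G u w)) hm, l, by rw [act_kap, mul_assoc]⟩
  refine LinearMap.ext fun x => LinearMap.ext fun z => sub_eq_zero.1 (H.zl ?_ fun i => ?_)
  · simp only [LinearMap.sum_apply]
    refine sub_mem (sum_mem fun k hk => ?_) (sum_mem fun l _ => kap_mem (P.rh_sk (H.s_og l)) _ _)
    obtain ⟨g, hg, rfl⟩ := c1 k hk
    exact kap_mem (P.rh_sk hg.iso) _ _
  rw [← Finset.add_sum_erase _ _ (Finset.mem_univ i), LinearMap.add_apply, LinearMap.add_apply,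
    ← sub_sub, LinearMap.sum_apply (Finset.univ.erase i), LinearMap.sum_apply (Finset.univ.erase i)]
  refine sub_mem ?_ (sum_mem fun l hl => H.ts_s P (Finset.ne_of_mem_erase hl).symm _ _)
  simp only [Sy, Submodule.mem_iInf]
  intro a₃ a₄
  refine LinearMap.congr_fun₂ (show (∑ k ∈ Ω, k - kap p S (T.s i)).compr₂ (AS Q (T.s i) a₃ a₄) = 0
    from ext_g (T.s i) fun a₁ x₁ => ext_g (T.s i) fun a₂ x₂ => ?_) x z
  refine LinearMap.congr_fun₂ (show ((∑ k ∈ Ω, k - kap p S (T.s i)).compr₂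
    (AS Q (T.s i) a₃ a₄)).compl₁₂ ((T.s i).toLinearMap ∘ₗ TensorProduct.mk F U W a₁)
      ((T.s i).toLinearMap ∘ₗ TensorProduct.mk F U W a₂) = 0 from
    hf.zero fun d₁ x₁ e1 => hf.zero fun d₂ x₂ e2 => hf.zero fun d₃ x₃ e3 =>
      hf.zero fun d₄ x₄ e4 => ?_) x₁ x₂
  by_cases hs : d₁ + d₂ + d₃ + d₄ ≤ 4
  · exact P.avg1 (L i) hf Ω c1 (fun k hk w _ => c2 i u k hk w) (H.count P L hf Ω hΩ i) e1 e2 e3 e4
      hs a₁ a₂ a₃ a₄
  obtain ⟨_, k1, e1⟩ := e1.symm
  obtain ⟨_, k2, e2⟩ := e2.symm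
  obtain ⟨_, k3, e3⟩ := e3.symm
  obtain ⟨_, k4, e4⟩ := e4.symm
  exact P.avg1 (L i) hf.symm Ω c1 (fun k hk w _ => c2 i f k hk w) (H.count P L hf.symm Ω hΩ i)
    e1 e2 e3 e4 (by omega) a₁ a₂ a₃ a₄

theorem lie (hg : g ∈ M) {Y : Submodule F (Module.End F (U ⊗[F] W))}
    (hY : ∀ l a b, rh (T.s l) (XE S a b) ∈ Y) (i : I) (a b : W) : rh (g * T.s i) (XE S a b) ∈ Y := by
  have := H.nt
  have : Finite (KK F U W) := Module.finite_of_finite F
  obtain ⟨Ω, hΩ⟩ : ∃ Ω : Finset (KK F U W), ∀ k, k ∈ Ω ↔ ∃ m ∈ M, ∃ l, k = kap p S (m * T.s l) :=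
    ⟨(Set.toFinite {k | ∃ m ∈ M, ∃ l, k = kap p S (m * T.s l)}).toFinset, fun k => by simp⟩
  have c : ∀ g ∈ M, ∀ k ∈ Ω, act g k ∈ Ω := fun g hg k hk => by
    obtain ⟨m, hm, l, rfl⟩ := (hΩ k).1 hk
    exact (hΩ _).2 ⟨_, mul_mem hg hm, l, by rw [act_kap, mul_assoc]⟩
  have k1 : act g (∑ k ∈ Ω, k) = ∑ k ∈ Ω, k := by
    rw [map_sum]
    exact Finset.sum_nbij' (act g) (act g⁻¹) (c g hg) (c _ (inv_mem hg))
      (fun k _ => by rw [← act_mul, inv_mul_cancel, act_one])
      (fun k _ => by rw [← act_mul, mul_inv_cancel, act_one]) fun _ _ => rfl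
  obtain ⟨c, c0⟩ := H.nd.exists_nonsingular
  obtain ⟨d, hd⟩ := pt_eq T (fun _ => c) i
  rw [H.total P L Ω hΩ, map_sum] at k1
  have k2 := LinearMap.congr_fun₂ k1 (g (T.s i (d ⊗ₜ a))) (g (T.s i (d ⊗ₜ b)))
  simp only [LinearMap.sum_apply, act_kap] at k2
  rw [Finset.sum_eq_single i (fun l _ hl => ?_) (by simp)] at k2
  · have k3 : p d d ≠ 0 := fun e => by
      have := H.pure (fun _ => c) fun _ => c
      rw [← update_eq_self i (fun _ => c), hd, og_pol (H.s_og i), P.pu, e] at this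
      simpa [H.k0, H.two, c0] using this
    rw [← Y.smul_mem_iff k3, ← kap_tmul, LinearEquiv.mul_apply, LinearEquiv.mul_apply, k2]
    exact sum_mem fun l _ => kap_mem (hY l) _ _
  · obtain ⟨d₁, k3⟩ := pt_eq T (update (fun _ => c) i a) l
    obtain ⟨d₂, k4⟩ := pt_eq T (update (fun _ => c) i b) l
    rw [← hd, ← hd, ← update_eq_self l (update (fun _ => c) i a),
      ← update_eq_self l (update (fun _ => c) i b), k3, k4,
      update_of_ne hl, update_of_ne hl, ← LinearEquiv.mul_apply, ← LinearEquiv.mul_apply g,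
      kap_tmul, XE_self, map_zero, smul_zero]

theorem normal (hg : g ∈ M) (i j : I) (hu : S u = 0) (hw : polar S u w = 0) :
    Same (fE (T.s j) (eich S u w).1 * (g * T.s i)) (g * T.s i) := by
  have k1 : ∀ x, ∃ z, rh (T.s j) (XE S u w) * rh (g * T.s i) x -
      rh (g * T.s i) x * rh (T.s j) (XE S u w) = rh (g * T.s i) z := fun x => by
    obtain ⟨z, k⟩ := H.lie P L (inv_mem hg) (Y := (LinearMap.range
      (rh (g * T.s i)).toLinearMap).comap ((LinearMap.mulRight F (rh (g * T.s i) x) -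
        LinearMap.mulLeft F (rh (g * T.s i) x)) ∘ₗ g.conj.toLinearMap)) (fun l a b => by
      have : g.conj (rh (T.s l) (XE S a b)) = rh (g * T.s l) (XE S a b) := cjm_rh _ _ _
      simp only [Submodule.mem_comap, LinearMap.comp_apply, LinearEquiv.coe_coe, this,
        LinearMap.sub_apply, LinearMap.mulRight_apply, LinearMap.mulLeft_apply]
      by_cases e : l = i
      · rw [e, ← map_mul, ← map_mul, ← map_sub]; exact ⟨_, rfl⟩
      · rw [(((T.com l i e).left g) _ _).eq, sub_self]; exact zero_mem _) j u w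
    have : g.conj (rh (g⁻¹ * T.s j) (XE S u w)) = rh (T.s j) (XE S u w) :=
      (cjm_rh g (g⁻¹ * T.s j) (XE S u w)).trans (by rw [mul_inv_cancel_left])
    simp only [LinearMap.comp_apply, LinearEquiv.coe_coe, this, LinearMap.sub_apply,
      LinearMap.mulRight_apply, LinearMap.mulLeft_apply] at k
    exact ⟨z, k.symm⟩
  refine P.same_of fun a b => ?_
  have k2 := H.lie P L hg (Y := LinearMap.ker (LinearMap.mulLeftRight F
    (rh (T.s j) (EE S u), rh (T.s j) (EE S u))) ⊓ LinearMap.eqLocus (LinearMap.mulLeftRight F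
      (rh (T.s j) (XE S u w), rh (T.s j) (EE S u))) (LinearMap.mulLeftRight F
        (rh (T.s j) (EE S u), rh (T.s j) (XE S u w)))) (fun l a b => by
    simp only [Submodule.mem_inf, LinearMap.mem_ker, LinearMap.mem_eqLocus,
      LinearMap.mulLeftRight_apply]
    by_cases e : l = j
    · simp only [e, ← map_mul, EE_skew, XE_skew_EE, map_zero, and_self]
    · simp only [← (T.com l j e _ _).eq, mul_assoc, ← map_mul, EE_EE hu, XE_EE hu hw, EE_XE hu hw,
        map_zero, mul_zero, and_self]) i a b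
  simp only [Submodule.mem_inf, LinearMap.mem_ker, LinearMap.mem_eqLocus,
    LinearMap.mulLeftRight_apply] at k2
  have k4 := conj_exp (c := S w) (by rw [← map_mul, XE_mul hu hw hw, map_smul, p_self]) k2.1 k2.2
  obtain ⟨z, k5⟩ := k1 (XE S a b)
  obtain ⟨z', k6⟩ := k1 z
  rw [k5, k6] at k4
  refine ⟨XE S a b + z + (2 : F)⁻¹ • z', smul_right_injective _ H.two ?_⟩
  have e1 : (fE (T.s j) (eich S u w).1).toLinearMap =
      1 + rh (T.s j) (XE S u w) - S w • rh (T.s j) (EE S u) := by simp [fE_coe, eich_coe hu hw]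
  have e2 : (fE (T.s j) (eich S u w).1).symm.toLinearMap =
      1 - rh (T.s j) (XE S u w) - S w • rh (T.s j) (EE S u) := by
    change (fE (T.s j) (eich S u w).1)⁻¹.toLinearMap = _
    rw [← map_inv, ← Subgroup.coe_inv, eich_inv hu hw]
    simp [fE_coe, eich_coe hu (show polar S u (-w) = 0 by simp [hw]), sub_eq_add_neg]
  rw [← e1, ← e2] at k4
  simp only [map_add, map_smul, smul_add, smul_inv_smul₀ H.two, ← k4]
  rw [← cjm_rh]
  rfl

omit P L in
theorem wr_of_std [Nontrivial I] (hM : M ≤ OG Q) (hF : ∀ i, FacO S M (T.s i))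
    (hS : ∀ i, StdO S M (T.s i)) (hg : g ∈ M) : g ∈ T.Wr := by
  obtain ⟨p, P⟩ := H.so
  have L : ∀ i, LO Q S M (T.s i) := fun i => ⟨hM, H.s_og i, hF i, hS i⟩
  obtain ⟨u, hu, u0⟩ := exists_singular S H.k3
  obtain ⟨f, hf⟩ := H.hyp hu u0
  obtain ⟨w, hw, w0⟩ := H.ns hf
  refine T.mem_Wr (by have := H.k3; omega) fun i => ?_
  have k := fun j => P.CLh (L j) ((L i).mul hg) hf hw w0 (H.normal P L hg i j u0 (W0.pu hw))
  by_cases e : ∃ j, TI Q p S (T.s j) u (kap p S (g * T.s i))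
  · obtain ⟨j, e⟩ := e
    exact ⟨j, H.lemI P L hf ((L i).mul hg) e fun l hl =>
      (k l).resolve_left fun e' => H.not_both P hf hl e' e⟩
  · have := rh_eq_zero (H.zl (P.rh_sk ((L i).mul hg).iso u f) fun j =>
      P.kap_rh ((k j).resolve_left fun e' => e ⟨j, e'⟩) u f)
    exact absurd (by simpa [XE_apply, hf.fu, u0] using LinearMap.congr_fun this u) hu

end TFO

end Cfsg.Agent.Max
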