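import Mathlib
import Cfsg.Agent.Max.ODec

/-!
# Stabilisers of non-degenerate subspaces of orthogonal spaces of small dimension
-/

set_option autoImplicit false

namespace Cfsg.Agent.Max

open Module QuadraticMap Orth

variable {F V : Type*} [Field F] [AddCommGroup V] [Module F V] {Q : QuadraticForm F V}
  {M : Subgroup (OG Q)} [FiniteDimensional F V] [Finite F]

theorem om_grow_four (hQ : ND Q) {W : Submodule F V} (hW : NDS Q W)
    (h4 : 6 ≤ finrank F W ∨ (4 ≤ finrank F W ∧ (2 : F) ≠ 0))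
    (hE : ∀ x ∈ W, Q x = 0 → ∀ v ∈ W, polar Q x v = 0 → v ∈ OE M x) {z c : V} (hz : Q z = 0)
    (hz' : z ∉ perp Q W) (hc : c ∈ OE M z) (hc' : c ∉ perp Q W ⊔ F ∙ z) :
    ∃ x ∈ W, x ≠ 0 ∧ Q x = 0 ∧ z ∈ OE M x := by
  rcases h4 with h4 | ⟨h4, h2⟩
  · exact om_grow_big hQ h4 hE hz hc hc'
  obtain ⟨b, hb, a, ha, rfl⟩ := hW.dec hQ z
  have b0 : b ≠ 0 := fun e => hz' (by simpa [e] using ha)
  have pz : ∀ x ∈ W, polar Q x (b + a) = polar Q x b := fun x hx => by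
    simp [mem_perp.mp ha x hx]
  have key : ∀ x ∈ W, Q x = 0 → polar Q x b = 0 → ∀ c ∈ OE M (b + a), polar Q x c = 0 →
      c ∉ perp Q W ⊔ Submodule.span F {b, x} → x ∈ OE M (b + a) := fun x hx x0 xb c hc xc hc' => by
    obtain ⟨y, h1, h3⟩ := hQ.exists_orth_polar_one _ hc'
    have hy : y ∈ W := hQ.perp_perp W ▸ mem_perp.mpr fun w hw => h1 w (Submodule.mem_sup_left hw)
    have h5 := h1 b (Submodule.mem_sup_right (Submodule.subset_span (by simp)))
    have h6 := h1 x (Submodule.mem_sup_right (Submodule.subset_span (by simp)))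
    simpa [xc, polar_comm Q y c, h3] using OE.grow hc x0 (hE x hx x0 y hy h6) (by rw [pz x hx, xb])
      (by rw [pz y hy, polar_comm, h5])
  have key2 : ∀ x ∈ W, Q x = 0 → polar Q x b = 0 → polar Q x c ≠ 0 → ∀ e ∈ W, polar Q x e = 0 →
      polar Q e b = 0 → e ∉ Submodule.span F {b, x} → x ∈ OE M (b + a) :=
    fun x hx x0 xb xc e he xe eb h1 => by
    have h3 := OE.grow hc x0 (hE x hx x0 e he xe) (by rw [pz x hx, xb]) (by rw [pz e he, eb])
    refine key x hx x0 xb _ h3 (by simp [p_self, x0, xe]) fun h5 => h1 ?_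
    obtain ⟨w, hw, y, hy, e1⟩ := Submodule.mem_sup.mp h5
    have h6 : y ∈ W := Submodule.span_le.mpr (by simp [Set.insert_subset_iff, hb, hx]) hy
    have h7 : w ∈ W ⊓ perp Q W := ⟨by
      rw [eq_sub_of_add_eq e1]
      exact W.sub_mem (W.sub_mem (W.smul_mem _ hx) (W.smul_mem _ he)) h6, hw⟩
    rw [hW.inf_perp, Submodule.mem_bot] at h7
    rw [h7, zero_add] at e1
    rw [e1, Submodule.sub_mem_iff_right _ (Submodule.smul_mem _ _
      (Submodule.subset_span (by simp))), Submodule.smul_mem_iff _ xc] at hy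
    exact hy
  have hc2 : c ∉ perp Q W ⊔ F ∙ b := fun h => hc' ((show perp Q W ⊔ F ∙ b ≤ _ from sup_le le_sup_left
    ((Submodule.span_singleton_le_iff_mem _ _).mpr (by
      simpa using Submodule.sub_mem _ (Submodule.mem_sup_right
        (Submodule.mem_span_singleton_self (b + a))) (Submodule.mem_sup_left ha)))) h)
  have d1 := finrank_le_inf_ker W (Q.polarBilin b)
  by_cases hb0 : Q b = 0
  · refine ⟨b, hb, b0, hb0, OE.swap hz hb0 ?_⟩
    by_cases h1 : polar Q b c = 0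
    · exact key b hb hb0 (by simp [p_self, hb0]) c hc h1 (by simpa using hc2)
    obtain ⟨e, he, he'⟩ := exists_not_mem_of_finrank_lt (W := Submodule.span F {b, b})
      (U := W ⊓ LinearMap.ker (Q.polarBilin b)) (by
        have := finrank_span_pair_le (F := F) b b
        omega)
    exact key2 b hb hb0 (by simp [p_self, hb0]) h1 e he.1 he.2 (polar_symm_zero he.2) he'
  obtain ⟨x, hx, x0, hx'⟩ := (hW.perp_one h2 hb hb0).exists_sing (by omega)
    (X := LinearMap.ker (Q.polarBilin c)) fun h => by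
      obtain ⟨y, h1, h3⟩ := hQ.exists_orth_polar_one _ hc2
      have := h (x := y) ⟨hQ.perp_perp W ▸ mem_perp.mpr fun w hw => h1 w
        (Submodule.mem_sup_left hw), h1 b (Submodule.mem_sup_right
          (Submodule.mem_span_singleton_self b))⟩
      simp [h3] at this
  have x1 : x ≠ 0 := fun e => hx' (e ▸ zero_mem _)
  have d2 := finrank_le_inf_ker (W ⊓ LinearMap.ker (Q.polarBilin b)) (Q.polarBilin x)
  obtain ⟨e, he, he'⟩ := exists_not_mem_of_finrank_lt (W := F ∙ x)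
    (U := W ⊓ LinearMap.ker (Q.polarBilin b) ⊓ LinearMap.ker (Q.polarBilin x)) (by
      rw [finrank_span_singleton x1]
      omega)
  refine ⟨x, hx.1, x1, x0, OE.swap hz x0 (key2 x hx.1 x0 (polar_symm_zero hx.2)
    (fun e => hx' (polar_symm_zero e)) e he.1.1 he.2 (polar_symm_zero he.1.2) fun h => he' ?_)⟩
  obtain ⟨s, t, rfl⟩ := Submodule.mem_span_pair.mp h
  have : s = 0 := by
    simpa [p_self, h2, hb0, show polar Q b x = 0 from hx.2] using he.1.2
  simp [this, Submodule.smul_mem]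

theorem om_grow_seven (hQ : ND Q) {W : Submodule F V} (hW : NDS Q W) (h3 : finrank F W = 3)
    (h4 : finrank F (perp Q W) = 4)
    (hH : ∀ g ∈ commutator (OG Q), (∀ v, v ∈ W ↔ g.1 v ∈ W) → g ∈ M) {z : V} (hz : Q z = 0)
    (hz' : z ∉ perp Q W) {E : Submodule F V} (hE : E ≤ OE M z) (hE' : E ≤ W)
    (h2 : 2 ≤ finrank F E) (h0 : ∀ x ∈ E, Q x = 0 → x = 0) : ∃ c ∈ OE M z, c ∉ W ⊔ F ∙ z := by
  have e2 := hW.three_card h3
  have hn := hQ.finrank_perp_add W
  obtain ⟨a, ha, b, hb, rfl⟩ := hW.dec hQ z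
  have a0 : a ≠ 0 := fun e => hz' (by simpa [e] using hb)
  have h1 : E = W ⊓ LinearMap.ker (Q.polarBilin a) := by
    refine Submodule.eq_of_le_of_finrank_le (fun x hx => ⟨hE' hx, ?_⟩) ?_
    · simpa [mem_perp'.mp hb x (hE' hx)] using (hE hx).1
    · have : W ⊓ LinearMap.ker (Q.polarBilin a) < W := inf_lt_left.mpr fun h =>
        a0 (hW a ha fun w hw => h hw)
      have := Submodule.finrank_lt_finrank_of_lt this
      omega
  have qa : Q a ≠ 0 := fun e => a0 (h0 a (h1 ▸ ⟨ha, by simp [p_self, e]⟩) e)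
  have qb : Q b = -Q a := by
    rw [q_add, mem_perp.mp hb a ha] at hz
    linear_combination hz
  have qb' : Q b ≠ 0 := qb ▸ neg_ne_zero.mpr qa
  have hW' := hW.perp hQ
  obtain ⟨a', ha', qa'⟩ := (hW.perp_one e2 ha qa).exists_Q_eq (h1 ▸ h2) (Q a)
  obtain ⟨b', hb', qb''⟩ := (hW'.perp_one e2 hb qb').exists_Q_eq
    (by have := finrank_le_inf_ker (perp Q W) (Q.polarBilin b); omega) (Q b)
  have aa : polar Q a a' = 0 := ha'.2
  have bb : polar Q b b' = 0 := hb'.2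
  obtain ⟨g, g1, g2, g3⟩ := exists_adj hQ (by omega) (hW'.perp_one e2 hb'.1 (qb'' ▸ qb'))
    (by have := finrank_le_inf_ker (perp Q W) (Q.polarBilin b'); omega)
    (refl Q (a' - a) * refl Q (b' - b))
  have g4 : ∀ x ∈ W, g.1 x = x := fun x hx => g2 x (mem_perp.mpr fun w hw => mem_perp'.mp hw.1 x hx)
  have g5 : ∀ x ∈ W, (g * (refl Q (a' - a) * refl Q (b' - b))).1 x = (refl Q (a' - a)).1 x :=
    fun x hx => by
      rw [OG.mul_apply, OG.mul_apply, refl_apply_of_orth (mem_perp'.mp (sub_mem hb'.1 hb) x hx),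
        g4 _ (refl_mem_sub (Or.inl (sub_mem ha'.1 ha)) hx)]
  have g6 := hH _ g3 (mem_iff_of_le fun x hx => g5 x hx ▸
    refl_mem_sub (Or.inl (sub_mem ha'.1 ha)) hx)
  have g7 : (g * (refl Q (a' - a) * refl Q (b' - b))).1 (a + b) = a' + b' := by
    rw [map_add, g5 a ha, refl_sub_apply qa'.symm (by simp [aa, p_self, e2, qa]), OG.mul_apply,
      OG.mul_apply, refl_sub_apply qb''.symm (by simp [bb, p_self, e2, qb']),
      refl_apply_of_orth (mem_perp.mp hb'.1 _ (sub_mem ha'.1 ha)),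
      g2 b' (mem_perp'.mpr fun w hw => hw.2)]
  obtain ⟨d, hd, d0⟩ := exists_not_mem_of_finrank_lt (W := ⊥)
    (U := E ⊓ LinearMap.ker (Q.polarBilin a')) (by
      have := finrank_le_inf_ker E (Q.polarBilin a')
      rw [finrank_bot]
      omega)
  have d1 : polar Q a d = 0 := (h1 ▸ hd.1).2
  have d2 : polar Q a' d = 0 := hd.2
  have d3 := hE' hd.1
  have h5 := OE.map (hE hd.1) g6
  rw [g7, g5 d d3, refl_apply_of_orth (by simp [d1, d2])] at h5
  have h6 := OE.grow (hE hd.1) (g7 ▸ (OG.map_Q _ _).trans hz) h5 (by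
    simp [polar_comm Q a' a, aa, polar_comm Q b' b, bb, mem_perp.mp hb a' ha'.1,
      mem_perp'.mp hb'.1 a ha]) (polar_symm_zero (hE hd.1).1)
  rw [h5.1, zero_smul, sub_zero, mul_zero, sub_zero, p_self, Submodule.smul_mem_iff _
    (mul_ne_zero e2 fun e => d0 (h0 d hd.1 e))] at h6
  refine ⟨_, h6, fun h => ?_⟩
  obtain ⟨w, hw, _, hy, e⟩ := Submodule.mem_sup.mp h
  obtain ⟨k, rfl⟩ := Submodule.mem_span_singleton.mp hy
  have := congrArg (polar Q b') e
  simp [mem_perp'.mp hb'.1 w hw, mem_perp'.mp hb'.1 a ha, mem_perp'.mp hb'.1 a' ha'.1,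
    polar_comm Q b' b, bb, p_self, e2, qb'', qb'] at this

/-- Stabilisers of non-degenerate subspaces. -/
theorem om_nondeg' (hQ : ND Q) (hn : 7 ≤ finrank F V) {W : Submodule F V} (hW : NDS Q W)
    (hd : 2 * finrank F W ≤ finrank F V) (h8 : (2 : F) = 0 → finrank F (perp Q W) ≠ 4)
    (hex : finrank F W = 2 → (∃ y ∈ W, y ≠ 0 ∧ Q y = 0) → 4 ≤ Nat.card F)
    (hH : ∀ g ∈ commutator (OG Q), (∀ v, v ∈ W ↔ g.1 v ∈ W) → g ∈ M)
    (hg : ∃ g ∈ M, (¬ ∀ v, v ∈ W ↔ g.1 v ∈ W) ∧ ¬ ∀ v ∈ perp Q W, g.1 v ∈ W) :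
    commutator (OG Q) ≤ M := by
  obtain ⟨g, hg, hg1, hg2⟩ := hg
  have hd' := hQ.finrank_perp_add W
  have hH' : ∀ g ∈ commutator (OG Q), (∀ v, v ∈ perp Q W ↔ g.1 v ∈ perp Q W) → g ∈ M :=
    fun g hg h => hH g hg (hQ.perp_perp W ▸ stab_perp h)
  obtain ⟨u, hu, hu0, hu1, hu2⟩ : ∃ u ∈ perp Q W, Q u = 0 ∧ g.1 u ∉ W ∧ g.1 u ∉ perp Q W := by
    by_contra hc
    push Not at hc
    rcases (hW.perp hQ).sing_into (by omega) (X := W.comap (g.1 : V →ₗ[F] V))
      (Y := (perp Q W).comap (g.1 : V →ₗ[F] V)) (fun x hx y hy _ _ => by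
        rw [← OG.map_polar g]
        exact mem_perp.mp hy _ hx) (fun a ha ha0 => or_iff_not_imp_left.mpr (hc a ha ha0)) with h | h
    · exact hg2 h
    · exact hg1 (hQ.perp_perp W ▸ stab_perp (mem_iff_of_le h))
  set E := (perp Q W ⊓ LinearMap.ker (Q.polarBilin u)).map (g.1 : V →ₗ[F] V) with hE
  have h1 : finrank F (perp Q W) ≤ finrank F E + 1 := by
    rw [hE, LinearEquiv.finrank_map_eq]
    exact finrank_le_inf_ker _ _
  have h2 : E ≤ OE M (g.1 u) := by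
    rintro _ ⟨v, hv, rfl⟩
    exact OE.map (oe_of_stab hQ (by omega) hH hu0 hv.2 (Or.inr ⟨hu, hv.1⟩)) hg
  have hgu : Q (g.1 u) = 0 := by simp [hu0]
  have e2 : finrank F (perp Q W) ≤ 5 → (2 : F) ≠ 0 := fun h e => by
    obtain ⟨k, hk⟩ := (hW.perp hQ).nd.even_finrank_of_char_two e
    have := h8 e
    omega
  have A : ∀ c ∈ OE M (g.1 u), c ∉ W ⊔ F ∙ g.1 u → commutator (OG Q) ≤ M := fun c hc hc' => by
    obtain ⟨x, hx, hx0, hx1, hx2⟩ := om_grow_four hQ (hW.perp hQ)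
      ((le_or_gt 6 _).imp_right fun h => ⟨by omega, e2 (by omega)⟩)
      (fun x hx hx0 v hv h => oe_of_stab hQ (by omega) hH hx0 h (Or.inr ⟨hx, hv⟩)) hgu
      (by rwa [hQ.perp_perp]) hc (by rwa [hQ.perp_perp])
    exact om_nd_fin hQ (by omega) hW (by omega) (Or.inr ⟨by omega, hex⟩) hH hx hx0 hx1 hx2 hu2
  by_cases h3 : E ≤ W ⊔ F ∙ g.1 u
  swap
  · obtain ⟨c, hc, hc'⟩ := SetLike.not_le_iff_exists.mp h3
    exact A c (h2 hc) hc'
  have h4 : finrank F E ≤ finrank F ↥(E ⊓ W) + 1 := by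
    have := Submodule.finrank_sup_add_finrank_inf_eq E W
    have h5 := Submodule.finrank_mono (sup_le h3 le_sup_left)
    rw [Classical.SpWitt.finrank_sup_span W hu1] at h5
    omega
  have h5 := Submodule.finrank_mono (inf_le_right : E ⊓ W ≤ W)
  have B : ∀ x ∈ W, x ≠ 0 → Q x = 0 → g.1 u ∈ OE M x → commutator (OG Q) ≤ M :=
    fun x hx hx0 hx1 hx2 => om_nd_fin hQ (by omega) (hW.perp hQ) (by rw [hQ.perp_perp]; omega)
      (Or.inl (by omega)) hH' (by rwa [hQ.perp_perp]) hx0 hx1 hx2 (by rwa [hQ.perp_perp])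
  by_cases h6 : ∃ x ∈ E ⊓ W, x ≠ 0 ∧ Q x = 0
  · obtain ⟨x, hx, hx0, hx1⟩ := h6
    exact B x hx.2 hx0 hx1 (OE.swap hgu hx1 (h2 hx.1))
  have h7 : finrank F ↥(E ⊓ W) ≤ 2 := by
    by_contra h
    exact h6 (exists_sing_mem Q _ (by omega))
  by_cases h9 : finrank F W = 3
  · obtain ⟨c, hc, hc'⟩ := om_grow_seven hQ hW h9 (by omega) hH hgu hu2 (inf_le_left.trans h2)
      inf_le_right (by omega) fun x hx hx0 => by_contra fun e => h6 ⟨x, hx, e, hx0⟩
    exact A c hc hc'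
  obtain ⟨c, hc, hc'⟩ := exists_not_mem_of_finrank_lt (W := F ∙ (0 : V)) (U := E ⊓ W)
    (by rw [Submodule.span_zero_singleton, finrank_bot]; omega)
  obtain ⟨d, hd, hd'⟩ : ∃ d ∈ E ⊓ W, d ∉ perp Q W ⊔ F ∙ g.1 u := by
    by_contra h
    push Not at h
    have h10 := Submodule.finrank_sup_add_finrank_inf_eq (E ⊓ W) (perp Q W)
    have h11 := Submodule.finrank_mono (sup_le (show E ⊓ W ≤ _ from h) le_sup_left)
    rw [Classical.SpWitt.finrank_sup_span _ hu2] at h11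
    rw [inf_assoc, hW.inf_perp, inf_bot_eq, finrank_bot] at h10
    omega
  obtain ⟨x, hx, hx0, hx1, hx2⟩ := om_grow_four hQ hW (Or.inr ⟨by omega, e2 (by omega)⟩)
    (fun x hx hx0 v hv h => oe_of_stab hQ (by omega) hH hx0 h (Or.inl ⟨hx, hv⟩)) hgu hu2
    (h2 hd.1) hd'
  exact B x hx hx0 hx1 hx2

section geo
variable {ι : Type} [Fintype ι] [DecidableEq ι] {Q : QuadraticForm F (ι → F)}

theorem max_om_nondeg' (hQ : ND Q) (hn : 7 ≤ Fintype.card ι) {W : Submodule F (ι → F)}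
    (h0 : W ≠ ⊥) (h1 : W ≠ ⊤) (hW : Geo.IsNondegenerateOn (polar Q) W)
    (h8 : (2 : F) = 0 → Fintype.card ι = 8 → finrank F W ≠ 4)
    (hd : 2 * finrank F W = Fintype.card ι → Even (finrank F W) ∧ ¬ Geo.IsPlusTypeOn ⇑Q ⊤)
    (hex : ¬ (Nat.card F ≤ 3 ∧ ∃ U : Submodule F (ι → F), finrank F U = 2 ∧
      Geo.IsNondegenerateOn (polar Q) U ∧ Geo.IsPlusTypeOn ⇑Q U ∧ (U = W ∨
        (Geo.AreOrthogonalFor (polar Q) U W ∧ finrank F U + finrank F W = Fintype.card ι)))) :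
    Geo.IsMaximalIn (Geo.omegaGL ⇑Q) (Geo.subspaceStabilizer W ⊓ Geo.omegaGL ⇑Q) := by
  have hn' : finrank F (ι → F) = Fintype.card ι := by simp
  have hW' := nds_of hW
  have h2 := hQ.finrank_perp_add W
  have h9 : (2 : F) = 0 → finrank F W ≠ 4 ∨ 9 ≤ Fintype.card ι := fun e => by
    obtain ⟨k, hk⟩ := hQ.even_finrank_of_char_two e
    have := h8 e
    omega
  refine isMaximalIn_Om (fun g => ∀ v, v ∈ W ↔ g v ∈ W) (fun _ => Iff.rfl)
    (exists_om_not_stab hQ (by omega) h0 h1) fun M hH _ ⟨g, hg, hg'⟩ => ?_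
  by_cases h3 : 2 * finrank F W ≤ Fintype.card ι
  · refine om_nondeg' hQ (by omega) hW' (by omega) (fun e => ?_) (fun h4 h5 => ?_) hH
      ⟨g, hg, hg', ?_⟩
    · obtain ⟨k, hk⟩ := hQ.even_finrank_of_char_two e
      have := h9 e
      omega
    · by_contra h6
      exact hex ⟨by omega, W, h4, hW, (plus_two_iff h4).mpr h5, Or.inl rfl⟩
    · rcases h3.eq_or_lt with h3 | h3
      · exact fun h => (hd h3).2 (isPlus_iff.mpr (isPlus_of_swap hQ hW' (by omega) (hd h3).1 h))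
      · exact not_swap hQ hQ (by omega)
  · refine om_nondeg' hQ (by omega) (hW'.perp hQ) (by omega) (fun e => ?_) (fun h4 h5 => ?_)
      (fun g hg h => hH g hg (hQ.perp_perp W ▸ stab_perp h)) ⟨g, hg,
        fun h => hg' (hQ.perp_perp W ▸ stab_perp h), not_swap hQ hQ (by omega)⟩
    · have := h9 e
      rw [hQ.perp_perp]
      omega
    by_contra h6
    exact hex ⟨by omega, _, h4, (hW'.perp hQ).geo, (plus_two_iff h4).mpr h5,
      Or.inr ⟨fun u hu v hv => mem_perp'.mp hu v hv, by omega⟩⟩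

theorem max_om_two' (hQ : ND Q) (hn : 9 ≤ Fintype.card ι) {k : ℕ} (hk : 2 * k = Fintype.card ι)
    {D : Fin 2 → Submodule F (ι → F)} (hD : Geo.IsNondegenerateMDecomposition (polar Q) k D)
    (hni : ¬ Geo.AreIsometricFor ⇑Q (D 0) (D 1)) :
    Geo.IsMaximalIn (Geo.omegaGL ⇑Q) (Geo.decompositionStabilizer D ⊓ Geo.omegaGL ⇑Q) := by
  obtain ⟨π, h⟩ := exists_isDec hD.decomp.indep hD.decomp.iSup_eq_top
  have hn' : finrank F (ι → F) = Fintype.card ι := by simp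
  have h0 := hD.decomp.finrank_eq 0
  have h1 := hD.decomp.finrank_eq 1
  have h5 := hQ.finrank_perp_add (D 1)
  have h2 : D 0 = perp Q (D 1) := Submodule.eq_of_le_of_finrank_eq
    (fun x hx => mem_perp'.mpr (hD.orthogonal 0 1 (by simp) x hx)) (by omega)
  have h3 : ∀ g : OG Q, ¬ ∀ v ∈ D 0, g.1 v ∈ D 1 := fun g hg =>
    hni ⟨g.1.ofSubmodules _ _ (map_eq_of_le hg (h0.trans h1.symm)), fun w => OG.map_Q g w⟩
  have h4 : ∀ g : OG Q, PermD D g.1 ↔ ∀ v, v ∈ D 1 ↔ g.1 v ∈ D 1 := fun g => by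
    refine ⟨fun ⟨s, hs⟩ => mem_iff_of_le fun x hx => ?_, fun hg => h.permD_of_fix
      (Fin.forall_fin_two.mpr ⟨fun x hx => h2 ▸ (stab_perp hg x).mp (h2 ▸ hx),
        fun x => (hg x).mp⟩)⟩
    by_cases e : s 0 = 1
    · exact absurd (fun v hv => (e ▸ hs 0).le ⟨v, hv, rfl⟩) (h3 g)
    · have e1 : s 1 = 1 := by
        obtain ⟨j, hj⟩ := s.surjective 1
        fin_cases j
        · exact absurd hj e
        · exact hj
      exact (e1 ▸ hs 1).le ⟨x, hx, rfl⟩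
  refine isMaximalIn_Om (PermD D) mem_decStab ?_ fun M hH _ ⟨g, hg, hg'⟩ =>
    om_nondeg' hQ (by omega) (nds_of (hD.nondegenerate 1)) (by omega) (fun _ => by omega)
      (fun e => by omega) (fun g hg e => hH g hg ((h4 g).mpr e))
      ⟨g, hg, fun e => hg' ((h4 g).mpr e), h2 ▸ h3 g⟩
  simp only [h4]
  refine exists_om_not_stab hQ (by omega) (fun e => ?_) fun e => ?_
  · rw [e, finrank_bot] at h1
    omega
  · rw [e, finrank_top] at h1
    omega

theorem max_om_odd_nondeg [Fintype F] (hodd : Odd (Fintype.card F)) {m : ℕ} (hm : 3 ≤ m)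
    (W : Submodule F (Unit ⊕ (Fin m ⊕ Fin m) → F)) (hW0 : W ≠ ⊥) (hev : Even (finrank F W))
    (hW : Geo.IsNondegenerateOn (polar (oddQ m F)) W) (hex : ¬ (Fintype.card F = 3 ∧
      finrank F W = 2 ∧ Geo.IsPlusTypeOn (oddQ m F) W)) :
    Geo.IsMaximalIn (Geo.omegaGL (oddQ m F))
      (Geo.subspaceStabilizer W ⊓ Geo.omegaGL (oddQ m F)) := by
  obtain ⟨k, hk⟩ := hev
  refine max_om_nondeg' (nd_oddQ m (two_ne_zero_of_odd hodd)) (by simp; omega) hW0
    (fun h => ?_) hW (fun h => absurd h (two_ne_zero_of_odd hodd)) (fun h => by simp at h; omega) ?_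
  · rw [h, finrank_top] at hk
    simp at hk
    omega
  · rintro ⟨h1, U, h2, h3, h4, rfl | ⟨-, h5⟩⟩
    · rw [Nat.card_eq_fintype_card] at h1
      have := Fintype.one_lt_card (α := F)
      obtain ⟨r, hr⟩ := hodd
      exact hex ⟨by omega, h2, h4⟩
    · simp at h5
      omega

end geo

end Cfsg.Agent.Max
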