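import Mathlib
import Cfsg.Agent.Max.Om3
import Cfsg.Agent.Max.ODec3
import Cfsg.Agent.Max.OFrame
import Cfsg.Agent.Max.SubOm7
import Cfsg.Agent.Asch.OType

/-!
# Stabilisers of non-degenerate 4-spaces of 8-dimensional orthogonal spaces in characteristic two
-/

set_option autoImplicit false

namespace Cfsg.Agent.Max

open Module QuadraticMap Orth

variable {F V : Type*} [Field F] [AddCommGroup V] [Module F V] {Q : QuadraticForm F V}
  {M : Subgroup (OG Q)} [FiniteDimensional F V] [Finite F]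

omit [Finite F] in
theorem exists_orth_side (hQ : ND Q) {W : Submodule F V} {b c : V} (hc : c ∉ perp Q W ⊔ F ∙ b) :
    ∃ y ∈ W, polar Q b y = 0 ∧ polar Q c y = 1 := by
  obtain ⟨y, h1, h3⟩ := hQ.exists_orth_polar_one _ hc
  exact ⟨y, hQ.perp_perp W ▸ mem_perp.mpr fun w hw => h1 w (Submodule.mem_sup_left hw),
    h1 b (Submodule.mem_sup_right (Submodule.mem_span_singleton_self b)), h3⟩

omit [Finite F] in
theorem om_grow_sing (hQ : ND Q) {W : Submodule F V} (hW : NDS Q W) (h3 : 3 ≤ finrank F W)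
    (hE : ∀ x ∈ W, Q x = 0 → ∀ v ∈ W, polar Q x v = 0 → v ∈ OE M x) {a b c : V} (hb : b ∈ W)
    (ha : a ∈ perp Q W) (hb0 : Q b = 0) (hc : c ∈ OE M (b + a)) (hc' : c ∉ perp Q W ⊔ F ∙ b) :
    b ∈ OE M (b + a) := by
  have pz : ∀ x ∈ W, polar Q x (b + a) = polar Q x b := fun x hx => by
    simp [mem_perp.mp ha x hx]
  have bb : polar Q b (b + a) = 0 := by rw [pz b hb, p_self, hb0, mul_zero]
  have key : ∀ c ∈ OE M (b + a), polar Q b c = 0 → c ∉ perp Q W ⊔ F ∙ b → b ∈ OE M (b + a) :=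
    fun c hc h1 h2 => by
    obtain ⟨y, hy, h4, h5⟩ := exists_orth_side hQ h2
    simpa [h1, polar_comm Q y c, h5] using OE.grow hc hb0 (hE b hb hb0 y hy h4) bb
      (by rw [pz y hy, polar_comm, h4])
  by_cases h1 : polar Q b c = 0
  · exact key c hc h1 hc'
  obtain ⟨e, he, he'⟩ := exists_not_mem_of_finrank_lt (W := F ∙ b)
    (U := W ⊓ LinearMap.ker (Q.polarBilin b)) (by
      have := finrank_span_one_le (F := F) b
      have := finrank_le_inf_ker W (Q.polarBilin b)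
      omega)
  have h2 : polar Q b e = 0 := he.2
  refine key _ (OE.grow hc hb0 (hE b hb hb0 e he.1 h2) bb (by rw [pz e he.1, polar_comm, h2]))
    (by simp [p_self, hb0, h2]) fun h5 => he' ?_
  obtain ⟨w, hw, y, hy, e1⟩ := Submodule.mem_sup.mp h5
  have h6 : y ∈ W := (Submodule.span_singleton_le_iff_mem _ _).mpr hb hy
  have h7 : w ∈ W ⊓ perp Q W := ⟨by
    rw [eq_sub_of_add_eq e1]
    exact W.sub_mem (W.sub_mem (W.smul_mem _ hb) (W.smul_mem _ he.1)) h6, hw⟩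
  rw [hW.inf_perp, Submodule.mem_bot] at h7
  rw [h7, zero_add] at e1
  rw [e1, Submodule.sub_mem_iff_right _ (Submodule.smul_mem _ _
    (Submodule.mem_span_singleton_self b)), Submodule.smul_mem_iff _ h1] at hy
  exact hy

theorem om_grow_two (hQ : ND Q) (h2 : (2 : F) = 0) (hn : 5 ≤ finrank F V) {W : Submodule F V}
    (hH : ∀ g ∈ commutator (OG Q), (∀ v, v ∈ W ↔ g.1 v ∈ W) → g ∈ M) {a b c : V} (hb : b ∈ W)
    (ha : a ∈ perp Q W) (hb0 : Q b ≠ 0) (hz : Q (b + a) = 0) (hc : c ∈ OE M (b + a))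
    (h1 : polar Q b c = 0) (hc' : c ∉ perp Q W ⊔ F ∙ b) :
    ∃ x ∈ W, x ≠ 0 ∧ Q x = 0 ∧ a ∈ OE M x := by
  obtain ⟨y, hy, h4, h5⟩ := exists_orth_side hQ hc'
  obtain ⟨s, hs⟩ := isSquare_of_two_eq_zero h2 (Q y / Q b)
  have bb : polar Q b b = 0 := by rw [p_self, h2, zero_mul]
  have hx : y + s • b ∈ W := W.add_mem hy (W.smul_mem _ hb)
  have x0 : Q (y + s • b) = 0 := by
    rw [q_add, q_smul, p_smul_right, polar_comm, h4, _root_.sq, ← hs]
    field_simp
    linear_combination Q y * h2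
  have xb : polar Q (y + s • b) b = 0 := by simp [bb, polar_comm Q y b, h4]
  have xc : polar Q (y + s • b) c = 1 := by simp [h1, polar_comm Q y c, h5]
  generalize y + s • b = x at hx x0 xb xc
  have xa := mem_perp.mp ha x hx
  have ba := mem_perp.mp ha b hb
  have qa : Q a = Q b := by
    rw [q_add, ba] at hz
    linear_combination hz - Q b * h2
  refine ⟨x, hx, by rintro rfl; simp at xc, x0, xa, fun t => ?_⟩
  by_cases ht : t = 0
  · simp [ht]
  have h6 := (OE M (b + a)).smul_mem (-((Q b)⁻¹ / t)) (OE.grow hc x0 (b := t • b)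
    (oe_of_stab hQ hn hH x0 (by simp [xb]) (Or.inl ⟨hx, W.smul_mem _ hb⟩)) (by simp [xa, xb])
    (by simp [bb, ba]))
  have h7 : t • x + (Q b)⁻¹ • b ∈ OE M (b + a) := by
    convert h6 using 1
    rw [p_smul_left, h1, xc, q_smul]
    match_scalars <;> field_simp <;> ring
  have h8 : Q (t • x + (Q b)⁻¹ • b) = (Q b)⁻¹ := by
    rw [q_add, q_smul, q_smul, p_smul_left, p_smul_right, x0, xb]
    field_simp
    ring
  have h9 : Q (-(Q b)⁻¹ • a) = (Q b)⁻¹ := by
    rw [q_smul, qa]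
    field_simp
  have e1 := OE.mem h7
  rw [eich_eq_refl_mul_refl hz h7.1 (h8.trans_ne (inv_ne_zero hb0)), h8] at e1
  have e2 := hH _ (hQ.refl_mul_refl_mem_commutator (h9.trans_ne (inv_ne_zero hb0)) (h9.trans h8.symm))
    (mem_iff_of_le fun v hv => refl_mem_sub (Or.inr (Submodule.smul_mem _ _ ha))
      (refl_mem_sub (Or.inl (W.add_mem (W.smul_mem _ hx) (W.smul_mem _ hb))) hv))
  have e3 := mul_mem e2 e1
  rw [mul_assoc, ← mul_assoc (refl Q (t • x + _)), refl_mul_self, one_mul] at e3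
  have e4 : eich Q x (t • a) = eich Q ((-(t * Q b)) • x) (-(Q b)⁻¹ • a) := by
    rw [eich_smul_left x0 (by simp [xa]), smul_smul]
    congr 2
    field_simp
  rw [e4, eich_eq_refl_mul_refl (by simp [q_smul, x0]) (by simp [xa]) (h9.trans_ne (inv_ne_zero hb0)), h9]
  convert e3 using 3
  match_scalars <;> field_simp <;> ring

omit [Finite F] in
theorem om_grow_two' (h2 : (2 : F) = 0) {W : Submodule F V}
    (hE : ∀ x ∈ W, Q x = 0 → ∀ v ∈ W, polar Q x v = 0 → v ∈ OE M x) {a b c x : V} (hb : b ∈ W)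
    (ha : a ∈ perp Q W) (hb0 : Q b ≠ 0) (hb' : b ∈ OE M (b + a)) (hc : c ∈ OE M (b + a))
    (h1 : polar Q b c ≠ 0) (hx : x ∈ W) (x0 : Q x = 0) (xb : polar Q x b = 0)
    (h : polar Q x c = 0 ∨ ∃ s : F, s ≠ 0 ∧ s ≠ 1) : x ∈ OE M (b + a) := by
  have key : ∀ t : F, t ≠ 0 → polar Q b c - t * Q b * polar Q x c ≠ 0 → x ∈ OE M (b + a) :=
    fun t ht h3 => by
    have := (OE M (b + a)).add_mem (OE.grow hc x0 (b := t • b)
      (hE x hx x0 _ (W.smul_mem _ hb) (by simp [xb])) (by simp [mem_perp.mp ha x hx, xb])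
      (by simp [p_self, h2, mem_perp.mp ha b hb])) ((OE M _).smul_mem (polar Q x c * t) hb')
    rw [smul_smul, sub_add_cancel, Submodule.smul_mem_iff _ (by
      rw [p_smul_left, q_smul]
      exact fun e => mul_ne_zero ht h3 (by linear_combination e))] at this
    exact this
  by_cases h3 : polar Q x c = 0
  · exact key 1 one_ne_zero (by simpa [h3])
  obtain ⟨s, h4, h5⟩ := h.resolve_left h3
  refine key (s * polar Q b c / (Q b * polar Q x c)) (by positivity) fun e => ?_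
  field_simp at e
  exact mul_ne_zero h1 (sub_ne_zero.mpr h5) (by linear_combination -e)

omit [Finite F] in
theorem exists_sing_line {W U : Submodule F V} (hU : U ≤ W) (h1 : Sing Q U) (h2 : finrank F U = 2)
    (u : V) : ∃ x ∈ W, Q x = 0 ∧ polar Q u x = 0 ∧ x ∉ F ∙ u := by
  by_cases h : u ∈ U
  · obtain ⟨x, hx, hx'⟩ := exists_not_mem_of_finrank_lt (W := F ∙ u) (U := U)
      (by have := finrank_span_one_le (F := F) u; omega)
    exact ⟨x, hU hx, h1 x hx, h1.polar h hx, hx'⟩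
  · obtain ⟨x, hx, hx'⟩ := exists_not_mem_of_finrank_lt (W := ⊥)
      (U := U ⊓ LinearMap.ker (Q.polarBilin u)) (by
        have := finrank_le_inf_ker U (Q.polarBilin u)
        rw [finrank_bot]
        omega)
    refine ⟨x, hU hx.1, h1 x hx.1, hx.2, fun e => ?_⟩
    obtain ⟨k, rfl⟩ := Submodule.mem_span_singleton.mp e
    exact h ((U.smul_mem_iff fun e => hx' (by simp [e])).mp hx.1)

omit [Finite F] in
theorem exists_sing_of_minus (h2 : (2 : F) = 0) (hF : ∀ t : F, t ≠ 0 → t = 1) {W : Submodule F V}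
    (hW : NDS Q W) (h4 : finrank F W = 4) (hm : ∀ U ≤ W, Sing Q U → finrank F U ≠ 2) {a c : V}
    (ha : a ∈ W) (hc : c ∈ W) (qa : Q a = 1) (qc : Q c = 1) (ac : polar Q a c = 1) :
    ∃ x ∈ W, x ≠ 0 ∧ Q x = 0 ∧ polar Q x a = 0 ∧ polar Q x c = 0 := by
  by_contra hn
  push Not at hn
  have aa : polar Q a a = 0 := by rw [p_self, h2, zero_mul]
  have cc : polar Q c c = 0 := by rw [p_self, h2, zero_mul]
  have ca : polar Q c a = 1 := (polar_comm _ _ _).trans ac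
  obtain ⟨p, hp, p0⟩ := exists_not_mem_of_finrank_lt (W := ⊥)
    (U := W ⊓ LinearMap.ker (Q.polarBilin a) ⊓ LinearMap.ker (Q.polarBilin c)) (by
      have := finrank_le_inf_ker W (Q.polarBilin a)
      have := finrank_le_inf_ker (W ⊓ LinearMap.ker (Q.polarBilin a)) (Q.polarBilin c)
      rw [finrank_bot]
      omega)
  have ap : polar Q a p = 0 := hp.1.2
  have cp : polar Q c p = 0 := hp.2
  obtain ⟨r, hr, h5, h6⟩ := hW.exists_orth (X := Submodule.span F {a, c})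
    (Submodule.span_le.mpr (by simp [Set.insert_subset_iff, ha, hc])) hp.1.1 fun h => by
      obtain ⟨s, t, rfl⟩ := Submodule.mem_span_pair.mp h
      simp [aa, cc, ac, ca] at ap cp
      simp [ap, cp] at p0
  have ar := h5 a (Submodule.subset_span (by simp))
  have cr := h5 c (Submodule.subset_span (by simp))
  have qp := hF _ fun e => hn p hp.1.1 p0 e (polar_symm_zero ap) (polar_symm_zero cp)
  have qr := hF _ fun e => hn r hr (by rintro rfl; simp at h6) e (polar_symm_zero ar)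
    (polar_symm_zero cr)
  refine hm (Submodule.span F {a + p, c + r}) (Submodule.span_le.mpr (by
    simp [Set.insert_subset_iff, W.add_mem ha hp.1.1, W.add_mem hc hr])) (fun v hv => ?_)
    (finrank_span_pair_eq (LinearIndependent.pair_iff.mpr fun s t h => ?_))
  · obtain ⟨s, t, rfl⟩ := Submodule.mem_span_pair.mp hv
    simp only [q_add, q_smul, p_smul_left, p_smul_right, polar_add_left, polar_add_right, qa, qc, qp,
      qr, ap, cr, ac, ar, h6, polar_comm Q p c, cp]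
    linear_combination (s ^ 2 + t ^ 2 + s * t) * h2
  · have e1 := congrArg (polar Q a) h
    have e2 := congrArg (polar Q c) h
    simp [aa, cc, ac, ca, ap, cp, ar, cr] at e1 e2
    exact ⟨e2, e1⟩

theorem om_four_two (hQ : ND Q) (h2 : (2 : F) = 0) {W : Submodule F V} (hW : NDS Q W)
    (h4 : finrank F W = 4) (h4' : finrank F (perp Q W) = 4)
    (hm : ∀ U ≤ W, Sing Q U → finrank F U ≠ 2) (hp : ∃ U ≤ perp Q W, Sing Q U ∧ finrank F U = 2)
    (hH : ∀ g ∈ commutator (OG Q), (∀ v, v ∈ W ↔ g.1 v ∈ W) → g ∈ M)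
    (hg : ∃ g ∈ M, ¬ ∀ v, v ∈ W ↔ g.1 v ∈ W) : commutator (OG Q) ≤ M := by
  obtain ⟨g, hg, hg1⟩ := hg
  obtain ⟨U, hU, hU1, hU2⟩ := hp
  have hd' := hQ.finrank_perp_add W
  have hW' := hW.perp hQ
  have pp := hQ.perp_perp W
  have hH' : ∀ g ∈ commutator (OG Q), (∀ v, v ∈ perp Q W ↔ g.1 v ∈ perp Q W) → g ∈ M :=
    fun g hg h => hH g hg (pp ▸ stab_perp h)
  obtain ⟨u, hu, hu0, hu1, hu2⟩ : ∃ u ∈ perp Q W, Q u = 0 ∧ g.1 u ∉ W ∧ g.1 u ∉ perp Q W := by
    by_contra hc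
    push Not at hc
    rcases (hW.perp hQ).sing_into (by omega) (X := W.comap (g.1 : V →ₗ[F] V))
      (Y := (perp Q W).comap (g.1 : V →ₗ[F] V)) (fun x hx y hy _ _ => by
        rw [← OG.map_polar g]
        exact mem_perp.mp hy _ hx) (fun a ha ha0 => or_iff_not_imp_left.mpr (hc a ha ha0)) with h | h
    · refine hm (U.map (g.1 : V →ₗ[F] V)) (by rintro _ ⟨v, hv, rfl⟩; exact h (hU hv)) ?_
        (by rw [LinearEquiv.finrank_map_eq, hU2])
      rintro _ ⟨v, hv, rfl⟩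
      exact (OG.map_Q g v).trans (hU1 v hv)
    · exact hg1 (pp ▸ stab_perp (mem_iff_of_le h))
  set E := (perp Q W ⊓ LinearMap.ker (Q.polarBilin u)).map (g.1 : V →ₗ[F] V) with hE
  have h1 : finrank F (perp Q W) ≤ finrank F E + 1 := by
    rw [hE, LinearEquiv.finrank_map_eq]
    exact finrank_le_inf_ker _ _
  have h3 : E ≤ OE M (g.1 u) := by
    rintro _ ⟨v, hv, rfl⟩
    exact OE.map (oe_of_stab hQ (by omega) hH hu0 hv.2 (Or.inr ⟨hu, hv.1⟩)) hg
  have hz : Q (g.1 u) = 0 := by simp [hu0]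
  obtain ⟨c, hc, hc0, hc1⟩ : ∃ c ∈ E, Q c = 0 ∧ c ∉ F ∙ g.1 u := by
    obtain ⟨x, hx, x0, xu, hx'⟩ := exists_sing_line hU hU1 hU2 u
    refine ⟨g.1 x, ⟨x, ⟨hx, xu⟩, rfl⟩, by simp [x0], fun e => hx' ?_⟩
    obtain ⟨k, hk⟩ := Submodule.mem_span_singleton.mp e
    exact Submodule.mem_span_singleton.mpr ⟨k, g.1.injective (by rw [map_smul, hk])⟩
  clear_value E
  obtain ⟨a, ha, b, hb, e⟩ := hW.dec hQ (g.1 u)
  rw [← e] at h3 hz hc1 hu1 hu2
  have ha' : a ∉ perp Q W := fun h => hu2 (Submodule.add_mem _ h hb)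
  have hb' : b ∉ W := fun h => hu1 (W.add_mem ha h)
  have a0 : a ≠ 0 := fun h => ha' (h ▸ zero_mem _)
  have b0 : b ≠ 0 := fun h => hb' (h ▸ zero_mem _)
  have ab := mem_perp.mp hb a ha
  have qa : Q a = Q b := by
    rw [q_add, ab] at hz
    linear_combination hz - Q b * h2
  have A : ∀ x ∈ perp Q W, x ≠ 0 → Q x = 0 → ∀ y ∈ OE M x, y ∉ perp Q W →
      commutator (OG Q) ≤ M := fun x hx x0 x1 y hy hy' =>
    om_nd_fin hQ (by omega) hW (by omega) (Or.inl (by omega)) hH hx x0 x1 hy hy'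
  have B : ∀ x ∈ W, x ≠ 0 → Q x = 0 → ∀ y ∈ OE M x, y ∉ W → commutator (OG Q) ≤ M :=
    fun x hx x0 x1 y hy hy' => om_nd_fin hQ (by omega) hW' (by rw [pp]; omega)
      (Or.inl (by omega)) hH' (by rwa [pp]) x0 x1 hy (by rwa [pp])
  have EA : ∀ x ∈ perp Q W, Q x = 0 → ∀ v ∈ perp Q W, polar Q x v = 0 → v ∈ OE M x :=
    fun x hx hx0 v hv h => oe_of_stab hQ (by omega) hH hx0 h (Or.inr ⟨hx, hv⟩)
  have EB : ∀ x ∈ W, Q x = 0 → ∀ v ∈ W, polar Q x v = 0 → v ∈ OE M x :=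
    fun x hx hx0 v hv h => oe_of_stab hQ (by omega) hH hx0 h (Or.inl ⟨hx, hv⟩)
  have S : ∀ d, d ∉ Submodule.span F {a, b} → d ∉ perp Q W ⊔ F ∙ a ∨ d ∉ W ⊔ F ∙ b := fun d hd => by
    by_contra h
    push Not at h
    obtain ⟨w, hw, _, hy, e1⟩ := Submodule.mem_sup.mp h.1
    obtain ⟨k, rfl⟩ := Submodule.mem_span_singleton.mp hy
    obtain ⟨w', hw', _, hy, e2⟩ := Submodule.mem_sup.mp h.2
    obtain ⟨l, rfl⟩ := Submodule.mem_span_singleton.mp hy
    have : w - l • b ∈ W ⊓ perp Q W := ⟨by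
      rw [show w - l • b = w' - k • a by linear_combination (norm := module) e1 - e2]
      exact W.sub_mem hw' (W.smul_mem _ ha), Submodule.sub_mem _ hw (Submodule.smul_mem _ _ hb)⟩
    rw [hW.inf_perp, Submodule.mem_bot] at this
    exact hd (Submodule.mem_span_pair.mpr ⟨k, l, by
      linear_combination (norm := module) e1 - this⟩)
  have sp := finrank_span_pair_le (F := F) a b
  by_cases hb0 : Q b = 0
  · obtain ⟨d, hd, hd'⟩ := exists_not_mem_of_finrank_lt (W := Submodule.span F {a, b}) (U := E)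
      (by omega)
    rcases S d hd' with h | h
    · exact B a ha a0 (qa.trans hb0) _ (OE.swap hz (qa.trans hb0) (om_grow_sing hQ hW (by omega) EB
        ha hb (qa.trans hb0) (h3 hd) h)) hu1
    · rw [add_comm] at h3 hz hu2
      exact A b hb b0 hb0 _ (OE.swap hz hb0 (om_grow_sing hQ hW' (by omega) EA hb (by rwa [pp]) hb0
        (h3 hd) (by rwa [pp]))) hu2
  have ha0 : Q a ≠ 0 := qa ▸ hb0
  have ab' : ∀ d ∈ OE M (a + b), polar Q a d = polar Q b d := fun d hd => by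
    have := hd.1
    rw [polar_add_left] at this
    linear_combination this - polar Q b d * h2
  have C : ∀ d ∈ OE M (a + b), polar Q b d = 0 → d ∉ Submodule.span F {a, b} →
      commutator (OG Q) ≤ M := fun d hd h5 hd' => by
    rcases S d hd' with h | h
    · obtain ⟨x, hx, x0, x1, h6⟩ := om_grow_two hQ h2 (by omega) hH ha hb ha0 hz hd
        ((ab' d hd).trans h5) h
      exact B x hx x0 x1 b h6 hb'
    · rw [add_comm] at hd hz
      obtain ⟨x, hx, x0, x1, h6⟩ := om_grow_two hQ h2 (by omega) hH' hb (by rwa [pp]) hb0 hz hd h5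
        (by rwa [pp])
      exact A x hx x0 x1 a h6 ha'
  have D : ∀ d ∈ Submodule.span F {a, b}, Q d = 0 → d ∈ F ∙ (a + b) := fun d hd h5 => by
    obtain ⟨s, t, rfl⟩ := Submodule.mem_span_pair.mp hd
    rw [q_add, q_smul, q_smul, p_smul_left, p_smul_right, ab, qa] at h5
    have : (s - t) ^ 2 = 0 := mul_right_cancel₀ hb0 (by linear_combination h5 - s * t * Q b * h2)
    rw [sub_eq_zero.mp (pow_eq_zero_iff two_ne_zero |>.mp this), ← smul_add]
    exact Submodule.smul_mem _ _ (Submodule.mem_span_singleton_self _)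
  by_cases h5 : polar Q b c = 0
  · exact C c (h3 hc) h5 fun h => hc1 (D c h hc0)
  obtain ⟨d, hd, hd'⟩ := exists_not_mem_of_finrank_lt (W := F ∙ (a + b))
    (U := E ⊓ LinearMap.ker (Q.polarBilin b)) (by
      have := finrank_span_one_le (F := F) (a + b)
      have := finrank_le_inf_ker E (Q.polarBilin b)
      omega)
  by_cases h6 : d ∈ Submodule.span F {a, b}
  swap
  · exact C d (h3 hd.1) hd.2 h6
  obtain ⟨s, t, rfl⟩ := Submodule.mem_span_pair.mp h6
  have h7 : b ∈ OE M (a + b) := by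
    have := (OE M _).sub_mem (h3 hd.1) ((OE M _).smul_mem s (OE.self hz))
    rwa [show s • a + t • b - s • (a + b) = (t - s) • b by module, Submodule.smul_mem_iff _ fun e =>
      hd' (by
        rw [sub_eq_zero.mp e, ← smul_add]
        exact Submodule.smul_mem _ _ (Submodule.mem_span_singleton_self _))] at this
  have h8 : a ∈ OE M (a + b) := by simpa using (OE M _).sub_mem (OE.self hz) h7
  have A' : ∀ x ∈ perp Q W, x ≠ 0 → Q x = 0 → polar Q x b = 0 →
      (polar Q x c = 0 ∨ ∃ s : F, s ≠ 0 ∧ s ≠ 1) → commutator (OG Q) ≤ M := fun x hx x0 x1 xb h => by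
    rw [add_comm] at h3 hz hu2 h7
    exact A x hx x0 x1 _ (OE.swap hz x1 (om_grow_two' h2 EA hb (by rwa [pp]) hb0 h7 (h3 hc) h5 hx
      x1 xb h)) hu2
  by_cases hF : ∃ s : F, s ≠ 0 ∧ s ≠ 1
  · obtain ⟨x, hx, x0, x1⟩ := exists_sing_mem Q (perp Q W ⊓ LinearMap.ker (Q.polarBilin b)) (by
      have := finrank_le_inf_ker (perp Q W) (Q.polarBilin b)
      omega)
    exact A' x hx.1 x0 x1 (polar_symm_zero hx.2) (Or.inr hF)
  push Not at hF
  obtain ⟨c₁, hc₁, c₂, hc₂, rfl⟩ := hW.dec hQ c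
  have h9 := ab' _ (h3 hc)
  rw [hF _ h5] at h9
  replace h5 := hF _ h5
  rw [polar_add_right, mem_perp'.mp hb c₁ hc₁, zero_add] at h5
  rw [polar_add_right, mem_perp.mp hc₂ a ha, add_zero] at h9
  by_cases h10 : Q c₂ = 0
  · obtain ⟨x, hx, x0, xu, hx'⟩ := exists_sing_line hU hU1 hU2 c₂
    refine A' (x - polar Q b x • c₂) (Submodule.sub_mem _ hx (Submodule.smul_mem _ _ hc₂))
      (fun e => hx' ?_) ?_ ?_ (Or.inl ?_)
    · rw [sub_eq_zero.mp e]
      exact Submodule.smul_mem _ _ (Submodule.mem_span_singleton_self _)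
    · simp [q_sub, q_smul, x0, h10, polar_comm Q x c₂, xu]
    · simp [polar_comm Q x b, polar_comm Q c₂ b, h5]
    · simp [mem_perp'.mp hx c₁ hc₁, mem_perp'.mp hc₂ c₁ hc₁, polar_comm Q x c₂, xu, p_self, h10]
  obtain ⟨x, hx, x0, x1, xa, xc⟩ := exists_sing_of_minus h2 hF hW h4 hm ha hc₁ (hF _ ha0) (by
    rw [q_add, mem_perp.mp hc₂ c₁ hc₁, hF _ h10] at hc0
    linear_combination hc0 - h2) h9
  exact B x hx x0 x1 _ (OE.swap hz x1 (om_grow_two' h2 EB ha hb ha0 h8 (h3 hc) (by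
    simp [mem_perp.mp hc₂ a ha, h9]) hx x1 xa (Or.inl (by simp [xc, mem_perp.mp hc₂ x hx])))) hu1

section geo
variable {ι : Type} [Fintype ι] [DecidableEq ι] {Q : QuadraticForm F (ι → F)}

theorem max_om_four (hQ : ND Q) (hn : Fintype.card ι = 8) (hm : ¬ Geo.IsPlusTypeOn ⇑Q ⊤)
    {W : Submodule F (ι → F)} (h4 : finrank F W = 4) (hW : Geo.IsNondegenerateOn (polar Q) W) :
    Geo.IsMaximalIn (Geo.omegaGL ⇑Q) (Geo.subspaceStabilizer W ⊓ Geo.omegaGL ⇑Q) := by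
  have hn' : finrank F (ι → F) = Fintype.card ι := by simp
  have h0 : W ≠ ⊥ := by rintro rfl; simp at h4
  have h1 : W ≠ ⊤ := by rintro rfl; rw [finrank_top] at h4; omega
  by_cases h2 : (2 : F) = 0
  swap
  · refine max_om_nondeg' hQ (by omega) h0 h1 hW (fun e => absurd e h2)
      (fun _ => ⟨by rw [h4]; decide, hm⟩) ?_
    rintro ⟨-, U, h5, -, -, rfl | ⟨-, h6⟩⟩ <;> omega
  have hW' := nds_of hW
  have h3 := hQ.finrank_perp_add W
  have h5 : ¬ (IsPlus (Q.restrict W) ↔ IsPlus (Q.restrict (perp Q W))) := fun h =>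
    hm (isPlus_iff.mpr (((Asch.isPlus_prod_iff hW'.nd (hW'.perp hQ).nd (by rw [h4]; decide)
      (by rw [show finrank F (perp Q W) = 4 by omega]; decide)).mpr h).of_iso
        (splitIso (hQ.isCompl_perp hW'.inf_perp))))
  rw [Asch.isPlus_restrict, Asch.isPlus_restrict] at h5
  refine isMaximalIn_Om (fun g => ∀ v, v ∈ W ↔ g v ∈ W) (fun _ => Iff.rfl)
    (exists_om_not_stab hQ (by omega) h0 h1) fun M hH _ ⟨g, hg, hg'⟩ => ?_
  by_cases h6 : ∃ U ≤ W, Sing Q U ∧ 2 * finrank F U = finrank F W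
  · obtain ⟨U, h7, h8, h9⟩ := h6
    exact om_four_two hQ h2 (hW'.perp hQ) (by omega) (by rw [hQ.perp_perp, h4])
      (fun U' e1 e2 e3 => h5 ⟨fun _ => ⟨U', e1, e2, by omega⟩, fun _ => ⟨U, h7, h8, h9⟩⟩)
      ⟨U, by rwa [hQ.perp_perp], h8, by omega⟩
      (fun g hg h => hH g hg (hQ.perp_perp W ▸ stab_perp h))
      ⟨g, hg, fun h => hg' (hQ.perp_perp W ▸ stab_perp h)⟩
  · obtain ⟨U, h7, h8, h9⟩ := by_contra fun h => h5 ⟨fun e => absurd e h6, fun e => absurd e h⟩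
    exact om_four_two hQ h2 hW' h4 (by omega) (fun U' e1 e2 e3 => h6 ⟨U', e1, e2, by omega⟩)
      ⟨U, h7, h8, by omega⟩ hH ⟨g, hg, hg'⟩

end geo

section tab
omit [Finite F]
variable [Fintype F] {n : ℕ} {Q : (Fin n → F) → F} (hQ : Geo.IsNondegenerateQuadraticForm Q)
include hQ

theorem tab_gen (hn : 7 ≤ n) {W : Submodule F (Fin n → F)} (h0 : W ≠ ⊥) (h1 : W ≠ ⊤)
    (hW : Geo.IsNondegenerateOn (polar Q) W) (h8 : n = 8 → finrank F W ≠ 4)
    (hd : 2 * finrank F W = n → Even (finrank F W) ∧ ¬ Geo.IsPlusTypeOn Q ⊤)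
    (h2 : finrank F W = 2 → Geo.IsPlusTypeOn Q W → 4 ≤ Fintype.card F) (h3 : finrank F W + 2 ≠ n) :
    Geo.IsMaximalIn (Geo.omegaGL Q) (Geo.subspaceStabilizer W ⊓ Geo.omegaGL Q) := by
  refine max_om_nondeg' (Q := toQuad hQ) (toQuad_nd hQ) (by simpa) h0 h1 hW
    (fun _ e => h8 (by simpa using e)) (fun e => hd (by simpa using e)) ?_
  rintro ⟨h4, U, h5, -, h6, rfl | ⟨-, h7⟩⟩
  · have := h2 h5 h6
    rw [Nat.card_eq_fintype_card] at h4
    omega
  · rw [Fintype.card_fin] at h7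
    omega

theorem tab_odd (hn : 7 ≤ n) (he : Even n) (W : Submodule F (Fin n → F)) (h0 : W ≠ ⊥) (h1 : W ≠ ⊤)
    (ho : Odd (finrank F W)) (h2 : 2 * finrank F W ≠ n) (hW : Geo.IsNondegenerateOn (polar Q) W) :
    Geo.IsMaximalIn (Geo.omegaGL Q) (Geo.subspaceStabilizer W ⊓ Geo.omegaGL Q) := by
  obtain ⟨k, hk⟩ := he
  obtain ⟨l, hl⟩ := ho
  exact tab_gen hQ hn h0 h1 hW (by omega) (fun e => absurd e h2) (by omega) (by omega)

theorem tab_dim (hn : 7 ≤ n) {k : ℕ} (h0 : 0 < k) (h1 : k + 2 < n) (h8 : n = 8 → k ≠ 4)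
    (hd : 2 * k = n → Even k ∧ ¬ Geo.IsPlusTypeOn Q ⊤) {W : Submodule F (Fin n → F)}
    (hk : finrank F W = k) (hW : Geo.IsNondegenerateOn (polar Q) W)
    (h2 : k = 2 → Geo.IsPlusTypeOn Q W → 4 ≤ Fintype.card F) :
    Geo.IsMaximalIn (Geo.omegaGL Q) (Geo.subspaceStabilizer W ⊓ Geo.omegaGL Q) := by
  subst hk
  refine tab_gen hQ hn ?_ ?_ hW h8 hd h2 (by omega)
  · rintro rfl
    simp at h0
  · rintro rfl
    simp at h1

theorem tab_minus (hn : 7 ≤ n) (W : Submodule F (Fin n → F)) (hk : finrank F W = 2)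
    (hW : Geo.IsNondegenerateOn (polar Q) W) (hm : ¬ Geo.IsPlusTypeOn Q W) :
    Geo.IsMaximalIn (Geo.omegaGL Q) (Geo.subspaceStabilizer W ⊓ Geo.omegaGL Q) :=
  tab_dim hQ hn two_pos (by omega) (by omega) (by omega) hk hW fun _ h => absurd h hm

theorem tab_plus (hn : 7 ≤ n) (h4 : 4 ≤ Fintype.card F) (W : Submodule F (Fin n → F))
    (hk : finrank F W = 2) (hW : Geo.IsNondegenerateOn (polar Q) W) (_ : Geo.IsPlusTypeOn Q W) :
    Geo.IsMaximalIn (Geo.omegaGL Q) (Geo.subspaceStabilizer W ⊓ Geo.omegaGL Q) :=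
  tab_dim hQ hn two_pos (by omega) (by omega) (by omega) hk hW fun _ _ => h4

theorem tab_four (hn : 9 ≤ n) (W : Submodule F (Fin n → F)) (hk : finrank F W = 4)
    (hW : Geo.IsNondegenerateOn (polar Q) W) :
    Geo.IsMaximalIn (Geo.omegaGL Q) (Geo.subspaceStabilizer W ⊓ Geo.omegaGL Q) :=
  tab_dim hQ (by omega) four_pos (by omega) (by omega) (by omega) hk hW (by omega)

theorem tab_point (hn : 7 ≤ n) (h : ¬ Odd (Fintype.card F)) (v : Fin n → F) (hv : Q v ≠ 0) :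
    Geo.IsMaximalIn (Geo.omegaGL Q) (Geo.subspaceStabilizer (F ∙ v) ⊓ Geo.omegaGL Q) := by
  refine max_om_point (Q := toQuad hQ) (toQuad_nd hQ) ?_ (by simpa) hv
  by_contra h2
  exact h (Nat.odd_iff.mpr (FiniteField.odd_card_of_char_ne_two (fun e => h2 (by
    have := ringChar.spec F 2
    simpa [e] using this))))

theorem tab_sing (hn : 5 ≤ n) (W : Submodule F (Fin n → F)) (h0 : W ≠ ⊥)
    (hW : Geo.IsTotallySingularQuad Q W)
    (hex : ¬ (2 * (finrank F W + 1) = n ∧ Geo.IsPlusTypeOn Q ⊤)) :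
    Geo.IsMaximalIn (Geo.omegaGL Q) (Geo.subspaceStabilizer W ⊓ Geo.omegaGL Q) :=
  max_om_parab (Q := toQuad hQ) (toQuad_nd hQ) (by simpa) h0 hW (by simpa using hex)

theorem tab_sub (hn : 7 ≤ n) (K : Subfield F) (r : ℕ) (P : GL (Fin n) F) (ζ : F) (hr : r.Prime)
    (hq : Fintype.card F = Nat.card K ^ r) (hζ : ζ ≠ 0)
    (hP : Geo.IsQuadFormRationalStructure (fun v => ζ * Q v) K P) :
    Geo.IsMaximalIn (Geo.omegaGL Q) (Geo.subfieldSubgroup K P ⊓ Geo.omegaGL Q) :=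
  max_om_subfield7 (Q := toQuad hQ) (toQuad_nd hQ) (by simpa) hr
    (by rw [Nat.card_eq_fintype_card, hq]) P hζ hP

theorem tab_frame (hn : 9 ≤ n) (hp : (Fintype.card F).Prime) {t : ℕ}
    (D : Fin t → Submodule F (Fin n → F)) (hD : Geo.IsOrthogonalMDecomposition Q 1 D) :
    Geo.IsMaximalIn (Geo.omegaGL Q) (Geo.decompositionStabilizer D ⊓ Geo.omegaGL Q) :=
  max_om_frame (Q := toQuad hQ) (toQuad_nd hQ) hp (by simpa) hD

theorem tab_big (hn : 5 ≤ n) {t k : ℕ} (hk : 5 ≤ k) (D : Fin t → Submodule F (Fin n → F))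
    (hD : Geo.IsOrthogonalMDecomposition Q k D) :
    Geo.IsMaximalIn (Geo.omegaGL Q) (Geo.decompositionStabilizer D ⊓ Geo.omegaGL Q) :=
  max_om_three (Q := toQuad hQ) (toQuad_nd hQ) (by simpa) hD (by omega) (by omega) (by omega)
    (by omega)

theorem tab_halves (hn : 9 ≤ n) {k : ℕ} (hk : 2 * k = n) (D : Fin 2 → Submodule F (Fin n → F))
    (hD : Geo.IsNondegenerateMDecomposition (polar Q) k D)
    (hni : ¬ Geo.AreIsometricFor Q (D 0) (D 1)) :
    Geo.IsMaximalIn (Geo.omegaGL Q) (Geo.decompositionStabilizer D ⊓ Geo.omegaGL Q) :=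
  max_om_two' (Q := toQuad hQ) (toQuad_nd hQ) (by simpa) (by simpa) hD hni

theorem tab_planes (hn : 10 ≤ n) {t : ℕ} (D : Fin t → Submodule F (Fin n → F))
    (hD : Geo.IsOrthogonalMDecomposition Q 2 D)
    (typ : ((∀ i, ¬ Geo.IsPlusTypeOn Q (D i)) ∧ Fintype.card F ≠ 3) ∨ 7 ≤ Fintype.card F) :
    Geo.IsMaximalIn (Geo.omegaGL Q) (Geo.decompositionStabilizer D ⊓ Geo.omegaGL Q) :=
  max_om_planes (Q := toQuad hQ) (toQuad_nd hQ) (by simpa) hD (by rwa [Nat.card_eq_fintype_card])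

theorem tab_three (hn : 5 ≤ n) {t : ℕ} (h : 4 ≤ Fintype.card F) (D : Fin t → Submodule F (Fin n → F))
    (hD : Geo.IsOrthogonalMDecomposition Q 3 D) :
    Geo.IsMaximalIn (Geo.omegaGL Q) (Geo.decompositionStabilizer D ⊓ Geo.omegaGL Q) := by
  rw [← Nat.card_eq_fintype_card] at h
  exact max_om_three (Q := toQuad hQ) (toQuad_nd hQ) (by simpa) hD (by omega) (by omega) (by omega)
    (by omega)

theorem tab_fours (hn : 5 ≤ n) {t : ℕ} (D : Fin t → Submodule F (Fin n → F))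
    (hD : Geo.IsOrthogonalMDecomposition Q 4 D)
    (h : Fintype.card F = 2 → ∃ i, ¬ Geo.IsPlusTypeOn Q (D i)) :
    Geo.IsMaximalIn (Geo.omegaGL Q) (Geo.decompositionStabilizer D ⊓ Geo.omegaGL Q) := by
  rw [← Nat.card_eq_fintype_card] at h
  exact max_om_three (Q := toQuad hQ) (toQuad_nd hQ) (by simpa) hD (by omega) (by omega) (by omega)
    fun _ => h

theorem tab_lag {m : ℕ} (hm : 5 ≤ m) (he : Even m) (D : Fin 2 → Submodule F (Fin n → F))
    (hD : Geo.IsMDecomposition m D) (hts : ∀ i, Geo.IsTotallySingularQuad Q (D i)) :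
    Geo.IsMaximalIn (Geo.omegaGL Q) (Geo.decompositionStabilizer D ⊓ Geo.omegaGL Q) :=
  max_om_lag (Q := toQuad hQ) (toQuad_nd hQ) hm he hD hts

theorem tab_minus_dec (hm : ¬ Geo.IsPlusTypeOn Q ⊤) {t k : ℕ} {D : Fin t → Submodule F (Fin n → F)}
    (hD : Geo.IsOrthogonalMDecomposition Q k D) (he : Even k) (i : Fin t) :
    ¬ Geo.IsPlusTypeOn Q (D i) := fun h => by
  obtain ⟨J, hJ⟩ := Asch.exists_QJ hQ
  exact hm ((hJ.plus_dec hD he i).mpr (Or.inl h))

end tab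

end Cfsg.Agent.Max
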