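import Mathlib
import Cfsg.Agent.Max.SLGeo

/-!
# The unitary group in `SL_n(q²)`, `n ≥ 4`
-/

set_option autoImplicit false

namespace Cfsg.Agent.Max

open Module Herm

section
variable {F V : Type*} [Field F] [AddCommGroup V] [Module F V] {M : Subgroup (V ≃ₗ[F] V)}
variable {σ : F →+* F} {B : V →ₛₗ[σ] V →ₗ[F] F} [FiniteDimensional F V] [Finite F]

omit [Finite F] in
theorem herm_perp_pair4 (hB : HF B) (hn : 4 ≤ finrank F V) {b : V} (hb : b = 0 ∨ B b b ≠ 0)
    (c : V) : ∃ e₁ ∈ perp B (Submodule.span F {b, c}),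
      ∃ e₂ ∈ perp B (Submodule.span F {b, c}), B e₁ e₂ ≠ 0 := by
  by_contra hc
  push Not at hc
  have h2 := hB.finrank_perp_add (Submodule.span F {b, c})
  rcases hb with rfl | hb
  · have h1 := hB.two_mul_finrank_le (W := perp B (Submodule.span F {0, c})) hc
    have h3 := finrank_span_one_le (F := F) c
    rw [Submodule.span_insert_zero] at h1 h2
    omega
  · have h1 : perp B (Submodule.span F {b, c}) ≤ Submodule.span F {b, c} := by
      have := iso_iff_le_perp.mp (show Iso B (perp B (Submodule.span F {b, c})) from hc)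
      rwa [hB.perp_perp] at this
    have h3 := finrank_span_pair_le (F := F) b c
    have h4 := Submodule.eq_of_le_of_finrank_le h1 (by omega)
    have h5 : b ∈ perp B (Submodule.span F {b, c}) := by
      rw [h4]; exact Submodule.subset_span (by simp)
    exact hb (mem_perp_pair.mp h5).1

/-- An additive subgroup invariant under the Eichler transformations fixing `b`. -/
theorem herm_span4 (hB : HF B) (hn : 4 ≤ finrank F V) {b : V} (hb : b = 0 ∨ B b b ≠ 0)
    (A : AddSubgroup V)
    (hinv : ∀ c e l, B b c = 0 → B b e = 0 → ∀ d ∈ A, (hB.eich c e l).1 d ∈ A)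
    {d : V} (hd : d ∈ A) (hdb : d ∉ F ∙ b) {x : V} (hx : B b x = 0) : x ∈ A := by
  have step : ∀ c d, B b c = 0 → B c c = 0 → d ∈ A → B c d ≠ 0 →
      ∀ e, B b e = 0 → B c e = 0 → e ∈ A := by
    intro c d hbc hc hd hcd
    have hδ : ∀ e l, B b e = 0 → B c e = 0 → l + σ l = B e e →
        (B e d - l * B c d) • c - B c d • e ∈ A := fun e l h1 h2 h3 => by
      have := A.sub_mem (hinv c e l hbc h1 d hd) hd
      rw [hB.eich_apply hc h2 h3] at this
      convert this using 1
      abel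
    have hex : ∀ e, ∃ l, l + σ l = B e e := fun e => hB.toInv.exists_trace (hB.fix e)
    obtain ⟨e₁, he₁, e₂, he₂, h12⟩ := herm_perp_pair4 hB hn hb c
    rw [mem_perp_pair] at he₁ he₂
    have hcA : ∀ k : F, k • c ∈ A := fun k => by
      obtain ⟨l, hl⟩ := hex e₁
      set e := (k / (B c d * B e₁ e₂)) • e₂ with he
      have h1 : B b e = 0 := by simp [he, he₂.1]
      have h2 : B c e = 0 := by simp [he, he₂.2]
      obtain ⟨m, hm⟩ := hex e
      have := A.sub_mem (A.add_mem (hδ e₁ l he₁.1 he₁.2 hl) (hδ e m h1 h2 hm))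
        (hδ (e₁ + e) _ (by simp [h1, he₁.1]) (by simp [h2, he₁.2]) (hB.trace_add hl hm))
      convert this using 1
      have h3 : B e₁ e * B c d = k := by
        rw [he, map_smul, smul_eq_mul]
        field_simp
      rw [← h3, b_add_left]
      module
    intro e h1 h2
    obtain ⟨l, hl⟩ := hex ((B c d)⁻¹ • e)
    have := A.sub_mem (hcA (B ((B c d)⁻¹ • e) d - l * B c d))
      (hδ ((B c d)⁻¹ • e) l (by simp [h1]) (by simp [h2]) hl)
    rwa [sub_sub_cancel, smul_smul, mul_inv_cancel₀ hcd, one_smul] at this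
  obtain ⟨y, hy1, hy2⟩ := hB.exists_orth_one _ hdb
  obtain ⟨c, hc1, hc2, hc3⟩ := herm_iso_not_mem hB (by omega) b (X := LinearMap.ker (B d))
    (hB.zero_symm (hy1 b (Submodule.mem_span_singleton_self b)))
    (fun h => by simpa [hy2] using hB.zero_symm h)
  have h1 := step c d hc1 hc2 hd fun h => hc3 (hB.zero_symm h)
  have hiso : ∀ u, B b u = 0 → B u u = 0 → u ∈ A := by
    intro u hu1 hu2
    by_cases hu : B c u = 0
    · exact h1 u hu1 hu
    · exact step u c hu1 hu2 (h1 c hc1 hc2) (fun h => hu (hB.zero_symm h)) u hu1 hu2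
  by_cases hcx : B c x = 0
  · exact h1 x hx hcx
  obtain ⟨k, hk⟩ := hB.exists_iso_sub hc2 hcx
  have := A.add_mem (hiso _ (by simp [hx, hc1]) hk) (h1 (k • c) (by simp [hc1]) (by simp [hc2]))
  simpa using this

omit [Finite F] in
theorem herm_T_tv (hB : HF B) (hH : ∀ g ∈ SUG B, g.1 ∈ M) {a : V} (ha : B a a = 0) {s : F}
    (hs : s + σ s = 0) : T M a (s • B a) :=
  T.of_R (N := (s • B a).smulRight a)
    ⟨_, hH _ (hB.tv_mem_SUG ha s), fun x => hB.tv_apply ha hs x⟩ (by simp [ha]) fun _ => rfl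

/-- From a non-unitary transvection with isotropic centre to one with non-isotropic centre. -/
theorem herm_T_noniso (hB : HF B) (hn : 4 ≤ finrank F V) (hH : ∀ g ∈ SUG B, g.1 ∈ M) {b d : V}
    (hb : B b b = 0) (hb0 : b ≠ 0) (hbd : d ∉ F ∙ b) (hT : T M b (B d)) :
    ∃ b d, B b b ≠ 0 ∧ d ∉ F ∙ b ∧ T M b (B d) := by
  obtain ⟨s, hs0, hs⟩ := hB.toInv.exists_skew
  obtain ⟨y, hy1, hy2⟩ := hB.exists_orth_one _ hbd
  obtain ⟨c, hc1, hc2, hc3⟩ := herm_iso_not_mem hB hn b (X := LinearMap.ker (B d))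
    (hB.zero_symm (hy1 b (Submodule.mem_span_singleton_self b)))
    (fun h => by simpa [hy2] using hB.zero_symm h)
  replace hc3 : B d c ≠ 0 := hc3
  have hcb : B c b = 0 := hB.zero_symm hc1
  have h1 : T M b ((s * B d c) • B c) := by
    have := hT.comm_right (herm_T_tv hB hH hc2 hs).2 (herm_T_tv hB hH hc2 hs).sq (by simp [hcb])
    convert this using 1
    ext x
    simp only [LinearMap.smul_apply, smul_eq_mul, LinearMap.comp_apply, LinearMap.smulRight_apply,
      map_smul]
    ring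
  have hbc : b ∉ F ∙ c := fun h => by
    obtain ⟨k, rfl⟩ := Submodule.mem_span_singleton.mp h
    have h2 := hT.1
    rw [map_smul, smul_eq_mul, mul_eq_zero] at h2
    rcases h2 with rfl | h2
    · simp at hb0
    · exact hc3 h2
  obtain ⟨e, he1, he2⟩ := hB.exists_orth_one _ hbc
  have hec : B e c = 0 := he1 c (Submodule.mem_span_singleton_self c)
  have h2 : ∀ t : F, T M c (t • B c) := fun t => by
    set μ := t / (s * B d c) with hμ
    obtain ⟨l, hl⟩ := hB.toInv.exists_trace (hB.fix (σ μ • e))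
    have h3 : B c (σ μ • e) = 0 := by simp [hB.zero_symm hec]
    have h4 := h1.conj' (ψ := (s * B d c) • B c) (hH _ (hB.eich_mem_SUG c (σ μ • e) l)) fun x => by
      rw [hB.eich_apply hc2 h3 hl]
      simp [hc2, hB.zero_symm hec]
    rw [hB.eich_apply hc2 h3 hl] at h4
    have h5 := h4.sub_left h1
    simp only [b_smul_left, hB.invol, he2, hcb, mul_one, mul_zero, sub_zero, zero_smul,
      add_sub_cancel_left] at h5
    have h6 := h5.smul_right
    rwa [smul_smul, hμ, div_mul_cancel₀ _ (mul_ne_zero hs0 hc3)] at h6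
  have hc0 : c ≠ 0 := ne_zero_of_b' hc3
  obtain ⟨x, hx1, hx2⟩ := hB.exists_hyp hc0 hc2
  obtain ⟨t, ht⟩ := hB.toInv.exists_trace_one
  have hx3 := hB.one_symm hx1
  have h3 := (herm_T_tv hB hH hx2 hs).conj' (ψ := B (σ s • (x - σ t • c))) (h2 t).tv_mem
    fun y => by
      simp only [tv_apply, b_smul_left, b_sub_left, hB.invol, map_add, map_smul, hx3, hc2,
        LinearMap.smul_apply, smul_eq_mul]
      ring
  simp only [tv_apply, LinearMap.smul_apply, hx1, smul_eq_mul, mul_one] at h3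
  have h4 : B (x + t • c) (x + t • c) ≠ 0 := by
    rw [b_add_left, b_smul_left]
    simp only [map_add, map_smul, hx2, hx3, hx1, hc2, smul_eq_mul]
    rw [show 0 + t * 1 + σ t * (1 + t * 0) = t + σ t by ring, ht]
    exact one_ne_zero
  refine ⟨_, _, h4, fun h => ?_, h3⟩
  obtain ⟨k, hk⟩ := Submodule.mem_span_singleton.mp h
  have h5 := h3.1
  rw [← hk, b_smul_left, mul_eq_zero, map_eq_zero] at h5
  have h6 := congrArg (B c) hk
  rw [h5.resolve_right h4] at h6
  simp only [zero_smul, map_zero, map_smul, map_sub, hx1, hc2, smul_eq_mul, mul_zero, sub_zero,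
    mul_one] at h6
  exact hs0 ((map_eq_zero σ).mp h6.symm)

theorem sl_herm4 (hB : HF B) (hn : 4 ≤ finrank F V) (hH : ∀ g ∈ SUG B, g.1 ∈ M)
    (hg : ∃ g ∈ M, ¬ ∃ c : F, ∀ u v, B (g u) (g v) = c * B u v) : SLle M := by
  obtain ⟨g, hg, hg'⟩ := hg
  obtain ⟨s, hs0, hs⟩ := hB.toInv.exists_skew
  have hex : ∀ a, ∃ d, B d = B a ∘ₗ (g : V →ₗ[F] V) := fun a => hB.exists_dual_eq _
  choose f hf using hex
  have hf' : ∀ a x, B (f a) x = B a (g x) := fun a x => by rw [hf]; rfl
  have hext : ∀ x y, (∀ z, B x z = B y z) → x = y := fun x y h =>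
    sub_eq_zero.mp (hB.nd _ fun z => by rw [b_sub_left, h, sub_self])
  let f' : V →ₗ[F] V :=
    { toFun := f
      map_add' := fun x y => hext _ _ fun z => by simp [hf']
      map_smul' := fun c x => hext _ _ fun z => by simp [hf'] }
  obtain ⟨a, ha, haf⟩ : ∃ a, B a a = 0 ∧ g (f a) ∉ F ∙ a := by
    by_contra hc
    push Not at hc
    obtain ⟨k, hk⟩ := herm_scalar hB (by omega) (f := (g : V →ₗ[F] V) ∘ₗ f') hc
    refine hg' ⟨σ k, fun u v => ?_⟩
    have : f (g u) = k • u := g.injective (by rw [map_smul]; exact hk (g u))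
    rw [← hf', this, b_smul_left]
  obtain ⟨b, d, hb0, hbd, hT⟩ : ∃ b d, b ≠ 0 ∧ d ∉ F ∙ b ∧ T M b (B d) := by
    have h1 : T M a (s • B a) := herm_T_tv hB hH ha hs
    refine ⟨g.symm a, σ s • f a, fun h => haf ?_, fun h => haf ?_, ?_⟩
    · have : a = 0 := by simpa using h
      rw [this, show f 0 = 0 from map_zero f', map_zero]
      exact Submodule.zero_mem _
    · obtain ⟨k, hk⟩ := Submodule.mem_span_singleton.mp
        ((Submodule.smul_mem_iff _ ((map_ne_zero σ).mpr hs0)).mp h)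
      exact Submodule.mem_span_singleton.mpr ⟨k, by simp [← hk]⟩
    · exact h1.conj' (inv_mem hg) fun x => by
        change B (σ s • f a) (g.symm x) = _
        simp [hf', hB.invol]
  obtain ⟨b, d, hbb, hbd, hT⟩ : ∃ b d, B b b ≠ 0 ∧ d ∉ F ∙ b ∧ T M b (B d) := by
    by_cases h : B b b = 0
    · exact herm_T_noniso hB hn hH h hb0 hbd hT
    · exact ⟨b, d, h, hbd, hT⟩
  let A : AddSubgroup V :=
    { carrier := {d | T M b (B d)}
      add_mem' := fun {x y} hx hy => by
        change T M b (B (x + y))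
        rw [map_add]
        exact hx.add_right hy
      zero_mem' := by
        change T M b (B 0)
        rw [map_zero]
        exact T.zero_right b
      neg_mem' := fun {x} hx => by
        change T M b (B (-x))
        rw [map_neg]
        exact hx.neg_right }
  have hb : b ∈ full M := fun φ h => by
    obtain ⟨x, rfl⟩ := hB.exists_dual_eq φ
    refine herm_span4 hB hn (Or.inr hbb) A (fun c e l h1 h2 d hd => ?_) (d := d) hT hbd
      (hB.zero_symm h)
    have := T.conj' (ψ := B ((hB.eich c e l).1 d)) hd (hH _ (hB.eich_mem_SUG c e l))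
      fun x => by simp
    rwa [hB.eich_apply_of_orth l (hB.zero_symm h1) (hB.zero_symm h2)] at this
  refine sl_of_full fun x => herm_span4 hB hn (Or.inl rfl) (full M).toAddSubgroup
    (fun c e l _ _ d hd => map_mem_full hd (hH _ (hB.eich_mem_SUG c e l))) (d := b) hb
    (by simpa using ne_zero_of_b hbb) (by simp)

end

variable {F : Type*} [Field F] {ι : Type} [Fintype ι] [DecidableEq ι]

theorem max_herm4 [Finite F] (hn : 4 ≤ Fintype.card ι) {σ : F ≃+* F} {f : (ι → F) → (ι → F) → F}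
    (hf : Geo.IsUnitaryForm σ f) :
    Geo.IsMaximalIn (Geo.specialLinear ι F) (Geo.similarityGroup f ⊓ Geo.specialLinear ι F) := by
  have hn' : 4 ≤ finrank F (ι → F) := by simpa using hn
  have : Nontrivial (ι → F) := Module.nontrivial_of_finrank_pos (R := F) (by omega)
  have hnd := nd_left hf.nondegenerate
  refine isMaximalIn_SL' (fun g => ∃ c : F, ∀ u v, f (g u) (g v) = c * f u v)
    (fun g => exists_unit_iff hnd (Orth.glEquiv ι F g))
    (exists_SL_not_sim (by omega) f hf.add_left hnd) fun M hH _ ⟨g, hg, hg'⟩ =>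
      sl_herm4 (toHerm_hf hf) hn' (fun g hg => hH _ ?_ ⟨1, fun u v => ?_⟩)
        ⟨g, hg, fun ⟨c, hc⟩ => hg' ⟨c, fun u v => hc v u⟩⟩
  · exact Units.ext (Herm.mem_SUG.mp hg)
  · rw [one_mul]
    exact Herm.UG.map_b g v u

end Cfsg.Agent.Max
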