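import Mathlib
import Cfsg.Agent.Max.SLGeo

/-!
# The orthogonal group in `SL_n(q)`, `n ≥ 4`, `q` odd
-/

set_option autoImplicit false

namespace Cfsg.Agent.Max

open Module QuadraticMap Orth

section
variable {F V : Type*} [Field F] [AddCommGroup V] [Module F V] {M : Subgroup (V ≃ₗ[F] V)}
  {Q Q' : QuadraticForm F V} [FiniteDimensional F V]

theorem orth4_perp (hQ : ND Q) (hn : 4 ≤ finrank F V) {b : V} (hb : polar Q b b ≠ 0) (c : V) :
    ∃ v, polar Q b v = 0 ∧ polar Q c v = 0 ∧ Q v ≠ 0 := by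
  by_contra hc
  push Not at hc
  have h2 := hQ.finrank_perp_add (Submodule.span F {b, c})
  have h1 : perp Q (Submodule.span F {b, c}) ≤ Submodule.span F {b, c} := fun x hx => by
    rw [← hQ.perp_perp (Submodule.span F {b, c}), mem_perp]
    intro y hy
    have h3 := mem_perp_pair.mp hx
    have h4 := mem_perp_pair.mp hy
    have h5 := hc (y + x) (by simp [h3.1, h4.1]) (by simp [h3.2, h4.2])
    rwa [q_add, hc x h3.1 h3.2, hc y h4.1 h4.2, add_zero, zero_add] at h5
  have h3 := finrank_span_pair_le (F := F) b c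
  have h4 := Submodule.eq_of_le_of_finrank_le h1 (by omega)
  have h5 : b ∈ perp Q (Submodule.span F {b, c}) := by
    rw [h4]; exact Submodule.subset_span (by simp)
  exact hb (mem_perp_pair.mp h5).1

/-- All transvections with centre `z` and axis `z ^ ⊥` lie in `M`. -/
def OS (M : Subgroup (V ≃ₗ[F] V)) (Q : QuadraticForm F V) (z : V) : Prop :=
  ∀ μ : F, T M z (μ • Q.polarBilin z)

omit [FiniteDimensional F V] in
theorem OS.map {z : V} (h : OS M Q z) {g : OG Q} (hg : g.1 ∈ M) : OS M Q (g.1 z) := fun μ =>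
  (h μ).conj' hg fun x => by simp

omit [FiniteDimensional F V] in
theorem OS.of_smul {z : V} {c : F} (hc : c ≠ 0) (h : OS M Q (c • z)) : OS M Q z := fun μ => by
  have := (h (μ / c ^ 2)).smul_right
  rw [map_smul, smul_smul, smul_smul] at this
  rwa [show c * (μ / c ^ 2) * c = μ by field_simp] at this

theorem exists_hyp4 (hQ : ND Q) (h2 : (2 : F) ≠ 0) (hn : 4 ≤ finrank F V) {u : V} (hu : Q u = 0)
    (hu0 : u ≠ 0) : ∃ f w, polar Q u f = 1 ∧ Q f = 0 ∧ polar Q u w = 0 ∧ polar Q f w = 0 ∧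
      Q w ≠ 0 := by
  obtain ⟨f, hf1, hf2⟩ := hQ.exists_hyp hu0 hu
  obtain ⟨w, h1, h3, h4⟩ := orth4_perp hQ hn (b := u + f)
    (by rw [p_self, q_add, hu, hf2, hf1]; simpa using h2) u
  refine ⟨f, w, hf1, hf2, h3, ?_, h4⟩
  rwa [polar_add_left, h3, zero_add] at h1

variable [Finite F]

theorem OS.opp (hQ : ND Q) (h2 : (2 : F) ≠ 0) (hn : 4 ≤ finrank F V) (hE : HasE M Q) {u : V}
    (hu : Q u = 0) (hu0 : u ≠ 0) (h : OS M Q u) {z : V} (hz : Q z = 0) (huz : polar Q u z ≠ 0) :
    OS M Q z := by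
  obtain ⟨f, w, hf1, hf2, h1, h3, h4⟩ := exists_hyp4 hQ h2 hn hu hu0
  have h5 : polar Q u ((eich Q f w).1 u) ≠ 0 := by
    rw [eich_apply hf2 h3]
    simp [hu, hf1, h1, polar_comm Q f u, polar_symm_zero h1, h4]
  obtain ⟨v, -, hv⟩ := eich_trans_opp hu hz (y := (eich Q f w).1 u) (by simp [hu]) huz h5
  exact OS.of_smul (div_ne_zero h5 huz) (hv ▸ (h.map (hE.mem f w)).map (hE.mem u v))

theorem sl_orth4_A (hQ : ND Q) (h2 : (2 : F) ≠ 0) (hn : 4 ≤ finrank F V) (hE : HasE M Q) {u d : V}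
    (hu : Q u = 0) (hu0 : u ≠ 0) (hd : d ∉ F ∙ u) (hT : T M u (Q.polarBilin d)) : SLle M := by
  have hdu : polar Q d u = 0 := hT.1
  have hud := polar_symm_zero hdu
  have huu : polar Q u u = 0 := by simp [hu]
  obtain ⟨y, hy1, hy2⟩ := hQ.exists_orth_polar_one _ hd
  replace hy1 := hy1 u (Submodule.mem_span_singleton_self u)
  have hS : OS M Q u := fun μ => by
    have h3 : polar Q u (μ • y) = 0 := by simp [hy1]
    have h4 := hT.conj' (ψ := Q.polarBilin ((eich Q u (μ • y)).1 d)) (hE.mem u (μ • y))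
      fun x => by simp
    rw [eich_apply_left hu h3, eich_apply hu h3, hud, p_smul_left, polar_comm Q y d, hy2] at h4
    simpa using h4.sub_right hT
  have hS' : ∀ z, Q z = 0 → polar Q u z ≠ 0 → OS M Q z := fun z => hS.opp hQ h2 hn hE hu hu0
  obtain ⟨y', hy3, hy4⟩ := hQ.exists_orth_polar_one (F ∙ d) (u := u) fun h => by
    obtain ⟨k, rfl⟩ := Submodule.mem_span_singleton.mp h
    have hk : k ≠ 0 := by rintro rfl; simp at hu0
    exact hd (Submodule.mem_span_singleton.mpr ⟨k⁻¹, by simp [smul_smul, hk]⟩)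
  have h1 : Q.polarBilin d ∈ cofull M := mem_cofull.mpr fun a ha => by
    refine forall_of_add (P := fun a => T M a (Q.polarBilin d)) (W := LinearMap.ker (Q.polarBilin d))
      (X := LinearMap.ker (Q.polarBilin u)) (fun x y hx hy => hx.sub_left hy) (a := y')
      (hy3 d (Submodule.mem_span_singleton_self d)) (by simp [hy4]) (fun x hx hx' => ?_) ha
    replace hx : polar Q d x = 0 := hx
    replace hx' : polar Q u x ≠ 0 := hx'
    obtain ⟨k, hk⟩ := exists_sing_sub hu hx'
    have h3 : polar Q u (x - k • u) = polar Q u x := by simp [huu]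
    have h4 := (hS' _ hk (h3 ▸ hx') (polar Q u x)⁻¹).comm hT (by simp [hx, hdu])
    rw [LinearMap.smul_apply, polarBilin_apply_apply, polar_comm Q (x - k • u) u, h3, smul_eq_mul,
      inv_mul_cancel₀ hx', one_smul] at h4
    have h5 := (hS (k / polar Q u x)).comm h4 hdu
    rw [LinearMap.smul_apply, polarBilin_apply_apply, h3, smul_eq_mul,
      div_mul_cancel₀ _ hx'] at h5
    simpa using h4.add_left h5
  obtain ⟨f, hf1, -⟩ := hQ.exists_hyp hu0 hu
  have h3 : polar Q u (f + (1 - polar Q d f) • y) = 1 := by simp [hf1, hy1]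
  obtain ⟨k, hk⟩ := exists_sing_sub hu (h3 ▸ one_ne_zero)
  have h4 := (hS' _ hk (by simp [hf1, hy1, huu]) 1).mem_cofull h1 (by simp [hy2, hdu])
  have h5 := (hS 1).mem_cofull h4 (by
    simp [huu, polar_comm Q f u, hf1, polar_symm_zero hy1])
  rw [one_smul] at h5
  refine sl_of_cofull fun φ => ?_
  obtain ⟨a, ha⟩ := hQ.exists_polar_eq φ
  rw [show φ = Q.polarBilin a from LinearMap.ext fun x => (ha x).symm]
  refine forall_of_add (P := fun a => Q.polarBilin a ∈ cofull M) (W := ⊤)
    (X := LinearMap.ker (Q.polarBilin u))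
    (fun x y hx hy => by rw [map_sub]; exact (cofull M).sub_mem hx hy) (a := f) trivial
    (by simp [hf1]) (fun x _ hx => ?_) trivial
  replace hx : polar Q u x ≠ 0 := hx
  obtain ⟨j, hj⟩ := exists_sing_sub hu hx
  have h6 := (hS' _ hj (by simpa [huu] using hx) 1).mem_cofull h5 (by simpa [huu] using hx)
  simpa using (cofull M).add_mem h6 ((cofull M).smul_mem j h5)

/-- `M` contains the similarities of determinant one. -/
def HasH (M : Subgroup (V ≃ₗ[F] V)) (Q : QuadraticForm F V) : Prop :=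
  ∀ g : V ≃ₗ[F] V, LinearEquiv.det g = 1 → (∃ c : F, ∀ v, Q (g v) = c * Q v) → g ∈ M

omit [Finite F] [FiniteDimensional F V] in
theorem HasH.og (h : HasH M Q) {g : OG Q} (hg : detO Q g = 1) : g.1 ∈ M :=
  h _ (Units.ext (by rw [LinearEquiv.coe_det]; exact hg)) ⟨1, fun v => by simp⟩

theorem HasH.hasE (h : HasH M Q) : HasE M Q :=
  hasE_of fun u v => h _ (det_eich u v) ⟨1, fun v => by simp⟩

omit [Finite F] [FiniteDimensional F V] in
theorem HasH.comp (h : HasH M Q) {g : V ≃ₗ[F] V} (hg : g ∈ M) :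
    HasH M (Q.comp (g : V →ₗ[F] V)) := fun k hk ⟨c, hc⟩ => by
  have := h (g * k * g⁻¹) (by simp [hk]) ⟨c, fun v => by
    have := hc (g.symm v)
    simpa using this⟩
  have h1 := mul_mem (mul_mem (inv_mem hg) this) hg
  rwa [show g⁻¹ * (g * k * g⁻¹) * g = k by group] at h1

theorem sl_orth4_T (hQ : ND Q) (h2 : (2 : F) ≠ 0) (hn : 4 ≤ finrank F V) (hH : HasH M Q) {u : V}
    (hu : Q u = 0) (hu0 : u ≠ 0) {φ : Dual F V} (hφ : φ ≠ 0) (hT : T M u φ) : SLle M := by
  have hE := hH.hasE
  obtain ⟨d, hd⟩ := hQ.exists_polar_eq φ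
  obtain rfl : φ = Q.polarBilin d := LinearMap.ext fun x => (hd x).symm
  by_cases hdu : d ∈ F ∙ u
  swap
  · exact sl_orth4_A hQ h2 hn hE hu hu0 hdu hT
  obtain ⟨c, rfl⟩ := Submodule.mem_span_singleton.mp hdu
  have hc : c ≠ 0 := by
    rintro rfl
    simp at hφ
  obtain ⟨f, w, hf1, hf2, h1, h3, h4⟩ := exists_hyp4 hQ h2 hn hu hu0
  have hfu : polar Q f u = 1 := by rw [polar_comm, hf1]
  have huu : polar Q u u = 0 := by simp [hu]
  have hff : polar Q f f = 0 := by simp [hf2]
  have h5 : ∀ l : F, T M u ((l ^ 2 * c) • Q.polarBilin u) := fun l => by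
    by_cases hl : l = 0
    · simpa [hl] using T.zero_right u
    have q1 : ∀ l : F, Q (u - l • f) = -l := fun l => by
      rw [q_sub, q_smul, p_smul_right, hu, hf2, hf1]; ring
    have h6 : (refl Q (u - (1 : F) • f) * refl Q (u - l • f)).1 u = l • u := by
      change (refl Q _).1 ((refl Q _).1 u) = _
      simp only [refl_apply, q1, polar_sub_left, polar_sub_right, p_smul_left, p_smul_right, huu,
        hff, hf1, hfu]
      match_scalars <;> field_simp <;> ring
    have h7 := hT.conj' (ψ := Q.polarBilin (c • l • u)) (hH.og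
      (g := refl Q (u - (1 : F) • f) * refl Q (u - l • f)) (by
        rw [map_mul, detO_refl (by rw [q1]; simp), detO_refl (by rw [q1]; simpa)]; simp)) fun x => by
      rw [← h6, ← map_smul]
      simp only [polarBilin_apply_apply, OG.map_polar]
    rw [h6] at h7
    have h8 := h7.smul_right
    rwa [map_smul, map_smul, smul_smul, smul_smul, show l * c * l = l ^ 2 * c by ring] at h8
  have hS : OS M Q u := fun μ => by
    have := (h5 ((μ / c + 1) / 2)).sub_right (h5 ((μ / c - 1) / 2))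
    convert this using 1
    match_scalars
    field_simp
    ring
  have hSf := hS.opp hQ h2 hn hE hu hu0 hf2 (by simp [hf1])
  have hwu := polar_symm_zero h1
  have hwf := polar_symm_zero h3
  have h6 := hS.map (hE.mem f w) 1
  rw [eich_apply hf2 h3, hwu, hfu] at h6
  have h7 := h6.conj' (ψ := Q.polarBilin (-(Q w • f) - w)) (hS (-(Q w)⁻¹)).tv_mem fun x => by
    simp only [tv_apply, map_add, map_smul, map_sub, map_neg, LinearMap.smul_apply,
      LinearMap.add_apply, LinearMap.sub_apply, LinearMap.neg_apply, polarBilin_apply_apply,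
      smul_eq_mul, hfu, hwu]
    field_simp
    ring
  have h8 := h7.conj' (ψ := Q.polarBilin (-(Q w • f) - w)) (hSf (Q w / 4)).tv_mem fun x => by
    simp [hff, hwf]
  have h44 : (4 : F) ≠ 0 := by
    rw [show (4 : F) = 2 * 2 by norm_num]
    exact mul_ne_zero h2 h2
  have h9 : tv f ((Q w / 4) • Q.polarBilin f) (hSf (Q w / 4)).1
      (tv u (-(Q w)⁻¹ • Q.polarBilin u) (hS (-(Q w)⁻¹)).1
        (u + (0 - Q w * 1) • f - (1 : F) • w)) = (2 : F) • u - (Q w / 2) • f - w := by
    simp only [tv_apply, map_add, map_smul, map_sub, LinearMap.smul_apply,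
      polarBilin_apply_apply, smul_eq_mul, hfu, huu, hff, hf1, h1, h3]
    match_scalars <;> field_simp <;> ring
  rw [h9] at h8
  refine sl_orth4_A hQ h2 hn hE ?_ (fun h => h2 ?_) (fun h => h4 ?_) h8
  · simp only [q_sub, q_smul, polar_sub_left, p_smul_left, p_smul_right, hu, hf2, hf1, h1, h3]
    field_simp
    ring
  · simpa [hfu, hff, h3] using congrArg (polar Q f) h
  · obtain ⟨k, hk⟩ := Submodule.mem_span_singleton.mp h
    have h10 := congrArg (polar Q f) hk
    have h11 := congrArg (polar Q u) hk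
    simp only [p_smul_right, polar_sub_right, polar_neg_right, hfu, hff, h3, huu, hf1, h1,
      mul_zero, mul_one, sub_zero, neg_zero, mul_eq_zero, h2, or_false] at h10 h11
    simpa [h10] using h11

/-- Two quadratic forms with a common singular vector. -/
theorem orth_two4 (hQ : ND Q) (h2 : (2 : F) ≠ 0) (hn : 4 ≤ finrank F V)
    (hE : HasE M Q) (hE' : HasE M Q') {u : V} (hu : Q u = 0) (hu' : Q' u = 0) (hu0 : u ≠ 0) :
    (∃ φ, φ ≠ 0 ∧ T M u φ) ∨
      ∃ l : F, ∀ v, polar Q u v = 0 → Q'.polarBilin v = l • Q.polarBilin v := by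
  have huu : polar Q u u = 0 := by simp [hu]
  have huu' : polar Q' u u = 0 := by simp [hu']
  by_cases h : Q'.polarBilin u ∈ F ∙ Q.polarBilin u
  · obtain ⟨l, hl⟩ := Submodule.mem_span_singleton.mp h
    have hl' : ∀ x, polar Q' u x = l * polar Q u x := fun x => (LinearMap.congr_fun hl x).symm
    by_cases h' : ∀ v, polar Q u v = 0 → Q'.polarBilin v - l • Q.polarBilin v +
        (l ^ 2 * Q v - l * Q' v) • Q.polarBilin u = 0
    · refine Or.inr ⟨l, fun v hv => ?_⟩
      have h3 := h' v hv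
      have h4 := LinearMap.congr_fun h3 v
      simp only [LinearMap.add_apply, LinearMap.sub_apply, LinearMap.smul_apply,
        polarBilin_apply_apply, p_self, hv, smul_eq_mul, LinearMap.zero_apply] at h4
      have h5 : Q' v = l * Q v := by
        apply mul_left_cancel₀ h2
        linear_combination h4
      rw [h5, show l ^ 2 * Q v - l * (l * Q v) = 0 by ring, zero_smul, add_zero, sub_eq_zero] at h3
      exact h3
    · push Not at h'
      obtain ⟨v, hv, hφ⟩ := h'
      obtain ⟨g, hg, e⟩ := hE u (l • v) hu (by simp [hv])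
      obtain ⟨g', hg', e'⟩ := hE' u v hu' (by rw [hl', hv, mul_zero])
      set φ := Q'.polarBilin v - l • Q.polarBilin v +
        (l ^ 2 * Q v - l * Q' v) • Q.polarBilin u with hφ'
      have hgu : g u = u := by
        rw [e, eN_apply, p_smul_left, polar_symm_zero hv, huu]
        simp
      refine Or.inl ⟨φ ∘ₗ (g.symm : V →ₗ[F] V), fun h0 => hφ (LinearMap.ext fun x => ?_), ?_, ?_⟩
      · simpa using LinearMap.congr_fun h0 (g x)
      · have : g.symm u = u := g.symm_apply_eq.mpr hgu.symm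
        have h5 : polar Q' v u = 0 := polar_symm_zero (by rw [hl', hv, mul_zero])
        simp [this, hφ', h5, polar_symm_zero hv, hu]
      · refine R.of_mul_inv hg' hg fun x => ?_
        simp only [LinearMap.smulRight_apply, LinearMap.comp_apply, LinearEquiv.coe_coe,
          LinearEquiv.symm_apply_apply]
        simp only [e, e', eN_apply, hφ', LinearMap.add_apply, LinearMap.sub_apply,
          LinearMap.smul_apply, polarBilin_apply_apply, p_smul_left, q_smul, hl', smul_eq_mul]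
        module
  left
  have hb : Q.polarBilin u ≠ 0 := fun h0 => hu0 (hQ u fun y => LinearMap.congr_fun h0 y)
  by_cases hc : ∃ v w, polar Q u v = 0 ∧ polar Q' u v = 0 ∧ polar Q u w = 0 ∧ polar Q' u w = 0 ∧
      (polar Q v w ≠ 0 ∨ polar Q' w v ≠ 0)
  · obtain ⟨v, w, hv1, hv2, hw1, hw2, hvw⟩ := hc
    refine ⟨(-polar Q v w) • Q'.polarBilin u + polar Q' w v • Q.polarBilin u, fun h0 => ?_,
      by simp [hu, hu'], ?_⟩
    · exact hvw.elim (fun h1 => h1 (neg_eq_zero.mp (eq_of_indep h hb h0).1))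
        fun h1 => h1 (eq_of_indep h hb h0).2
    · refine (hE u v hu hv1).bracket (hE' u w hu' hw2) (fun x => ?_) (fun x => ?_) (fun x => ?_)
      · simp only [eN_apply, LinearMap.smulRight_apply, LinearMap.add_apply, LinearMap.smul_apply,
          polarBilin_apply_apply, polar_sub_right, p_smul_right, huu, huu', hv1, hv2, hw1, hw2,
          polar_symm_zero hv1, polar_symm_zero hw2, smul_eq_mul]
        module
      · simp [eN_apply, hu, hu', hv1, hv2]
      · simp [eN_apply, hu, hu', hw1, hw2]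
  push Not at hc
  obtain ⟨w, ⟨⟨-, hw1⟩, hw2⟩, hwu⟩ := exists_not_mem_of_finrank_lt (W := F ∙ u)
    (U := ⊤ ⊓ LinearMap.ker (Q.polarBilin u) ⊓ LinearMap.ker (Q'.polarBilin u)) (by
      have h1 := finrank_le_inf_ker (⊤ : Submodule F V) (Q.polarBilin u)
      have h2 := finrank_le_inf_ker (⊤ ⊓ LinearMap.ker (Q.polarBilin u)) (Q'.polarBilin u)
      have h3 := finrank_span_one_le (F := F) u
      rw [finrank_top] at h1
      omega)
  replace hw1 : polar Q u w = 0 := hw1
  replace hw2 : polar Q' u w = 0 := hw2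
  obtain ⟨hww, hww'⟩ := hc w w hw1 hw2 hw1 hw2
  have hw : Q w = 0 := by simpa [h2] using hww
  have hw' : Q' w = 0 := by simpa [h2] using hww'
  obtain ⟨y, hy1, hy2⟩ := hQ.exists_orth_polar_one _ hwu
  replace hy1 := hy1 u (Submodule.mem_span_singleton_self u)
  obtain ⟨k, hk⟩ := exists_sing_sub hw (hy2 ▸ one_ne_zero)
  obtain ⟨z, hz, h3, h4⟩ : ∃ z, Q z = 0 ∧ polar Q u z = 0 ∧ polar Q w z = 1 :=
    ⟨_, hk, by simp [hy1, hw1], by simp [hy2, hww]⟩
  have h5 : polar Q' u z ≠ 0 := fun h5 => by simpa [h4] using (hc w z hw1 hw2 h3 h5).1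
  have hzu := polar_symm_zero h3
  have hzw : polar Q z w = 1 := by rw [polar_comm, h4]
  have hzz : polar Q z z = 0 := by simp [hz]
  have hwu' := polar_symm_zero hw2
  have hN := hE' u w hu' hw2
  have key : ∀ ε : F, R M ((Q'.polarBilin w + (ε * polar Q' w z) • Q.polarBilin u).smulRight u -
      (Q'.polarBilin u + (ε * polar Q' u z) • Q.polarBilin u).smulRight (w + ε • u)) := fun ε =>
    hN.conj' (hE.mem u (ε • z)) fun x => by
      have h6 : polar Q u (ε • z) = 0 := by simp [h3]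
      simp only [eich_apply hu h6, eN_apply, q_smul, hz, hw', LinearMap.sub_apply,
        LinearMap.smulRight_apply, LinearMap.add_apply, LinearMap.smul_apply,
        polarBilin_apply_apply, polar_add_right, polar_sub_right, p_smul_right, p_smul_left, huu,
        huu', h3, hw1, hw2, hwu', hzu, hzw, smul_eq_mul]
      module
  have h7 := (((key 1).add (key (-1)) fun x => by simp [huu, huu', hw1, hw2, hwu', hww']).sub hN
    (fun x => by simp [eN_apply, huu', hw2, hwu', hww'])
    (fun x => by simp [eN_apply, huu, huu', hw1, hw2, hwu', hww'])).sub hN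
    (fun x => by simp [eN_apply, huu', hw2, hwu', hww'])
    (fun x => by simp [eN_apply, huu, huu', hw1, hw2, hwu', hww'])
  refine ⟨(-(2 * polar Q' u z)) • Q.polarBilin u, smul_ne_zero (by simp [h2, h5]) hb,
    T.of_R h7 (by simp [huu]) fun x => ?_⟩
  simp only [eN_apply, hw', LinearMap.sub_apply, LinearMap.smulRight_apply, LinearMap.add_apply,
    LinearMap.smul_apply, polarBilin_apply_apply, smul_eq_mul]
  module

omit [Finite F] [FiniteDimensional F V] in
theorem nd_comp (hQ : ND Q) (g : V ≃ₗ[F] V) : ND (Q.comp (g : V →ₗ[F] V)) := fun x hx => by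
  have := hQ (g x) fun y => by
    have := hx (g.symm y)
    simpa [polar] using this
  simpa using this

theorem sl_orth4_pair (hQ : ND Q) (h2 : (2 : F) ≠ 0) (hn : 4 ≤ finrank F V) (hH : HasH M Q)
    {g : V ≃ₗ[F] V} (hg : g ∈ M) (hg1 : LinearEquiv.det g = 1)
    (hg' : ¬ ∃ c : F, ∀ v, Q (g v) = c * Q v) {u : V} (hu : Q u = 0) (hu' : Q (g u) = 0)
    (hu0 : u ≠ 0) : SLle M := by
  rcases orth_two4 hQ h2 hn hH.hasE (hH.comp hg).hasE hu hu' hu0 with ⟨φ, h3, h4⟩ | ⟨l, hl⟩
  · exact sl_orth4_T hQ h2 hn hH hu hu0 h3 h4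
  have hl' : ∀ v, polar Q u v = 0 → ∀ x, polar Q (g v) (g x) = l * polar Q v x := fun v hv x => by
    have := LinearMap.congr_fun (hl v hv) x
    simpa [polar] using this
  have huu : polar Q u u = 0 := by simp [hu]
  obtain ⟨f, hf1, hf2⟩ := hQ.exists_hyp hu0 hu
  have hl0 : l ≠ 0 := by
    rintro rfl
    refine hu0 (g.map_eq_zero_iff.mp (hQ _ fun y => ?_))
    rw [← g.apply_symm_apply y, hl' u huu, zero_mul]
  have h3 : ∀ x, Q (g x) = l * Q x + Q (g f) * polar Q u x ^ 2 := fun x => by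
    have h4 : polar Q u (x - polar Q u x • f) = 0 := by simp [hf1]
    have h5 := hl' _ h4 (x - polar Q u x • f)
    have h6 := hl' _ h4 f
    rw [p_self, p_self] at h5
    have h7 : ∀ Q : QuadraticForm F V, ∀ a b : V, ∀ c : F,
        Q a = Q (a - c • b) + c * polar Q (a - c • b) b + c ^ 2 * Q b := fun Q a b c => by
      rw [q_sub, q_smul, polar_sub_left, p_smul_left, p_smul_right, p_self]; ring
    rw [h7 Q (g x) (g f) (polar Q u x), h7 Q x f (polar Q u x), ← map_smul, ← map_sub, h6, hf2]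
    apply mul_left_cancel₀ h2
    linear_combination h5
  have h0 : ((Q (g f) / l) • Q.polarBilin u) u = 0 := by simp [huu]
  refine sl_orth4_T hQ h2 hn hH hu hu0 (φ := (Q (g f) / l) • Q.polarBilin u) (fun h => hg' ⟨l,
    fun v => ?_⟩) (T.of_tv (h := h0) ?_)
  · have := LinearMap.congr_fun h f
    simp [hf1, hl0] at this
    rw [h3, this, zero_mul, add_zero]
  · have := hH (g * (tv u _ h0)⁻¹) (by simp [hg1, det_tv]) ⟨l, fun v => by
      change Q (g ((tv u _ h0).symm v)) = _
      rw [h3, tv_symm_apply, q_sub, q_smul, hu, polar_sub_right, p_smul_right, p_smul_right, huu,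
        polar_comm Q v u, LinearMap.smul_apply, polarBilin_apply_apply, smul_eq_mul]
      field_simp
      ring⟩
    simpa using mul_mem (inv_mem this) hg

theorem sl_orth4 (hQ : ND Q) (h2 : (2 : F) ≠ 0) (hn : 4 ≤ finrank F V) (hH : HasH M Q)
    (hM : ∀ g ∈ M, LinearEquiv.det g = 1) (hg : ∃ g ∈ M, ¬ ∃ c : F, ∀ v, Q (g v) = c * Q v) :
    SLle M := by
  obtain ⟨g, hg, hg'⟩ := hg
  obtain ⟨x, hx0, hx⟩ := exists_singular (Q.comp (g : V →ₗ[F] V)) (by omega)
  by_cases h3 : Q x = 0
  · exact sl_orth4_pair hQ h2 hn hH hg (hM g hg) hg' h3 hx hx0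
  obtain ⟨u, ⟨-, hu1⟩, hu0, hu⟩ := exists_sing_mem Q (⊤ ⊓ LinearMap.ker (Q.polarBilin x)) (by
    have := finrank_le_inf_ker (⊤ : Submodule F V) (Q.polarBilin x)
    rw [finrank_top] at this
    omega)
  replace hu1 : polar Q x u = 0 := hu1
  obtain ⟨v, h4, h5, h6⟩ := orth4_perp hQ hn (b := x) (by simp [h2, h3]) u
  have ht := hH.hasE.mem u v
  have h7 : (eich Q u v).1 x = x :=
    eich_apply_of_orth hu h5 (polar_symm_zero hu1) (polar_symm_zero h4)
  by_cases h8 : ∃ c : F, ∀ y, Q (g ((eich Q u v).1 y)) = c * Q (g y)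
  swap
  · exact sl_orth4_pair (nd_comp hQ g) h2 hn (hH.comp hg) ht (det_eich u v) h8 hx
      (by rw [h7]; exact hx) hx0
  refine sl_orth4_pair hQ h2 hn hH hg (hM g hg) hg' hu ?_ hu0
  obtain ⟨c, hc⟩ := h8
  by_contra h9
  have h10 := hc u
  rw [eich_apply_left hu h5] at h10
  have h11 : c = 1 := mul_right_cancel₀ h9 (by rw [← h10, one_mul])
  have h12 := hc (u + v)
  have h13 := hc v
  rw [map_add, eich_apply_left hu h5] at h12
  simp only [eich_apply hu h5, h5, h11, p_self, map_add, map_smul, map_sub, q_add, q_sub, q_smul,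
    polar_add_right, polar_add_left, p_smul_right, p_smul_left, zero_smul, sub_zero, mul_zero,
    polar_comm Q (g v) (g u)] at h12 h13
  exact mul_ne_zero (mul_ne_zero h2 h2) (mul_ne_zero h6 h9) (by linear_combination h12 - h13)

end

variable {F : Type*} [Field F] {ι : Type} [Fintype ι] [DecidableEq ι]

theorem max_orth4 [Finite F] (h2 : (2 : F) ≠ 0) (hn : 4 ≤ Fintype.card ι) {Q : (ι → F) → F}
    (hQ : Geo.IsNondegenerateQuadraticForm Q) :
    Geo.IsMaximalIn (Geo.specialLinear ι F)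
      (Geo.quadSimilarityGroup Q ⊓ Geo.specialLinear ι F) := by
  have hn' : 4 ≤ finrank F (ι → F) := by simpa using hn
  have : Nontrivial (ι → F) := Module.nontrivial_of_finrank_pos (R := F) (by omega)
  have hnd := nd_left hQ.nondegenerate
  have hp : ∀ (g : (ι → F) ≃ₗ[F] (ι → F)) (c : F), (∀ v, Q (g v) = c * Q v) →
      ∀ u v, polar Q (g u) (g v) = c * polar Q u v := fun g c h u v => by
    simp only [polar, ← map_add, h]
    ring
  refine isMaximalIn_SL' (fun g => ∃ c : F, ∀ v, Q (g v) = c * Q v)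
    (fun g => ⟨fun ⟨c, hc⟩ => ⟨c, hc⟩, fun ⟨c, hc⟩ => ⟨Units.mk0 c ?_, hc⟩⟩) ?_
    fun M hH hM hg => sl_orth4 (toQuad_nd hQ) h2 hn' hH hM hg
  · rintro rfl
    obtain ⟨v, hv⟩ := (toQuad_nd hQ).exists_nonsingular
    refine hv ?_
    rw [← (glEquiv ι F g).apply_symm_apply v]
    exact (hc _).trans (zero_mul _)
  · obtain ⟨g, hg, hg'⟩ := exists_SL_not_sim (by omega) (polar Q) hQ.polar_bilinear.add_left hnd
    exact ⟨g, hg, fun ⟨c, hc⟩ => hg' ⟨c, hp g c hc⟩⟩

end Cfsg.Agent.Max
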