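import Mathlib
import Cfsg.Agent.Max.ONon
import Cfsg.Agent.Max2.SS3
import Cfsg.Agent.Max2.SpO4

/-!
# Tensor decompositions whose stabilisers are not maximal
-/

set_option autoImplicit false

namespace Cfsg.Agent.Max

open Module QuadraticMap Orth Max2 TensorProduct Classical.SpWitt
open scoped MatrixGroups

theorem between_of_equiv {G G' : Type*} [Group G] [Group G'] (ρ : G ≃* G') {I H : Subgroup G}
    (PI PH : G' → Prop) (hI : ∀ g, g ∈ I ↔ PI (ρ g)) (hH : ∀ g, g ∈ H ↔ PH (ρ g))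
    (h : ∃ K : Subgroup G', (∀ g, PI g → PH g → g ∈ K) ∧ (∃ g, PI g ∧ g ∈ K ∧ ¬ PH g) ∧
      ∃ g, PI g ∧ g ∉ K) : ∃ L, H ⊓ I < L ∧ L < I := by
  obtain ⟨K, h1, ⟨g, g1, g2, g3⟩, k, k1, k2⟩ := h
  refine ⟨K.comap ρ.toMonoidHom ⊓ I, lt_of_le_not_ge (fun x hx =>
    ⟨h1 _ ((hI x).1 hx.2) ((hH x).1 hx.1), hx.2⟩) fun h => g3 ?_,
    lt_of_le_not_ge inf_le_right fun h => k2 ?_⟩
  · simpa [hH] using (h (x := ρ.symm g) ⟨by simpa using g2, by simpa [hI]⟩).1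
  · simpa using (h (x := ρ.symm k) (by simpa [hI])).1

variable {F U W V : Type*} [Field F] [AddCommGroup U] [Module F U] [AddCommGroup W] [Module F W]
  [AddCommGroup V] [Module F V]

/-- The stabiliser of a set of vectors. -/
def sSt (F : Type*) [Field F] [Module F V] (S : Set V) : Subgroup (V ≃ₗ[F] V) where
  carrier := {g | ∀ v, v ∈ S ↔ g v ∈ S}
  one_mem' v := by simp
  mul_mem' {a b} ha hb v := by rw [LinearEquiv.mul_apply, ← ha, ← hb]
  inv_mem' {a} ha v := by rw [ha (a⁻¹ v)]; simp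

theorem mem_omegaGL' {ι : Type} [Fintype ι] [DecidableEq ι] {Q : QuadraticForm F (ι → F)}
    (E : (ι → F) ≃ₗ[F] V) (g : GL ι F) : g ∈ Geo.omegaGL ⇑Q ↔
      ((glEquiv _ F).trans (cong E)) g ∈ OM (Q.comp E.symm.toLinearMap) := by
  let e : Q.IsometryEquiv (Q.comp E.symm.toLinearMap) := ⟨E, fun x => by simp⟩
  refine (mem_omegaGL g).trans ⟨?_, ?_⟩
  · rintro ⟨x, hx, h⟩
    exact ⟨_, map_mem_commutator (ogCongr e).toMonoidHom hx, by
      rw [MulEquiv.trans_apply, ← h]; rfl⟩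
  · rintro ⟨x, hx, h⟩
    refine ⟨_, map_mem_commutator (ogCongr e).symm.toMonoidHom hx, (cong E).injective ?_⟩
    rw [MulEquiv.trans_apply] at h
    rw [← h]
    exact congrArg Subtype.val ((ogCongr e).apply_symm_apply x)

theorem not_pure {u₁ u₂ u : U} {y w z : W} (h1 : u₁ ≠ 0) (hw : w ≠ 0) {φ : Dual F W}
    (h2 : φ w = 0) (h3 : φ y ≠ 0) (e : u₁ ⊗ₜ[F] y + u₂ ⊗ₜ w = u ⊗ₜ z) : u₂ ∈ F ∙ u₁ := by
  obtain ⟨ψ, hψ⟩ := exists_dual_one (F := F) hw
  have e1 := congrArg (cW U φ) e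
  have e2 := congrArg (cW U ψ) e
  simp only [map_add, cW_tmul, h2, hψ, zero_smul, add_zero, one_smul] at e1 e2
  have h4 : φ z ≠ 0 := fun h => by simp [h, h1, h3] at e1
  have h5 : u ∈ F ∙ u₁ := (Submodule.smul_mem_iff _ h4).1
    (e1 ▸ Submodule.smul_mem _ _ (Submodule.mem_span_singleton_self _))
  rw [eq_sub_of_add_eq' e2]
  exact sub_mem (Submodule.smul_mem _ _ h5)
    (Submodule.smul_mem _ _ (Submodule.mem_span_singleton_self _))

theorem ten_frame [Finite F] [FiniteDimensional F U] [FiniteDimensional F W] (A : Set U)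
    (PI : ((U ⊗[F] W) ≃ₗ[F] (U ⊗[F] W)) → Prop)
    (h1 : ∀ g, PI g → ∀ (a : U ≃ₗ[F] U) (b : W ≃ₗ[F] W), (∀ u w, g (u ⊗ₜ w) = a u ⊗ₜ b w) →
      ∀ u ∈ A, a u ∈ A) {e f : U} (he : e ∈ A) {φ : Dual F U} (hA : ∀ u ∈ A, u ∈ F ∙ e ∨ φ u = 0)
    (he0 : φ e ≠ 0) (hf : f ≠ 0) (hf0 : φ f = 0)
    (h2 : ∃ g, PI g ∧ (∀ u w, ∃ y, g (u ⊗ₜ w) = u ⊗ₜ w + φ u • e ⊗ₜ y) ∧
      ∃ w y, g (e ⊗ₜ w) = e ⊗ₜ y ∧ y ∉ F ∙ w)
    (h3 : ∃ g, PI g ∧ ∃ y y' w f', ∃ ψ : Dual F W, g (e ⊗ₜ y) = e ⊗ₜ y' + f' ⊗ₜ w ∧ f' ∉ F ∙ e ∧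
      w ≠ 0 ∧ ψ w = 0 ∧ ψ y' ≠ 0) :
    ∃ K : Subgroup ((U ⊗[F] W) ≃ₗ[F] (U ⊗[F] W)), (∀ g, PI g → IsT g → g ∈ K) ∧
      (∃ g, PI g ∧ g ∈ K ∧ ¬ IsT g) ∧ ∃ g, PI g ∧ g ∉ K := by
  have : Finite (U ⊗[F] W) := Module.finite_of_finite F
  have e0 : e ≠ 0 := by rintro rfl; simp at he0
  obtain ⟨g, g1, g2, w, y, g3, g4⟩ := h2
  obtain ⟨k, k1, z, z', v, f', ψ, k2, k3, k4, k5, k6⟩ := h3
  refine ⟨sSt F {x | ∃ u ∈ A, ∃ w, x = u ⊗ₜ w}, fun g hg ⟨a, b, hab⟩ =>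
    iff_of_mapsTo g.injective ?_, ⟨g, g1, iff_of_mapsTo g.injective ?_, fun ⟨a, b, hab⟩ => g4 ?_⟩,
    k, k1, fun h => k3 ?_⟩
  · rintro _ ⟨u, hu, w, rfl⟩
    exact ⟨_, h1 g hg a b hab u hu, _, hab u w⟩
  · rintro _ ⟨u, hu, w, rfl⟩
    obtain ⟨y, hy⟩ := g2 u w
    rcases hA u hu with h | h
    · obtain ⟨c, rfl⟩ := Submodule.mem_span_singleton.1 h
      exact ⟨_, hu, w + φ e • y, by
        rw [hy, tmul_add, map_smul, smul_eq_mul, mul_comm, mul_smul, smul_tmul', tmul_smul]⟩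
    · exact ⟨u, hu, w, by simpa [h] using hy⟩
  · obtain ⟨y', hy'⟩ := g2 f w
    rw [hf0, zero_smul, add_zero, hab] at hy'
    exact (Submodule.span_singleton_le_iff_mem _ _).2
      (mem_span_of_tmul_eq' (by simpa using hf) hy') (mem_span_of_tmul_eq' e0 (g3.symm.trans (hab _ _)))
  · obtain ⟨u, -, w, hw⟩ := (h _).1 ⟨e, he, z, rfl⟩
    exact not_pure e0 k4 k5 k6 (k2.symm.trans hw)

theorem sim_of_tb {B : LinearMap.BilinForm F (U ⊗[F] W)} {p : LinearMap.BilinForm F U}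
    {β : LinearMap.BilinForm F W} (h : TB B p β) (hp : ∃ u u', p u u' ≠ 0) (hβ : ∃ w w', β w w' ≠ 0)
    {g : (U ⊗[F] W) ≃ₗ[F] (U ⊗[F] W)} (hg : g ∈ SG B) {a : U ≃ₗ[F] U} {b : W ≃ₗ[F] W}
    (e : ∀ u w, g (u ⊗ₜ w) = a u ⊗ₜ b w) : ∃ μ : F, μ ≠ 0 ∧ (∀ u u', p (a u) (a u') = μ * p u u') ∧
      ∀ w w', μ * β (b w) (b w') = β w w' := by
  obtain ⟨u, u', hu⟩ := hp
  obtain ⟨w, w', hw⟩ := hβ
  have k : ∀ u w u' w', p (a u) (a u') * β (b w) (b w') = p u u' * β w w' := fun u w u' w' => by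
    rw [← h, ← h, ← e, ← e, hg]
  have h1 : β (b w) (b w') ≠ 0 := fun e => by simpa [e, hu, hw] using k u w u' w'
  have h2 : ∀ u u', p (a u) (a u') = β w w' / β (b w) (b w') * p u u' := fun u u' => by
    field_simp
    linear_combination k u w u' w'
  exact ⟨_, div_ne_zero hw h1, h2, fun v v' => mul_left_cancel₀ hu (by
    linear_combination k u v u' v' - β (b v) (b v') * h2 u u')⟩

theorem sim_three [Finite F] [FiniteDimensional F U] {Q : QuadraticForm F U} (hQ : ND Q)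
    (h3 : finrank F U = 3) {a : U ≃ₗ[F] U} {μ : F} (h : ∀ u, Q (a u) = μ * Q u) :
    ∃ s, μ = s ^ 2 := by
  obtain ⟨e, he0, he1⟩ := exists_singular Q h3.ge
  obtain ⟨f, -, -, -, X, -, u2, u3, u4⟩ := (nds_top hQ).exists_hyp trivial he0 he1
  obtain ⟨z, hz, hz0⟩ := u2.exists_nonsing (by rw [finrank_top] at u3; omega)
  obtain ⟨s, hs⟩ := (nds_top hQ).three_val (by rwa [finrank_top]) (w := e) (w' := a e) (u := z)
    (u' := a z) trivial trivial trivial trivial he0 (by simpa) he1 (by simp [h, he1]) (u4 z hz).1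
    (by have := (u4 z hz).1
        simp only [polar, ← map_add, h] at this ⊢
        linear_combination μ * this) hz0
  exact ⟨s, mul_right_cancel₀ hz0 ((h z).symm.trans hs)⟩

theorem frame_three [Finite F] [FiniteDimensional F U] (hF : ∀ x : F, x = 0 ∨ x = 1 ∨ x = -1)
    (h2 : (2 : F) ≠ 0) {Q : QuadraticForm F U} (hQ : ND Q) (h3 : finrank F U = 3) :
    ∃ (A : Set U) (e f : U), e ∈ A ∧ (∀ u ∈ A, u ∈ F ∙ e ∨ polar Q e u = 0) ∧ Q e ≠ 0 ∧ f ≠ 0 ∧
      polar Q e f = 0 ∧ ∀ (a : U ≃ₗ[F] U) (μ : F), μ ≠ 0 →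
        (∀ u u', polar Q (a u) (a u') = μ * polar Q u u') → ∀ u ∈ A, a u ∈ A := by
  obtain ⟨e, he0, he1⟩ := exists_singular Q h3.ge
  obtain ⟨f, -, -, -, X, -, u2, u3, u4⟩ := (nds_top hQ).exists_hyp trivial he0 he1
  obtain ⟨z, hz, hz0⟩ := u2.exists_nonsing (by rw [finrank_top] at u3; omega)
  obtain ⟨x, hx⟩ := hQ.exists_Q_eq (by omega) (-Q z)
  have hx0 : Q x ≠ 0 := hx ▸ neg_ne_zero.2 hz0
  obtain ⟨y, hy, hy0⟩ := hQ.exists_orth_nonsingular h2 (by omega) hx0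
  have := fr_of_three (Q := Q) hF (W := ⊤) (neg_ne_zero.2 hz0) h2
    fun u hu w hw e1 e2 e3 => by_contra fun h0 => by
      obtain ⟨s, hs⟩ := (nds_top hQ).three_val (by rwa [finrank_top]) (w := e) (u := z) trivial hw
        trivial hu he0 h0 he1 e2 (u4 z hz).1 e3 hz0
      rw [e1] at hs
      rcases hF s with rfl | rfl | rfl
      · exact hz0 (by linear_combination -hs)
      all_goals exact mul_ne_zero h2 hz0 (by linear_combination -hs)
  refine ⟨{u | Q u = -Q z}, x, y, hx, fun u hu => ?_, hx0, ne_zero_of_Q_ne_zero hy0, hy,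
    fun a μ h0 h u hu => ?_⟩
  · rcases this x trivial u trivial hx hu with rfl | rfl | e
    · exact .inl (Submodule.mem_span_singleton_self _)
    · exact .inl (neg_mem (Submodule.mem_span_singleton_self _))
    · exact .inr e
  · have h4 : ∀ u, Q (a u) = μ * Q u := fun u => mul_left_cancel₀ h2 (by
      rw [← p_self, h, p_self]; ring)
    obtain ⟨s, rfl⟩ := sim_three hQ h3 h4
    rcases hF s with rfl | rfl | rfl
    · simp at h0
    all_goals simpa [h4] using hu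

theorem cases_of_three [Fintype F] (e : Fintype.card F = 3) (x : F) : x = 0 ∨ x = 1 ∨ x = -1 := by
  have := FiniteField.pow_card x
  rw [e] at this
  have : x * ((x - 1) * (x + 1)) = 0 := by linear_combination this
  simpa [sub_eq_zero, add_eq_zero_iff_eq_neg] using this

/-- The quadratic form of a symmetric form. -/
theorem exists_quad {κ : Type} (h2 : (2 : F) ≠ 0) {f : (κ → F) → (κ → F) → F}
    (hf : Geo.IsSymmetricForm f) {c : F} (hc : c ≠ 0) :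
    ∃ Q : QuadraticForm F (κ → F), ND Q ∧ ∀ u v, polar Q u v = c * f u v := by
  let Q : QuadraticForm F (κ → F) := ((c / 2) • bilOf hf.bilinear).toQuadraticMap
  have hQ : ∀ u v, polar Q u v = c * f u v := fun u v => by
    simp only [Q, LinearMap.BilinMap.polar_toQuadraticMap, LinearMap.smul_apply, bilOf_apply,
      hf.symm v u, smul_eq_mul]
    field_simp; ring
  exact ⟨Q, fun x hx => (bilOf_nd hf.bilinear hf.nondegenerate).1 x fun y => by
    simpa [hQ, hc, bilOf_apply] using hx y, hQ⟩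

theorem not_max_om_three {ι : Type} [Fintype ι] [DecidableEq ι] [Fintype F]
    (hq : Fintype.card F = 3) {Q : QuadraticForm F (ι → F)} {n : ℕ} (hn : 3 ≤ n)
    {e : ι ≃ Fin 3 × Fin n} {P : GL ι F} {f₁ : (Fin 3 → F) → (Fin 3 → F) → F}
    {f₂ : (Fin n → F) → (Fin n → F) → F} (hf₁ : Geo.IsSymmetricForm f₁)
    (hf₂ : Geo.IsSymmetricForm f₂) (hT : Geo.IsTensorFormStructure id (polar Q) f₁ f₂ e P) :
    ∃ K : Subgroup (GL ι F), Geo.tensorProductSubgroup 3 n e P ⊓ Geo.omegaGL ⇑Q < K ∧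
      K < Geo.omegaGL ⇑Q := by
  have h2 : (2 : F) ≠ 0 := two_ne_zero_of_odd (by simp [hq]; decide)
  obtain ⟨c, hc, hT⟩ := tensor_form (σ := RingHom.id F) hT (bilOf hf₁.bilinear) (fun _ _ => rfl)
    (bilOf hf₂.bilinear) fun _ _ => rfl
  obtain ⟨Q₁, n₁, q₁⟩ := exists_quad h2 hf₁ hc
  obtain ⟨Q₂, n₂, q₂⟩ := exists_quad h2 hf₂ one_ne_zero
  refine between_of_equiv _ _ IsT (mem_omegaGL' (tenE e P)) (mem_tensor_iff e P) ?_
  have tb : TB (Q.comp (tenE e P).symm.toLinearMap).polarBilin Q₁.polarBilin Q₂.polarBilin :=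
    fun u w u' w' => by
      rw [polarBilin_apply_apply Q₁, polarBilin_apply_apply Q₂, q₁, q₂]
      simpa [polar, mul_assoc] using hT u w u' w'
  generalize Q.comp (tenE e P).symm.toLinearMap = Q' at tb
  have pure : ∀ u w u' w', polar Q' (u ⊗ₜ w) (u' ⊗ₜ w') = polar Q₁ u u' * polar Q₂ w w' := tb
  have qq : ∀ u w, Q' (u ⊗ₜ w) = 2 * Q₁ u * Q₂ w := fun u w => mul_left_cancel₀ h2 (by
    rw [← p_self, pure, p_self, p_self]; ring)
  have nd : ND Q' := (nd_iff Q').2 (tb.nd n₁.nondeg n₂.nondeg (polarBilin_isRefl _))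
  obtain ⟨A, a, b, h1, h3, h4, h5, h6, h7⟩ := frame_three (cases_of_three hq) h2 n₁ (by simp)
  obtain ⟨w, w0, w1⟩ := exists_singular Q₂ (by simpa)
  obtain ⟨f, -, -, -, X, -, u2, u3, u4⟩ := (nds_top n₂).exists_hyp trivial w0 w1
  obtain ⟨z, hz, hz0⟩ := u2.exists_nonsing (by simp at u3; omega)
  have haa : polar Q₁ a a ≠ 0 := by simp [p_self, h2, h4]
  have hzz : polar Q₂ z z ≠ 0 := by simp [p_self, h2, hz0]
  have hwz := (u4 z hz).1
  have mem : ∀ x y, (eich Q' x y).1 ∈ OM Q' := fun x y =>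
    ⟨_, nd.eich_mem_commutator (good_of_two_ne_zero h2) x y, rfl⟩
  refine ten_frame A _ (fun g hg a' b' hab => ?_) h1 (φ := Q₁.polarBilin a) h3 haa h5 h6
    ⟨_, mem (a ⊗ₜ w) (a ⊗ₜ z), fun u y => ?_, z, z + (polar Q₁ a a * polar Q₂ z z) • w, ?_, ?_⟩
    ⟨_, mem (b ⊗ₜ w) (a ⊗ₜ z), z, z, w, (polar Q₁ a a * polar Q₂ z z) • b, Q₂.polarBilin z, ?_, ?_,
      w0, by simp [polar_comm _ z, hwz], hzz⟩
  · obtain ⟨μ, m0, m1, -⟩ := sim_of_tb tb ⟨a, a, haa⟩ ⟨z, z, hzz⟩ (og_sg (OM.og hg)) hab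
    exact h7 a' μ m0 m1
  · refine ⟨(polar Q₂ z y - Q' (a ⊗ₜ z) * polar Q₂ w y) • w - polar Q₂ w y • z, ?_⟩
    rw [eich_apply (by simp [qq, w1]) (by simp [pure, hwz])]
    simp only [pure, tmul_sub, tmul_smul, polarBilin_apply_apply]
    module
  · rw [eich_apply (by simp [qq, w1]) (by simp [pure, hwz])]
    simp [pure, hwz, tmul_add]
  · rw [Submodule.add_mem_iff_right _ (Submodule.mem_span_singleton_self z),
      Submodule.smul_mem_iff _ (mul_ne_zero haa hzz), Submodule.mem_span_singleton]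
    rintro ⟨s, rfl⟩
    simp [q_smul, hz0] at w1
    simp [w1] at w0
  · rw [eich_apply (by simp [qq, w1]) (by simp [pure, hwz])]
    simp [pure, hwz, smul_tmul']
  · rw [Submodule.smul_mem_iff _ (mul_ne_zero haa hzz), Submodule.mem_span_singleton]
    rintro ⟨s, rfl⟩
    rw [p_smul_right, mul_eq_zero_iff_right haa] at h6
    simp [h6] at h5

open Classical.SpMat in
theorem not_max_sp_three [Fintype F] (hq : Fintype.card F = 3) {m n : ℕ} (hm : 1 ≤ m)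
    {e : (Fin m ⊕ Fin m) ≃ Fin n × Fin 3} {P : GL (Fin m ⊕ Fin m) F}
    {f₁ : (Fin n → F) → (Fin n → F) → F} {f₂ : (Fin 3 → F) → (Fin 3 → F) → F}
    (hf₁ : Geo.IsSymplecticForm f₁) (hf₂ : Geo.IsSymmetricForm f₂)
    (hT : Geo.IsTensorFormStructure id (sympForm m F) f₁ f₂ e P) :
    ∃ K : Subgroup (GL (Fin m ⊕ Fin m) F),
      Geo.tensorProductSubgroup n 3 e P ⊓ spGL m F < K ∧ K < spGL m F := by
  have h2 : (2 : F) ≠ 0 := two_ne_zero_of_odd (by simp [hq]; decide)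
  obtain ⟨c, hc, hT⟩ := tensor_form (σ := RingHom.id F) hT (bilOf hf₁.bilinear) (fun _ _ => rfl)
    (bilOf hf₂.bilinear) fun _ _ => rfl
  obtain ⟨Q₁, n₁, q₁⟩ := exists_quad h2 hf₂ hc
  rw [← Asch.tensorProductSubgroup_swap]
  refine between_of_equiv ((glEquiv _ F).trans (cong (tenE (e.trans (Equiv.prodComm _ _)) P)))
    (· ∈ SG (trB (sB (Fin m) F) (tenE (e.trans (Equiv.prodComm _ _)) P))) IsT
    (fun g => (mem_spGL g).trans (mem_SG_cong _ _ _)) (mem_tensor_iff _ P) ?_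
  have tb : TB (trB (sB (Fin m) F) (tenE (e.trans (Equiv.prodComm _ _)) P)) Q₁.polarBilin
      (bilOf hf₁.bilinear) := fun u w u' w' => by
    have := hT w u w' u'
    rw [← tenE_swap e P w, ← tenE_swap e P w', sympForm_eq'] at this
    simp only [polarBilin_apply_apply, q₁, bilOf_apply]
    exact this.trans (by ring)
  generalize trB (sB (Fin m) F) (tenE (e.trans (Equiv.prodComm _ _)) P) = B at tb
  have hA : (bilOf hf₁.bilinear).IsAlt := hf₁.alternating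
  have nd := bilOf_nd hf₁.bilinear hf₁.nondegenerate
  generalize bilOf hf₁.bilinear = β at tb hA nd
  have pure : ∀ u w u' w', B (u ⊗ₜ w) (u' ⊗ₜ w') = polar Q₁ u u' * β w w' := tb
  have hB : B.IsAlt := fun x => mul_left_cancel₀ h2 (by
    linear_combination tb.of_pure (ε := -1) (fun u w u' w' => by
      simp [← hA.neg_eq w w', polar_comm _ u']) x x)
  obtain ⟨A, a, b, h1, h3, h4, h5, h6, h7⟩ := frame_three (cases_of_three hq) h2 n₁ (by simp)
  have : Nontrivial (Fin n → F) := Module.nontrivial_of_finrank_pos (R := F) (by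
    simpa using (e (Sum.inl ⟨0, hm⟩)).1.pos)
  obtain ⟨w, w0⟩ := exists_ne (0 : Fin n → F)
  obtain ⟨y, hy⟩ := exists_one nd hA.isRefl w0
  have haa : polar Q₁ a a ≠ 0 := by simp [p_self, h2, h4]
  refine ten_frame A _ (fun g hg a' b' hab => ?_) h1 (φ := Q₁.polarBilin a) h3 haa h5 h6
    ⟨_, tv_mem_SG hB (a ⊗ₜ w) 1 (by simp [hB.self_eq_zero]), fun u v => ⟨β w v • w, ?_⟩,
      y, y + polar Q₁ a a • w, ?_, ?_⟩
    ⟨_, tv_mem_SG hB ((a + b) ⊗ₜ w) 1 (by simp [hB.self_eq_zero]), y, y, w,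
      polar Q₁ a a • (a + b), β w, ?_, ?_, w0, hA w, by simp [hy]⟩
  · obtain ⟨μ, m0, m1, -⟩ := sim_of_tb tb ⟨a, a, haa⟩ ⟨w, y, by simp [hy]⟩ hg hab
    exact h7 a' μ m0 m1
  · simp [pure, mul_smul]
  · simp [pure, hy, tmul_add]
  · rw [Submodule.add_mem_iff_right _ (Submodule.mem_span_singleton_self y),
      Submodule.smul_mem_iff _ haa, Submodule.mem_span_singleton]
    rintro ⟨s, rfl⟩
    simp [hA.self_eq_zero] at hy
  · simp [pure, hy, smul_tmul', polar_comm _ b, h6]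
  · rw [Submodule.smul_mem_iff _ haa, Submodule.add_mem_iff_right _
      (Submodule.mem_span_singleton_self a), Submodule.mem_span_singleton]
    rintro ⟨s, rfl⟩
    rw [p_smul_right, mul_eq_zero_iff_right haa] at h6
    simp [h6] at h5

theorem not_max_su_two [Finite F] (hF : Nat.card F = 2 ^ 2) {n m : ℕ} (hm : 3 ≤ m)
    {e : Fin n ≃ Fin 2 × Fin m} {P : GL (Fin n) F} {f₁ : (Fin 2 → F) → (Fin 2 → F) → F}
    {f₂ : (Fin m → F) → (Fin m → F) → F} (hf₁ : Geo.IsUnitaryFormPow 2 f₁)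
    (hf₂ : Geo.IsUnitaryFormPow 2 f₂)
    (hT : Geo.IsTensorFormStructure (fun x : F => x ^ 2) (hermForm n F 2) f₁ f₂ e P) :
    ∃ K : Subgroup (GL (Fin n) F), Geo.tensorProductSubgroup 2 m e P ⊓
      (GU n F 2 ⊓ Geo.specialLinear (Fin n) F) < K ∧ K < GU n F 2 ⊓ Geo.specialLinear (Fin n) F := by
  obtain ⟨p, β, hp, hβ, k⟩ := uu_of hF hf₁ hf₂ (by omega) (by omega) hT
  refine between_of_equiv ((glEquiv _ F).trans (cong (tenE e P)))
    (fun g => g ∈ Herm.UG (trU (Herm.sB hF n) (tenE e P)) ∧ LinearEquiv.det g = 1) IsT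
    (fun g => and_congr ((Herm.mem_GU hF g).trans ⟨fun h x y => by simp [trU_apply, cong_apply, h],
      fun h x y => by simpa [trU_apply, cong_apply] using h (tenE e P x) (tenE e P y)⟩)
      (by simp [mem_SL, det_cong])) (mem_tensor_iff e P) ?_
  have h := UU.mk (M := Herm.UG _ ⊓ LinearEquiv.det.ker) hp hβ k (by simp) (by simpa)
    (fun g a b _ => ⟨a, b⟩) (fun g h => h.1) fun g h => h.2
  generalize trU (Herm.sB hF n) (tenE e P) = B at h k
  have h2 : ∀ c, Herm.frob hF c = c → c = 0 ∨ c = 1 := fun c hc => by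
    rw [Herm.frob_apply] at hc
    exact or_iff_not_imp_left.mpr fun e => mul_left_cancel₀ e (by linear_combination hc)
  have h7 : (1 : F) + Herm.frob hF 1 = 0 := by
    simpa using (h2 (1 + 1) (by simp)).resolve_right (by simp)
  have nd : NDU p ⊤ := fun w _ e => hp.nd w fun y => hp.zero_symm (e y trivial)
  obtain ⟨a, -, ha⟩ := nd.exists_norm hp (by simp) (map_one _)
  obtain ⟨b, ⟨-, hb⟩, hb0⟩ := exists_not_mem_of_finrank_lt (W := ⊥)
    (U := ⊤ ⊓ LinearMap.ker (p a)) (by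
      have := finrank_le_inf_ker ⊤ (p a)
      simp only [finrank_bot, finrank_top, finrank_fin_fun] at this ⊢
      omega)
  replace hb : p a b = 0 := hb
  obtain ⟨w, y, hw, -, hy⟩ := hβ.exists_hyp_pair (by simp; omega)
  have hx : ∀ u, B (u ⊗ₜ w) (u ⊗ₜ w) = 0 := fun u => by simp [k, hw]
  refine ten_frame {u | p u u ≠ 0} _ (fun g hg a' b' hab u hu e => hu ?_) (e := a)
    (by simp [ha]) (φ := p a) (fun u hu => (un_two_dim hp h2 nd (by simp) trivial ha trivial hu).symm)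
    (by simp [ha]) hb0 hb
    ⟨_, ⟨(h.hB.qr (a ⊗ₜ w) 1).2, h.hB.tv_mem_SUG (hx a) 1⟩, fun u v => ⟨β w v • w, ?_⟩,
      y, y + w, ?_, ?_⟩
    ⟨_, ⟨(h.hB.qr ((a + b) ⊗ₜ w) 1).2, h.hB.tv_mem_SUG (hx _) 1⟩, y, y, w, a + b, β w, ?_, ?_,
      Herm.ne_zero_of_b (hy ▸ one_ne_zero), hw, by simp [hy]⟩
  · have := hg.1 (u ⊗ₜ w) (u ⊗ₜ y)
    simpa [hab, k, e, hy] using this.symm
  · simp [h.hB.tv_apply (hx a) h7, k, mul_smul]
  · simp [h.hB.tv_apply (hx a) h7, k, ha, hy, tmul_add]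
  · rw [Submodule.add_mem_iff_right _ (Submodule.mem_span_singleton_self y),
      Submodule.mem_span_singleton]
    rintro ⟨s, rfl⟩
    have : s ≠ 0 := by rintro rfl; simp at hy
    simp [show β y y = 0 by simpa [this] using hw] at hy
  · simp [h.hB.tv_apply (hx _) h7, k, ha, hy, hp.zero_symm hb]
  · rw [Submodule.add_mem_iff_right _ (Submodule.mem_span_singleton_self a),
      Submodule.mem_span_singleton]
    rintro ⟨s, rfl⟩
    simp [show s = 0 by simpa [ha] using hb] at hb0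

end Cfsg.Agent.Max
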