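import Mathlib
import Cfsg.Agent.Max3.SW6
import Cfsg.Agent.Max.TNon

/-!
# Tensor powers of small symplectic spaces in characteristic two lie in a spin group
-/

set_option autoImplicit false
set_option linter.unusedSectionVars false
set_option linter.unusedSimpArgs false

namespace Cfsg.Agent.Max

open Module Cfsg.Agent.Max2 Cfsg.Agent.Max3 TensorProduct Function Cfsg.Agent.Orth QuadraticMap
open scoped commutatorElement

/-- Relations between generators of a Clifford algebra in characteristic two. -/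
structure SpR {A : Type*} [Ring A] (a₁ a₂ a₃ b₁ b₂ b₃ : A) : Prop where
  s1 : a₁ * a₁ = 0
  s2 : a₂ * a₂ = 0
  s3 : a₃ * a₃ = 0
  s4 : b₁ * b₁ = 0
  r1 : b₁ * a₁ = 1 + a₁ * b₁
  r2 : b₂ * a₂ = 1 + a₂ * b₂
  r3 : b₃ * a₃ = 1 + a₃ * b₃
  c12 : a₂ * a₁ = a₁ * a₂
  c13 : a₃ * a₁ = a₁ * a₃
  c23 : a₃ * a₂ = a₂ * a₃
  d12 : b₁ * a₂ = a₂ * b₁
  d13 : b₁ * a₃ = a₃ * b₁
  d23 : b₂ * a₃ = a₃ * b₂
  d31 : b₃ * a₁ = a₁ * b₃
  f12 : b₂ * b₁ = b₁ * b₂
  f13 : b₃ * b₁ = b₁ * b₃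

theorem SpR.ids {A : Type*} [Ring A] [CharP A 2] {a₁ a₂ a₃ b₁ b₂ b₃ : A}
    (h : SpR a₁ a₂ a₃ b₁ b₂ b₃) : (1 + a₁ + a₃) * (1 + a₁ + a₃) = 1 ∧ (1 + b₁) * (1 + b₁) = 1 ∧
    (1 + a₁ * a₂ * a₃) * (1 + a₁ * a₂ * a₃) = 1 ∧
    (1 + b₁) * (1 + a₁ + a₃) * (1 + b₁) * (1 + a₁ + a₃) = (1 + a₁ + a₃) * (1 + b₁) ∧
    (1 + a₁ + a₃) * b₁ * (1 + a₁ + a₃) * a₁ + a₁ * ((1 + a₁ + a₃) * b₁ * (1 + a₁ + a₃)) = 1 ∧
    (1 + a₁ + a₃) * b₁ * (1 + a₁ + a₃) * b₃ + b₃ * ((1 + a₁ + a₃) * b₁ * (1 + a₁ + a₃)) = 1 ∧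
    (1 + a₁ * a₂ * a₃) * (1 + b₁) * (1 + a₁ * a₂ * a₃) * (1 + b₁) = 1 + a₂ * a₃ * (1 + b₁) ∧
    (1 + a₂ * a₃ * (1 + b₁)) * (1 + a₂ * a₃ * (1 + b₁)) = 1 ∧
    (1 + a₂ * a₃ * (1 + b₁)) * b₂ * (1 + a₂ * a₃ * (1 + b₁)) * a₁ +
      a₁ * ((1 + a₂ * a₃ * (1 + b₁)) * b₂ * (1 + a₂ * a₃ * (1 + b₁))) =
        a₃ + (b₂ * a₁ + a₁ * b₂) := by
  have k : ∀ {a b c : A}, a * b = c → ∀ x, a * (b * x) = c * x := fun e x => by
    rw [← mul_assoc, e]
  refine ⟨?_, ?_, ?_, ?_, ?_, ?_, ?_, ?_, ?_⟩ <;>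
  simp only [mul_add, add_mul, mul_assoc, one_mul, mul_one, zero_mul, mul_zero, add_zero, zero_add,
    h.s1, h.s2, h.s3, h.s4, h.r1, h.r2, h.r3, h.c12, h.c13, h.c23, h.d12, h.d13, h.d23, h.d31,
    h.f12, h.f13, k h.s1, k h.s2, k h.s3, k h.s4, k h.r1, k h.r2, k h.r3, k h.c12, k h.c13, k h.c23,
    k h.d12, k h.d13, k h.d23, k h.d31, k h.f12, k h.f13] <;>
  simp only [add_assoc, add_comm, add_left_comm, CharTwo.add_self_eq_zero, CharTwo.add_cancel_left,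
    add_zero, zero_add]

section
variable {F V : Type*} [Field F] [AddCommGroup V] [Module F V] {E : Submodule F (Module.End F V)}
  {g y z : V ≃ₗ[F] V}

/-- The normaliser of a space of endomorphisms. -/
def NE (E : Submodule F (Module.End F V)) : Subgroup (V ≃ₗ[F] V) where
  carrier := {g | (∀ ξ ∈ E, cjm g ξ ∈ E) ∧ ∀ ξ ∈ E, cjm g⁻¹ ξ ∈ E}
  one_mem' := ⟨fun _ h => h, fun _ h => h⟩
  mul_mem' ha hb := ⟨fun _ h => ha.1 _ (hb.1 _ h), fun _ h => hb.2 _ (ha.2 _ h)⟩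
  inv_mem' ha := ⟨ha.2, ha.1⟩

theorem inv_of_sq (h : y.toLinearMap * y.toLinearMap = 1) : y⁻¹ = y :=
  inv_eq_of_mul_eq_one_right (LinearEquiv.toLinearMap_injective h)

theorem cjm_invol (h : y.toLinearMap * y.toLinearMap = 1) (ξ : Module.End F V) :
    cjm y ξ = y.toLinearMap * ξ * y.toLinearMap := by
  rw [cjm, show y.symm = y from inv_of_sq h]; rfl

theorem invol_NE (hE : ∀ a ∈ E, ∀ b ∈ E, a * b + b * a ∈ F ∙ (1 : Module.End F V))
    (h : y.toLinearMap * y.toLinearMap = 1) (hy : y.toLinearMap ∈ E) : y ∈ NE E := by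
  refine (fun k => ⟨k, by rwa [inv_of_sq h]⟩) fun ξ hξ => ?_
  obtain ⟨c, k⟩ := Submodule.mem_span_singleton.1 (hE _ hy ξ hξ)
  rw [cjm_invol h, ← sub_eq_iff_eq_add.2 k, sub_mul, mul_assoc, h, smul_mul_assoc, one_mul,
    mul_one]
  exact sub_mem (E.smul_mem _ hy) hξ

theorem spin_abs [Nontrivial V] {Q : QuadraticForm F V} {Wr : Subgroup (V ≃ₗ[F] V)}
    [CharP (Module.End F V) 2]
    (hE : ∀ a ∈ E, ∀ b ∈ E, a * b + b * a ∈ F ∙ (1 : Module.End F V))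
    {a₁ a₂ a₃ b₁ b₂ b₃ : Module.End F V} (m0 : 1 ∈ E) (m1 : a₁ ∈ E) (m2 : a₃ ∈ E) (m3 : b₁ ∈ E)
    (m4 : b₂ ∈ E) (h : SpR a₁ a₂ a₃ b₁ b₂ b₃)
    (hq : ∀ x : V ≃ₗ[F] V, x.toLinearMap = 1 + a₁ + a₃ ∨ x.toLinearMap = 1 + b₁ ∨
      x.toLinearMap = 1 + a₁ * a₂ * a₃ → x.toLinearMap * x.toLinearMap = 1 → x ∈ OG Q)
    (hz : ∀ x : V ≃ₗ[F] V, x.toLinearMap = 1 + b₁ → x ∈ Wr)
    (hW : ∀ g ∈ Wr, Commute (cjm g b₁) a₁ ∨ Commute (cjm g b₁) b₃) :
    (∃ x, x ∈ OM Q ∧ x ∈ NE E ∧ x ∉ Wr) ∧ ∃ x, x ∈ OM Q ∧ x ∉ NE E := by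
  have cm : ∀ {x x' : V ≃ₗ[F] V}, x ∈ OG Q → x' ∈ OG Q → x * x' * x⁻¹ * x'⁻¹ ∈ OM Q :=
    fun {x x'} h h' => ⟨⁅(⟨x, h⟩ : OG Q), ⟨x', h'⟩⁆,
      Subgroup.commutator_mem_commutator (Subgroup.mem_top _) (Subgroup.mem_top _), rfl⟩
  have iv : ∀ a : Module.End F V, a * a = 1 → ∃ x : V ≃ₗ[F] V, x.toLinearMap = a := fun a h =>
    ⟨LinearEquiv.ofLinear a a h h, rfl⟩
  obtain ⟨y2, z2, g2, i1, i2, i3, i4, i5, i6⟩ := h.ids
  obtain ⟨y, ey⟩ := iv _ y2
  obtain ⟨z, ez⟩ := iv _ z2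
  obtain ⟨g, eg⟩ := iv _ g2
  rw [← ey] at y2 i1 i2 i3
  rw [← eg] at g2 i4
  generalize e : 1 + a₂ * a₃ * (1 + b₁) = n at i4 i5 i6
  rw [← ez] at z2 i1 i4
  have hy := hq y (Or.inl ey) y2
  have hz' := hq z (Or.inr (Or.inl ez)) z2
  have hg := hq g (Or.inr (Or.inr eg)) g2
  have ny := invol_NE hE y2 (ey ▸ add_mem (add_mem m0 m1) m2)
  have nz := invol_NE hE z2 (ez ▸ add_mem m0 m3)
  refine ⟨⟨_, cm hz' hy, mul_mem (mul_mem (mul_mem nz ny) (inv_mem nz)) (inv_mem ny),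
    fun k => ?_⟩, _, cm hg hz', fun k => ?_⟩
  · rw [inv_of_sq y2, inv_of_sq z2, show z * y * z * y = y * z from
      LinearEquiv.toLinearMap_injective i1, mul_mem_cancel_right (hz z ez)] at k
    have k1 := hW y k
    rw [cjm_invol y2] at k1
    refine one_ne_zero (α := Module.End F V) ?_
    rcases k1 with k1 | k1
    · rw [← i2, k1.eq, CharTwo.add_self_eq_zero]
    · rw [← i3, k1.eq, CharTwo.add_self_eq_zero]
  · rw [inv_of_sq g2, inv_of_sq z2] at k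
    have e : (g * z * g * z).toLinearMap = n := i4
    have k1 := sub_mem (hE _ (k.1 _ m4) _ m1) (hE _ m4 _ m1)
    rw [cjm_invol (e ▸ i5), e, i6, add_sub_cancel_right] at k1
    obtain ⟨c, rfl⟩ := Submodule.mem_span_singleton.1 k1
    obtain rfl : c = 0 := by simpa using h.s3
    simpa using h.r3

end

variable {F U W : Type*} [Field F] [AddCommGroup U] [Module F U] [AddCommGroup W] [Module F W]
  {β : LinearMap.BilinForm F W} {κ : F} {I : Type} [DecidableEq I] [Fintype I] {T : TP I F U W}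
  {Q : QuadraticForm F (U ⊗[F] W)} {g : (U ⊗[F] W) ≃ₗ[F] (U ⊗[F] W)}

theorem ac_two (hA : β.IsAlt) (h2 : (2 : F) = 0) (hk : finrank F W = 2) (a b : W) :
    rr β a a * rr β b b + rr β b b * rr β a a = β a b ^ 2 • 1 := by
  have : FiniteDimensional F W := Module.finite_of_finrank_eq_succ hk
  have k : ∀ a b x : W, β a b • x + β b x • a + β x a • b = 0 := fun a b x => by
    let e := Module.finBasisOfFinrankEq F W hk
    rw [← e.sum_repr a, ← e.sum_repr b, ← e.sum_repr x]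
    simp only [Fin.sum_univ_two, map_add, map_smul, LinearMap.add_apply, LinearMap.smul_apply,
      hA.self_eq_zero, ← hA.neg_eq (e 0) (e 1)]
    module
  ext x
  simp only [rr_mul, LinearMap.add_apply, LinearMap.smul_apply, rr_apply, Module.End.one_apply,
    ← hA.neg_eq a b, ← hA.neg_eq x a]
  linear_combination (norm := module) β a b • k a b x - h2 • (β a b ^ 2) • x

set_option maxHeartbeats 4000000 in
theorem spin_ac (hA : β.IsAlt) (h2 : (2 : F) = 0) (hk : finrank F W = 4) {a b c d : W}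
    (h : β a b = 0) (h' : β c d = 0) : eT β 1 a b * eT β 1 c d + eT β 1 c d * eT β 1 a b =
      (β a c * β b d + β a d * β b c) • 1 := by
  have : FiniteDimensional F W := Module.finite_of_finrank_eq_succ hk
  have k : ∀ a b c d x : W, (β a b * β c d - β a c * β b d + β a d * β b c) • x -
      (β a b * β c x - β a c * β b x + β a x * β b c) • d +
      (β a b * β d x - β a d * β b x + β a x * β b d) • c -
      (β a c * β d x - β a d * β c x + β a x * β c d) • b +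
      (β b c * β d x - β b d * β c x + β b x * β c d) • a = 0 := fun a b c d x => by
    let e := Module.finBasisOfFinrankEq F W hk
    rw [← e.sum_repr a, ← e.sum_repr b, ← e.sum_repr c, ← e.sum_repr d, ← e.sum_repr x]
    simp only [Fin.sum_univ_four, map_add, map_smul, LinearMap.add_apply, LinearMap.smul_apply,
      hA.self_eq_zero, ← hA.neg_eq (e 0) (e 1), ← hA.neg_eq (e 0) (e 2), ← hA.neg_eq (e 0) (e 3),
      ← hA.neg_eq (e 1) (e 2), ← hA.neg_eq (e 1) (e 3), ← hA.neg_eq (e 2) (e 3)]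
    module
  ext x
  have := k a b c d x
  simp only [mul_add, add_mul, one_smul, rr_mul, LinearMap.add_apply, LinearMap.smul_apply,
    rr_apply, Module.End.one_apply, ← hA.neg_eq a c, ← hA.neg_eq a d, ← hA.neg_eq b c,
    ← hA.neg_eq b d]
  rw [h, h'] at this
  linear_combination (norm := module) this + h2 • ((β a c * β d x) • b + (β b d * β c x) • a -
    (β a c * β b x) • d - (β b d * β a x) • c - (β a d * β b c) • x)

theorem sim_rr [FiniteDimensional F W] {b : W ≃ₗ[F] W} {l : F}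
    (hb : ∀ x z, β x z = l * β (b x) (b z)) (a c : W) :
    b.conjAlgEquiv F (rr β a c) = l • rr β (b a) (b c) := by
  ext x
  simp [LinearEquiv.conjAlgEquiv_apply, hb a, smul_smul]

/-- The span of the identity and the generators in all factors. -/
def SpE (T : TP I F U W) (G : Set (Module.End F W)) : Submodule F (Module.End F (U ⊗[F] W)) :=
  Submodule.span F {ξ | ξ = 1 ∨ ∃ i, ∃ x ∈ G, ξ = rh (T.s i) x}

theorem SpE.mem {G : Set (Module.End F W)} (i : I) {x : Module.End F W} (h : x ∈ G) :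
    rh (T.s i) x ∈ SpE T G := Submodule.subset_span (Or.inr ⟨i, x, h, rfl⟩)

namespace TQS

variable (H : TQ T Q β κ) [FiniteDimensional F W] [FiniteDimensional F U] [Nontrivial U]
  [Nontrivial W] [Nonempty I] (h2 : (2 : F) = 0) {G : Set (Module.End F W)}
include H h2

theorem ch : CharP (Module.End F (U ⊗[F] W)) 2 := by
  have : Nontrivial (U ⊗[F] W) := Module.nontrivial_of_finrank_pos (R := F) (by have := H.n5; omega)
  exact CharTwo.of_one_ne_zero_of_two_eq_zero one_ne_zero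
    (by rw [← one_add_one_eq_two, ← two_smul F, h2, zero_smul])

theorem ac (hG : ∀ a ∈ G, ∀ b ∈ G, ∃ c : F, a * b + b * a = c • 1) :
    ∀ a ∈ SpE T G, ∀ b ∈ SpE T G, a * b + b * a ∈ F ∙ (1 : Module.End F (U ⊗[F] W)) := by
  have := ch H h2
  intro a ha b hb
  induction ha, hb using Submodule.span_induction₂ with
  | mem_mem a b ha hb =>
    rcases ha with rfl | ⟨i, x, hx, rfl⟩
    · simp [CharTwo.add_self_eq_zero]
    rcases hb with rfl | ⟨j, y, hy, rfl⟩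
    · simp [CharTwo.add_self_eq_zero]
    by_cases e : i = j
    · obtain ⟨c, k⟩ := hG x hx y hy
      rw [e, ← map_mul, ← map_mul, ← map_add, k, map_smul, map_one]
      exact Submodule.smul_mem _ _ (Submodule.mem_span_singleton_self _)
    · simp [(T.com i j e x y).eq, CharTwo.add_self_eq_zero]
  | zero_left => simp
  | zero_right => simp
  | add_left a a' b _ _ _ k k' => convert add_mem k k' using 1; noncomm_ring
  | add_right a b b' _ _ _ k k' => convert add_mem k k' using 1; noncomm_ring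
  | smul_left c a b _ _ k => simpa [smul_add] using Submodule.smul_mem _ c k
  | smul_right c a b _ _ k => simpa [smul_add] using Submodule.smul_mem _ c k

theorem wr_ne (hG : ∀ (b : W ≃ₗ[F] W) (l : F), (∀ x z, β x z = l * β (b x) (b z)) → ∀ a ∈ G,
    ∃ a' ∈ G, b.conjAlgEquiv F a = l • a') (hg : g ∈ OG Q) (hW : g ∈ T.Wr) : g ∈ NE (SpE T G) := by
  obtain ⟨p, P⟩ := H.toTF.sf
  suffices ∀ g ∈ OG Q, g ∈ T.Wr → ∀ ξ ∈ SpE T G, cjm g ξ ∈ SpE T G from
    ⟨this g hg hW, this _ (inv_mem hg) (inv_mem hW)⟩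
  rintro g hg ⟨σ, hσ⟩ ξ hξ
  refine (Submodule.span_le (p := (SpE T G).comap g.conj.toLinearMap)).2 ?_ hξ
  rintro _ (rfl | ⟨i, x, hx, rfl⟩)
  · exact Submodule.subset_span (Or.inl (LinearMap.ext fun v => by simp))
  obtain ⟨α, b, k⟩ := same_iff.1 (hσ i)
  obtain ⟨u, hu⟩ := exists_ne (0 : U)
  obtain ⟨v, hv⟩ : ∃ v, p u v ≠ 0 := by
    by_contra hn; push Not at hn; exact hu (P.ndU.1 u hn)
  obtain ⟨y, hy, e⟩ := hG b (p (α u) (α v) / p u v) (fun x z => by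
    have := og_sg hg (T.s i (u ⊗ₜ x)) (T.s i (v ⊗ₜ z))
    rw [← LinearEquiv.mul_apply, ← LinearEquiv.mul_apply, k, k, H.toTF.s_iso, H.toTF.s_iso, P.tb,
      P.tb] at this
    field_simp
    linear_combination -this) x hx
  have e1 : g.conj (rh (T.s i) x) = rh (T.s (σ i)) (b.conjAlgEquiv F x) :=
    (cjm_rh g (T.s i) x).trans (ext_g (g * T.s i) fun a z => by
      rw [rh_tmul, k, k, rh_tmul]; simp [LinearEquiv.conjAlgEquiv_apply])
  change g.conj _ ∈ SpE T G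
  rw [e1, e, map_smul]
  exact Submodule.smul_mem _ _ (SpE.mem _ hy)

omit h2 in
theorem sa (i : I) {x : Module.End F W} (hx : ∀ a b, β (x a) b = β a (x b)) (u v : U ⊗[F] W) :
    polar Q (rh (T.s i) x u) v = polar Q u (rh (T.s i) x v) := by
  simpa [TF.rh_eq] using H.toTF.adj (x := update 1 i x) (x' := update 1 i x) (ε := 1)
    (fun j a b => by
      by_cases e : j = i
      · simp [e, hx]
      · simp [e]) u v

omit h2 in
theorem og' (hs : ∀ u v, polar Q (g u) v = polar Q u (g v)) (h1 : g.toLinearMap * g.toLinearMap = 1)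
    (h : ∀ a, Q (g (T.pt a)) = 0) : g ∈ OG Q :=
  T.mem_of_pt (S := ⟨⟨⟨{x | Q (g x) = Q x}, fun {x y} hx hy => by
    have := hs x (g y)
    rw [show g (g y) = y from LinearMap.congr_fun h1 y] at this
    simp only [polar, Set.mem_ofPred_eq, map_add] at *
    linear_combination this + hx + hy⟩, by simp⟩, fun c x hx => by
    simp only [Set.mem_ofPred_eq, map_smul, QuadraticMap.map_smul] at *
    rw [hx]⟩) fun a => (h a).trans (H.q0 a).symm

theorem main (hG : ∀ a ∈ G, ∀ b ∈ G, ∃ c : F, a * b + b * a = c • 1)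
    (hG' : ∀ (b : W ≃ₗ[F] W) (l : F), (∀ x z, β x z = l * β (b x) (b z)) → ∀ a ∈ G,
      ∃ a' ∈ G, b.conjAlgEquiv F a = l • a') (hs : ∀ x ∈ G, ∀ a b, β (x a) b = β a (x b))
    {i j l m : I} (hil : i ≠ l) (hjl : j ≠ l) {e f e' f' : Module.End F W} (he : e ∈ G)
    (hf : f ∈ G) (he' : e' ∈ G) (hf' : f' ∈ G) (s1 : e * e = 0) (s2 : e' * e' = 0) (s3 : f * f = 0)
    (r1 : f * e + e * f = 1) (r2 : f' * e' + e' * f' = 1)
    (c : i ≠ j ∨ e' * e + e * e' = 0 ∧ f * e' + e' * f = 0 ∧ f' * f + f * f' = 0)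
    (hm : (m = l ∧ ∀ a, β a (e a) = 0) ∨ (m ≠ i ∧ m ≠ j ∧ m ≠ l)) :
    ∃ K : Subgroup ((U ⊗[F] W) ≃ₗ[F] (U ⊗[F] W)), (∀ g, g ∈ OM Q → g ∈ T.Wr → g ∈ K) ∧
      (∃ g, g ∈ OM Q ∧ g ∈ K ∧ g ∉ T.Wr) ∧ ∃ g, g ∈ OM Q ∧ g ∉ K := by
  have := ch H h2
  have : Nontrivial (U ⊗[F] W) := Module.nontrivial_of_finrank_pos (R := F) (by have := H.n5; omega)
  have z : ∀ i {x : Module.End F W}, x * x = 0 → rh (T.s i) x * rh (T.s i) x = 0 :=
    fun i x h => by rw [← map_mul, h, map_zero]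
  have r : ∀ i {x y : Module.End F W}, x * y + y * x = 1 →
      rh (T.s i) x * rh (T.s i) y = 1 + rh (T.s i) y * rh (T.s i) x := fun i x y h => by
    rw [← CharTwo.add_eq_iff_eq_add, ← map_mul, ← map_mul, ← map_add, h, map_one]
  have d : ∀ {x y : Module.End F W}, i ≠ j ∨ x * y + y * x = 0 →
      rh (T.s i) x * rh (T.s j) y = rh (T.s j) y * rh (T.s i) x := fun {x y} h => by
    by_cases k : i = j
    · rw [← CharTwo.add_eq_zero, k, ← map_mul, ← map_mul, ← map_add, h.resolve_left (· k), map_zero]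
    · exact (T.com i j k x y).eq
  have R : SpR (rh (T.s i) e) (rh (T.s j) e') (rh (T.s l) e) (rh (T.s i) f) (rh (T.s j) f')
      (rh (T.s l) f) := ⟨z _ s1, z _ s2, z _ s1, z _ s3, r _ r1, r _ r2, r _ r1,
    (d (c.imp_right fun c => (add_comm _ _).trans c.1)).symm, (T.com l i hil.symm _ _).eq,
    (T.com l j hjl.symm _ _).eq, d (c.imp_right fun c => c.2.1), (T.com i l hil _ _).eq,
    (T.com j l hjl _ _).eq, (T.com l i hil.symm _ _).eq,
    (d (c.imp_right fun c => (add_comm _ _).trans c.2.2)).symm, (T.com l i hil.symm _ _).eq⟩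
  refine ⟨NE (SpE T G), fun g h => wr_ne H h2 hG' (OM.og h), spin_abs (ac H h2 hG)
    (Submodule.subset_span (Or.inl rfl)) (SpE.mem _ he) (SpE.mem _ he) (SpE.mem _ hf)
    (SpE.mem _ hf') R (fun x hx x2 => ?_) (fun x hx => ?_) ?_⟩
  · have a := fun i {x} (h : x ∈ G) => sa H i (hs x h)
    change _ ∨ _ ∨ _ at hx
    simp only [LinearMap.ext_iff, LinearEquiv.coe_coe, LinearMap.add_apply, Module.End.one_apply,
      Module.End.mul_apply] at hx
    rcases hx with hx | hx | hx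
    · refine og' H (fun u v => by simp [hx, a _ he]) x2 fun w => ?_
      rw [hx, T.rh_pt, T.rh_pt, q_add, q_add, polar_add_left, H.q0, H.q0, H.q0,
        H.pol0 l (by simp [hil.symm, H.alt _]), H.pol0 i (by simp [hil, H.alt _])]
      rcases hm with ⟨-, hm⟩ | hm
      · simp [H.pol0 (a := update w i (e (w i))) (b := update w l (e (w l))) l
          (by simp [hil.symm, hm])]
      · simp [H.pol0 (a := update w i (e (w i))) (b := update w l (e (w l))) m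
          (by simp [hm, H.alt _])]
    · refine og' H (fun u v => by simp [hx, a _ hf]) x2 fun w => ?_
      rw [hx, T.rh_pt, q_add, H.q0, H.q0, H.pol0 l (by simp [hil.symm, H.alt _])]
      simp
    · refine og' H (fun u v => ?_) x2 fun w => ?_
      · have k := LinearMap.congr_fun (show rh (T.s l) e * (rh (T.s j) e' * rh (T.s i) e) =
          rh (T.s i) e * (rh (T.s j) e' * rh (T.s l) e) by
            rw [R.c12, ← mul_assoc, R.c13, mul_assoc, R.c23]) v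
        simp only [Module.End.mul_apply] at k
        simp [hx, a _ he, a _ he', k]
      rw [hx, T.rh_pt, T.rh_pt, T.rh_pt, q_add, H.q0, H.q0, H.pol0 m]
      · simp
      rcases hm with ⟨rfl, hm⟩ | hm
      · simp [hil.symm, hjl.symm, hm]
      · simp [hm, H.alt _]
  · have f2 : (1 + f) * (1 + f) = 1 := by
      rw [add_mul, mul_add, mul_add, s3, one_mul, one_mul, mul_one, add_zero, add_assoc,
        ← two_smul F, h2, zero_smul, add_zero]
    rw [← map_one (rh (T.s i)), ← map_add] at hx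
    refine ⟨1, fun j => ?_⟩
    by_cases k : i = j
    · exact k ▸ same_iff.2 ⟨1, LinearEquiv.ofLinear _ _ f2 f2, fun a w =>
        (LinearMap.congr_fun hx _).trans (rh_tmul _ _ _ _)⟩
    · exact CA.same_mul (hx ▸ T.com i j k _)
  · rintro g ⟨σ, hσ⟩
    obtain ⟨b, k⟩ := (hσ i).rh
    rw [cjm_rh, k]
    by_cases e : σ i = i
    · exact Or.inr (T.com _ _ (by rw [e]; exact hil) _ _)
    · exact Or.inl (T.com _ _ e _ _)

theorem two (hk : finrank F W = 2) (hI : 4 ≤ Fintype.card I) :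
    ∃ K : Subgroup ((U ⊗[F] W) ≃ₗ[F] (U ⊗[F] W)), (∀ g, g ∈ OM Q → g ∈ T.Wr → g ∈ K) ∧
      (∃ g, g ∈ OM Q ∧ g ∈ K ∧ g ∉ T.Wr) ∧ ∃ g, g ∈ OM Q ∧ g ∉ K := by
  obtain ⟨u, hu⟩ := exists_ne (0 : W)
  obtain ⟨v, hv⟩ := exists_apply_one (H.toTF.ne hu)
  obtain ⟨ι⟩ := Function.Embedding.nonempty_of_card_le (α := Fin 4) (β := I) (by simpa using hI)
  have s : ∀ a, rr β a a * rr β a a = 0 := fun a => by simp [rr_mul, H.alt a]
  have r : rr β v v * rr β u u + rr β u u * rr β v v = 1 := by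
    rw [add_comm, ac_two H.alt h2 hk, hv, one_pow, one_smul]
  exact main H h2 (G := {x | ∃ a, x = rr β a a}) (by
    rintro _ ⟨a, rfl⟩ _ ⟨b, rfl⟩
    exact ⟨_, ac_two H.alt h2 hk a b⟩) (by
    rintro b l hb _ ⟨a, rfl⟩
    exact ⟨_, ⟨b a, rfl⟩, sim_rr hb a a⟩) (by
    rintro _ ⟨c, rfl⟩ a b
    simp [rr_apply, ← H.alt.neg_eq c a, CharTwo.neg_eq, mul_comm]
    linear_combination β c a * β c b * h2) (i := ι 0) (j := ι 1) (l := ι 2) (m := ι 3)
    (by simp) (by simp) ⟨u, rfl⟩ ⟨v, rfl⟩ ⟨u, rfl⟩ ⟨v, rfl⟩ (s u) (s u) (s v) r r (Or.inl (by simp))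
    (Or.inr (by simp))

theorem four [Nontrivial I] (hk : finrank F W = 4) :
    ∃ K : Subgroup ((U ⊗[F] W) ≃ₗ[F] (U ⊗[F] W)), (∀ g, g ∈ OM Q → g ∈ T.Wr → g ∈ K) ∧
      (∃ g, g ∈ OM Q ∧ g ∈ K ∧ g ∉ T.Wr) ∧ ∃ g, g ∈ OM Q ∧ g ∉ K := by
  obtain ⟨u, hu⟩ := exists_ne (0 : W)
  obtain ⟨v, hv⟩ := exists_apply_one (H.toTF.ne hu)
  obtain ⟨i, l, hil⟩ := exists_pair_ne I
  have d1 := finrank_le_inf_ker ⊤ (β u)
  have d2 := finrank_le_inf_ker (⊤ ⊓ LinearMap.ker (β u)) (β v)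
  rw [finrank_top] at d1
  obtain ⟨b, ⟨⟨-, b1⟩, b2⟩, b0⟩ := Submodule.exists_mem_ne_zero_of_ne_bot
    (p := ⊤ ⊓ LinearMap.ker (β u) ⊓ LinearMap.ker (β v)) fun e => by
      rw [e, finrank_bot] at d2; omega
  replace b1 : β u b = 0 := b1
  replace b2 : β v b = 0 := b2
  obtain ⟨c', hc⟩ := exists_apply_one (H.toTF.ne b0)
  have n : ∀ x y, β y x = β x y := fun x y => by
    rw [← H.alt.neg_eq x y]; linear_combination -β x y * h2
  obtain ⟨c, c1, c2, c3⟩ : ∃ c, β u c = 0 ∧ β v c = 0 ∧ β b c = 1 :=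
    ⟨c' - β v c' • u - β u c' • v, by simp [hv, H.alt u], by simp [n u v, hv, H.alt v],
      by simp [hc, n u b, n v b, b1, b2]⟩
  have k := fun {a b c d : W} => spin_ac H.alt h2 hk (a := a) (b := b) (c := c) (d := d)
  exact main H h2 (G := {x | ∃ a b, β a b = 0 ∧ x = eT β 1 a b}) (by
    rintro _ ⟨a, b, h, rfl⟩ _ ⟨c, d, h', rfl⟩
    exact ⟨_, k h h'⟩) (by
    rintro b l hb _ ⟨a, c, h, rfl⟩
    refine ⟨_, ⟨b a, b c, by_contra fun e => ?_, rfl⟩, by simp [sim_rr hb]⟩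
    have := hb u v
    rw [hv, (mul_eq_zero.1 ((hb a c).symm.trans h)).resolve_right e] at this
    simp at this) (by
    rintro _ ⟨c, d, -, rfl⟩ a b
    simp [rr_apply, n a c, n a d]
    ring) (i := i) (j := i) (l := l) (m := l) hil hil ⟨u, b, b1, rfl⟩ ⟨v, c, c2, rfl⟩
    ⟨u, c, c1, rfl⟩ ⟨v, b, b2, rfl⟩ (eT_sq H.alt _ b1) (eT_sq H.alt _ c1) (eT_sq H.alt _ c2)
    (by simp [k c2 b1, n u v, n b c, hv, c3, b2]) (by simp [k b2 c1, n u v, hv, c3, c2])
    (Or.inr ⟨by simp [k c1 b1, H.alt u, b1], by simp [k c2 c1, H.alt c, c2],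
      by simp [k b2 c2, H.alt v, c2]⟩) (Or.inl ⟨rfl, fun a => by
        simp [rr_apply, n a u, n a b]; linear_combination β a u * β a b * h2⟩)

end TQS

open Geo in
theorem nonmax_spin [Fintype F] {n k t : ℕ} (hn : 13 ≤ n) {Q : QuadraticForm F (Fin n → F)}
    (hQ : ND Q) (h2 : (2 : F) = 0) (ht : 2 ≤ t) (hk4 : k ≤ 4)
    (e : Fin n ≃ (Fin t → Fin k)) (P : GL (Fin n) F) {f₁ : (Fin k → F) → (Fin k → F) → F}
    (hf₁ : IsSymplecticForm f₁) (hT : IsTensorPowerFormStructure id (polar Q) f₁ e P)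
    (hpure : ∀ xs : Fin t → Fin k → F,
      Q (P.1.mulVec ((fun a : Fin t → Fin k => ∏ i, xs i (a i)) ∘ e)) = 0) :
    ∃ K, tensorWreathSubgroup k t e P ⊓ omegaGL ⇑Q < K ∧ K < omegaGL ⇑Q := by
  obtain ⟨t, rfl⟩ : ∃ t', t = t' + 2 := ⟨t - 2, by omega⟩
  have hk := sympl_dim hf₁ (e ⟨0, by omega⟩ 0).pos
  have hk' : 2 ≤ k := by simp only [finrank_fin_fun] at hk; omega
  have : Nontrivial (Fin k) := Fin.nontrivial_iff_two_le.2 hk'
  have hc : n = k ^ (t + 2) := by simpa using Fintype.card_congr e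
  have h4 : k = 2 → 4 ≤ t + 2 := fun h => by
    by_contra h'
    have := Nat.pow_le_pow_right two_pos (show t + 2 ≤ 3 by omega)
    rw [h] at hc; omega
  obtain ⟨c, hc0, hT⟩ := power_form hT hf₁.bilinear
  have nd : ND (Q.comp (powE e P).symm.toLinearMap) := fun x hx => (powE e P).symm.map_eq_zero_iff.1
    (hQ _ fun y => by simpa [polar] using hx (powE e P y))
  have H : TQ (tp0 F k (t + 1)) (Q.comp (powE e P).symm.toLinearMap) (bilOf hf₁.bilinear) c :=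
    ⟨⟨fun a b => by rw [← hT]; simp [polar], hc0,
      ⟨nd, fun x hx => nd x fun y => (polar_comm _ _ _).trans (hx y)⟩,
      bilOf_nd _ hf₁.nondegenerate, hf₁.alternating⟩,
      fun a => (congrArg Q (powE_symm e P _)).trans (hpure a),
      by rw [← (powE e P).finrank_eq]; simp; omega⟩
  simp only [finrank_fin_fun] at hk
  refine between_of_equiv _ _ (· ∈ (tp0 F k (t + 1)).Wr) (mem_omegaGL' (powE e P))
    (mem_wreath_iff hk' e P) ?_
  rcases hk with hk | hk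
  · exact TQS.two H h2 (by simpa) (by simpa using h4 hk)
  · exact TQS.four H h2 (by simp; omega)

end Cfsg.Agent.Max
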