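import Mathlib
import Cfsg.Agent.Max.SubUn

/-!
# Subfield subgroups of orthogonal type in unitary groups of dimension at least six
-/

set_option autoImplicit false
set_option linter.unusedSectionVars false

namespace Cfsg.Agent.Max

open Module Herm

variable {F V : Type*} [Field F] [AddCommGroup V] [Module F V] [FiniteDimensional F V]
  {σ : F →+* F} {B : V →ₛₗ[σ] V →ₗ[F] F} {hB : HF B} {M : Subgroup (UG B)} {ι : Type}
  {K : Subfield F} {e : Basis ι F V} [Finite F] [Fintype ι]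

/-- The hypotheses of the subfield argument for orthogonal groups in `SU`. -/
structure SxO (hB : HF B) (M : Subgroup (UG B)) (K : Subfield F) (e : Basis ι F V) : Prop where
  hn : 6 ≤ Fintype.card ι
  fix : ∀ c, σ c = c ↔ c ∈ K
  two : (2 : F) ≠ 0
  rat : ∀ u ∈ Rt K e, ∀ v ∈ Rt K e, B u v ∈ K
  mem : ∀ g ∈ SUG B, g.1 ∈ NR K e → g ∈ M

namespace SxO
variable (h : SxO hB M K e) {a b c d v w x y z : V} {θ : F}
include h

theorem sym (hx : x ∈ Rt K e) (hy : y ∈ Rt K e) : B x y = B y x := by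
  rw [← hB.symm, (h.fix _).mpr (h.rat y hy x hx)]

theorem dual {U : Submodule K V} (hU : U ≤ Rt K e) (ha : a ∈ Rt K e) (h1 : a ∉ U) :
    ∃ c ∈ Rt K e, (∀ u ∈ U, B c u = 0) ∧ B c a = 1 := by
  obtain ⟨φ, h2, h3, h4⟩ := exists_RD hU ha h1
  obtain ⟨c, h5, rfl⟩ := exists_Rt_dual (Θ := fun y => B y) (fun x y e1 =>
    sub_eq_zero.mp (hB.nd _ fun z => by
      rw [map_sub, show B x = B y from e1, sub_self, LinearMap.zero_apply]))
    (fun x hx v hv => h.rat x hx v hv) h2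
  exact ⟨c, h5, h3, h4⟩

theorem dual2 (ha : a ∈ Rt K e) (hb : b ∈ Rt K e) (hc : c ∈ Rt K e)
    (h1 : c ∉ (K ∙ a) ⊔ K ∙ b) : ∃ d ∈ Rt K e, B d a = 0 ∧ B d b = 0 ∧ B d c = 1 := by
  obtain ⟨d, h2, h3, h4⟩ := h.dual (sup_le ((Submodule.span_singleton_le_iff_mem _ _).mpr ha)
    ((Submodule.span_singleton_le_iff_mem _ _).mpr hb)) hc h1
  exact ⟨d, h2, h3 a (Submodule.mem_sup_left (Submodule.mem_span_singleton_self a)),
    h3 b (Submodule.mem_sup_right (Submodule.mem_span_singleton_self b)), h4⟩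

theorem rk {U : Submodule K V} (hU : U ≤ Rt K e) (hx : x ∈ Rt K e) :
    finrank K U ≤ finrank K ↥(U ⊓ kr K (B x)) + 1 :=
  finrank_le_kr' hU fun v hv => h.rat x hx v hv

theorem rk2 (ha : a ∈ Rt K e) (hb : b ∈ Rt K e) :
    Fintype.card ι ≤ finrank K ↥(Rt K e ⊓ kr K (B a) ⊓ kr K (B b)) + 2 := by
  have := h.rk le_rfl ha
  have := h.rk (U := Rt K e ⊓ kr K (B a)) inf_le_left hb
  rw [finrank_Rt] at *
  omega

theorem iso2 (ha : a ∈ Rt K e) (hb : b ∈ Rt K e) :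
    ∃ x ∈ Rt K e, x ≠ 0 ∧ B x x = 0 ∧ B a x = 0 ∧ B b x = 0 := by
  obtain ⟨x, ⟨⟨h1, h2⟩, h3⟩, h4, h5⟩ := exists_iso_sub (U := Rt K e ⊓ kr K (B a) ⊓ kr K (B b))
    (by have := h.rk2 ha hb; have := h.hn; omega) hB fun x hx => h.rat x hx.1.1 x hx.1.1
  exact ⟨x, h1, h4, h5, h2, h3⟩

theorem pair_le {X : Submodule F V} {U : Submodule K V} (hU : U ≤ Rt K e)
    (H : ∀ x ∈ X, ∀ w ∈ U, B x w = 0) : finrank F X + finrank K U ≤ Fintype.card ι := by
  have h6 := Submodule.finrank_mono (show Submodule.span F (U : Set V) ≤ perp B X from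
    Submodule.span_le.mpr fun w hw x hx => H x hx w hw)
  have h7 := hB.finrank_perp_add X
  rw [finrank_eq_card_basis e] at h7
  have := finrank_le_span hU
  omega

theorem nons {U : Submodule K V} (hU : U ≤ Rt K e) (h1 : Fintype.card ι ≤ finrank K U + 2) :
    ∃ b ∈ U, B b b ≠ 0 := by
  by_contra hc
  push Not at hc
  have := h.pair_le (X := Submodule.span F (U : Set V)) hU fun x hx w hw => hB.zero_symm
    (mem_perp_singleton.mp ((show Submodule.span F (U : Set V) ≤ perp B (F ∙ w) from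
      Submodule.span_le.mpr fun u hu => mem_perp_singleton.mpr (by
        have := hc _ (add_mem hw hu)
        simp only [map_add, LinearMap.add_apply, hc w hw, hc u hu, h.sym (hU hu) (hU hw)] at this
        exact (mul_eq_zero.mp (by linear_combination this : 2 * B w u = 0)).resolve_left h.two))
      hx))
  have := finrank_le_span hU
  have := h.hn
  omega

theorem nons2 (ha : a ∈ Rt K e) (hb : b ∈ Rt K e) :
    ∃ x ∈ Rt K e, B x x ≠ 0 ∧ B a x = 0 ∧ B b x = 0 := by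
  obtain ⟨x, ⟨⟨h1, h2⟩, h3⟩, h4⟩ := h.nons (U := Rt K e ⊓ kr K (B a) ⊓ kr K (B b))
    (inf_le_left.trans inf_le_left) (h.rk2 ha hb)
  exact ⟨x, h1, h4, h2, h3⟩

theorem two_mem : (2 : F) ∈ K := by simpa using natCast_mem K 2

theorem ua (hx : x ∈ Rt K e) (h1 : B x x = 0) (hv : v ∈ Rt K e) (h2 : B x v = 0) :
    v ∈ UA hB M x := by
  have h3 := div_mem (h.rat v hv v hv) h.two_mem
  have h4 : B v v / 2 + σ (B v v / 2) = B v v := by
    rw [(h.fix _).mpr h3]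
    have := h.two
    field_simp
    ring
  refine ⟨h2, _, h4, h.mem _ (hB.eich_mem_SUG _ _ _) (nr_of' fun w hw => ?_)⟩
  rw [hB.eich_apply h1 h2 h4]
  exact sub_mem (add_mem hw (smul_mem_Rt (sub_mem (h.rat v hv w hw)
    (mul_mem h3 (h.rat x hx w hw))) hx)) (smul_mem_Rt (h.rat x hx w hw) hv)

theorem refl (ha : a ∈ Rt K e) (hb : b ∈ Rt K e) (h1 : B a a ≠ 0) (h2 : B b b ≠ 0) :
    ∃ g ∈ M, ∀ x, B b x = 0 → g.1 x = x + (-2 / B a a * B a x) • a := by
  have key : ∀ {a}, B a a ≠ 0 → -2 / B a a + σ (-2 / B a a) +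
      -2 / B a a * σ (-2 / B a a) * B a a = 0 := fun {a} h1 => by
    rw [map_div₀, map_neg, map_ofNat, hB.fix]
    field_simp
    ring
  have k2 : ∀ {a}, a ∈ Rt K e → B a a ≠ 0 → (hB.qr a (-2 / B a a)).1 ∈ NR K e := fun {a} ha h1 =>
    nr_of' fun w hw => by
      rw [hB.qr_apply (key h1)]
      exact add_mem hw (smul_mem_Rt (mul_mem (div_mem (neg_mem h.two_mem) (h.rat a ha a ha))
        (h.rat a ha w hw)) ha)
  refine ⟨hB.qr a (-2 / B a a) * hB.qr b (-2 / B b b), h.mem _ ?_ (mul_mem (k2 ha h1) (k2 hb h2)),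
    fun x hx => by rw [UG.mul_apply, hB.qr_apply_of_orth _ hx, hB.qr_apply (key h1)]⟩
  rw [mem_SUG, map_mul, Units.val_mul, hB.detU_qr (key h1), hB.detU_qr (key h2)]
  field_simp
  ring

theorem half (hc : c ∈ Rt K e) (hz : z ∈ Rt K e) (h1 : B c c = 0) (h2 : B c z ≠ 0) :
    ∃ k ∈ K, B (z - k • c) (z - k • c) = 0 := by
  have h3 := div_mem (h.rat z hz z hz) (mul_mem h.two_mem (h.rat c hc z hz))
  refine ⟨_, h3, ?_⟩
  have := h.two
  simp only [map_sub, map_smul, LinearMap.sub_apply, b_smul_left, smul_eq_mul, h1,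
    (h.fix _).mpr h3, h.sym hz hc]
  field_simp
  ring

theorem hyp (hx : x ∈ Rt K e) (h0 : x ≠ 0) (h1 : B x x = 0) :
    ∃ f ∈ Rt K e, B f f = 0 ∧ B x f = 1 := by
  obtain ⟨d, hd, -, h2⟩ := h.dual bot_le hx (by simpa using h0)
  replace h2 := hB.one_symm h2
  obtain ⟨k, hk, h3⟩ := h.half hx hd h1 (by simp [h2])
  exact ⟨_, sub_mem hd (smul_mem_Rt hk hx), h3, by simp [h1, h2]⟩

theorem scal (hx : x ∈ Rt K e) (h0 : x ≠ 0) (h1 : B x x = 0) (hz : z ∈ UA hB M x) {k : F}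
    (hk : k ∈ K) : k • z ∈ UA hB M x := by
  by_cases k0 : k = 0
  · simp [k0]
  obtain ⟨f, hf, h2, h3⟩ := h.hyp hx h0 h1
  obtain ⟨g, h4, h5⟩ := hB.exists_diag h1 h2 h3 k0
  rw [(h.fix _).mpr hk] at h4 h5
  have hg : g ∈ M := h.mem g (by rw [mem_SUG, h4, mul_inv_cancel₀ k0]) (nr_of' fun w hw => by
    rw [h5]
    exact add_mem (add_mem hw (smul_mem_Rt (mul_mem (sub_mem hk K.one_mem) (h.rat f hf w hw)) hx))
      (smul_mem_Rt (mul_mem (sub_mem (inv_mem hk) K.one_mem) (h.rat x hx w hw)) hf))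
  have h6 := UA.map_smul h1 hz hg k0 (by
    rw [h5, h1, hB.one_symm h3]
    module)
  rw [(h.fix _).mpr hk, h5, hz.1] at h6
  convert sub_mem h6 (UA.self h1 (k * ((k - 1) * B f z))) using 1
  module

variable (h0 : θ ≠ 0) (hθ : θ + σ θ = 0)
include h0 hθ

theorem not_mem : θ ∉ K := fun e' => h0 ((mul_eq_zero.mp (by
  rw [(h.fix _).mpr e'] at hθ
  linear_combination hθ : 2 * θ = 0)).resolve_left h.two)

theorem split {s t : F} (hs : s ∈ K) (ht : t ∈ K) (e' : s + θ * t = 0) : s = 0 ∧ t = 0 := by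
  have : t = 0 := by_contra fun t0 => h.not_mem h0 hθ (by
    convert neg_mem (div_mem hs ht) using 1
    field_simp
    linear_combination e')
  exact ⟨by simpa [this] using e', this⟩

theorem dec (v : V) : ∃ a ∈ Rt K e, ∃ b ∈ Rt K e, v = a + θ • b := by
  have h2 := h.two
  have h3 : σ θ = -θ := eq_neg_of_add_eq_zero_right hθ
  refine ⟨∑ i, ((e.repr v i + σ (e.repr v i)) / 2) • e i, Submodule.sum_mem _ fun i _ =>
    smul_mem_Rt ((h.fix _).mp ?_) (basis_mem_Rt i),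
    ∑ i, ((e.repr v i - σ (e.repr v i)) / (2 * θ)) • e i, Submodule.sum_mem _ fun i _ =>
    smul_mem_Rt ((h.fix _).mp ?_) (basis_mem_Rt i), ?_⟩
  · rw [map_div₀, map_add, hB.invol, map_ofNat, add_comm]
  · rw [map_div₀, map_sub, hB.invol, map_mul, map_ofNat, h3]
    field_simp
    ring
  · rw [Finset.smul_sum, ← Finset.sum_add_distrib]
    conv_lhs => rw [← e.sum_repr v]
    refine Finset.sum_congr rfl fun i _ => ?_
    rw [smul_smul, ← add_smul]
    congr 1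
    field_simp
    ring

theorem irr (hx : x ∈ Rt K e) (x0 : x ≠ 0) (h1 : B x x = 0) (hy : y ∈ Rt K e)
    (h2 : θ • y ∈ UA hB M x) (h3 : y ∉ K ∙ x) : UP hB M x := by
  let Y : Submodule K V :=
    { carrier := {v | v ∈ Rt K e ∧ θ • v ∈ UA hB M x}
      add_mem' := fun a b => ⟨add_mem a.1 b.1, by rw [smul_add]; exact add_mem a.2 b.2⟩
      zero_mem' := ⟨zero_mem _, by simp⟩
      smul_mem' := fun k v a => ⟨(Rt K e).smul_mem k a.1, by
        rw [Subfield.smul_def, smul_comm]; exact h.scal hx x0 h1 a.2 k.2⟩ }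
  have xy : B x y = 0 := by simpa [h0] using h2.1
  obtain ⟨b, hb, b0, b1, b2⟩ := h.nons2 hx hy
  have A : ∀ a ∈ Rt K e, B x a = 0 → B y a ≠ 0 → a ∉ Y → B a a = 0 := fun a ha a1 a2 a3 => by
    by_contra a0
    obtain ⟨g, hg, hg'⟩ := h.refl ha hb a0 b0
    have h4 := sub_mem (UA.map_fix h2 hg (by
      rw [hg' x (hB.zero_symm b1), hB.zero_symm a1]; simp)) h2
    rw [map_smul, hg' y (hB.zero_symm b2), smul_add, add_sub_cancel_left, smul_comm] at h4
    have h5 := mul_mem (div_mem (neg_mem h.two_mem) (h.rat a ha a ha)) (h.rat a ha y hy)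
    have h6 := h.scal hx x0 h1 h4 (inv_mem h5)
    rw [inv_smul_smul₀ (mul_ne_zero (div_ne_zero (neg_ne_zero.mpr h.two) a0)
      fun e' => a2 (hB.zero_symm e'))] at h6
    exact a3 ⟨ha, h6⟩
  have H : ∀ v ∈ Rt K e, B x v = 0 → v ∈ Y := fun v₀ hv₀ v1 => by
    by_contra v2
    obtain ⟨c, hc, c1, c2⟩ := h.dual (U := Y) (fun _ h => h.1) hv₀ v2
    obtain ⟨d, hd, d1, -, d2⟩ := h.dual2 hx hx hy (by simpa using h3)
    obtain ⟨v, ⟨hv, v3⟩, v4, v5⟩ := exists_not_mem_two (W := Rt K e ⊓ kr K (B x))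
      (X := kr K (B c)) (Y := kr K (B y)) (fun e' => by simpa [c2] using e' ⟨hv₀, v1⟩)
      fun e' => by simpa [hB.one_symm d2] using e' ⟨hd, hB.zero_symm d1⟩
    rw [mem_kr] at v4 v5
    replace v3 : B x v = 0 := v3
    have A' : ∀ a ∈ Rt K e, B x a = 0 → B y a ≠ 0 → B c a ≠ 0 → B a a = 0 :=
      fun a ha a1 a2 a3 => A a ha a1 a2 fun e' => a3 (c1 a e')
    have k1 := h.rat y hy v hv
    have k2 := h.rat c hc v hv
    obtain ⟨w, hw, w0, w1, w2⟩ := h.nons2 hx (sub_mem (smul_mem_Rt k1 hc) (smul_mem_Rt k2 hy))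
    simp only [map_sub, LinearMap.sub_apply, b_smul_left, (h.fix _).mpr k1, (h.fix _).mpr k2,
      sub_eq_zero] at w2
    by_cases w3 : B c w = 0
    · have w4 : B y w = 0 := by simpa [w3, v4] using w2
      have e1 := A' _ (add_mem hv hw) (by simp [v3, w1]) (by simpa [w4] using v5)
        (by simpa [w3] using v4)
      have e2 := A' _ (sub_mem hv hw) (by simp [v3, w1]) (by simpa [w4] using v5)
        (by simpa [w3] using v4)
      have e3 := A' v hv v3 v5 v4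
      simp only [map_add, map_sub, LinearMap.add_apply, LinearMap.sub_apply, e3] at e1 e2
      exact mul_ne_zero h.two w0 (by linear_combination e1 + e2)
    · exact w0 (A' w hw w1 (fun e' => by simp [e', v5, w3] at w2) w3)
  refine ⟨h1, fun z hz => ?_⟩
  obtain ⟨a, ha, b, hb, rfl⟩ := h.dec h0 hθ z
  obtain ⟨h4, h5⟩ := h.split h0 hθ (h.rat x hx a ha) (h.rat x hx b hb) (by simpa using hz)
  exact add_mem (h.ua hx h1 ha h4) (H b hb h5).2

theorem coef (hc : ¬ SUG B ≤ M) (hx : x ∈ Rt K e) (x0 : x ≠ 0) (h1 : B x x = 0)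
    (hz : z ∈ UA hB M x) (hd : d ∈ Rt K e) (h2 : B d x = 0) : B d z ∈ K := by
  obtain ⟨a, ha, b, hb, rfl⟩ := h.dec h0 hθ z
  obtain ⟨h4, h5⟩ := h.split h0 hθ (h.rat x hx a ha) (h.rat x hx b hb) (by simpa using hz.1)
  by_cases h3 : b ∈ K ∙ x
  · obtain ⟨k, rfl⟩ := Submodule.mem_span_singleton.mp h3
    simpa [Subfield.smul_def, h2] using h.rat d hd a ha
  have h6 := h.irr h0 hθ hx x0 h1 hb (by simpa using sub_mem hz (h.ua hx h1 ha h4)) h3
  obtain ⟨f, hf, f0, f1⟩ := h.hyp hx x0 h1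
  obtain ⟨u, hu, u0, u1, -⟩ := h.nons2 hx hx
  have h7 : B (x - f) (x - f) = -2 := by
    simp [h1, f0, f1, hB.one_symm f1]
    ring
  obtain ⟨g, hg, hg'⟩ := h.refl (sub_mem hx hf) hu (by simp only [h7]; simpa using h.two) u0
  have h8 := h6.map hg
  rw [hg' x (hB.zero_symm u1), h7, div_self (by simpa using h.two)] at h8
  refine (hc (un_le_of_pair (hB := hB) (by rw [finrank_eq_card_basis e]; have := h.hn; omega)
    h6 h8 ?_)).elim
  simp [h1, f1, hB.one_symm f1]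

theorem rat_of (hc : ¬ SUG B ≤ M) {g : UG B} (hg : g ∈ M) (ha : a ∈ Rt K e) (h1 : B a a = 0) :
    ∃ c : F, c ≠ 0 ∧ c • g.1 a ∈ Rt K e := by
  by_contra hn
  have triv : ∀ x ∈ Rt K e, g.1 a ∉ F ∙ x := fun x hx h3 => hn (by
    obtain ⟨k, hk'⟩ := Submodule.mem_span_singleton.mp h3
    rw [← hk']
    by_cases hk : k = 0
    · exact ⟨1, one_ne_zero, by simp [hk]⟩
    · exact ⟨k⁻¹, inv_ne_zero hk, by simpa [smul_smul, hk] using hx⟩)
  obtain ⟨p, hp, r, hr, e1⟩ := h.dec h0 hθ (g.1 a)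
  have yy : B (g.1 a) (g.1 a) = 0 := by simp [h1]
  have i1 : p ∉ K ∙ r := fun e' => by
    obtain ⟨k, rfl⟩ := Submodule.mem_span_singleton.mp e'
    exact triv r hr (Submodule.mem_span_singleton.mpr ⟨k + θ, by
      rw [e1, add_smul]; rfl⟩)
  have i2 : r ∉ K ∙ p := fun e' => by
    obtain ⟨k, rfl⟩ := Submodule.mem_span_singleton.mp e'
    exact triv p hp (Submodule.mem_span_singleton.mpr ⟨1 + θ * k, by
      rw [e1, add_smul, one_smul, mul_smul]; rfl⟩)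
  have orth : ∀ {w}, B p w = 0 → B r w = 0 → B (g.1 a) w = 0 := fun e2 e3 => by
    simp [e1, e2, e3]
  have grow : ∀ x ∈ Rt K e, x ≠ 0 → B x x = 0 → B (g.1 a) x = 0 → ∀ b ∈ Rt K e, B a b = 0 →
      B (g.1 b) x = 0 → ∀ w ∈ Rt K e, B x w = 0 → B (g.1 a) w = 0 → ∀ d ∈ Rt K e, B d x = 0 →
      B (g.1 b) w * (B d p + θ * B d r) ∈ K := fun x hx x0 x1 x2 b hb b1 b2 w hw w1 w2 d hd d1 => by
    obtain ⟨h3, l, h4, h5⟩ := UA.map (h.ua ha h1 hb b1) hg
    have h6 := h.ua hx x1 hw w1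
    have h7 := sub_mem (UA.map_fix h6 h5 (hB.eich_apply_of_orth l x2 b2)) h6
    rw [hB.eich_apply yy h3 h4, w2] at h7
    simpa [e1, mul_add, mul_left_comm θ] using h.coef h0 hθ hc hx x0 x1 h7 hd d1
  have fin : ∀ c : F, c ≠ 0 → c ∈ K → c * θ ∈ K → False := fun c c0 c1 c2 =>
    h.not_mem h0 hθ (by simpa [c0] using mul_mem (inv_mem c1) c2)
  have big : ∀ x, ∃ X : Submodule F V, Fintype.card ι ≤ finrank F X + 3 ∧
      (∀ z ∈ X, B (g.1 a) z = 0) ∧ ∀ w, (∀ b ∈ Rt K e, B a b = 0 → B (g.1 b) x = 0 →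
        B (g.1 b) w = 0) → ∀ z ∈ X, B z w = 0 := fun x => by
    obtain ⟨s, hs, t, ht, e2⟩ := h.dec h0 hθ (g⁻¹.1 x)
    refine ⟨(Submodule.span F ((Rt K e ⊓ kr K (B s) ⊓ kr K (B t) ⊓ kr K (B a) :
      Submodule K V) : Set V)).map (g.1 : V →ₗ[F] V), ?_, ?_, fun w hw => ?_⟩
    · have := h.rk2 hs ht
      have := h.rk (U := Rt K e ⊓ kr K (B s) ⊓ kr K (B t)) (inf_le_left.trans inf_le_left) ha
      have := finrank_le_span (U := Rt K e ⊓ kr K (B s) ⊓ kr K (B t) ⊓ kr K (B a))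
        (inf_le_left.trans (inf_le_left.trans inf_le_left))
      rw [LinearEquiv.finrank_map_eq]
      omega
    · rintro _ ⟨z, hz, rfl⟩
      simpa using mem_perp_singleton.mp ((show _ ≤ perp B (F ∙ a) from
        Submodule.span_le.mpr fun u hu => mem_perp_singleton.mpr hu.2) hz)
    · rw [Submodule.map_span]
      refine fun z hz => hB.zero_symm (mem_perp_singleton.mp ((show _ ≤ perp B (F ∙ w) from
        Submodule.span_le.mpr ?_) hz))
      rintro _ ⟨b, ⟨⟨⟨hb, b1⟩, b2⟩, b3⟩, rfl⟩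
      refine mem_perp_singleton.mpr (hB.zero_symm (hw b hb b3 (hB.zero_symm ?_)))
      rw [← UG.b_inv_left, e2]
      simp [mem_kr.mp b1, mem_kr.mp b2]
  have hn := h.hn
  by_cases h2 : B (g.1 a) p = 0 ∧ B (g.1 a) r = 0
  · have h3 := hB.zero_symm h2.1
    have h4 := hB.zero_symm h2.2
    rw [e1, map_add, map_smul] at h3 h4
    obtain ⟨pp, pr⟩ := h.split h0 hθ (h.rat p hp p hp) (h.rat p hp r hr) h3
    obtain ⟨rp, rr⟩ := h.split h0 hθ (h.rat r hr p hp) (h.rat r hr r hr) h4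
    obtain ⟨X, x1, -, x3⟩ := big p
    obtain ⟨w, ⟨⟨hw, w1⟩, w2⟩, b, hb, b1, b2, b3⟩ : ∃ w ∈ Rt K e ⊓ kr K (B p) ⊓ kr K (B r),
        ∃ b ∈ Rt K e, B a b = 0 ∧ B (g.1 b) p = 0 ∧ B (g.1 b) w ≠ 0 := by
      by_contra h5
      push Not at h5
      have := h.pair_le (X := X) (U := Rt K e ⊓ kr K (B p) ⊓ kr K (B r))
        (inf_le_left.trans inf_le_left) fun z hz w hw => x3 w (h5 w hw) z hz
      have := h.rk2 hp hr
      omega
    have b4 : B (g.1 b) r = 0 := by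
      have := hB.zero_symm ((UG.map_b g a b).trans b1)
      simpa [e1, b2, h0] using this
    obtain ⟨d, hd, d1, -, d2⟩ := h.dual2 hp hp hr (by simpa using i2)
    obtain ⟨d', hd', d3, -, d4⟩ := h.dual2 hr hr hp (by simpa using i1)
    exact fin _ b3 (by
      simpa [d3, d4] using grow r hr (by rintro rfl; simp at i2) rr h2.2 b hb b1 b4 w hw w2
        (orth w1 w2) d' hd' d3) (by
      simpa [d1, d2] using grow p hp (by rintro rfl; simp at i1) pp h2.1 b hb b1 b2 w hw w1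
        (orth w1 w2) d hd d1)
  obtain ⟨x, hx, x0, xx, px, rx⟩ := h.iso2 hp hr
  have i3 : x ∉ (K ∙ p) ⊔ K ∙ r := fun e' => h2 (by
    obtain ⟨_, e2, _, e3, e4⟩ := Submodule.mem_sup.mp e'
    obtain ⟨k, rfl⟩ := Submodule.mem_span_singleton.mp e2
    obtain ⟨l, rfl⟩ := Submodule.mem_span_singleton.mp e3
    have e5 := orth px rx
    have e6 := yy
    rw [← e4, Subfield.smul_def, Subfield.smul_def, map_add, map_smul, map_smul] at e5
    nth_rw 2 [e1] at e6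
    rw [map_add, map_smul] at e6
    simp only [smul_eq_mul] at e5 e6
    have e7 : (l : F) + θ * -k ≠ 0 := fun e7 => by
      obtain ⟨l0, k0⟩ := h.split h0 hθ l.2 (neg_mem k.2) e7
      exact x0 (by simp [← e4, Subfield.smul_def, l0, neg_eq_zero.mp k0])
    have e8 : B (g.1 a) r = 0 := (mul_eq_zero.mp (by linear_combination e5 - k * e6 :
      ((l : F) + θ * -k) * B (g.1 a) r = 0)).resolve_left e7
    exact ⟨by simpa [e8] using e6, e8⟩)
  obtain ⟨X, x1, x2, x3⟩ := big x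
  obtain ⟨w, ⟨⟨⟨hw, w1⟩, w2⟩, w3⟩, b, hb, b1, b2, b3⟩ : ∃ w ∈ Rt K e ⊓ kr K (B p) ⊓ kr K (B r) ⊓
      kr K (B x), ∃ b ∈ Rt K e, B a b = 0 ∧ B (g.1 b) x = 0 ∧ B (g.1 b) w ≠ 0 := by
    by_contra h5
    push Not at h5
    have := h.pair_le (X := X ⊔ ((F ∙ p) ⊔ F ∙ r))
      (U := Rt K e ⊓ kr K (B p) ⊓ kr K (B r) ⊓ kr K (B x))
      (inf_le_left.trans (inf_le_left.trans inf_le_left)) fun z hz w hw => hB.zero_symm
        (mem_perp_singleton.mp ((show _ ≤ perp B (F ∙ w) from sup_le (fun z hz =>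
          mem_perp_singleton.mpr (hB.zero_symm (x3 w (h5 w hw) z hz))) (sup_le
          ((Submodule.span_singleton_le_iff_mem _ _).mpr (mem_perp_singleton.mpr
            (hB.zero_symm hw.1.1.2)))
          ((Submodule.span_singleton_le_iff_mem _ _).mpr (mem_perp_singleton.mpr
            (hB.zero_symm hw.1.2))))) hz))
    have := Submodule.finrank_lt_finrank_of_lt (show X < X ⊔ ((F ∙ p) ⊔ F ∙ r) from
      left_lt_sup.mpr fun e' => h2 ⟨x2 p (e' (Submodule.mem_sup_left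
        (Submodule.mem_span_singleton_self p))), x2 r (e' (Submodule.mem_sup_right
        (Submodule.mem_span_singleton_self r)))⟩)
    have := h.rk2 hp hr
    have := h.rk (U := Rt K e ⊓ kr K (B p) ⊓ kr K (B r)) (inf_le_left.trans inf_le_left) hx
    omega
  obtain ⟨d, hd, d1, d2, d3⟩ := h.dual2 hp hx hr (span_swap i2 i3)
  obtain ⟨d', hd', d4, d5, d6⟩ := h.dual2 hr hx hp (span_swap i1 (sup_comm (K ∙ p) _ ▸ i3))
  exact fin _ b3 (by
    simpa [d4, d6] using grow x hx x0 xx (orth px rx) b hb b1 b2 w hw w3 (orth w1 w2) d' hd' d5) (by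
    simpa [d1, d3] using grow x hx x0 xx (orth px rx) b hb b1 b2 w hw w3 (orth w1 w2) d hd d2)

theorem nr (hc : ¬ SUG B ≤ M) {g : UG B} (hg : g ∈ M) : g.1 ∈ NR K e := by
  have key : ∀ a ∈ Rt K e, ∀ v ∈ Rt K e, a ≠ 0 → B a a = 0 → B v v = 0 → B a v = 0 → ∀ c : F,
      c ≠ 0 → c • g.1 a ∈ Rt K e → c • g.1 v ∈ Rt K e := fun a ha v hv ha0 h2 h3 h4 c c0 h5 => by
    obtain ⟨b, hb, h6⟩ := h.rat_of h0 hθ hc hg hv h3
    obtain ⟨d, hd, h7⟩ := h.rat_of h0 hθ hc hg (add_mem ha hv) (by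
      simp [h2, h3, h4, hB.zero_symm h4])
    exact nr_step ha hv c0 hb hd ha0 h5 h6 h7
  obtain ⟨a, ha, a0, h2, -⟩ := h.iso2 (zero_mem _) (zero_mem _)
  obtain ⟨c, c0, h4⟩ := h.rat_of h0 hθ hc hg ha h2
  have all : ∀ v ∈ Rt K e, B v v = 0 → c • g.1 v ∈ Rt K e := fun v hv h5 => by
    obtain ⟨d, hd, d0, h6, h7, h8⟩ := h.iso2 ha hv
    exact key d hd v hv d0 h6 h5 (hB.zero_symm h8) c c0 (key a ha d hd a0 h2 h6 h7 c c0 h4)
  obtain ⟨f, hf, -, f1⟩ := h.hyp ha a0 h2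
  refine nr_of c0 fun v hv => forall_of_add (F := K) (W := Rt K e) (X := kr K (B a))
    (P := fun v => c • g.1 v ∈ Rt K e) (fun x y h h' => by
      simpa only [map_sub, smul_sub] using sub_mem h h') hf (by simp [f1]) (fun z hz hz' => ?_) hv
  obtain ⟨k, hk, h7⟩ := h.half ha hz h2 hz'
  have := add_mem (all _ (sub_mem hz (smul_mem_Rt hk ha)) h7) (smul_mem_Rt hk h4)
  rwa [map_sub, map_smul, smul_sub, smul_comm c k, sub_add_cancel] at this

theorem exists_not : ∃ g ∈ SUG B, g.1 ∉ NR K e := by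
  obtain ⟨x, hx, x0, h1, -⟩ := h.iso2 (zero_mem _) (zero_mem _)
  obtain ⟨f, hf, -, h2⟩ := h.hyp hx x0 h1
  refine ⟨_, hB.tv_mem_SUG h1 θ, fun ⟨c, hc, h7⟩ => h.not_mem h0 hθ ?_⟩
  have h8 : c ∈ K := mem_of_smul_mem hx x0 (by simpa [hB.tv_apply h1 hθ, h1] using (h7 x).mp hx)
  have h9 := sub_mem ((h7 f).mp hf) (smul_mem_Rt h8 hf)
  rw [hB.tv_apply h1 hθ, h2, mul_one, smul_add, add_sub_cancel_left, smul_smul] at h9
  simpa [hc] using div_mem (mem_of_smul_mem hx x0 h9) h8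

end SxO

section geo
variable {n q : ℕ} (hF : Nat.card F = q ^ 2)
include hF

theorem max_un_orth6 (hn : 6 ≤ n) (h2 : (2 : F) ≠ 0) (hq : Nat.card F = Nat.card K ^ 2)
    (P : GL (Fin n) F) (hP : Geo.IsFormRationalStructure (hermForm n F q) K 1 P) :
    Geo.IsMaximalIn (Cfsg.GU n F q ⊓ Geo.specialLinear (Fin n) F)
      (Geo.subfieldSubgroup K P ⊓ (Cfsg.GU n F q ⊓ Geo.specialLinear (Fin n) F)) := by
  have key : ∀ w, (P : Matrix _ _ F).mulVec (fun i =>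
      ((Pi.basisFun F _).map (Orth.glEquiv _ F P)).repr w i) = w :=
    (Orth.glEquiv _ F P).apply_symm_apply
  have hK : Nat.card K = q := Nat.pow_left_injective two_ne_zero (hq.symm.trans hF)
  have hh : ∀ M, (∀ g ∈ SUG (sB hF n), g.1 ∈ NR K ((Pi.basisFun F _).map (Orth.glEquiv _ F P)) →
      g ∈ M) → SxO (hf_sB hF n) M K ((Pi.basisFun F _).map (Orth.glEquiv _ F P)) := fun M h =>
    ⟨by simpa using hn, fun c => by rw [mem_iff_pow, hK, frob_apply], h2, fun u hu v hv => by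
      simpa only [key, hermForm_eq hF, one_mul] using hP _ _ (mem_Rt.mp hv) (mem_Rt.mp hu), h⟩
  obtain ⟨θ, h0, hθ⟩ := (inv_frob hF).exists_skew
  exact isMaximalIn_SU hF _ (mem_subfield_iff P) ((hh ⊤ fun _ _ _ => trivial).exists_not h0 hθ)
    fun M h5 _ ⟨g, hg, hg'⟩ => by_contra fun hc => hg' ((hh M h5).nr h0 hθ hc hg)

end geo

end Cfsg.Agent.Max
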