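import Mathlib
import Cfsg.Agent.Max.SubSp4

/-!
# Subfield subgroups of symplectic groups in odd characteristic, dimension at least four
-/

set_option autoImplicit false
set_option linter.unusedSectionVars false

namespace Cfsg.Agent.Max

open Module Classical.SpWitt Classical.SpMat

variable {F V : Type*} [Field F] [AddCommGroup V] [Module F V] {ι : Type} {K : Subfield F}
  {e : Basis ι F V} {M : Subgroup (V ≃ₗ[F] V)} {B : LinearMap.BilinForm F V}
  [Finite F] [Fintype ι]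

/-- The basic hypotheses of the subfield argument for `Sp` in odd characteristic. -/
structure SubS4o (B : LinearMap.BilinForm F V) (K : Subfield F) (e : Basis ι F V)
    (M : Subgroup (V ≃ₗ[F] V)) : Prop where
  hn : 4 ≤ Fintype.card ι
  two : (2 : F) ≠ 0
  nd : B.Nondegenerate
  alt : B.IsAlt
  rat : ∀ u ∈ Rt K e, B u ∈ RD K e
  le : ∀ g ∈ M, g ∈ SG B
  mem : ∀ g ∈ SG B, g ∈ NR K e → g ∈ M

namespace SubS4o
variable (h : SubS4o B K e M) {a b c d : V} {s t s' t' : F}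
include h

theorem swap (H : Flg B K e a c) : Flg B K e c a :=
  ⟨H.hc, H.ha, fun e => H.ind (e ▸ zero_mem _), h.alt.isRefl _ _ H.orth,
    not_mem_span_swap H.a0 H.ind⟩

theorem dual {U : Submodule K V} (hU : U ≤ Rt K e) (ha : a ∈ Rt K e) (h1 : a ∉ U) :
    ∃ c ∈ Rt K e, (∀ u ∈ U, B c u = 0) ∧ B c a = 1 := by
  obtain ⟨φ, h2, h3⟩ := exists_RD hU ha h1
  obtain ⟨c, h4, rfl⟩ := exists_Rt_dual (Θ := B) (fun x y e => sub_eq_zero.mp
    (h.nd.1 _ fun z => by rw [map_sub, e, sub_self, LinearMap.zero_apply])) h.rat h2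
  exact ⟨c, h4, h3⟩

theorem dual2 (H : Flg B K e a c) : ∃ d, Flg B K e a d ∧ B d c = 1 := by
  obtain ⟨d, h1, h2, h3⟩ := h.dual ((Submodule.span_singleton_le_iff_mem _ _).mpr H.ha) H.hc H.ind
  refine ⟨d, ⟨H.ha, h1, H.a0, h.alt.isRefl _ _ (h2 a (Submodule.mem_span_singleton_self a)), fun e => ?_⟩,
    h3⟩
  obtain ⟨k, rfl⟩ := Submodule.mem_span_singleton.mp e
  have : k • B a c = 1 := by simpa using h3
  simp [H.orth] at this

theorem third (ha : a ∈ Rt K e) (hb : b ∈ Rt K e) :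
    ∃ c ∈ Rt K e, B a c = 0 ∧ B b c = 0 ∧ c ∉ K ∙ a ∧ c ∉ K ∙ b := by
  have key : ∀ x : V, ∃ c ∈ Rt K e ⊓ kr K (B a) ⊓ kr K (B b), c ∉ K ∙ x := fun x =>
    exists_not_mem_of_finrank_lt (by
      have := finrank_le_kr' le_rfl (h.rat a ha)
      have := finrank_le_kr' (U := Rt K e ⊓ kr K (B a)) inf_le_left (h.rat b hb)
      have := finrank_span_one_le (F := K) x
      have := h.hn
      rw [finrank_Rt] at *
      omega)
  obtain ⟨x, h1, h2⟩ := key a
  obtain ⟨y, h3, h4⟩ := key b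
  by_cases h5 : x ∈ K ∙ b
  · by_cases h6 : y ∈ K ∙ a
    · have := add_mem h1 h3
      exact ⟨x + y, this.1.1, this.1.2, this.2, fun e => h2 ((Submodule.add_mem_iff_left _ h6).mp e),
        fun e => h4 ((Submodule.add_mem_iff_right _ h5).mp e)⟩
    · exact ⟨y, h3.1.1, h3.1.2, h3.2, h6, h4⟩
  · exact ⟨x, h1.1.1, h1.1.2, h1.2, h2, h5⟩

theorem exists_flg (ha : a ∈ Rt K e) (h0 : a ≠ 0) : ∃ c, Flg B K e a c :=
  let ⟨c, h1, h2, _, h3, _⟩ := h.third ha ha
  ⟨c, ha, h1, h0, h2, h3⟩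

theorem tv (ha : a ∈ Rt K e) (hs : s ∈ K) : T M a (s • B a) :=
  T.of_tv (h := by simp [h.alt.self_eq_zero]) (h.mem _ (tv_mem_SG h.alt _ _ _) (nr_of' fun v hv =>
    add_mem hv (smul_mem_Rt (mul_mem hs (h.rat a ha v hv)) ha)))

theorem sh (ha : a ∈ Rt K e) (hb : b ∈ Rt K e) (e : B a b = 0) : uni _ (sS_sq h.alt e) ∈ M :=
  h.mem _ (uni_sS_mem h.alt e _) (nr_of' fun v hv => add_mem hv (add_mem
    (smul_mem_Rt (h.rat b hb v hv) ha) (smul_mem_Rt (h.rat a ha v hv) hb)))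

theorem move (ha : a ∈ Rt K e) (hb : b ∈ Rt K e) (hc : c ∈ Rt K e) (h1 : B a b = 0)
    (h2 : B a c = 0) (h3 : b ∉ K ∙ a) (h4 : c ∉ K ∙ a) : ∃ g ∈ M, g a = a ∧ g b = c := by
  have key : ∀ b ∈ Rt K e, ∀ c ∈ Rt K e, B a b = 0 → B a c = 0 → B c b ≠ 0 →
      ∃ g ∈ M, g a = a ∧ g b = c := fun b hb c hc h1 h2 h3 =>
    ⟨_, (h.tv (sub_mem hc hb) (inv_mem (h.rat c hc b hb))).tv_mem,
      by simp [h.alt.isRefl _ _ h1, h.alt.isRefl _ _ h2], by simp [h.alt.self_eq_zero, h3]⟩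
  obtain ⟨x, hx, h5, h6⟩ := h.dual ((Submodule.span_singleton_le_iff_mem _ _).mpr ha) hb h3
  obtain ⟨y, hy, h7, h8⟩ := h.dual ((Submodule.span_singleton_le_iff_mem _ _).mpr ha) hc h4
  replace h5 := h.alt.isRefl _ _ (h5 a (Submodule.mem_span_singleton_self a))
  replace h7 := h.alt.isRefl _ _ (h7 a (Submodule.mem_span_singleton_self a))
  obtain ⟨z, hz, h9, h10, h11⟩ : ∃ z ∈ Rt K e, B a z = 0 ∧ B z b ≠ 0 ∧ B z c ≠ 0 := by
    by_cases h9 : B x c = 0
    · by_cases h10 : B y b = 0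
      · exact ⟨x + y, add_mem hx hy, by simp [h5, h7], by simp [h6, h10], by simp [h8, h9]⟩
      · exact ⟨y, hy, h7, h10, by simp [h8]⟩
    · exact ⟨x, hx, h5, by simp [h6], h9⟩
  obtain ⟨g, hg, e1, e2⟩ := key b hb z hz h1 h9 h10
  obtain ⟨g', hg', e3, e4⟩ := key z hz c hc h9 h2 fun e => h11 (h.alt.isRefl _ _ e)
  exact ⟨g' * g, mul_mem hg' hg, by simp [e1, e3], by simp [e2, e4]⟩

theorem all (H : Flg B K e a c) (h1 : SQ B M a (s • c) t) : PQ B K e M s t := fun a' c' H' => by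
  have key : ∀ {a c d}, Flg B K e a c → Flg B K e a d → ∃ g ∈ M, g a = a ∧ g c = d :=
    fun H H' => h.move H.ha H.hc H'.hc H.orth H'.orth H.ind H'.ind
  obtain ⟨d, h2, h3, h4, h5, h6⟩ := h.third H.ha H'.ha
  have f1 : Flg B K e a d := ⟨H.ha, h2, H.a0, h3, h5⟩
  have f2 : Flg B K e a' d := ⟨H'.ha, h2, H'.a0, h4, h6⟩
  obtain ⟨g₁, m1, e1, e2⟩ := key H f1
  obtain ⟨g₂, m2, e3, e4⟩ := key (h.swap f1) (h.swap f2)
  obtain ⟨g₃, m3, e5, e6⟩ := key f2 H'
  simpa [e1, e2, e3, e4, e5, e6] using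
    ((h1.map m1 (h.le _ m1)).map m2 (h.le _ m2)).map m3 (h.le _ m3)

theorem pq_T (ha : a ∈ Rt K e) (h0 : a ≠ 0) (h1 : T M a (t • B a)) : PQ B K e M 0 t :=
  let ⟨_, H⟩ := h.exists_flg ha h0
  h.all H (by simpa using SQ.of_T h1)

theorem T_pq (h1 : PQ B K e M 0 t) (ha : a ∈ Rt K e) : T M a (t • B a) := by
  by_cases h0 : a = 0
  · exact h0 ▸ T.zero_left _
  obtain ⟨c, H⟩ := h.exists_flg ha h0
  exact SQ.to_T h.alt (by simpa using h1 a c H)

theorem sub (h1 : PQ B K e M s t) (h2 : PQ B K e M s' t') : PQ B K e M (s - s') (t - t') :=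
  fun a c H => by
    simpa [← sub_smul, h.alt.self_eq_zero] using
      (h1 a c H).sub h.alt (h2 a c H) (by simp [H.orth]) (by simp [H.orth])

theorem rat0 (ht : t ∈ K) : PQ B K e M 0 t := fun _ _ H => by simpa using SQ.of_T (h.tv H.ha ht)

theorem rat1 (hs : s ∈ K) : PQ B K e M s 0 := fun a c H =>
  (R.of_uni (h.sh H.ha (smul_mem_Rt hs H.hc) (by simp [H.orth]))).congr fun x => by simp

theorem smul {k : F} (hk : k ∈ K) (h0 : k ≠ 0) (h1 : PQ B K e M s t) : PQ B K e M (s * k) t :=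
  fun a c H => by
    simpa [smul_smul] using h1 a (k • c) ⟨H.ha, smul_mem_Rt hk H.hc, H.a0, by simp [H.orth],
      fun e => H.ind (by
        have := Submodule.smul_mem _ (⟨k, hk⟩ : K)⁻¹ e
        change k⁻¹ • k • c ∈ _ at this
        simpa [h0] using this)⟩

theorem comm (h1 : PQ B K e M s t) (h2 : PQ B K e M s' t') : PQ B K e M 0 (2 * (s * s')) :=
  fun a c H => by
    obtain ⟨d, H', h3⟩ := h.dual2 H
    have h4 : B c d = -1 := by rw [← h.alt.neg_eq d c, h3]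
    have h0 : SQ B M a 0 0 := by simpa using h.rat0 (zero_mem K) a c H
    have x1 := h1 a c H
    have x2 := h2 a d H'
    have A := x1.sub h.alt x2 (by simp [H.orth]) (by simp [H'.orth])
    have A1 := h0.sub h.alt x1 (by simp) (by simp [H.orth])
    have A2 := h0.sub h.alt x2 (by simp) (by simp [H'.orth])
    have A3 := A2.sub h.alt A1 (by simp [H'.orth]) (by simp [H.orth])
    have A4 := A.sub h.alt A3 (by simp [H.orth, H'.orth]) (by simp [H.orth, H'.orth])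
    convert A4 using 1
    · simp
      abel
    · simp [h3, h4, h.alt.self_eq_zero]
      ring

theorem conj (h1 : PQ B K e M 0 t) (h2 : PQ B K e M s t') : PQ B K e M (t * s) (t * s ^ 2) :=
  fun a c H => by
    obtain ⟨d, H', h3⟩ := h.dual2 H
    obtain ⟨g, hg, h4⟩ := h2 a d H'
    have h5 : g c = c + s • a := by simp [h4, h3, H.orth]
    have h6 := h.T_pq h1 H.hc
    have h7 : T M (c + s • a) (t • B (c + s • a)) := h5 ▸ h6.conj' hg fun x => by
      simp [h.le g hg c x]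
    exact (SQ.of_add h.alt (by simp [H.orth]) h7 h6).congr fun x => by
      simp
      module

theorem fin (hP : ∀ x ∈ Rt K e, SpP B M x) (hs : s ∉ K) : SG B ≤ M := by
  have hA := h.alt
  have hn := h.hn
  obtain ⟨i⟩ : Nonempty ι := Fintype.card_pos_iff.mp (by omega)
  have ha := basis_mem_Rt (K := K) (e := e) i
  have ha0 := e.ne_zero i
  generalize e i = a at ha ha0
  have := Module.Finite.of_basis e
  obtain ⟨y, hy, -, h4⟩ := h.dual bot_le ha (by simpa using ha0)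
  have h5 : B a y ≠ 0 := fun e => by simp [hA.isRefl _ _ e] at h4
  have hay : a ∈ (F ∙ a) ⊔ F ∙ y := Submodule.mem_sup_left (Submodule.mem_span_singleton_self a)
  have hya : y ∈ (F ∙ a) ⊔ F ∙ y := Submodule.mem_sup_right (Submodule.mem_span_singleton_self y)
  have hG : SpGood B ((F ∙ a) ⊔ F ∙ y) := spGood_of_card hA ⟨s, fun e => hs (e ▸ zero_mem K),
    fun e => hs (e ▸ neg_mem (one_mem K))⟩ hya hay h5
  obtain ⟨U, h6, h7, h8⟩ := sp_max (M := M) hA (U₀ := (F ∙ a) ⊔ F ∙ y) (fun u _ => sp_rad hA hG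
    (fun x hx hx' => sp_grow hA (fun u hu => by
      obtain ⟨k, rfl⟩ := Submodule.mem_span_singleton.mp hu
      exact (hP a ha).smul k) (hP y hy) (Submodule.mem_span_singleton_self a) h5 hx hx') ‹_›)
    (Or.inl hG)
  have h9 : ∀ w ∈ Rt K e, w ∈ U := fun w hw => by
    by_contra h9
    have h10 := (h8 w (hP w hw)).resolve_left h9
    have h11 := (h8 _ (hP _ (add_mem ha hw))).resolve_left (fun e =>
      h9 ((U.add_mem_iff_right (h6 hay)).mp e)) y (h6 hya)
    simp [h4, h10 y (h6 hya)] at h11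
  exact sp_le h.nd hA fun x => h7 x (e.sum_repr x ▸ U.sum_mem fun i _ =>
    U.smul_mem _ (h9 _ (basis_mem_Rt i)))

theorem mul (h1 : PQ B K e M s t) (h2 : PQ B K e M s' t') : PQ B K e M 0 (s * s') := by
  have h3 : (2 : F)⁻¹ ∈ K := inv_mem (by simpa using natCast_mem K 2)
  have := h.comm h1 (h.smul h3 (inv_ne_zero h.two) h2)
  have h4 := h.two
  rwa [show 2 * (s * (s' * 2⁻¹)) = s * s' by field_simp] at this

theorem long (h1 : PQ B K e M 0 t) : PQ B K e M t t := by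
  simpa using h.conj h1 (h.rat1 (one_mem K))

variable {r : ℕ} (hr : r.Prime) (hq : Nat.card F = Nat.card K ^ r) (hc : ¬ SG B ≤ M)
include hr hq hc

theorem lev1 (h1 : PQ B K e M 0 t) : t ∈ K := by
  by_contra ht
  refine hc (h.fin (fun x hx u => h.T_pq ?_ hx) ht)
  let L : Subalgebra K F :=
    { carrier := {z | PQ B K e M 0 z}
      mul_mem' := fun hx hy => h.mul (h.long hx) (h.long hy)
      add_mem' := fun hx hy => by
        simpa using h.sub hx (h.sub (h.rat0 (zero_mem K)) hy)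
      algebraMap_mem' := fun k => h.rat0 k.2 }
  exact (show u ∈ L from (subalgebra_eq_top hr hq L h1 ht).ge trivial)

theorem lev2 (h1 : PQ B K e M s t) : s ∈ K :=
  h.lev1 hr hq hc (by simpa using h.mul h1 (h.rat1 (one_mem K)))

theorem prod_mem (h1 : T M b (B b)) (H : Flg B K e a d) (h2 : B a b = 0)
    (hc₁ : c ∈ Rt K e) (h3 : B a c = 0) : B c b * B d b ∈ K := by
  have hA := h.alt
  have h6 : T M (b + B c b • a) ((1 : F) • B (b + B c b • a)) := by
    simpa [h2] using h1.conj' (h.sh H.ha hc₁ h3) (ψ := (1 : F) • B (b + B c b • a)) fun x => by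
      simpa [h2] using uni_sS_mem hA h3 (sS_sq hA h3) b x
  have h7 : SQ B M a (B c b • b) (B c b ^ 2) :=
    (SQ.of_add hA (by simp [h2]) h6 (by simpa using h1)).congr fun x => by
      simp
      module
  have h8 := (h7.map (h.tv H.hc (one_mem K)).tv_mem (tv_mem_SG hA _ _ _))
  simp only [tv_apply, map_smul, LinearMap.smul_apply, hA.isRefl _ _ H.orth, one_smul, zero_smul,
    add_zero] at h8
  have h9 := h8.sub hA h7 (by simp [h2, H.orth]) (by simp [h2])
  rw [← smul_sub, add_sub_cancel_left, smul_smul] at h9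
  exact h.lev2 hr hq hc (h.all H h9)

theorem rat_of_perp (h1 : T M b (B b)) (ha : a ∈ Rt K e) (ha0 : a ≠ 0) (h2 : B a b = 0) :
    ∃ c : F, c ≠ 0 ∧ c • b ∈ Rt K e := by
  have hA := h.alt
  have h0 : ∀ c ∈ Rt K e, ∀ d ∈ Rt K e, B a c = 0 → B a d = 0 → B c b * B d b ∈ K :=
    fun c h3 d h3' h4 h4' => by
      by_cases h5 : d ∈ K ∙ a
      · obtain ⟨k, rfl⟩ := Submodule.mem_span_singleton.mp h5
        simp [h2]
      exact h.prod_mem hr hq hc h1 ⟨ha, h3', ha0, h4', h5⟩ h2 h3 h4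
  obtain ⟨l, hl, hl2, h3⟩ : ∃ l : F, l ≠ 0 ∧ l * l ∈ K ∧
      ∀ c ∈ Rt K e, B a c = 0 → B c (l • b) ∈ K := by
    by_cases h5 : ∃ c ∈ Rt K e, B a c = 0 ∧ B c b ≠ 0
    · obtain ⟨c, h5, h6, h7⟩ := h5
      exact ⟨B c b, h7, h0 c h5 c h5 h6 h6, fun d h8 h9 => by simpa using h0 c h5 d h8 h6 h9⟩
    · push Not at h5
      exact ⟨1, one_ne_zero, by simp, fun c h6 h7 => by simp [h5 c h6 h7]⟩
  have h1' : T M (l • b) ((l * l)⁻¹ • B (l • b)) := T.of_R h1.2 (by simp [hA.self_eq_zero])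
    fun x => by
      simp [smul_smul]
      congr 1
      field_simp
  have h2' : B a (l • b) = 0 := by simp [h2]
  suffices ∃ c : F, c ≠ 0 ∧ c • l • b ∈ Rt K e by
    obtain ⟨c, h4, h5⟩ := this
    exact ⟨c * l, mul_ne_zero h4 hl, by rwa [mul_smul]⟩
  have hs : (l * l)⁻¹ ∈ K := inv_mem hl2
  have hs0 : (l * l)⁻¹ ≠ 0 := inv_ne_zero (mul_ne_zero hl hl)
  generalize (l * l)⁻¹ = s at h1' hs hs0
  generalize l • b = b at h1' h2' h3
  clear h0 h1 h2
  obtain ⟨y, hy, -, h4⟩ := h.dual bot_le ha (by simpa using ha0)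
  obtain ⟨x, hx⟩ : ∃ x, x = b - B y b • a := ⟨_, rfl⟩
  have h5 : x ∈ Rt K e := mem_Rt_of fun φ hφ => by
    obtain ⟨d, h6, rfl⟩ := exists_Rt_dual (Θ := B) (fun x y e => sub_eq_zero.mp
      (h.nd.1 _ fun z => by rw [map_sub, e, sub_self, LinearMap.zero_apply])) h.rat hφ
    simpa [hx, mul_comm] using h3 _ (sub_mem h6 (smul_mem_Rt (h.rat d h6 a ha) hy))
      (hA.isRefl _ _ (by simp [h4]))
  have h6 : b = x + B y b • a := by simp [hx]
  have h7 : B a x = 0 := by simp [hx, h2', hA.self_eq_zero]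
  generalize B y b = μ at h6
  subst h6
  by_cases h8 : x ∈ K ∙ a
  · obtain ⟨k, rfl⟩ := Submodule.mem_span_singleton.mp h8
    change ∃ c : F, c ≠ 0 ∧ c • ((k : F) • a + μ • a) ∈ _
    rw [← add_smul]
    by_cases h9 : k + μ = 0
    · exact ⟨1, one_ne_zero, by simp [h9]⟩
    · exact ⟨_, inv_ne_zero h9, by rwa [inv_smul_smul₀ h9]⟩
  have h9 : s * μ ∈ K := h.lev2 hr hq hc (t := s * μ ^ 2) (h.all ⟨ha, h5, ha0, h7, h8⟩
    ((SQ.of_add hA (a := μ • a) (s := s) (by simp [h7]) h1' (h.tv h5 hs)).congr fun x => by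
      simp
      module))
  refine ⟨1, one_ne_zero, (one_smul F (x + μ • a)).symm ▸ add_mem h5 (smul_mem_Rt ?_ ha)⟩
  simpa [hs0] using div_mem h9 hs

theorem nr {g : V ≃ₗ[F] V} (hg : g ∈ M) (ha : a ∈ Rt K e) (ha0 : a ≠ 0) (hb : b ∈ Rt K e)
    (hb0 : b ≠ 0) (h1 : B b (g a) = 0) : g ∈ NR K e := by
  have hT : ∀ x ∈ Rt K e, T M (g x) (B (g x)) := fun x hx =>
    (h.tv hx (one_mem K)).conj' hg fun y => by simp [h.le g hg x y]
  have key : ∀ x ∈ Rt K e, ∀ y : V, y ≠ 0 → (∃ c : F, c ≠ 0 ∧ c • g y ∈ Rt K e) → B y x = 0 →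
      ∃ c : F, c ≠ 0 ∧ c • g x ∈ Rt K e := fun x hx y hy ⟨c, h2, h3⟩ h4 =>
    h.rat_of_perp hr hq hc (hT x hx) h3 (by simp [h2, hy]) (by simp [h.le g hg y x, h4])
  refine nr_of_prop fun x hx => ?_
  obtain ⟨d, hd, h2, h3, h4, -⟩ := h.third ha hx
  exact key x hx d (by rintro rfl; simp at h4)
    (key d hd a ha0 (h.rat_of_perp hr hq hc (hT a ha) hb hb0 h1) h2) (h.alt.isRefl _ _ h3)

theorem odd : M ≤ NR K e := fun g hg => by
  have h2 := h.two
  have hn := h.hn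
  have hA := h.alt
  obtain ⟨i⟩ : Nonempty ι := Fintype.card_pos_iff.mp (by omega)
  have ha := basis_mem_Rt (K := K) (e := e) i
  have h4 : T M (g (e i)) (B (g (e i))) :=
    (h.tv ha (one_mem K)).conj' hg fun y => by simp [h.le g hg _ y]
  have key : ∀ u ∈ Rt K e, B (g (e i)) u ^ 2 ∈ K2 K := fun u hu => by
    by_cases h0 : u = 0
    · simp [h0]
    rw [← neg_mem_iff]
    refine dk (M := M) h2 (N := (B u).smulRight u) (N' := (B (g (e i))).smulRight (g (e i)))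
      (by simp [hA.self_eq_zero]) (by simp [hA.self_eq_zero]) (fun x => ?_) (fun x => ?_)
      (fun s hs => ?_) (by simpa using (h.tv hu (one_mem K)).2) h4.2
    · simp [← hA.neg_eq (g (e i)) u]
      module
    · simp [← hA.neg_eq (g (e i)) u]
      module
    · exact h.lev1 hr hq hc (h.pq_T hu h0
        (T.of_R hs (by simp [hA.self_eq_zero]) (by simp [smul_smul])))
  obtain ⟨x, ⟨h9, h10⟩, h12⟩ := exists_not_mem_of_finrank_lt (W := ⊥)
    (U := Rt K e ⊓ kr K (B (g (e i)) (e i) • B (g (e i)))) (by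
      have := finrank_le_kr2 (Rt K e) (φ := B (g (e i)) (e i) • B (g (e i))) fun u hu => by
        have := mul_mem (sub_mem (sub_mem (key _ (add_mem ha hu)) (key _ ha)) (key _ hu))
          (K2_inv (natCast_mem (K2 K) 2))
        convert this using 1
        simp
        field_simp
        ring
      rw [finrank_Rt] at *
      simp only [finrank_bot]
      omega)
  rcases mul_eq_zero.mp (show B (g (e i)) (e i) * B (g (e i)) x = 0 from h10) with h11 | h11
  · exact h.nr hr hq hc hg ha (e.ne_zero i) ha (e.ne_zero i) (hA.isRefl _ _ h11)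
  · exact h.nr hr hq hc hg ha (e.ne_zero i) h9 (by simpa using h12) (hA.isRefl _ _ h11)

end SubS4o

theorem max_sp_subfield_odd4 (h2 : (2 : F) ≠ 0) {m : ℕ} (hm : 2 ≤ m) {r : ℕ} (hr : r.Prime)
    (hq : Nat.card F = Nat.card K ^ r) (P : GL (Fin m ⊕ Fin m) F) {ζ : F} (hζ : ζ ≠ 0)
    (hP : Geo.IsFormRationalStructure (sympForm m F) K ζ P) :
    Geo.IsMaximalIn (spGL m F) (Geo.subfieldSubgroup K P ⊓ spGL m F) := by
  have hS : ∀ g, g ∈ SG (ζ • sB (Fin m) F) ↔ g ∈ SG (sB (Fin m) F) := fun g =>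
    forall₂_congr fun u v => by simp [hζ]
  have hh : ∀ M, (∀ g ∈ M, g ∈ SG (sB (Fin m) F)) → (∀ g, g ∈ SG (sB (Fin m) F) →
      g ∈ NR K ((Pi.basisFun F _).map (Orth.glEquiv _ F P)) → g ∈ M) →
      SubS4o (ζ • sB (Fin m) F) K ((Pi.basisFun F _).map (Orth.glEquiv _ F P)) M := fun M h1 h3 =>
    ⟨by simp; omega, h2, ⟨fun x hx => sB_nondeg.1 x fun y => by simpa [hζ] using hx y,
      fun x hx => sB_nondeg.2 x fun y => by simpa [hζ] using hx y⟩,
      fun x => by simp [sB_alt x], fun u hu v hv => by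
        have := hP _ _ (mem_Rt.mp hu) (mem_Rt.mp hv)
        have key : ∀ w, (P : Matrix _ _ F).mulVec (fun i =>
            ((Pi.basisFun F _).map (Orth.glEquiv _ F P)).repr w i) = w :=
          (Orth.glEquiv _ F P).apply_symm_apply
        simp only [key, sympForm_eq'] at this
        exact this,
      fun g hg => (hS g).mpr (h1 g hg), fun g hg => h3 g ((hS g).mp hg)⟩
  refine isMaximalIn_Sp _ (mem_subfield_iff P) ?_ fun M h1 h3 ⟨g, hg, hg'⟩ => ?_
  · obtain ⟨s, hs⟩ := exists_not_mem_subfield hr hq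
    have h := hh (SG _ ⊓ NR K _) (fun g hg => hg.1) fun g h1 h2 => ⟨h1, h2⟩
    generalize (Pi.basisFun F _).map (Orth.glEquiv _ F P) = e at h
    have ha := basis_mem_Rt (K := K) (e := e) (Sum.inl ⟨0, by omega⟩)
    have ha0 := e.ne_zero (Sum.inl ⟨0, by omega⟩)
    generalize e (Sum.inl ⟨0, by omega⟩) = a at ha ha0
    obtain ⟨y, hy, -, h4⟩ := h.dual bot_le ha (by simpa using ha0)
    refine ⟨_, (hS _).mp (tv_mem_SG h.alt y s (by simp [sB_alt y])), fun ⟨c, hc, h1⟩ => hs ?_⟩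
    have hy0 : y ≠ 0 := by
      rintro rfl
      simp at h4
    have h2 : c ∈ K := mem_of_smul_mem hy hy0 (by simpa [sB_alt y] using (h1 y).mp hy)
    have h3 := sub_mem ((h1 a).mp ha) (smul_mem_Rt h2 ha)
    rw [tv_apply, LinearMap.smul_apply, h4, smul_add, add_sub_cancel_left, smul_smul] at h3
    simpa [hc] using div_mem (mem_of_smul_mem hy hy0 h3) h2
  · by_contra hc
    replace hc : ¬ SG (ζ • sB (Fin m) F) ≤ M := fun e => hc fun g hg => e ((hS g).mpr hg)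
    exact hg' ((hh M h3 h1).odd hr hq hc hg)

end Cfsg.Agent.Max
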