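import Mathlib
import Cfsg.Agent.Max.SubG6
import Cfsg.Agent.Max.SubUn

/-!
# Subfield subgroups of unitary groups in dimension at least six: unitary and symplectic type
-/

set_option autoImplicit false

namespace Cfsg.Agent.Max

open Module Herm

variable {F V : Type*} [Field F] [AddCommGroup V] [Module F V] [FiniteDimensional F V]
  {σ : F →+* F} {B : V →ₛₗ[σ] V →ₗ[F] F} {hB : HF B} {M : Subgroup (UG B)} {ι : Type}
  {K : Subfield F} {e : Basis ι F V} {ζ : F} [Finite F] [Fintype ι]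

/-- The hypotheses of the subfield argument for `SU`. -/
structure SxU (hB : HF B) (M : Subgroup (UG B)) (K : Subfield F) (e : Basis ι F V) (ζ : F) :
    Prop where
  hn : 6 ≤ Fintype.card ι
  z0 : ζ ≠ 0
  rat : ∀ u ∈ Rt K e, ∀ v ∈ Rt K e, ζ * B u v ∈ K
  ex : ∀ U ≤ Rt K e, 2 ≤ finrank K U → ∃ x ∈ U, x ≠ 0 ∧ B x x = 0
  half : ∀ w ∈ Rt K e, ∃ l, ζ * l ∈ K ∧ l + σ l = B w w
  mem : ∀ g ∈ SUG B, g.1 ∈ NR K e → g ∈ M

namespace SxU
variable (h : SxU hB M K e ζ) {a b c x y : V} {s : F}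
include h

theorem rat' (ha : a ∈ Rt K e) (hb : b ∈ Rt K e) : σ ζ * B a b ∈ K := by
  simpa [hB.symm] using map_mem_subfield hB.toInv (h.rat b hb a ha)

theorem eich_mem (ha : a ∈ Rt K e) (hb : b ∈ Rt K e) {l : F} (hl : ζ * l ∈ K) :
    (hB.eich a (ζ • b) (ζ * σ ζ * l)).1 ∈ NR K e := nr_of' fun w hw => by
  by_cases h1 : B a a = 0 ∧ B a (ζ • b) = 0 ∧ ζ * σ ζ * l + σ (ζ * σ ζ * l) = B (ζ • b) (ζ • b)
  swap
  · simpa [hB.eich_of_not h1] using hw
  rw [hB.eich_apply h1.1 h1.2.1 h1.2.2, smul_smul, mul_comm _ ζ, b_smul_left]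
  refine sub_mem (add_mem hw (smul_mem_Rt (sub_mem (h.rat' hb hw) ?_) ha))
    (smul_mem_Rt (h.rat a ha w hw) hb)
  convert mul_mem hl (h.rat' ha hw) using 1
  ring

theorem subG : SxG B (fun x => B x x = 0) (UA hB M) K e ζ where
  hn := h.hn
  symm := hB.symm
  invol := hB.invol
  nd := hB.nd
  z0 := h.z0
  sK _ := map_mem_subfield hB.toInv
  rat := h.rat
  iso _ := id
  smul x c h := by simp [h]
  add x y h1 h2 h3 := by simp [h1, h2, h3, hB.zero_symm h3]
  ex := h.ex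
  half c hc z hz h1 h2 := by
    obtain ⟨l, h3, h4⟩ := h.half z hz
    refine ⟨σ (l / B c z), map_mem_subfield hB.toInv ?_, ?_⟩
    · simpa [mul_div_mul_left _ _ h.z0] using div_mem h3 (h.rat c hc z hz)
    · have h5 : σ (B c z) ≠ 0 := by simpa using h2
      simp only [map_sub, map_smul, LinearMap.sub_apply, b_smul_left, smul_eq_mul, h1, hB.invol,
        ← h4, ← hB.symm c z, map_div₀]
      field_simp
      ring
  orth _ _ h := h.1
  self _ c h := UA.self h c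
  grow x y u b hu := fun ⟨h3, l, h4, h5⟩ hy h1 h2 => by
    have := sub_mem (UA.map_fix hy h5 (hB.eich_apply_of_orth l h1 h2)) hy
    rw [hB.eich_apply hu h3 h4] at this
    exact ⟨l, by convert this using 1; abel⟩
  mem x hx v hv h1 h2 := by
    obtain ⟨l, h3, h4⟩ := h.half v hv
    refine ⟨by simp [h2], _, ?_, h.mem _ (hB.eich_mem_SUG _ _ _) (h.eich_mem hx hv h3)⟩
    simp only [map_mul, hB.invol, b_smul_left, map_smul, smul_eq_mul, ← h4]
    ring

theorem subL {r : ℕ} (hr : r.Prime) (hq : Nat.card F = Nat.card K ^ r) (hc : ¬ SUG B ≤ M) :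
    SxL B (fun x => B x x = 0) (UA hB M) K e ζ := h.subG.subL hr hq fun H => by
  obtain ⟨x, hx, f, hf, h1, h2, h3⟩ := h.subG.exists_pair
  exact hc (un_le_of_pair (hB := hB) (by rw [finrank_eq_card_basis e]; have := h.hn; omega)
    ⟨h1, H x hx (ne_zero_of_b h3) h1⟩ ⟨h2, H f hf (ne_zero_of_b' h3) h2⟩ h3)

theorem exists_not {r : ℕ} (hr : r.Prime) (hq : Nat.card F = Nat.card K ^ r) :
    ∃ g ∈ SUG B, g.1 ∉ NR K e := by
  obtain ⟨s, hs⟩ := exists_not_mem_subfield hr hq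
  have G := h.subG
  obtain ⟨x, hx, h1, -, -, -, h2⟩ := G.third (zero_mem _) (zero_mem _) (zero_mem _)
  obtain ⟨w, hw, -, h3, -, -, h4⟩ := G.third hx hx hx
  obtain ⟨v, hv, h5, -, h6⟩ := G.dual2 hx hx hw fun e => h4 (Submodule.mem_sup_left e)
  obtain ⟨l, hl⟩ := hB.toInv.exists_trace (hB.fix (σ s • ζ • v))
  have hx0 : x ≠ 0 := by simpa using h2
  refine ⟨_, hB.eich_mem_SUG x (σ s • ζ • v) l, fun ⟨c, hc, h7⟩ => hs ?_⟩
  have h8 : c ∈ K := mem_of_smul_mem hx hx0 (by simpa [hB.eich_apply_left] using (h7 x).mp hx)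
  have h9 := sub_mem ((h7 w).mp hw) (smul_mem_Rt h8 hw)
  rw [hB.eich_apply h1 (by simp [hB.zero_symm h5]) hl, b_smul_left, h6, h3, hB.invol] at h9
  simp only [mul_one, mul_zero, sub_zero, zero_smul, smul_add, add_sub_cancel_left] at h9
  rw [smul_smul] at h9
  simpa [hc] using div_mem (mem_of_smul_mem hx hx0 h9) h8

theorem tv (hs : s + σ s = 0) (hs' : s / ζ ∈ K) (ha : a ∈ Rt K e) (h1 : B a a = 0) :
    (hB.qr a s).1 ∈ NR K e := nr_of' fun w hw => by
  rw [hB.tv_apply h1 hs]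
  refine add_mem hw (smul_mem_Rt ?_ ha)
  convert mul_mem hs' (h.rat a ha w hw) using 1
  have := h.z0
  field_simp

theorem H_tv (hs0 : s ≠ 0) (hs : s + σ s = 0) (hs' : s / ζ ∈ K) {g : UG B} (hg : g ∈ M) :
    ∀ a ∈ Rt K e, B a a = 0 → ∀ x ∈ Rt K e, x ≠ 0 → B x x = 0 → B x (g.1 a) = 0 →
      g.1 a ∉ F ∙ x → ∃ c : F, c ≠ 0 ∧ c • g.1 a ∈ UA hB M x := fun a ha h1 x hx hx0 h2 h3 h4 => by
  obtain ⟨d, hd, h5, h6⟩ := h.subG.exists_ne hx hx0 h4
  have h7 := mul_mem (mul_mem hg (h.mem _ (hB.tv_mem_SUG h1 s) (h.tv hs hs' ha h1))) (inv_mem hg)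
  rw [hB.qr_conj] at h7
  have h8 := h.subG.mem x hx d hd h2 h5
  have := sub_mem (UA.map_fix h8 h7 (hB.qr_apply_of_orth s (hB.zero_symm h3))) h8
  rw [hB.tv_apply (by simp [h1]) hs, add_sub_cancel_left] at this
  exact ⟨_, mul_ne_zero hs0 (by simpa [h.z0] using fun e => h6 (hB.zero_symm e)), this⟩

theorem two (hq : Nat.card F = Nat.card K ^ 2) (hc : ¬ SUG B ≤ M) (hs : ζ + σ ζ = 0) {g : UG B}
    (hg : g ∈ M) : g.1 ∈ NR K e := by
  have L := h.subL Nat.prime_two hq hc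
  have G := h.subG
  have hn := h.hn
  refine G.nr_of_iso (UG.map_b g) fun a ha h1 => ?_
  obtain ⟨x, ⟨hx, h3⟩, hx0, h4⟩ := G.ex (Rt K e ⊓ kr K (B (g.1 a))) inf_le_left (by
    have := finrank_le_kr2 (Rt K e) (φ := B (g.1 a)) fun u _ => mem_K2.mpr (hq ▸ pow_card_eq _)
    rw [finrank_Rt] at this
    omega)
  exact L.rat_of (h.H_tv h.z0 hs (by simp [h.z0]) hg a ha h1) hx hx0 h4 (hB.zero_symm h3)

end SxU

namespace SxU
variable (h : SxU hB M K e 1) {r : ℕ} (hr : r.Prime) (hq : Nat.card F = Nat.card K ^ r)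
  (hc : ¬ SUG B ≤ M) {s : F} (hs0 : s ≠ 0) (hs : s + σ s = 0) (hs' : s ∈ K)
include h hr hq hc hs0 hs hs'

theorem odd (hro : Odd r) (h2 : (2 : F) ≠ 0) {g : UG B} (hg : g ∈ M) : g.1 ∈ NR K e := by
  have L := h.subL hr hq hc
  have G := h.subG
  have hT : ∀ u ∈ Rt K e, B u u = 0 → hB.qr u s ∈ M := fun u hu h1 =>
    h.mem _ (hB.tv_mem_SUG h1 s) (h.tv hs (by simpa using hs') hu h1)
  obtain ⟨a, ha, h1, -, -, -, ha0⟩ := G.third (zero_mem _) (zero_mem _) (zero_mem _)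
  replace ha0 : a ≠ 0 := by simpa using ha0
  have h3 : B (g.1 a) (g.1 a) = 0 := by simp [h1]
  have key : ∀ u ∈ Rt K e, B u u = 0 → B (g.1 a) u * σ (B (g.1 a) u) ∈ K := fun u hu h4 => by
    by_cases h0 : u = 0
    · simp [h0]
    have h5 := dk (K := K) (M := M.map (UG B).subtype) h2 (N := (s • B u).smulRight u)
      (N' := (s • B (g.1 a)).smulRight (g.1 a)) (l := s ^ 2 * (B (g.1 a) u * σ (B (g.1 a) u)))
      (by simp [h4]) (by simp [h3]) (fun x => by simp [hB.symm]; module)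
      (fun x => by simp [hB.symm]; module) (fun t ht => ?_)
      ⟨_, ⟨_, hT u hu h4, rfl⟩, hB.tv_apply h4 hs⟩
      ⟨_, ⟨_, mul_mem (mul_mem hg (hT a ha h1)) (inv_mem hg), rfl⟩, by
        rw [hB.qr_conj]; exact hB.tv_apply h3 hs⟩
    · simpa [hs0] using mul_mem (inv_mem (pow_mem hs' 2)) (mem_of_K2_odd hro hq h5)
    · obtain ⟨_, ⟨k, hk, rfl⟩, hk'⟩ := ht
      obtain ⟨x, hx, h6, h7, -, -, h8⟩ := G.third hu hu hu
      have hx0 : x ≠ 0 := by rintro rfl; simp at h8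
      have h9 := not_mem_span_swap h0 (show x ∉ K ∙ u by simpa using h8)
      obtain ⟨d, hd, h10, -, h11⟩ := G.dual2 hx hx hu (by simpa using h9)
      have h12 := G.mem x hx d hd h6 (hB.zero_symm h10)
      have := sub_mem (UA.map_fix h12 hk ((hk' x).trans (by simp [h7]))) h12
      rw [show k.1 _ = _ from hk' _, add_sub_cancel_left] at this
      rw [one_smul] at h11
      have h13 := L.lev x hx hx0 h6 u hu h9 (t * s) (by
        simpa [hB.one_symm h11, smul_smul] using this)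
      simpa [hs0] using mul_mem h13 (inv_mem hs')
  obtain ⟨u, hu, h4, h5, -, -, h6⟩ := G.third ha ha ha
  have fin : ∀ x ∈ Rt K e, x ≠ 0 → B x x = 0 → B (g.1 a) x = 0 → g.1 ∈ NR K e :=
    fun x hx hx0 h7 h8 => L.nr (UG.map_b g) (fun x hx => by simp [hx])
      (h.H_tv hs0 hs (by simpa using hs') hg) ha ha0 h1 hx hx0 h7 (hB.zero_symm h8)
  by_cases h7 : B (g.1 a) a = 0
  · exact fin a ha ha0 h1 h7
  have h8 : B (g.1 a) u / B (g.1 a) a ∈ K := by
    have k0 := key a ha h1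
    have k1 := key u hu h4
    have k2 := key _ (add_mem ha hu) (by simp [h1, h4, h5, hB.zero_symm h5])
    have k3 := key _ (add_mem ha (smul_mem_Rt hs' hu)) (by simp [h1, h4, h5, hB.zero_symm h5])
    have h9 : σ (B (g.1 a) a) ≠ 0 := by simpa using h7
    convert div_mem (add_mem (sub_mem (sub_mem k2 k0) k1) (div_mem (add_mem (sub_mem k3 k0)
      (mul_mem (pow_mem hs' 2) k1)) hs')) (mul_mem (natCast_mem K 2) k0) using 1
    simp only [map_add, map_smul, smul_eq_mul, map_mul, eq_neg_of_add_eq_zero_right hs,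
      Nat.cast_ofNat]
    field_simp
    ring
  exact fin _ (sub_mem hu (smul_mem_Rt h8 ha)) (fun e => h6 (Submodule.mem_sup_right
    (Submodule.mem_span_singleton.mpr ⟨⟨_, h8⟩, (sub_eq_zero.mp e).symm⟩)))
    (by simp [h1, h4, h5, hB.zero_symm h5]) (by simp [h7])

theorem even (h2 : (2 : F) = 0) : M ≤ (NR K e).comap (UG B).subtype := by
  have L := h.subL hr hq hc
  have G := h.subG
  have : Finite V := Module.finite_of_finite F
  obtain ⟨a, ha, h1, -, -, -, ha0⟩ := G.third (zero_mem _) (zero_mem _) (zero_mem _)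
  replace ha0 : a ≠ 0 := by simpa using ha0
  obtain ⟨c, hc₁, h3, h4, -, -, h5⟩ := G.third ha ha ha
  replace h5 : c ∉ K ∙ a := by simpa using h5
  obtain ⟨x, -, h6, -, h7⟩ := G.dual2 ha ha hc₁ (by simpa using h5)
  obtain ⟨y, -, h8, -, h9⟩ := G.dual2 hc₁ hc₁ ha (by simpa using not_mem_span_swap ha0 h5)
  rw [one_smul] at h7 h9
  have h0 : ∀ x : V, x + x = 0 := fun x => by rw [← two_smul F, h2, zero_smul]
  have e0 : (0 : F) + σ 0 = B c c := by simp [h3]
  have e1 := h.tv hs (by simpa using hs') ha h1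
  have e2 : (hB.eich a c 0).1 ∈ NR K e := by simpa using h.eich_mem ha hc₁ (l := 0) (by simp)
  have iso : ∀ {z : UG B}, z * z = 1 → ∀ v w, B (z.1 v - v) (z.1 w - w) = 0 := fun {z} hz v w => by
    rw [b_sub_left, ← UG.map_b z v, invol_fix h2 (congrArg Subtype.val hz), sub_self]
  refine se2 (fun g hg z hz hz' hz1 hz2 h3 => ?_) (h.mem _ (hB.tv_mem_SUG h1 s) e1)
    (h.mem _ (hB.eich_mem_SUG _ _ _) e2) e1 e2 (fun e1 => ?_) (fun e1 => ?_) ?_ ?_ fun g _ e1 => ?_
  · have h4 : g⁻¹ * z * g * (g⁻¹ * z * g) = 1 := by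
      rw [show g⁻¹ * z * g * (g⁻¹ * z * g) = g⁻¹ * (z * z) * g by group, hz2]
      simp
    obtain ⟨v, hv, h5⟩ := exists_moved (K := K) (e := e) (z := (g⁻¹ * z * g).1) fun e =>
      hz1 (by simpa [mul_eq_one_iff_eq_inv', inv_mul_eq_iff_eq_mul] using
        (Subtype.ext e : g⁻¹ * z * g = 1))
    obtain ⟨w, hw, h8⟩ := exists_moved (K := K) (e := e) (z := z.1) fun e => hz1 (Subtype.ext e)
    refine L.nr (UG.map_b g) (fun x hx => by simp [hx]) (h.H_tv hs0 hs (by simpa using hs') hg)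
      (sub_mem (nr_invol h2 h3 (congrArg Subtype.val h4) hv) hv) h5 (iso h4 v v)
      (sub_mem (nr_invol h2 hz' (congrArg Subtype.val hz2) hw) hw) h8 (iso hz2 w w) ?_
    simpa using iso hz2 w (g.1 v)
  · simpa [hB.tv_apply h1 hs, hB.one_symm h9, hs0, ha0] using congrArg (fun g : UG B => g.1 y) e1
  · simpa [hB.eich_apply h1 h4 e0, hB.one_symm h7, hB.zero_symm h6, ha0] using
      congrArg (fun g : UG B => g.1 x) e1
  · rw [hB.tv_mul h1 hs hs, ← two_mul, h2, zero_mul, hB.qr_zero]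
  · rw [hB.eich_mul h1 h4 e0 h4 e0, h0, h3, hB.eich_zero h1]
    simp
  · rw [hB.qr_conj] at e1
    have h10 := congrArg (fun g : UG B => g.1 x) e1
    have h11 := congrArg (fun g : UG B => g.1 y) e1
    simp only [hB.tv_apply (show B (g.1 a) (g.1 a) = 0 by simp [h1]) hs, hB.eich_apply h1 h4 e0,
      hB.one_symm h7, hB.zero_symm h6, hB.one_symm h9, hB.zero_symm h8, zero_mul, sub_zero,
      one_smul, zero_smul, add_zero, add_right_inj] at h10 h11
    rw [sub_eq_add_neg, add_right_inj] at h11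
    have h12 := congrArg (B x) h10
    have h13 := congrArg (B y) h10
    have h14 := congrArg (B x) h11
    rw [map_smul, smul_eq_mul, h6] at h12
    rw [map_smul, smul_eq_mul, h9] at h13
    simp only [map_smul, smul_eq_mul, map_add, map_neg, h6, h7] at h14
    rcases mul_eq_zero.mp h12 with h15 | h15
    · simp [h15] at h13
    · simp [h15] at h14

end SxU

theorem exists_iso_sub2 {U : Submodule K V} (h3 : 2 ≤ finrank K U) (hB : HF B)
    (hU : ∀ x ∈ U, ∀ y ∈ U, B x y ∈ K) {t : F} (ht : t ∈ K) (ht' : σ t ≠ t) :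
    ∃ x ∈ U, x ≠ 0 ∧ B x x = 0 := by
  by_contra hc
  push Not at hc
  have : Finite V := Module.finite_of_finite F
  obtain ⟨a, ha, ha0⟩ := exists_not_mem_of_finrank_lt (W := ⊥) (U := U) (by
    rw [finrank_bot]; omega)
  replace ha0 : a ≠ 0 := by simpa using ha0
  have h1 := hc a ha ha0
  obtain ⟨b, ⟨hb, h2⟩, hb0⟩ := exists_not_mem_of_finrank_lt (W := ⊥) (U := U ⊓ kr K (B a)) (by
    have := finrank_le_kr U (φ := B a) (c := 1) fun u hu => ⟨_, hU a ha u hu, by simp⟩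
    rw [finrank_bot]; omega)
  replace hb0 : b ≠ 0 := by simpa using hb0
  replace h2 : B a b = 0 := h2
  let τ : K →+* K := (σ.comp K.subtype).codRestrict K fun x => map_mem_subfield hB.toInv x.2
  have hτ : Inv τ := ⟨fun x => Subtype.ext (hB.invol x), ⟨⟨t, ht⟩, fun e => ht' (congrArg
    Subtype.val e)⟩⟩
  obtain ⟨c, e⟩ := hτ.exists_norm (μ := ⟨-B b b / B a a, div_mem (neg_mem (hU b hb b hb))
    (hU a ha a ha)⟩) (Subtype.ext (by
      change σ _ = _
      simp [hB.fix]))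
  replace e : σ c * c = -B b b / B a a := congrArg Subtype.val e
  refine hc (b + c • a) (add_mem hb (U.smul_mem c ha)) (fun e' => ?_) ?_
  · have := congrArg (B a) e'
    simp only [Subfield.smul_def, map_add, map_smul, h2, smul_eq_mul, zero_add, map_zero,
      mul_eq_zero, h1, or_false] at this
    exact hb0 (by simpa [Subfield.smul_def, this] using e')
  · simp only [Subfield.smul_def, map_add, map_smul, LinearMap.add_apply, b_smul_left, h2,
      hB.zero_symm h2, smul_eq_mul]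
    field_simp at e
    linear_combination e

section geo
variable {n q : ℕ} (hF : Nat.card F = q ^ 2)

theorem max_un_subfield6 (hn : 6 ≤ n) {r : ℕ} (hr : r.Prime) (hq : Nat.card F = Nat.card K ^ r)
    (P : GL (Fin n) F) {ζ : F} (hζ : ζ ≠ 0) (hP : Geo.IsFormRationalStructure (hermForm n F q) K ζ P)
    (h2 : (r = 2 ∧ ζ + frob hF ζ = 0 ∧ ∀ w, (∀ i, w i ∈ K) →
      hermForm n F q (P.1.mulVec w) (P.1.mulVec w) = 0) ∨ (Odd r ∧ ζ = 1)) :
    Geo.IsMaximalIn (Cfsg.GU n F q ⊓ Geo.specialLinear (Fin n) F)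
      (Geo.subfieldSubgroup K P ⊓ (Cfsg.GU n F q ⊓ Geo.specialLinear (Fin n) F)) := by
  have key : ∀ w, (P : Matrix _ _ F).mulVec (fun i =>
      ((Pi.basisFun F _).map (Orth.glEquiv _ F P)).repr w i) = w :=
    (Orth.glEquiv _ F P).apply_symm_apply
  have h3 : ∀ u ∈ Rt K ((Pi.basisFun F _).map (Orth.glEquiv _ F P)),
      ∀ v ∈ Rt K ((Pi.basisFun F _).map (Orth.glEquiv _ F P)), ζ * sB hF n u v ∈ K :=
    fun u hu v hv => by simpa only [key, hermForm_eq hF] using hP _ _ (mem_Rt.mp hv) (mem_Rt.mp hu)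
  have hi := inv_frob hF
  rcases h2 with ⟨rfl, h2, h1⟩ | ⟨h2, rfl⟩
  · have h4 : ∀ w ∈ Rt K ((Pi.basisFun F _).map (Orth.glEquiv _ F P)), sB hF n w w = 0 :=
      fun w hw => by simpa only [key, hermForm_eq hF] using h1 _ (mem_Rt.mp hw)
    have hh : ∀ M, (∀ g ∈ SUG (sB hF n), g.1 ∈ NR K ((Pi.basisFun F _).map (Orth.glEquiv _ F P)) →
        g ∈ M) → SxU (hf_sB hF n) M K ((Pi.basisFun F _).map (Orth.glEquiv _ F P)) ζ := fun M h =>
      ⟨by simpa using hn, hζ, h3, fun U hU h5 => by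
        obtain ⟨a, ha, ha0⟩ := exists_not_mem_of_finrank_lt (W := ⊥) (U := U) (by
          rw [finrank_bot]; omega)
        exact ⟨a, ha, by simpa using ha0, h4 a (hU ha)⟩,
        fun w hw => ⟨0, by simp, by simp [h4 w hw]⟩, h⟩
    exact isMaximalIn_SU hF _ (mem_subfield_iff P) ((hh ⊤ fun _ _ _ => trivial).exists_not hr hq)
      fun M h5 _ ⟨g, hg, hg'⟩ => by_contra fun hc => hg' ((hh M h5).two hq hc h2 hg)
  obtain ⟨t, ht, ht'⟩ := exists_frob_ne hF h2 hq
  have h7 : t - frob hF t ≠ 0 := sub_ne_zero.mpr ht'.symm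
  have h7' : frob hF t - t ≠ 0 := sub_ne_zero.mpr ht'
  have h6 := sub_mem ht (map_mem_subfield hi ht)
  have h8 : t - frob hF t + frob hF (t - frob hF t) = 0 := by simp [hi.invol]
  have hh : ∀ M, (∀ g ∈ SUG (sB hF n), g.1 ∈ NR K ((Pi.basisFun F _).map (Orth.glEquiv _ F P)) →
      g ∈ M) → SxU (hf_sB hF n) M K ((Pi.basisFun F _).map (Orth.glEquiv _ F P)) 1 := fun M h =>
    ⟨by simpa using hn, hζ, h3, fun U hU h5 => exists_iso_sub2 h5 (hf_sB hF n)
      (fun x hx y hy => by simpa using h3 x (hU hx) y (hU hy)) ht ht',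
      fun w hw => ⟨sB hF n w w * (t / (t - frob hF t)), by
        simpa using mul_mem (h3 w hw w hw) (div_mem ht h6), by
        rw [map_mul, map_div₀, map_sub, hi.invol, (hf_sB hF n).fix]
        field_simp
        ring⟩, h⟩
  refine isMaximalIn_SU hF _ (mem_subfield_iff P) ((hh ⊤ fun _ _ _ => trivial).exists_not hr hq)
    fun M h5 _ ⟨g, hg, hg'⟩ => by_contra fun hc => hg' ?_
  by_cases h9 : (2 : F) = 0
  · exact (hh M h5).even hr hq hc h7 h8 h6 h9 hg
  · exact (hh M h5).odd hr hq hc h7 h8 h6 h2 h9 hg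

end geo

end Cfsg.Agent.Max
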