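import Mathlib
import Cfsg.Agent.Max2.OO3
import Cfsg.Agent.Max.TNon
import Cfsg.Agent.Core.CoprimeGen

/-!
# `O₃ ⊗ O₄⁻` in `Ω₁₂⁻`: root elements and the stabiliser of `U ⊗ w`
-/

set_option autoImplicit false

namespace Cfsg.Agent.Max

open Module Cfsg.Agent.Max2 TensorProduct Classical.SpWitt Cfsg.Agent.Orth QuadraticMap

variable {F U W : Type*} [Field F] [AddCommGroup U] [Module F U] [AddCommGroup W] [Module F W]

section Three

variable {P : QuadraticForm F U} [FiniteDimensional F U]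

theorem exists_third (h2 : (2 : F) ≠ 0) (hP : ND P) (h3 : finrank F U = 3) {b c : U} (hb : P b ≠ 0)
    (hc : P c ≠ 0) (hbc : polar P b c = 0) :
    ∃ d, polar P b d = 0 ∧ polar P c d = 0 ∧ P d ≠ 0 := by
  have := hP.finrank_perp_singleton (ne_zero_of_Q_ne_zero hb)
  obtain ⟨⟨d, hd⟩, e1, e2⟩ := (nds_perp_one h2 hP hb).nd.exists_orth_nonsingular h2 (by omega)
    (u := ⟨c, mem_perp_singleton.2 hbc⟩) hc
  exact ⟨d, mem_perp_singleton.1 hd, e1, e2⟩

theorem zero_three (h2 : (2 : F) ≠ 0) (h3 : finrank F U = 3) {b c d x : U} (hb : P b ≠ 0)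
    (hc : P c ≠ 0) (hd : P d ≠ 0) (bc : polar P b c = 0) (bd : polar P b d = 0)
    (cd : polar P c d = 0) (e1 : polar P b x = 0) (e2 : polar P c x = 0) (e3 : polar P d x = 0) :
    x = 0 := zero_of_perp3 h2 h3 hb bc bd (by simp [cd, h2, hc, hd]) e1 e2 e3

theorem refl_three (h2 : (2 : F) ≠ 0) (h3 : finrank F U = 3) {b c d : U} (hb : P b ≠ 0)
    (hc : P c ≠ 0) (hd : P d ≠ 0) (bc : polar P b c = 0) (bd : polar P b d = 0)
    (cd : polar P c d = 0) : refl P b * refl P c = negOne P * refl P d := by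
  refine OG.ext fun x => sub_eq_zero.1 (zero_three h2 h3 hb hc hd bc bd cd ?_ ?_ ?_)
  all_goals
    simp only [OG.mul_apply, negOne_apply, refl_apply, polar_sub_right, polar_neg_right,
      p_smul_right, p_self, bc, bd, cd, polar_comm _ c b, polar_comm _ d b, polar_comm _ d c]
    field_simp
    ring

/-- An isometry of order a power of the characteristic fixing a non-singular vector. -/
theorem unip_three [Finite F] (h2 : (2 : F) ≠ 0) (hP : ND P) (h3 : finrank F U = 3) {b : U}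
    (hb : P b ≠ 0) (α : OG P) (hα : α.1 b = b) {n : ℕ} (e : α.1 ^ ringChar F ^ n = 1) (x : U) :
    α.1 x = x := by
  have : Fact (ringChar F).Prime := ⟨CharP.char_is_prime F _⟩
  have : Nontrivial U := Module.nontrivial_of_finrank_pos (R := F) (by omega)
  have : CharP (Module.End F U) (ringChar F) :=
    charP_of_injective_algebraMap (algebraMap F (Module.End F U)).injective _
  let ρ : (U ≃ₗ[F] U) →* Module.End F U := LinearEquiv.automorphismGroup.toLinearMapMonoidHom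
  have hN : (ρ α.1 - 1) ^ ringChar F ^ n = 0 := by
    rw [sub_pow_char_pow_of_commute _ _ (Commute.one_right _), ← map_pow, e, map_one, one_pow,
      sub_self]
  have N1 : ∀ x, (ρ α.1 - 1) x = α.1 x - x := fun _ => rfl
  generalize ρ α.1 - 1 = N at hN N1
  have key : ∀ x, N (N x) = 0 → N x = 0 := fun x hx => by_contra fun y0 => by
    have ay : α.1 (N x) = N x := by rwa [N1, sub_eq_zero] at hx
    have o : ∀ {y}, α.1 y = y → ∀ z, polar P y (N z) = 0 := fun {y} hy z => by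
      rw [N1, polar_sub_right, ← OG.map_polar α y z, hy, sub_self]
    have qy : P (N x) = 0 := mul_left_cancel₀ h2 (by rw [← p_self, o ay, mul_zero])
    have d1 : finrank F (Submodule.span F {b, N x}) = 2 := Orth.finrank_span_pair_eq
      (Orth.linearIndependent_pair_of_notMem (ne_zero_of_Q_ne_zero hb) fun e => by
        obtain ⟨t, ht⟩ := Submodule.mem_span_singleton.1 e
        rw [← ht, q_smul] at qy
        exact y0 (by rw [← ht, show t = 0 by simpa [hb] using qy, zero_smul]))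
    have d2 := hP.finrank_perp_add (Submodule.span F {b, N x})
    have d3 : F ∙ N x = perp P (Submodule.span F {b, N x}) := Submodule.eq_of_le_of_finrank_le
      ((Submodule.span_singleton_le_iff_mem _ _).2 (mem_perp_pair.2 ⟨o hα x, o ay x⟩))
      (by rw [finrank_span_singleton y0]; omega)
    have k : ∀ z, ∃ t : F, t • N x = N z := fun z => Submodule.mem_span_singleton.1
      (d3 ▸ mem_perp_pair.2 ⟨o hα z, o ay z⟩)
    obtain ⟨z, hz⟩ := hP.exists_polar_one y0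
    obtain ⟨t, ht⟩ := k z
    have q := OG.map_Q α z
    rw [show α.1 z = z + t • N x by rw [ht, N1]; abel, q_add, q_smul, qy, p_smul_right,
      polar_comm, hz] at q
    have az : α.1 z = z := by
      rw [← sub_eq_zero, ← N1, ← ht, show t = 0 by linear_combination q, zero_smul]
    have := o az x
    rw [polar_comm, hz] at this
    exact one_ne_zero this
  have : ∀ m x, (N ^ (m + 1)) x = 0 → N x = 0 := fun m => by
    induction m with
    | zero => intro x hx; simpa using hx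
    | succ m ih => intro x hx; exact key x (ih _ (by rwa [pow_succ] at hx))
  rw [← sub_eq_zero, ← N1]
  refine this (ringChar F ^ n) x ?_
  rw [pow_succ', hN]; simp

end Three

/-- The involution `(-r_c) ⊗ 1`. -/
noncomputable def uu (W : Type*) [AddCommGroup W] [Module F W] (P : QuadraticForm F U) (c : U) :
    (U ⊗[F] W) ≃ₗ[F] (U ⊗[F] W) :=
  TensorProduct.congr (negOne P * refl P c).1 (1 : W ≃ₗ[F] W)

section uu

variable {P : QuadraticForm F U} {c : U}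

theorem uu_tmul (u : U) (w : W) : uu W P c (u ⊗ₜ w) = (-(refl P c).1 u) ⊗ₜ w := rfl

theorem uu_apply (x : U ⊗[F] W) :
    uu W P c x = (P c)⁻¹ • c ⊗ₜ cU W (P.polarBilin c) x - x := by
  induction x with
  | zero => simp
  | tmul u w => simp [uu_tmul, refl_apply, sub_tmul, ← smul_tmul', smul_smul]
  | add x y hx hy => simp only [map_add, hx, hy, tmul_add, smul_add]; abel

theorem uu_mul_self : uu W P c * uu W P c = 1 :=
  LinearEquiv.toLinearMap_injective (TensorProduct.ext' fun u w => by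
    have := congrArg (fun g : OG P => g.1 u) (refl_mul_self (Q := P) c)
    simp only [OG.mul_apply, OG.one_apply] at this
    simp [uu_tmul, this])

theorem uu_fix (h2 : (2 : F) ≠ 0) (hc : P c ≠ 0) {x : U ⊗[F] W} :
    uu W P c x = x ↔ x ∈ RW F W c := by
  refine ⟨fun e => ?_, ?_⟩
  · rw [uu_apply, sub_eq_iff_eq_add, ← two_smul F] at e
    exact (Submodule.smul_mem_iff _ h2).1 (e ▸ Submodule.smul_mem _ _ (tmul_mem_RW _ _))
  · rintro ⟨w, rfl⟩
    simp [uu_tmul, refl_apply_self hc]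

theorem finrank_RW (hc : c ≠ 0) : finrank F (RW F W c) = finrank F W :=
  LinearMap.finrank_range_of_inj fun _ _ e => tmul_right_inj hc e

end uu

/-- An overgroup of `O₃ ⊗ O₄⁻` in `Ω₁₂⁻`. -/
structure O34 (P : QuadraticForm F U) (S : QuadraticForm F W) (Q : QuadraticForm F (U ⊗[F] W))
    (M : Subgroup ((U ⊗[F] W) ≃ₗ[F] (U ⊗[F] W))) : Prop
    extends TO 1 P.polarBilin S.polarBilin Q M where
  two : (2 : F) ≠ 0
  k3 : finrank F U = 3
  l4 : finrank F W = 4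
  mi : ¬ IsPlus S
  q4 : 4 ≤ Nat.card F

namespace O34

variable {P : QuadraticForm F U} {S : QuadraticForm F W} {Q : QuadraticForm F (U ⊗[F] W)}
  {M : Subgroup ((U ⊗[F] W) ≃ₗ[F] (U ⊗[F] W))} (h : O34 P S Q M)
include h

theorem nU : ND P := (nd_iff P).2 h.ndU

theorem nW : ND S := (nd_iff S).2 h.ndW

theorem pu (u u' : U) (w w' : W) : polar Q (u ⊗ₜ w) (u' ⊗ₜ w') = polar P u u' * polar S w w' :=
  h.pure u u' w w'

theorem lf (u : U) (w : W) (x : U ⊗[F] W) :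
    polar Q (u ⊗ₜ w) x = polar P u (cW U (S.polarBilin w) x) := h.left u w x

theorem qq (u : U) (w : W) : Q (u ⊗ₜ w) = 2 * P u * S w := mul_left_cancel₀ h.two (by
  have := h.pu u u w w
  simp only [p_self] at this
  linear_combination this)

theorem singL {w : W} (hw : S w = 0) : Sing Q (LW F U w) := by
  rintro _ ⟨u, rfl⟩; simp [h.qq, hw]

theorem memU {a : OG P} (ha : a ∈ commutator (OG P)) :
    TensorProduct.congr a.1 (1 : W ≃ₗ[F] W) ∈ M :=
  h.hH _ ⟨_, map_mem_commutator (MonoidHom.mk' (fun a : OG P => (⟨_, h.inv _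
    (h.tb.congr_mem (a := a.1) (b := 1) (μ := 1) (fun u v => by simp) (by simp))
    (isT_congr _ _)⟩ : OG Q)) fun a b => Subtype.ext (by simpa using congr_mul a.1 1 b.1 1)) ha,
    rfl⟩ (isT_congr _ _)

theorem memW {b : OG S} (hb : b ∈ commutator (OG S)) :
    TensorProduct.congr (1 : U ≃ₗ[F] U) b.1 ∈ M :=
  h.hH _ ⟨_, map_mem_commutator (MonoidHom.mk' (fun b : OG S => (⟨_, h.inv _
    (h.tb.congr_mem (a := 1) (b := b.1) (μ := 1) (by simp) (fun u v => by simp))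
    (isT_congr _ _)⟩ : OG Q)) fun a b => Subtype.ext (by simpa using congr_mul 1 a.1 1 b.1)) hb,
    rfl⟩ (isT_congr _ _)

variable [FiniteDimensional F U] [FiniteDimensional F W]

omit [FiniteDimensional F W] in
theorem eU (n c : U) : TensorProduct.congr (eich P n c).1 (1 : W ≃ₗ[F] W) ∈ M :=
  h.memU (h.nU.eich_mem_commutator (good_of_two_ne_zero h.two) n c)

omit [FiniteDimensional F U] in
theorem eW (n c : W) : TensorProduct.congr (1 : U ≃ₗ[F] U) (eich S n c).1 ∈ M :=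
  h.memW (h.nW.eich_mem_commutator (good_of_two_ne_zero h.two) n c)

variable [Finite F]

omit [FiniteDimensional F U] in
theorem trW {w w' : W} (hw : w ≠ 0) (hw' : w' ≠ 0) (e : S w = 0) (e' : S w' = 0) :
    ∃ b : W ≃ₗ[F] W, TensorProduct.congr (1 : U ≃ₗ[F] U) b ∈ M ∧ b w = w' :=
  let ⟨b, hb, e⟩ := sing_trans h.nW (good_of_two_ne_zero h.two) h.l4.ge hw hw' e e'
  ⟨b.1, h.memW hb, e⟩

theorem le_of_ns {n y : U} {w : W} (hn0 : n ≠ 0) (hn : P n = 0) (hy : P y ≠ 0)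
    (hny : polar P n y = 0) (hw0 : w ≠ 0) (hw : S w = 0)
    (e : y ⊗ₜ w ∈ OE (M.subgroupOf (OG Q)) (n ⊗ₜ w)) :
    commutator (OG Q) ≤ M.subgroupOf (OG Q) := by
  have h2 := h.two
  have nn : polar P n n = 0 := by simp [hn]
  have h0 : ∀ w', w' ≠ 0 → S w' = 0 → y ⊗ₜ w' ∈ OE (M.subgroupOf (OG Q)) (n ⊗ₜ w') :=
    fun w' e0 e1 => by
      obtain ⟨b, hb, rfl⟩ := h.trW hw0 e0 hw e1
      simpa using h.oe_map e hb
  have h1 : ∀ w, w ≠ 0 → S w = 0 → ∀ v, n ⊗ₜ v ∈ OE (M.subgroupOf (OG Q)) (n ⊗ₜ w) := by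
    intro w hw0 hw v
    obtain ⟨f, hf, hf0⟩ := h.nW.exists_hyp hw0 hw
    have k := OE.grow (h0 w hw0 hw) (u := n ⊗ₜ f) (by simp [h.qq, hn])
      (h0 f (by rintro rfl; simp at hf) hf0) (by simp [h.pu, hn]) (by simp [h.pu, polar_comm _ y, hny])
    simp only [h.pu, h.qq, hny, hf0, p_self, polar_comm _ f w, hf, mul_zero, zero_smul,
      sub_zero, mul_one] at k
    replace k := (Submodule.smul_mem_iff _ (mul_ne_zero h2 hy)).1 k
    exact mem_of_eich (Y := (OE _ (n ⊗ₜ w)).comap (TensorProduct.mk F U W n)) hw (by simp [hf])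
      (OE.self (by simp [h.qq, hn])) k (fun c hc => by
        simpa [eich_apply_left hw hc] using h.oe_map k (h.eW w c)) v
  obtain ⟨f, hf, hf0⟩ := h.nU.exists_hyp hn0 hn
  obtain ⟨c, c1, c2, c3⟩ := exists_ns_hyp h.nU h.k3.ge hn hf0 hf
  obtain ⟨m, hm, hm0, hnm⟩ : ∃ m, (eich P f c).1 n = m ∧ P m = 0 ∧ polar P n m ≠ 0 :=
    ⟨_, rfl, by simp [hn], by simp [eich_apply hf0 c2, hn, hf, c1, polar_comm _ c, polar_comm _ f, c3]⟩
  have hmn : polar P m n ≠ 0 := by rwa [polar_comm]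
  have h3 : ∀ w, w ≠ 0 → S w = 0 → ∀ v, m ⊗ₜ v ∈ OE (M.subgroupOf (OG Q)) (m ⊗ₜ w) :=
    fun w hw0 hw v => by simpa [hm] using h.oe_map (h1 w hw0 hw v) (h.eU f c)
  have h4 : ∀ w, w ≠ 0 → S w = 0 → ∀ a v, polar S w v = 0 →
      a ⊗ₜ v ∈ OE (M.subgroupOf (OG Q)) (n ⊗ₜ w) := by
    intro w hw0 hw a v hv
    obtain ⟨g, hg, hg0⟩ := h.nW.exists_hyp hw0 hw
    obtain ⟨d, d1, -, d3⟩ := exists_ns_hyp h.nW h.l3 hw hg0 hg
    have k : ∀ v, polar S w v = 0 → ∀ t, (polar P m n * polar S v t) • m ⊗ₜ w -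
        (polar P m n * polar S w t) • m ⊗ₜ v ∈ OE (M.subgroupOf (OG Q)) (n ⊗ₜ w) :=
      fun v hv t => by
      simpa [h.pu, h.qq, hm0] using OE.grow (h1 w hw0 hw t) (u := m ⊗ₜ w) (by simp [h.qq, hw])
        (h3 w hw0 hw v) (by simp [h.pu, hw]) (by simp [h.pu, polar_comm _ v, hv])
    have k1 : m ⊗ₜ w ∈ OE (M.subgroupOf (OG Q)) (n ⊗ₜ w) :=
      (Submodule.smul_mem_iff _ (mul_ne_zero hmn (mul_ne_zero h2 d3))).1
        (by simpa [d1] using k d d1 d)
    have k2 : m ⊗ₜ v ∈ OE (M.subgroupOf (OG Q)) (n ⊗ₜ w) := (Submodule.smul_mem_iff _ hmn).1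
      (by simpa [hg] using mem_of_smul_sub k1 (k v hv g))
    exact mem_of_eich (Y := (OE _ (n ⊗ₜ w)).comap (inW F U v)) hn hnm (h1 w hw0 hw v) k2
      (fun c hc => by simpa [eich_apply_left hn hc] using h.oe_map k2 (h.eU n c)) a
  have h5 : ∀ w, w ≠ 0 → S w = 0 → OP (M.subgroupOf (OG Q)) (n ⊗ₜ w) := fun w hw0 hw =>
    ⟨by simp [h.qq, hn], fun x hx => by
      obtain ⟨g, hg, hg0⟩ := h.nW.exists_hyp hw0 hw
      rw [h.lf] at hx
      have k := OE.grow (h4 w hw0 hw m w (by simp [hw])) (u := n ⊗ₜ g) (by simp [h.qq, hn])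
        (h4 g (by rintro rfl; simp at hg) hg0 (cW U (S.polarBilin w) x) g (by simp [hg0]))
        (by simp [h.pu, hn]) (by rw [h.pu, polar_comm, hx, zero_mul])
      have k' := (Submodule.smul_mem_iff _ (show polar Q (n ⊗ₜ g) (m ⊗ₜ w) ≠ 0 by
        simpa [h.pu, polar_comm _ g, hg] using hnm)).1 (mem_of_smul_sub (h1 w hw0 hw g) k)
      have := eq_zero_of_ker (f := (OE (M.subgroupOf (OG Q)) (n ⊗ₜ w)).mkQ) (φ := S.polarBilin w)
        (fun e => by simpa [hg] using LinearMap.congr_fun e g)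
        (fun b t ht => (Submodule.Quotient.mk_eq_zero _).2 (h4 w hw0 hw b t ht))
        (x := x - cW U (S.polarBilin w) x ⊗ₜ g) (by simp [hg])
      simpa using add_mem ((Submodule.Quotient.mk_eq_zero _).1 this) k'⟩
  obtain ⟨g, hg, hg0⟩ := h.nW.exists_hyp hw0 hw
  refine om_le_of_pair h.nd h.n5 (h5 w hw0 hw) ((h5 g (by rintro rfl; simp at hg) hg0).map
    (g := ⟨_, OM.og (h.hM (h.eU f c))⟩) (h.eU f c)) ?_
  simpa [hm, h.pu, hg] using hnm

theorem le_of_not_std (hS : ¬ OO.Std S M) :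
    commutator (OG Q) ≤ M.subgroupOf (OG Q) := by
  simp only [OO.Std, not_forall] at hS
  obtain ⟨w, hw0, hw, g, hg, e, x₀, hS⟩ := hS
  have h2 := h.two
  obtain ⟨y, hy, hy0⟩ := h.nW.exists_hyp hw0 hw
  obtain ⟨γ, hγ⟩ := h.zform (w := w) (y := y) hy hg e
  have ww : S.polarBilin w w = 0 := by simp [hw]
  have sk : ∀ u v, polar P (γ u) v = -polar P u (γ v) := fun u v => by
    have := h.map hg (u ⊗ₜ y) (v ⊗ₜ y)
    simp only [hγ, Dm_apply, cW_tmul, polarBilin_apply_apply, hy, one_smul, polar_add_left,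
      polar_add_right, h.pu, p_self, hw, polar_comm _ y w] at this
    linear_combination this
  obtain ⟨n, hn, hn'⟩ := skew_eigen h2 h.nU h.k3.ge sk fun e => hS (by simp [hγ, e, Dm_apply])
  have hn0 : n ≠ 0 := by rintro rfl; simp at hn'
  have s0 : ∀ u, polar P u (γ u) = 0 := fun u => mul_left_cancel₀ h2 (by
    have := sk u u; rw [polar_comm] at this; linear_combination this)
  obtain ⟨f, hf, hf0⟩ := h.nU.exists_hyp hn0 hn
  obtain ⟨c, c1, -, c3⟩ := exists_ns_hyp h.nU h.k3.ge hn hf0 hf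
  obtain ⟨z, hz, z1, z2⟩ : ∃ z, (2 * P c) • γ n - (2 * polar P c (γ n)) • c = z ∧
      polar P n z = 0 ∧ z ∉ F ∙ n := ⟨_, rfl, by simp [s0, c1], fun e => by
    obtain ⟨t, ht⟩ := Submodule.mem_span_singleton.1 e
    have := congrArg (polar P c) ht
    simp only [p_smul_right, polar_sub_right, p_self, polar_comm _ c n, c1] at this
    rw [show polar P c (γ n) = 0 from mul_left_cancel₀ (mul_ne_zero h2 c3)
      (by linear_combination this), mul_zero, zero_smul, sub_zero] at ht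
    exact hn' ((Submodule.smul_mem_iff _ (mul_ne_zero h2 c3)).1
      (Submodule.mem_span_singleton.2 ⟨t, ht⟩))⟩
  have q1 : Q (n ⊗ₜ w) = 0 := by simp [h.qq, hw]
  have h1 : z ⊗ₜ w ∈ OE (M.subgroupOf (OG Q)) (n ⊗ₜ w) := ⟨by simp [h.pu, hw], fun t =>
    (mem_of_sq h2 (A := OA (M.subgroupOf (OG Q)) (n ⊗ₜ w)) (fun s => ⟨by simp [h.pu, hw], by
      have h0 : R M (Dm γ (S.polarBilin w) w) := ⟨g, hg, hγ⟩
      have AA := fun γ γ' : U →ₗ[F] U => Dm_Dm γ γ' (φ := S.polarBilin w) (S.polarBilin w) w ww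
      refine eich_mem_of_R ((((OO.cj_Dm h0 (h.eU n (s • c))).add (OO.cj_Dm h0 (h.eU n (-(s • c))))
        (AA _ _)).sub (h0.add h0 (AA _ _)) (by simp [AA]) (by simp [AA]))) fun x => ?_
      have := cjm_eich hn (c := s • c) (by simp [c1]) γ (cW U (S.polarBilin w) x)
      simp only [LinearMap.sub_apply, LinearMap.add_apply] at this
      rw [eich_apply q1 (by simp [h.pu, hw])]
      simp only [LinearMap.sub_apply, LinearMap.add_apply, Dm_apply, ← add_tmul, ← sub_tmul, this,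
        q_smul, h.qq, hw, p_smul_left, h.lf, ← hz, polar_sub_left, map_smul, p_smul_right, s0, sk,
        show polar P n (γ c) = -polar P c (γ n) by rw [← sk, polar_comm]]
      simp only [add_tmul, sub_tmul, ← smul_tmul']
      module⟩) t).2⟩
  by_cases hz0 : P z = 0
  swap
  · exact h.le_of_ns hn0 hn hz0 z1 hw0 hw h1
  have hs : Sing P (Submodule.span F {n, z}) := fun x hx => by
    obtain ⟨a, b, rfl⟩ := Submodule.mem_span_pair.1 hx
    simp [q_add, q_smul, hn, hz0, z1]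
  have d := Orth.finrank_span_pair_eq (Orth.linearIndependent_pair_of_notMem hn0 z2)
  have := h.nU.two_mul_finrank_le hs
  have := h.k3
  omega

omit [FiniteDimensional F U] [FiniteDimensional F W] [Finite F] in
theorem qt_cj {w : W} {hw : S w = 0} {Θ : U ⊗[F] W →ₗ[F] U} (e : Θ ∈ QT M hw)
    {t : (U ⊗[F] W) ≃ₗ[F] (U ⊗[F] W)} (ht : t ∈ M) (a : U ≃ₗ[F] U)
    (et : ∀ u, t (u ⊗ₜ w) = a u ⊗ₜ w) : a.toLinearMap ∘ₗ Θ ∘ₗ t.symm.toLinearMap ∈ QT M hw := by
  obtain ⟨e, g, hg, f⟩ := e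
  refine ⟨fun u => ?_, _, M.mul_mem (M.mul_mem ht hg) (M.inv_mem ht), fun x hx => ?_⟩
  · have : t.symm (u ⊗ₜ w) = a.symm u ⊗ₜ w := by simp [LinearEquiv.symm_apply_eq, et]
    simp [this, e]
  · simp [f _ (h.perp_symm ht (by rintro _ ⟨u, rfl⟩; exact ⟨_, (et u).symm⟩) hx), et]

omit [FiniteDimensional F U] [Finite F] in
theorem qt_id {w v : W} (hw : S w = 0) (hv : polar S w v = 0) :
    cW U (S.polarBilin v) ∈ QT M hw :=
  ⟨fun u => by simp [polar_comm _ v, hv], _, h.eW w v, fun x hx => by simp [OO.eich_W hw hv, hx]⟩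

theorem memR {a b : U} (ha : P a ≠ 0) (hb : P b ≠ 0) :
    TensorProduct.congr (refl P a * refl P b).1 (1 : W ≃ₗ[F] W) ∈ M := by
  obtain ⟨e, e1, e2⟩ := h.nW.exists_orth_basis h.two
  have k : ∀ a, P a ≠ 0 → ∀ x, (((List.ofFn fun i => a ⊗ₜ e i).map (refl Q)).prod).1 x =
      TensorProduct.congr (refl P a).1 (1 : W ≃ₗ[F] W) x := fun a ha x => by
    rw [prod_refl_orth_apply _ (List.pairwise_ofFn.2 fun i j hij => by simp [h.pu, e1 i j hij.ne]),
      refl_ten, List.map_ofFn, List.sum_ofFn]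
    congr 1
    conv_rhs => rw [← e.sum_repr (cU W (P.polarBilin a) x), tmul_sum, Finset.smul_sum]
    refine Finset.sum_congr rfl fun i _ => ?_
    have := h.right a (e i) x
    conv_rhs at this => rw [← e.sum_repr (cU W (P.polarBilin a) x), map_sum,
      Finset.sum_eq_single i (fun j _ hj => by simp [e1 i j hj.symm]) (by simp)]
    simp only [Function.comp, this, h.qq, tmul_smul, smul_smul, map_smul, polarBilin_apply_apply,
      p_self, smul_eq_mul]
    congr 1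
    have := h.two
    have := e2 i
    field_simp
  refine h.hH _ ⟨((List.ofFn (fun i => a ⊗ₜ e i) ++ List.ofFn fun i => b ⊗ₜ e i).map
    (refl Q)).prod, (h.nd.list_mem_commutator_iff (good_of_five_le h.n5) _ ?_).2 ⟨by simp, ?_⟩,
    LinearEquiv.toLinearMap_injective (TensorProduct.ext' fun u w => ?_)⟩ (isT_congr _ _)
  · simp only [List.mem_append, List.mem_ofFn]
    rintro _ (⟨i, rfl⟩ | ⟨i, rfl⟩) <;> simp [h.qq, h.two, ha, hb, e2]
  · rw [List.map_append, List.prod_append, List.map_ofFn, List.map_ofFn, List.prod_ofFn,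
      List.prod_ofFn]
    refine ⟨(2 * P a) ^ 2 * (2 * P b) ^ 2 * ∏ i, S (e i), ?_⟩
    simp only [Function.comp, h.qq, Finset.prod_mul_distrib, Finset.prod_const, Finset.card_univ,
      Fintype.card_fin, h.l4]
    ring
  · rw [List.map_append, List.prod_append]
    exact (OG.mul_apply _ _ _).trans (by rw [k a ha, k b hb]; rfl)

theorem uu_mem {c : U} (hc : P c ≠ 0) : uu W P c ∈ M := by
  obtain ⟨a, ca, ha⟩ := h.nU.exists_orth_nonsingular h.two (by have := h.k3; omega) hc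
  obtain ⟨b, cb, ab, hb⟩ := exists_third h.two h.nU h.k3 hc ha ca
  rw [uu, ← refl_three h.two h.k3 ha hb hc ab (by rwa [polar_comm]) (by rwa [polar_comm])]
  exact h.memR ha hb

omit [Finite F] in
theorem ns {w v : W} (hw0 : w ≠ 0) (hw : S w = 0) (hv : polar S w v = 0) (hv' : v ∉ F ∙ w) :
    S v ≠ 0 := fun e => h.mi ⟨Submodule.span F {w, v}, fun x hx => by
      obtain ⟨a, b, rfl⟩ := Submodule.mem_span_pair.1 hx
      simp [q_add, q_smul, hw, e, hv], by
    rw [Orth.finrank_span_pair_eq (Orth.linearIndependent_pair_of_notMem hw0 hv'), h.l4]⟩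

omit [FiniteDimensional F U] [Finite F] in
theorem qt_comm (hS : OO.Std S M) {w v' : W} (hw0 : w ≠ 0) {hw : S w = 0}
    (hv : polar S w v' = 0) {Θ : U ⊗[F] W →ₗ[F] U} {γ' : U →ₗ[F] U} (e : Θ ∈ QT M hw)
    (e' : γ' ∘ₗ cW U (S.polarBilin v') ∈ QT M hw)
    (hs : ∀ u u', polar P (γ' u) u' = polar P u (γ' u')) (u u' : U) :
    polar P u (Θ (γ' u' ⊗ₜ v')) = polar P u' (Θ (γ' u ⊗ₜ v')) := by
  obtain ⟨y, hy, -⟩ := h.nW.exists_hyp hw0 hw
  have fm : ∀ {Θ : U ⊗[F] W →ₗ[F] U} {g : (U ⊗[F] W) ≃ₗ[F] (U ⊗[F] W)}, g ∈ M →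
      (∀ u, Θ (u ⊗ₜ w) = 0) → (∀ x, cW U (S.polarBilin w) x = 0 → g x = x + Θ x ⊗ₜ w) →
      (∀ x ∈ LW F U w, g x = x) ∧ ∀ u z, cW U (S.polarBilin w) z = 0 →
      cW U (S.polarBilin w) (g (u ⊗ₜ y) - u ⊗ₜ y) = 0 ∧
      polar Q (g (u ⊗ₜ y) - u ⊗ₜ y) z = -polar P u (Θ z) := by
    intro Θ g hg e f
    have f0 : ∀ u, g (u ⊗ₜ w) = u ⊗ₜ w := fun u => by simp [f (u ⊗ₜ w) (by simp [hw]), e]
    have h1 : ∀ u u', polar Q (u' ⊗ₜ w) (g (u ⊗ₜ y)) = polar Q (u' ⊗ₜ w) (u ⊗ₜ y) :=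
      fun u u' => by rw [← h.map hg (u' ⊗ₜ w) (u ⊗ₜ y), f0]
    refine ⟨by rintro _ ⟨u, rfl⟩; exact f0 u, fun u z hz =>
      ⟨h.perpL.1 (by rintro _ ⟨u', rfl⟩; simp [h1]), ?_⟩⟩
    have h2 := h.map hg (u ⊗ₜ y) z
    rw [f z hz, polar_add_right, polar_comm _ _ (_ ⊗ₜ w), h1, h.pu, hy] at h2
    rw [polar_sub_left, polar_comm _ u]
    linear_combination h2
  obtain ⟨e0, g, hg, e⟩ := e
  obtain ⟨e0', g', hg', e'⟩ := e'
  obtain ⟨f1, f2⟩ := fm hg e0 e
  obtain ⟨f1', f2'⟩ := fm hg' e0' e'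
  obtain ⟨N, ⟨t, ht, h1⟩, -, h2, h3⟩ := heisX (B := Q.polarBilin) (fun x y e => by
      simpa [polar_comm _ y x] using e) (X := LW F U w) hg (h.sg hg) hg' (h.sg hg') f1 f1'
    (fun y hy => by rw [e y (h.perpL.1 hy)]; simpa using tmul_mem_LW _ _)
    (fun y hy => by rw [e' y (h.perpL.1 hy)]; simpa using tmul_mem_LW _ _)
  have hc := hS w hw0 hw t ht fun x hx => by rw [h1, h2 x (h.perpL.2 hx), add_zero]
  have k : ∀ u u', polar Q (g (u ⊗ₜ y) - u ⊗ₜ y) (g' (u' ⊗ₜ y) - u' ⊗ₜ y) =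
      polar P u (Θ (γ' u' ⊗ₜ v')) := by
    intro u u'
    obtain ⟨a, ha⟩ : g' (u' ⊗ₜ y) - u' ⊗ₜ y + γ' u' ⊗ₜ v' ∈ LW F U w :=
      h.memL hw0 fun z hz => h.nU _ fun a => by
        replace hz : polar S w z = 0 := by rwa [polar_comm]
        rw [polar_comm, ← h.lf, polar_comm, polar_add_left, (f2' u' (a ⊗ₜ z) (by simp [hz])).2]
        simp [hs, h.pu, mul_comm]
    rw [(f2 u _ (f2' u' 0 (map_zero _)).1).2, eq_sub_of_add_eq ha.symm]
    simp [e0]
  have := h3 (u ⊗ₜ y) (u' ⊗ₜ y)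
  rw [show N (u ⊗ₜ y) = 0 by simpa using (h1 _).symm.trans (hc _)] at this
  simp only [polarBilin_apply_apply, k, polar_comm _ (g' _ - _), map_zero] at this
  linear_combination -this

theorem qt_refl {w : W} {hw : S w = 0} {Θ : U ⊗[F] W →ₗ[F] U} (e : Θ ∈ QT M hw) {c : U}
    (hc : P c ≠ 0) : (refl P c).1.toLinearMap ∘ₗ Θ ∘ₗ
      (TensorProduct.congr (refl P c).1 (1 : W ≃ₗ[F] W)).toLinearMap ∈ QT M hw := by
  convert h.qt_cj e (h.uu_mem hc) (negOne P * refl P c).1 fun u => rfl using 1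
  refine TensorProduct.ext' fun u z => ?_
  have : (uu W P c).symm (u ⊗ₜ z) = uu W P c (u ⊗ₜ z) := by
    rw [LinearEquiv.symm_apply_eq]; exact (LinearEquiv.congr_fun uu_mul_self _).symm
  simp [this, uu_tmul, neg_tmul]

theorem qt_scalar (hS : OO.Std S M) {w z : W} (hw0 : w ≠ 0) {hw : S w = 0}
    (hz : polar S w z = 0) {Θ : U ⊗[F] W →ₗ[F] U} (e : Θ ∈ QT M hw) :
    ∃ c : F, Θ ∘ₗ inW F U z = c • LinearMap.id := by
  have h2 := h.two
  have sy : ∀ z, polar S w z = 0 → ∀ u u', polar P u (Θ (u' ⊗ₜ z)) = polar P u' (Θ (u ⊗ₜ z)) :=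
    fun z hz => h.qt_comm hS hw0 hz e (γ' := LinearMap.id) (h.qt_id hw hz) fun _ _ => rfl
  by_contra hn
  push Not at hn
  obtain ⟨c, hc, c1⟩ := exists_ns_not_eigen h2 h.nU h.k3.ge (γ := Θ ∘ₗ inW F U z)
    (fun u v => by rw [polar_comm]; exact sy z hz v u) hn
  obtain ⟨d, cd, hd, d1⟩ : ∃ d, polar P c d = 0 ∧ P d ≠ 0 ∧ polar P d (Θ (c ⊗ₜ z)) ≠ 0 := by
    by_contra e
    push Not at e
    have := ns_le h2 (nds_perp_one h2 h.nU hc) (X := perp P (F ∙ Θ (c ⊗ₜ z))) fun a ha a0 =>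
      mem_perp_singleton.2 (by rw [polar_comm]; exact e a (mem_perp_singleton.1 ha) a0)
    have := perp_anti (Q := P) this
    rw [h.nU.perp_perp, h.nU.perp_perp] at this
    exact c1 (this (Submodule.mem_span_singleton_self _))
  have dc : polar P d c = 0 := by rwa [polar_comm]
  obtain ⟨v, hv⟩ := sp_exists_dual h.ndW (((P c)⁻¹ * (P d)⁻¹) • P.polarBilin d ∘ₗ Θ ∘ₗ
    TensorProduct.mk F U W c)
  replace hv : ∀ t, polar S v t = (P c)⁻¹ * (P d)⁻¹ * polar P d (Θ (c ⊗ₜ t)) :=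
    LinearMap.congr_fun hv
  have wv : polar S w v = 0 := by rw [polar_comm, hv, e.1]; simp
  have v0 : S v ≠ 0 := h.ns hw0 hw wv fun e => by
    obtain ⟨t, rfl⟩ := Submodule.mem_span_singleton.1 e
    simpa [hz, hc, hd, d1] using hv z
  let γ : U →ₗ[F] U := (P.polarBilin c).smulRight d + (P.polarBilin d).smulRight c
  have hγ : ∀ u, γ u = polar P c u • d + polar P d u • c := fun _ => rfl
  have g1 : γ ∘ₗ cW U (S.polarBilin v) ∈ QT M hw := by
    have e1 := (QT M hw).sub_mem e (h.qt_refl e hc)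
    obtain ⟨-, g, hg, f⟩ := (QT M hw).sub_mem e1 (h.qt_refl e1 hd)
    obtain ⟨y, hy, -⟩ := h.nW.exists_hyp hw0 hw
    refine ⟨fun u => by simp [polar_comm _ v, wv], g, hg, fun x hx => ?_⟩
    rw [f x hx]
    congr 2
    refine sub_eq_zero.1 (eq_zero_of_ker (f := _ - γ ∘ₗ cW U (S.polarBilin v))
      (φ := S.polarBilin w) (fun e => by simpa [hy] using LinearMap.congr_fun e y)
      (fun u t ht => ?_) hx)
    have s := sy t ht
    simp only [LinearMap.sub_apply, LinearMap.comp_apply, LinearEquiv.coe_coe, congr_tmul,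
      LinearEquiv.coe_one, id, refl_apply, sub_tmul, ← smul_tmul', map_sub, map_smul, cW_tmul,
      polarBilin_apply_apply, hv, hγ, polar_sub_right, p_smul_right, p_self, cd, dc, s c u, s d u,
      s c d]
    match_scalars <;> field_simp <;> ring
  obtain ⟨b, cb, db, hb⟩ := exists_third h2 h.nU h.k3 hc hd cd
  obtain ⟨l, l0, l1⟩ := exists_sq_ne' h.q4 (-P d / P b)
  have hm : P (d + l • b) ≠ 0 := fun e => l1 (by
    rw [q_add, q_smul, p_smul_right, db] at e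
    field_simp
    linear_combination e)
  have g2 : ((refl P (d + l • b)).1.toLinearMap ∘ₗ γ ∘ₗ (refl P (d + l • b)).1.toLinearMap) ∘ₗ
      cW U (S.polarBilin v) ∈ QT M hw := by
    convert h.qt_refl g1 hm using 1
    exact TensorProduct.ext' fun u t => by simp
  have rs : ∀ x y, polar P ((refl P (d + l • b)).1 x) y = polar P x ((refl P (d + l • b)).1 y) :=
    fun x y => by rw [← OG.polar_inv_left, refl_inv]
  have := h.qt_comm hS hw0 wv g1 g2 (fun u u' => by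
    simp only [LinearMap.comp_apply, LinearEquiv.coe_coe]
    rw [rs, ← rs u]
    simp only [hγ, polar_add_left, polar_add_right, p_smul_left, p_smul_right,
      polar_comm _ ((refl P (d + l • b)).1 u)]
    ring) d b
  generalize hκ : (P (d + l • b))⁻¹ = κ at this
  have κ0 : κ ≠ 0 := hκ ▸ inv_ne_zero hm
  simp [refl_apply, hκ, hγ, cb, db, cd, dc, polar_comm _ b c, polar_comm _ b d, h2, hc, hd, hb,
    v0, l0, κ0] at this

theorem d1a (hS : OO.Std S M) {w : W}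
    (hw0 : w ≠ 0) (hw : S w = 0) (g : (U ⊗[F] W) ≃ₗ[F] (U ⊗[F] W)) (hg : g ∈ M)
    (f : ∀ u, g (u ⊗ₜ w) = u ⊗ₜ w)
    (e : ∀ x, cW U (S.polarBilin w) x = 0 → g x - x ∈ LW F U w) :
    ∃ ν : W →ₗ[F] W, ∀ u v, g (u ⊗ₜ v) = u ⊗ₜ ν v := by
  obtain ⟨y, hy, hy0⟩ := h.nW.exists_hyp hw0 hw
  have hχ : S.polarBilin y w = 1 := by simpa [polar_comm _ y] using hy
  have := h.ntU
  obtain ⟨u₀, hu₀⟩ := exists_ne (0 : U)
  obtain ⟨ψ, hψ⟩ := exists_dual_one (F := F) hu₀
  let Θ := cW U (S.polarBilin y) ∘ₗ ((g : _ →ₗ[F] _) - LinearMap.id)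
  have gΘ : ∀ x, cW U (S.polarBilin w) x = 0 → g x = x + Θ x ⊗ₜ w := fun x hx => by
    rw [← sub_eq_iff_eq_add']; exact (eq_of_mem_LW hχ (e x hx)).symm
  have hΘ : Θ ∈ QT M hw := ⟨fun u => by simp [Θ, f], g, hg, gΘ⟩
  obtain ⟨v, hv⟩ := sp_exists_dual h.ndW (ψ ∘ₗ Θ ∘ₗ TensorProduct.mk F U W u₀)
  have hv0 : polar S w v = 0 := h.rW _ _ (by simp [hv, hΘ.1])
  have e1 : ∀ x, cW U (S.polarBilin w) x = 0 → Θ x = cW U (S.polarBilin v) x := fun x hx =>
    sub_eq_zero.1 (eq_zero_of_ker (f := Θ - cW U (S.polarBilin v)) (φ := S.polarBilin w)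
      (fun e => by simpa [hy] using LinearMap.congr_fun e y) (fun u z hz => by
        obtain ⟨c, hc⟩ := h.qt_scalar hS hw0 hz hΘ
        have h1 : ∀ u, Θ (u ⊗ₜ z) = c • u := fun u => LinearMap.congr_fun hc u
        simp [hv, h1, hψ]) hx)
  have := hS w hw0 hw _ (M.mul_mem (M.inv_mem (h.eW w v)) hg) fun x hx => by
    rw [LinearEquiv.mul_apply, LinearEquiv.coe_inv, LinearEquiv.symm_apply_eq, OO.eich_W hw hv0, hx,
      ← e1 x hx, gΘ x hx]
    simp
  refine ⟨(eich S w v).1, fun u z => ?_⟩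
  have := this (u ⊗ₜ z)
  rwa [LinearEquiv.mul_apply, LinearEquiv.coe_inv, LinearEquiv.symm_apply_eq] at this

theorem isT_of_stab (hS : OO.Std S M) {w w' : W}
    (hw0 : w ≠ 0) (hw : S w = 0) {g : (U ⊗[F] W) ≃ₗ[F] (U ⊗[F] W)} (hg : g ∈ M)
    (hL : im (LW F U w) g = LW F U w') : IsT g := by
  have := h.ntU
  obtain ⟨u, hu⟩ := h.nU.exists_nonsingular
  have hw' : w' ≠ 0 := by
    rintro rfl
    obtain ⟨u', e⟩ : g (u ⊗ₜ w) ∈ LW F U (0 : W) := hL ▸ apply_mem_im.2 (tmul_mem_LW u w)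
    exact tmul_ne_zero (ne_zero_of_Q_ne_zero hu) hw0 (by simpa using e.symm)
  have hw1 : S w' = 0 := by
    obtain ⟨x, hx, e⟩ : u ⊗ₜ w' ∈ im (LW F U w) g := hL ▸ tmul_mem_LW u w'
    have := OM.og (h.hM hg) x
    rw [show g x = u ⊗ₜ w' from e, h.singL hw x hx, h.qq] at this
    simpa [h.two, hu] using this
  obtain ⟨b, hb, e⟩ := h.trW hw' hw0 hw1 hw
  obtain ⟨y, hy, hy0⟩ := h.nW.exists_hyp hw0 hw
  refine ((tSub F U W).mul_mem_cancel_left (isT_congr 1 b)).1 (h.isT_of_fix (w := w) (y := y)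
    (by simp [hw]) hy (by simp [hy0]) (h.singL hw) (fun v hv => ?_) (h.d1a hS hw0 hw)
    (M.mul_mem hb hg) ?_)
  · have hv' : polar S w (-v) = 0 := by simpa using hv
    refine ⟨_, h.eW w (-v), fun u => by simp [eich_apply_left hw hv'],
      fun x hx => by simpa [OO.eich_W hw hv', hx] using tmul_mem_LW _ _, fun u => ?_⟩
    rw [OO.eich_W hw hv']
    convert tmul_mem_LW (-(polar S v y • u) - S v • u) w using 1
    simp [hy, tmul_neg]; abel
  rw [im_mul, hL]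
  refine le_antisymm ?_ ?_
  · rintro _ ⟨_, ⟨u, rfl⟩, rfl⟩; exact ⟨u, by simp [e]⟩
  · rintro _ ⟨u, rfl⟩; exact ⟨_, tmul_mem_LW u w', by simp [e]⟩

end O34

end Cfsg.Agent.Max
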