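import Mathlib
import Cfsg.Agent.Max.T34a
import Cfsg.Agent.Max.Frame
import Cfsg.Agent.Core.Coprime2

/-!
# Maximality of `O₃ ⊗ O₄⁻` in `Ω₁₂⁻`
-/

set_option autoImplicit false

namespace Cfsg.Agent.Max

open Module Cfsg.Agent.Max2 TensorProduct Classical.SpWitt Cfsg.Agent.Orth QuadraticMap

theorem le_of_cent {G : Type*} [Group G] [Finite G] {p : ℕ} [hp : Fact p.Prime] {A K L : Subgroup G}
    (hA : IsMulCommutative A) (hp' : IsPGroup p A) (hnc : ¬ IsCyclic A)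
    (hAK : A ≤ Subgroup.normalizer (K : Set G))
    (h : ∀ a ∈ A, a ≠ 1 → K ⊓ Subgroup.centralizer {a} ≤ L)
    (h' : ∀ k ∈ K, k ∈ L → ∀ n, k ^ p ^ n = 1 → k = 1) : K ≤ L := by
  refine Core.le_of_centralizers hA hnc hAK ?_ h
  obtain ⟨n, hn⟩ := IsPGroup.iff_card.1 hp'
  rw [hn]
  refine Nat.Coprime.pow_left _ (hp.out.coprime_iff_not_dvd.2 fun hd => ?_)
  obtain ⟨P, hP, hAP⟩ := Core.exists_isSylowOf_ge hp' (le_sup_right (a := K))
  have h1 := hP.inf_of_normal le_sup_left (hP.le.trans (sup_le Subgroup.le_normalizer hAK))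
  obtain ⟨⟨k, hk, hk'⟩, h2⟩ := Subgroup.ne_bot_iff_exists_ne_one.1
    (Core.inf_centralizer_ne_bot_of_isPGroup h1.isPGroup hp' ((le_inf (hAP.trans
      Subgroup.le_normalizer) hAK).trans Subgroup.inf_normalizer_le_normalizer_inf) (h1.ne_bot hd))
  obtain ⟨⟨a, ha⟩, h3⟩ := Subgroup.ne_bot_iff_exists_ne_one.1 (show A ≠ ⊥ by
    rintro rfl; exact hnc inferInstance)
  obtain ⟨m, hm⟩ := h1.isPGroup ⟨k, hk⟩
  refine h2 (Subtype.ext (h' k hk.2 (h a ha (fun e => h3 (Subtype.ext e)) ⟨hk.2, ?_⟩) m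
    (congrArg Subtype.val hm)))
  exact Subgroup.centralizer_le (Set.singleton_subset_iff.2 ha) hk'

variable {F U W : Type*} [Field F] [AddCommGroup U] [Module F U] [AddCommGroup W] [Module F W]

theorem finrank_le_eig [FiniteDimensional F U] {α : U →ₗ[F] U} (h : ∀ x, α (α x) = x) :
    finrank F U ≤ finrank F (LinearMap.ker (α - LinearMap.id)) +
      finrank F (LinearMap.ker (α + LinearMap.id)) := by
  have := (α + LinearMap.id).finrank_range_add_finrank_ker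
  have := Submodule.finrank_mono (show LinearMap.range (α + LinearMap.id) ≤
    LinearMap.ker (α - LinearMap.id) by rintro _ ⟨x, rfl⟩; simp [h, add_comm])
  omega

theorem ten_bound [FiniteDimensional F U] [FiniteDimensional F W] (h2 : (2 : F) ≠ 0)
    {α : U →ₗ[F] U} {U₁ U₂ : Submodule F U} {W₁ W₂ : Submodule F W} {X : Submodule F (U ⊗[F] W)}
    (e1 : ∀ u ∈ U₁, α u = u) (e2 : ∀ u ∈ U₂, α u = -u) (f1 : ∀ u ∈ U₁, ∀ w ∈ W₁, u ⊗ₜ w ∈ X)
    (f2 : ∀ u ∈ U₂, ∀ w ∈ W₂, u ⊗ₜ w ∈ X) :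
    finrank F U₁ * finrank F W₁ + finrank F U₂ * finrank F W₂ ≤ finrank F X := by
  have k : ∀ {U₁ : Submodule F U} {W₁ : Submodule F W} {c : F}, (∀ u ∈ U₁, α u = c • u) →
      (∀ u ∈ U₁, ∀ w ∈ W₁, u ⊗ₜ w ∈ X) → ∀ s, α.rTensor W (mapIncl U₁ W₁ s) = c • mapIncl U₁ W₁ s ∧
      mapIncl U₁ W₁ s ∈ X := fun e f s => by
    induction s with
    | zero => simp
    | tmul u w => exact ⟨by simp [mapIncl, e u u.2, smul_tmul'], f u u.2 w w.2⟩
    | add x y hx hy => exact ⟨by simp only [map_add, hx.1, hy.1, smul_add], by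
        rw [map_add]; exact add_mem hx.2 hy.2⟩
  have k1 := k (c := 1) (by simpa using e1) f1
  have k2 := k (c := -1) (by simpa using e2) f2
  have d := Submodule.finrank_mono (show LinearMap.range ((mapIncl U₁ W₁).coprod (mapIncl U₂ W₂))
    ≤ X by rintro _ ⟨⟨s, t⟩, rfl⟩; exact add_mem (k1 s).2 (k2 t).2)
  rwa [LinearMap.finrank_range_of_inj ((injective_iff_map_eq_zero _).2 fun ⟨s, t⟩ e => by
    replace e : mapIncl U₁ W₁ s + mapIncl U₂ W₂ t = 0 := e
    have e' := congrArg (α.rTensor W) e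
    rw [map_add, (k1 s).1, (k2 t).1, map_zero] at e'
    have e3 : mapIncl U₁ W₁ s = 0 := smul_right_injective _ h2
      (by linear_combination (norm := module) e + e')
    rw [e3, zero_add] at e
    exact Prod.ext (Module.Flat.tensorProduct_mapIncl_injective_of_right _ _ (by simpa using e3))
      (Module.Flat.tensorProduct_mapIncl_injective_of_right _ _ (by simpa using e))),
    finrank_prod, finrank_tensorProduct, finrank_tensorProduct] at d

/-- The element `1 ⊗ e` for an Eichler transformation `e`. -/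
noncomputable abbrev eR (U : Type*) [AddCommGroup U] [Module F U] (S : QuadraticForm F W)
    (w v : W) : (U ⊗[F] W) ≃ₗ[F] (U ⊗[F] W) :=
  TensorProduct.congr (1 : U ≃ₗ[F] U) (eich S w v).1

/-- The root subgroup of a singular vector. -/
noncomputable def eHom (U : Type*) [AddCommGroup U] [Module F U] {S : QuadraticForm F W} {w : W}
    (hw : S w = 0) : Multiplicative (perp S (F ∙ w)) →* ((U ⊗[F] W) ≃ₗ[F] (U ⊗[F] W)) :=
  MonoidHom.mk' (fun v => eR U S w v.toAdd.1) fun a b => by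
    rw [← TensorProduct.congr_mul, one_mul, ← Subgroup.coe_mul, eich_mul hw
      (mem_perp_singleton.1 a.toAdd.2) (mem_perp_singleton.1 b.toAdd.2)]
    rfl

theorem eR_pow [Finite F] {S : QuadraticForm F W} {w v : W} (hw : S w = 0) (hv : polar S w v = 0) :
    eR U S w v ^ ringChar F = 1 := by
  have := map_pow (eHom U hw) (Multiplicative.ofAdd ⟨v, mem_perp_singleton.2 hv⟩) (ringChar F)
  rw [← ofAdd_nsmul, ← Nat.cast_smul_eq_nsmul F, ringChar.Nat.cast_ringChar, zero_smul, ofAdd_zero,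
    map_one] at this
  exact this.symm

namespace O34

variable {P : QuadraticForm F U} {S : QuadraticForm F W} {Q : QuadraticForm F (U ⊗[F] W)}
  {M : Subgroup ((U ⊗[F] W) ≃ₗ[F] (U ⊗[F] W))} (h : O34 P S Q M)
  [FiniteDimensional F U] [FiniteDimensional F W] [Finite F]
include h

theorem isT_of_cj (hS : OO.Std S M) {w c : W} (hw0 : w ≠ 0) (hw : S w = 0) (c1 : polar S w c = 0)
    (c3 : S c ≠ 0) {g : (U ⊗[F] W) ≃ₗ[F] (U ⊗[F] W)} (hg : g ∈ M) {ν : W → W}
    (hν : ∀ z u, (g * eR U S w c * g⁻¹ : _ ≃ₗ[F] _) (u ⊗ₜ z) = u ⊗ₜ ν z) : IsT g := by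
  have := h.ntU
  obtain ⟨y, hy, -⟩ := h.nW.exists_hyp hw0 hw
  obtain ⟨w₁, e⟩ := std_left (φ := S.polarBilin w) hw0 (y := y) hy (g := g) fun z =>
    ⟨(2 * S c)⁻¹ • (ν z + ν z - ν (ν z) - z), fun u => by
      have e1 : ∀ x, (2 * S c) • cjm g (Dm LinearMap.id (S.polarBilin w) w) x =
          (g * eR U S w c * g⁻¹ : _ ≃ₗ[F] _) x + (g * eR U S w c * g⁻¹ : _ ≃ₗ[F] _) x -
          (g * eR U S w c * g⁻¹ : _ ≃ₗ[F] _) ((g * eR U S w c * g⁻¹ : _ ≃ₗ[F] _) x) - x :=
        fun x => by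
        obtain ⟨x, rfl⟩ := g.surjective x
        simp only [LinearEquiv.mul_apply, LinearEquiv.coe_inv, LinearEquiv.symm_apply_apply,
          cjm_apply, ← map_add g, ← map_sub g, ← map_smul g, OO.eich_W hw c1, Dm_apply]
        congr 1
        simp only [map_add, map_sub, map_smul, smul_zero, cW_tmul, polarBilin_apply_apply, p_self,
          hw, c1, polar_comm _ c w, LinearMap.id_apply, mul_zero, zero_smul, add_zero, sub_zero,
          sub_tmul, ← smul_tmul']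
        module
      rw [tmul_smul, tmul_sub, tmul_sub, tmul_add, ← hν (ν z), ← hν z, ← e1,
        inv_smul_smul₀ (mul_ne_zero h.two c3)]⟩
  exact h.isT_of_stab hS hw0 hw hg e

omit [FiniteDimensional F U] [Finite F] in
theorem of_left {k : (U ⊗[F] W) ≃ₗ[F] (U ⊗[F] W)} (hk : k ∈ M) {α : U →ₗ[F] U}
    (e : ∀ u z, k (u ⊗ₜ z) = α u ⊗ₜ z) [FiniteDimensional F U] :
    ∃ a : OG P, (∀ u, a.1 u = α u) ∧ k = TensorProduct.congr a.1 1 := by
  have := h.ntW
  obtain ⟨z, hz⟩ := exists_ne (0 : W)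
  obtain ⟨z', hz'⟩ := h.nW.exists_polar_one hz
  refine ⟨⟨LinearEquiv.ofInjectiveEndo α fun u u' e' => tmul_left_inj (F := F) hz (k.injective
    (by rw [e, e, e'])), fun u => mul_left_cancel₀ h.two ?_⟩, fun _ => rfl,
    LinearEquiv.toLinearMap_injective (TensorProduct.ext' e)⟩
  have := h.map hk (u ⊗ₜ z) (u ⊗ₜ z')
  rw [e, e, h.pu, h.pu, hz', p_self, p_self, mul_one, mul_one] at this
  exact this

omit [Finite F] in
theorem fix_one {k : (U ⊗[F] W) ≃ₗ[F] (U ⊗[F] W)} (hk : k ∈ M) (ht : IsT k) {b : U} (hb : b ≠ 0)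
    (f : ∀ z, k (b ⊗ₜ z) = b ⊗ₜ z) : ∃ a : OG P, a.1 b = b ∧ k = TensorProduct.congr a.1 1 := by
  have := h.ntW
  obtain ⟨z₀, hz⟩ := exists_ne (0 : W)
  obtain ⟨a, β, e⟩ := ht
  obtain ⟨t, ht⟩ := Submodule.mem_span_singleton.1 (mem_span_of_tmul_eq (F := F)
    (β.map_ne_zero_iff.2 hz) ((e b z₀).symm.trans (f z₀)))
  have k1 : ∀ z, t • β z = z := fun z => tmul_right_inj (F := F) hb (by
    rw [tmul_smul, smul_tmul', ht, ← e, f])
  have t0 : t ≠ 0 := by rintro rfl; exact hz (by simpa using (k1 z₀).symm)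
  obtain ⟨a', e1, e2⟩ := h.of_left hk (α := t⁻¹ • a.toLinearMap) fun u z => by
    rw [e]; conv_rhs => rw [← k1 z]
    simp [smul_tmul', t0]
  exact ⟨a', by simp [e1, ← ht, t0], e2⟩

theorem fix_triv {k : (U ⊗[F] W) ≃ₗ[F] (U ⊗[F] W)} (hk : k ∈ M) (ht : IsT k) {b : U}
    (hb : P b ≠ 0) (f : ∀ z, k (b ⊗ₜ z) = b ⊗ₜ z) {n : ℕ} (e : k ^ ringChar F ^ n = 1) : k = 1 := by
  have := h.ntW
  obtain ⟨z, hz⟩ := exists_ne (0 : W)
  obtain ⟨a, e1, rfl⟩ := h.fix_one hk ht (ne_zero_of_Q_ne_zero hb) f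
  have := unip_three h.two h.nU h.k3 hb a e1 (n := n) (LinearEquiv.ext fun u =>
    tmul_left_inj (F := F) hz (by simpa using LinearEquiv.congr_fun e (u ⊗ₜ z)))
  exact LinearEquiv.toLinearMap_injective (TensorProduct.ext' fun u z => by simp [this])

theorem isT_of_fixR (hS : OO.Std S M) {k : (U ⊗[F] W) ≃ₗ[F] (U ⊗[F] W)} (hk : k ∈ M) {b : U}
    (hb : P b ≠ 0) (f : ∀ z, k (b ⊗ₜ z) = b ⊗ₜ z) : IsT k := by
  have : Finite (U ⊗[F] W) := Module.finite_of_finite F
  have : Finite ((U ⊗[F] W) ≃ₗ[F] (U ⊗[F] W)) := DFunLike.finite _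
  have : Fact (ringChar F).Prime := ⟨CharP.char_is_prime F _⟩
  have := h.ntU
  obtain ⟨w, hw0, hw⟩ := exists_singular S h.l3
  let K : Subgroup ((U ⊗[F] W) ≃ₗ[F] (U ⊗[F] W)) :=
    { carrier := {k | k ∈ M ∧ ∀ z, k (b ⊗ₜ z) = b ⊗ₜ z}
      mul_mem' := fun ha hb => ⟨M.mul_mem ha.1 hb.1, fun z => by simp [ha.2, hb.2]⟩
      one_mem' := ⟨M.one_mem, fun _ => rfl⟩
      inv_mem' := fun ha => ⟨M.inv_mem ha.1, fun z => by
        simp [LinearEquiv.symm_apply_eq, ha.2]⟩ }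
  refine le_of_cent (p := ringChar F) (A := (eHom U hw).range) (K := K) (L := tSub F U W)
    inferInstance ?_ ?_ (Subgroup.le_normalizer_iff.2 ?_) ?_
    (fun k hk ht n e => h.fix_triv hk.1 ht hb hk.2 e) ⟨hk, f⟩
  · rintro ⟨_, v, rfl⟩
    exact ⟨1, Subtype.ext (by
      rw [pow_one]; exact eR_pow (U := U) hw (mem_perp_singleton.1 v.toAdd.2))⟩
  · rintro ⟨⟨_, v₀, rfl⟩, e⟩
    obtain ⟨u, hu⟩ := exists_ne (0 : U)
    obtain ⟨y, hy, -⟩ := h.nW.exists_hyp hw0 hw
    have d1 := h.nW.finrank_perp_singleton hw0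
    have d2 := Submodule.finrank_mono (show perp S (F ∙ w) ≤ (F ∙ w) ⊔ F ∙ v₀.toAdd.1 from
      fun v hv => by
        obtain ⟨n, hn⟩ := e ⟨_, Multiplicative.ofAdd ⟨v, hv⟩, rfl⟩
        replace hn : eHom U hw (v₀ ^ n) = eHom U hw (Multiplicative.ofAdd ⟨v, hv⟩) := by
          rw [map_zpow]; exact congrArg Subtype.val hn
        have : (eich S w (v₀ ^ n).toAdd.1).1 y = (eich S w v).1 y :=
          tmul_right_inj (F := F) hu (LinearEquiv.congr_fun hn (u ⊗ₜ y))
        rw [eich_apply hw (mem_perp_singleton.1 (v₀ ^ n).toAdd.2),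
          eich_apply hw (mem_perp_singleton.1 hv), hy, one_smul, one_smul, toAdd_zpow,
          Submodule.coe_smul_of_tower] at this
        generalize polar S v y - S v * 1 = c at this
        generalize polar S (n • v₀.toAdd.1) y - S (n • v₀.toAdd.1) * 1 = c' at this
        rw [show v = (c - c') • w + n • v₀.toAdd.1 by linear_combination (norm := module) this]
        exact Submodule.add_mem_sup (Submodule.smul_mem _ _ (Submodule.mem_span_singleton_self _))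
          (zsmul_mem (Submodule.mem_span_singleton_self _) _))
    have d3 := Submodule.finrank_add_le_finrank_add_finrank (F ∙ w) (F ∙ v₀.toAdd.1)
    have d4 := finrank_span_one_le (F := F) w
    have d5 := finrank_span_one_le (F := F) v₀.toAdd.1
    have := h.l4
    omega
  · rintro _ ⟨v, rfl⟩ k hk
    refine ⟨M.mul_mem (M.mul_mem (h.eW _ _) hk.1) (M.inv_mem (h.eW _ _)), fun z => ?_⟩
    obtain ⟨z, rfl⟩ := (eich S w v.toAdd.1).1.surjective z
    change eR U S w _ (k ((eR U S w _).symm (eR U S w _ (b ⊗ₜ z)))) = eR U S w _ (b ⊗ₜ z)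
    rw [LinearEquiv.symm_apply_apply, hk.2]
  · rintro _ ⟨v, rfl⟩ hv k ⟨hk, e⟩
    have hv' := mem_perp_singleton.1 v.toAdd.2
    refine h.isT_of_cj hS hw0 hw hv' (h.ns hw0 hw hv' fun e => hv ?_) hk.1
      (ν := (eich S w v.toAdd.1).1) fun z u => ?_
    · obtain ⟨t, ht⟩ := Submodule.mem_span_singleton.1 e
      change eR U S w _ = 1
      rw [eR, ← ht, eich_smul_self hw]
      exact TensorProduct.congr_refl_refl
    · rw [show k * eR U S w v.toAdd.1 = eR U S w v.toAdd.1 * k from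
        Subgroup.mem_centralizer_singleton_iff.1 e, mul_inv_cancel_right]
      rfl

theorem isT_of_R (hS : OO.Std S M) {x : (U ⊗[F] W) ≃ₗ[F] (U ⊗[F] W)} (hx : x ∈ M) {b c : U}
    (hb : P b ≠ 0) (hc : P c ≠ 0) (e : ∀ z, x (c ⊗ₜ z) ∈ RW F W b) : IsT x := by
  have h2 := h.two
  obtain ⟨ψ, hψ⟩ := exists_dual_one (F := F) (ne_zero_of_Q_ne_zero hb)
  let σ : W →ₗ[F] W := cU W ψ ∘ₗ x.toLinearMap ∘ₗ TensorProduct.mk F U W c
  have hσ : ∀ z, x (c ⊗ₜ z) = b ⊗ₜ σ z := fun z => by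
    obtain ⟨z', e'⟩ := e z
    simp [σ, ← e', hψ]
  have ps : ∀ z z', polar S (σ z) (σ z') = P c / P b * polar S z z' := fun z z' => by
    have := h.map hx (c ⊗ₜ z) (c ⊗ₜ z')
    rw [hσ, hσ, h.pu, h.pu, p_self, p_self] at this
    field_simp
    exact mul_left_cancel₀ h2 (by linear_combination this)
  have qs : ∀ z, S (σ z) = P c / P b * S z := fun z => mul_left_cancel₀ h2 (by
    rw [← p_self, ps, p_self]; ring)
  have si : Function.Injective σ := fun z z' e => tmul_right_inj (F := F)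
    (ne_zero_of_Q_ne_zero hc) (x.injective (by rw [hσ, hσ, e]))
  obtain ⟨w, hw0, hw⟩ := exists_singular S h.l3
  obtain ⟨y, hy, hy0⟩ := h.nW.exists_hyp hw0 hw
  obtain ⟨v, v1, -, v0⟩ := exists_ns_hyp h.nW h.l3 hw hy0 hy
  have hw' : S (σ w) = 0 := by rw [qs, hw, mul_zero]
  have v1' : polar S (σ w) ((P b / P c) • σ v) = 0 := by simp [ps, v1]
  have hk := M.mul_mem (M.inv_mem (h.eW (σ w) ((P b / P c) • σ v)))
    (M.mul_mem (M.mul_mem hx (h.eW w v)) (M.inv_mem hx))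
  have f : ∀ z, ((eR U S (σ w) ((P b / P c) • σ v))⁻¹ * (x * eR U S w v * x⁻¹)) (b ⊗ₜ z) =
      b ⊗ₜ z := fun z => by
    obtain ⟨z, rfl⟩ := LinearMap.injective_iff_surjective.1 si z
    rw [LinearEquiv.mul_apply, LinearEquiv.coe_inv, LinearEquiv.symm_apply_eq, congr_tmul, ← hσ,
      LinearEquiv.mul_apply, LinearEquiv.mul_apply, LinearEquiv.coe_inv,
      LinearEquiv.symm_apply_apply, congr_tmul, LinearEquiv.coe_one, id, hσ]
    simp only [id, eich_apply hw v1, eich_apply hw' v1', map_add, map_sub, map_smul,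
      p_smul_left, q_smul, ps, qs]
    refine congrArg (fun z : W => b ⊗ₜ[F] z) ?_
    match_scalars <;> field_simp
  have hT := h.isT_of_fixR hS hk hb f
  have k1 := h.fix_triv hk hT hb f (n := 1) (by
    obtain ⟨a, -, ha⟩ := h.fix_one hk hT (ne_zero_of_Q_ne_zero hb) f
    have e1 := eq_mul_of_inv_mul_eq ha
    have e2 : Commute (eR U S (σ w) ((P b / P c) • σ v)) (TensorProduct.congr a.1 1) := by
      simp [Commute, SemiconjBy, ← TensorProduct.congr_mul]
    have e3 := congrArg (· ^ ringChar F) e1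
    simp only [conj_pow, e2.mul_pow, eR_pow hw v1, eR_pow hw' v1', mul_one, mul_inv_cancel,
      one_mul] at e3
    rw [ha, pow_one, ← e3])
  exact h.isT_of_cj hS hw0 hw v1 v0 hx fun z u => by rw [← eq_of_inv_mul_eq_one k1]; rfl

theorem uu_of_left {g : (U ⊗[F] W) ≃ₗ[F] (U ⊗[F] W)} (hg : g ∈ M) {α : U →ₗ[F] U}
    (e : ∀ u z, g (u ⊗ₜ z) = α u ⊗ₜ z) (h1 : ∀ u, α (α u) = u)
    (h2 : finrank F (LinearMap.ker (α - LinearMap.id)) = 1) : ∃ b, P b ≠ 0 ∧ g = uu W P b := by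
  obtain ⟨a, ha, rfl⟩ := h.of_left hg e
  obtain ⟨⟨b, hb⟩, b0, b1⟩ := finrank_eq_one_iff'.1 h2
  replace hb : a.1 b = b := by simpa [ha, sub_eq_zero] using hb
  have k : ∀ x, ∃ t : F, t • b = a.1 x + x := fun x => by
    obtain ⟨t, ht⟩ := b1 ⟨a.1 x + x, by simp [ha, h1, add_comm]⟩
    exact ⟨t, congrArg Subtype.val ht⟩
  have k' : ∀ x, ∃ t : F, t • b = a.1 x + x ∧ t * P b = polar P b x := fun x => by
    obtain ⟨t, ht⟩ := k x
    refine ⟨t, ht, mul_left_cancel₀ h.two ?_⟩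
    have := congrArg (polar P b) ht
    rw [p_smul_right, p_self, polar_add_right, ← hb, OG.map_polar, hb] at this
    linear_combination this
  have hb0 : P b ≠ 0 := fun e => b0 (Subtype.ext (h.nU b fun x => by
    obtain ⟨t, -, ht⟩ := k' x
    rw [← ht, e, mul_zero]))
  refine ⟨b, hb0, LinearEquiv.toLinearMap_injective (TensorProduct.ext' fun u z => ?_)⟩
  obtain ⟨t, e1, e2⟩ := k' u
  simp only [LinearEquiv.coe_coe, congr_tmul, uu_tmul, refl_apply, ← e2, LinearEquiv.coe_one, id]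
  rw [eq_sub_of_add_eq e1.symm, mul_comm t, inv_mul_cancel_left₀ hb0, neg_sub]

theorem conj_uu {g : (U ⊗[F] W) ≃ₗ[F] (U ⊗[F] W)} (hg : g ∈ M) {c : U} (hc : P c ≠ 0)
    (ht : IsT (g * uu W P c * g⁻¹)) : ∃ b, P b ≠ 0 ∧ g * uu W P c * g⁻¹ = uu W P b := by
  have h2 := h.two
  have := h.ntU
  have := h.ntW
  have hy := M.mul_mem (M.mul_mem hg (h.uu_mem hc)) (M.inv_mem hg)
  have yy : ∀ x, (g * uu W P c * g⁻¹) ((g * uu W P c * g⁻¹) x) = x := fun x => by
    simpa using congrArg g (LinearEquiv.congr_fun (uu_mul_self (P := P) (c := c)) (g.symm x))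
  have d1 : finrank F (LinearMap.ker ((g * uu W P c * g⁻¹).toLinearMap - LinearMap.id)) = 4 := by
    rw [show LinearMap.ker ((g * uu W P c * g⁻¹).toLinearMap - LinearMap.id) = im (RW F W c) g from
      Submodule.ext fun x => by
        rw [mem_im, ← uu_fix h2 hc, LinearEquiv.eq_symm_apply]
        simp [sub_eq_zero], finrank_im, finrank_RW (ne_zero_of_Q_ne_zero hc), h.l4]
  generalize g * uu W P c * g⁻¹ = y at ht hy yy d1
  have d2 : finrank F (LinearMap.ker (y.toLinearMap + LinearMap.id)) ≤ 8 := by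
    have e1 := Submodule.finrank_sup_add_finrank_inf_eq (LinearMap.ker (y.toLinearMap -
      LinearMap.id)) (LinearMap.ker (y.toLinearMap + LinearMap.id))
    have e2 := Submodule.finrank_le (LinearMap.ker (y.toLinearMap -
      LinearMap.id) ⊔ LinearMap.ker (y.toLinearMap + LinearMap.id))
    rw [finrank_tensorProduct, h.k3, h.l4] at e2
    rw [show LinearMap.ker (y.toLinearMap - LinearMap.id) ⊓
      LinearMap.ker (y.toLinearMap + LinearMap.id) = ⊥ from eq_bot_iff.2 fun x ⟨f1, f2⟩ =>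
        smul_right_injective _ h2 (by
          simp only [SetLike.mem_coe, LinearMap.mem_ker, LinearMap.sub_apply, LinearMap.add_apply,
            LinearMap.id_apply] at f1 f2
          linear_combination (norm := module) f2 - f1), finrank_bot] at e1
    omega
  obtain ⟨α, β, e, a2, b2⟩ : ∃ (α : U →ₗ[F] U) (β : W →ₗ[F] W), (∀ u z, y (u ⊗ₜ z) = α u ⊗ₜ β z) ∧
      (∀ u, α (α u) = u) ∧ ∀ z, β (β z) = z := by
    obtain ⟨a, b, e⟩ := ht
    obtain ⟨u₀, hu⟩ := exists_ne (0 : U)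
    obtain ⟨z₀, hz⟩ := exists_ne (0 : W)
    have k : ∀ u z, a (a u) ⊗ₜ[F] b (b z) = u ⊗ₜ z := fun u z => by rw [← e, ← e, yy]
    obtain ⟨t, ht⟩ := Submodule.mem_span_singleton.1 (mem_span_of_tmul_eq' hu (k u₀ z₀).symm)
    have t0 : t ≠ 0 := by rintro rfl; exact hz (by simpa using ht.symm)
    have k1 : ∀ u, a (a u) = t • u := fun u => tmul_left_inj (F := F)
      (b.map_ne_zero_iff.2 (b.map_ne_zero_iff.2 hz)) (by rw [k, ← smul_tmul', ← tmul_smul, ht])
    have k2 : ∀ z, t • b (b z) = z := fun z => tmul_right_inj (F := F) hu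
      (by rw [tmul_smul, smul_tmul', ← k1, k])
    have k3 := congrArg LinearMap.det (show a.toLinearMap ∘ₗ a.toLinearMap = t • LinearMap.id from
      LinearMap.ext k1)
    rw [LinearMap.det_comp, LinearMap.det_smul, h.k3, LinearMap.det_id, mul_one] at k3
    obtain ⟨s, hs⟩ : ∃ s, s * s = t := ⟨LinearMap.det a.toLinearMap / t, by
      field_simp; linear_combination k3⟩
    have s0 : s ≠ 0 := by rintro rfl; exact t0 (by simpa using hs.symm)
    refine ⟨s⁻¹ • a.toLinearMap, s • b.toLinearMap, fun u z => ?_, fun u => ?_, fun z => ?_⟩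
    · simp [e, smul_tmul', s0]
    · simp [k1, ← hs, smul_smul, s0]
    · simpa [smul_smul, hs] using k2 z
  have p1 : ∀ u ∈ LinearMap.ker (α - LinearMap.id), α u = u := fun u hu => by
    simpa [sub_eq_zero] using hu
  have p2 : ∀ u ∈ LinearMap.ker (α + LinearMap.id), α u = -u := fun u hu => by
    simpa [add_eq_zero_iff_eq_neg] using hu
  have q1 : ∀ u ∈ LinearMap.ker (β - LinearMap.id), β u = u := fun u hu => by
    simpa [sub_eq_zero] using hu
  have q2 : ∀ u ∈ LinearMap.ker (β + LinearMap.id), β u = -u := fun u hu => by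
    simpa [add_eq_zero_iff_eq_neg] using hu
  have r1 := ten_bound h2 p1 p2 (X := LinearMap.ker (y.toLinearMap - LinearMap.id))
    (W₁ := LinearMap.ker (β - LinearMap.id)) (W₂ := LinearMap.ker (β + LinearMap.id))
    (fun u hu z hz => by simp [e, p1 u hu, q1 z hz])
    (fun u hu z hz => by simp [e, p2 u hu, q2 z hz, neg_tmul, tmul_neg])
  have r2 := ten_bound h2 p1 p2 (X := LinearMap.ker (y.toLinearMap + LinearMap.id))
    (W₁ := LinearMap.ker (β + LinearMap.id)) (W₂ := LinearMap.ker (β - LinearMap.id))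
    (fun u hu z hz => by simp [e, p1 u hu, q2 z hz, tmul_neg])
    (fun u hu z hz => by simp [e, p2 u hu, q1 z hz, neg_tmul])
  have r3 := finrank_le_eig a2
  have r4 := finrank_le_eig b2
  have r5 := Submodule.finrank_le (LinearMap.ker (α - LinearMap.id))
  have r6 := Submodule.finrank_le (LinearMap.ker (α + LinearMap.id))
  have r7 := Submodule.finrank_le (LinearMap.ker (β - LinearMap.id))
  have r8 := Submodule.finrank_le (LinearMap.ker (β + LinearMap.id))
  rw [h.k3] at r3 r5 r6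
  rw [h.l4] at r4 r7 r8
  rw [d1] at r1
  have : (finrank F (LinearMap.ker (α - LinearMap.id)) = 1 ∧
      finrank F (LinearMap.ker (β - LinearMap.id)) = 4) ∨
      (finrank F (LinearMap.ker (α + LinearMap.id)) = 1 ∧
      finrank F (LinearMap.ker (β + LinearMap.id)) = 4) := by
    replace r2 := r2.trans d2
    generalize finrank F (LinearMap.ker (α - LinearMap.id)) = a at *
    generalize finrank F (LinearMap.ker (α + LinearMap.id)) = a' at *
    interval_cases a <;> interval_cases a' <;> omega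
  rcases this with ⟨e1, e2⟩ | ⟨e1, e2⟩
  · have := Submodule.eq_top_of_finrank_eq (e2.trans h.l4.symm)
    exact h.uu_of_left hy (fun u z => by rw [e, q1 z (this ▸ trivial)]) a2 e1
  · have := Submodule.eq_top_of_finrank_eq (e2.trans h.l4.symm)
    refine h.uu_of_left hy (α := -α) (fun u z => by
      rw [e, q2 z (this ▸ trivial), tmul_neg, ← neg_tmul]; rfl) (by simp [a2]) ?_
    rw [← e1, ← neg_add', LinearMap.ker_neg]

theorem isT_of_uu (hS : OO.Std S M) {g : (U ⊗[F] W) ≃ₗ[F] (U ⊗[F] W)} (hg : g ∈ M) {c : U}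
    (hc : P c ≠ 0) (ht : IsT (g * uu W P c * g⁻¹)) : IsT g := by
  obtain ⟨b, hb, e⟩ := h.conj_uu hg hc ht
  refine h.isT_of_R hS hg hb hc fun z => (uu_fix h.two hb).1 ?_
  rw [← e]
  simp [(uu_fix h.two hc).2 (tmul_mem_RW c z)]

theorem uu_mul (hS : OO.Std S M) {x z : (U ⊗[F] W) ≃ₗ[F] (U ⊗[F] W)} (hx : x ∈ M) (hz : z ∈ M)
    {c c' : U} (hc : P c ≠ 0) (hc' : P c' ≠ 0) (z1 : z ≠ 1) (z2 : z * uu W P c = uu W P c * z)
    (e : x * uu W P c' * x⁻¹ = z * uu W P c) : ∃ d, P d ≠ 0 ∧ z = uu W P d := by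
  have h2 := h.two
  have := h.ntW
  obtain ⟨w, hw⟩ := exists_ne (0 : W)
  have hT := h.isT_of_uu hS hz hc (by rw [z2, mul_inv_cancel_right]; exact isT_congr _ _)
  obtain ⟨b, hb, e'⟩ := h.conj_uu hx hc' (e ▸ (tSub F U W).mul_mem hT (isT_congr _ _))
  have e1 : z = uu W P b * uu W P c := by rw [← e', e, mul_assoc, uu_mul_self, mul_one]
  have bc : polar P b c = 0 := by_contra fun bc => z1 (by
    have := LinearEquiv.congr_fun z2 (c ⊗ₜ w)
    rw [LinearEquiv.mul_apply, LinearEquiv.mul_apply, (uu_fix h2 hc).2 (tmul_mem_RW c w), eq_comm,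
      uu_fix h2 hc, e1, LinearEquiv.mul_apply, (uu_fix h2 hc).2 (tmul_mem_RW c w), uu_tmul] at this
    obtain ⟨w', this⟩ := this
    obtain ⟨t, ht⟩ := Submodule.mem_span_singleton.1 (mem_span_of_tmul_eq hw this.symm)
    rw [refl_apply, neg_sub, eq_sub_iff_add_eq] at ht
    replace ht : (t + 1) • c = ((P b)⁻¹ * polar P b c) • b := by rw [add_smul, one_smul, ht]
    have t1 : t + 1 ≠ 0 := fun e => by
      rw [e, zero_smul] at ht
      simpa [hb, bc, ne_zero_of_Q_ne_zero hb] using ht.symm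
    rw [e1, uu, uu, ← refl_smul (mul_ne_zero (inv_ne_zero hb) bc) b, ← ht, refl_smul t1]
    exact uu_mul_self)
  obtain ⟨d, bd, cd, hd⟩ := exists_third h2 h.nU h.k3 hb hc bc
  refine ⟨d, hd, ?_⟩
  rw [e1, uu, uu, uu, ← refl_three h2 h.k3 hb hc hd bc bd cd, ← TensorProduct.congr_mul, mul_one]
  congr 1
  exact LinearEquiv.ext fun u => by simp

theorem isT_of_std (hS : OO.Std S M) {g : (U ⊗[F] W) ≃ₗ[F] (U ⊗[F] W)} (hg : g ∈ M) : IsT g := by
  have h2 := h.two
  have : Finite (U ⊗[F] W) := Module.finite_of_finite F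
  have : Finite ((U ⊗[F] W) ≃ₗ[F] (U ⊗[F] W)) := DFunLike.finite _
  have := h.ntW
  obtain ⟨w, hw⟩ := exists_ne (0 : W)
  obtain ⟨δ, hδ⟩ := FiniteField.exists_nonsquare (F := F) (ringChar_ne_two h2)
  obtain ⟨c, hc⟩ := h.nU.exists_Q_eq (by have := h.k3; omega) 1
  obtain ⟨c', hc'⟩ := h.nU.exists_Q_eq (by have := h.k3; omega) δ
  have c0 : P c ≠ 0 := hc ▸ one_ne_zero
  have c0' : P c' ≠ 0 := by rintro e; exact hδ ⟨0, by rw [← hc', e, mul_zero]⟩
  rcases dih (h.uu_mem c0') (M.mul_mem (M.mul_mem hg (h.uu_mem c0)) (M.inv_mem hg)) uu_mul_self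
    (by rw [← pow_two, conj_pow, pow_two, uu_mul_self, mul_one, mul_inv_cancel]) with
    ⟨x, hx, e⟩ | ⟨z, hz, z1, z2, z3, x, hx, e | e⟩
  · exfalso
    have hm := M.mul_mem (M.inv_mem hg) hx
    have e' : g⁻¹ * x * uu W P c' * (g⁻¹ * x)⁻¹ = uu W P c := by
      rw [mul_inv_rev, inv_inv, mul_assoc g⁻¹, mul_assoc g⁻¹, ← mul_assoc _ x⁻¹, e]; group
    obtain ⟨a, b, f⟩ := h.isT_of_uu hS hm c0' (e' ▸ isT_congr _ _)
    obtain ⟨w', hw'⟩ := h.nW.exists_polar_one hw
    obtain ⟨μ, -, m1, -⟩ := sim_of_tb h.tb ⟨c, c, by simpa [h2] using c0⟩ ⟨w, w', by simp [hw']⟩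
      (h.sg hm) f
    have m2 : ∀ u, P (a u) = μ * P u := fun u => mul_left_cancel₀ h2 (by
      have := m1 u u
      simp only [polarBilin_apply_apply, p_self] at this
      linear_combination this)
    obtain ⟨s, rfl⟩ := sim_three h.nU h.k3 m2
    obtain ⟨w', f'⟩ : (g⁻¹ * x) (c' ⊗ₜ w) ∈ RW F W c := (uu_fix h2 c0).1 (by
      rw [← e']; simp [(uu_fix h2 c0').2 (tmul_mem_RW c' w)])
    obtain ⟨t, ht⟩ := Submodule.mem_span_singleton.1 (mem_span_of_tmul_eq
      (b.map_ne_zero_iff.2 hw) ((f c' w).symm.trans f'.symm))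
    have := m2 c'
    rw [← ht, q_smul, hc, hc'] at this
    have s0 : s ≠ 0 := by
      rintro rfl
      have t0 : t = 0 := by simpa using this
      exact ne_zero_of_Q_ne_zero c0' (a.map_eq_zero_iff.1 (by rw [← ht, t0, zero_smul]))
    exact hδ ⟨t / s, by field_simp; linear_combination -this⟩
  · obtain ⟨d, hd, rfl⟩ := h.uu_mul hS hx hz c0' c0' z1 z2 e
    exact h.isT_of_uu hS hg c0 (h.isT_of_uu hS (M.mul_mem (M.mul_mem hg (h.uu_mem c0))
      (M.inv_mem hg)) hd (by rw [← z3, mul_inv_cancel_right]; exact isT_congr _ _))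
  · obtain ⟨d, hd, e'⟩ := h.uu_mul hS (M.mul_mem (M.inv_mem hg) hx)
      (M.mul_mem (M.mul_mem (M.inv_mem hg) hz) hg) c0 c0' (fun e => z1 (by
        rw [← mul_inv_cancel_left g z, ← mul_inv_cancel_right (g⁻¹ * z) g, e]; group))
      (by rw [← mul_left_cancel_iff (a := g), ← mul_right_cancel_iff (a := g⁻¹)]
          convert z3 using 1 <;> group)
      (by rw [mul_inv_rev, inv_inv, mul_assoc g⁻¹, mul_assoc g⁻¹, ← mul_assoc _ x⁻¹, e]; group)
    refine h.isT_of_uu hS hg hd ?_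
    rw [← e', show g * (g⁻¹ * z * g) * g⁻¹ = z by group]
    exact h.isT_of_uu hS hz c0' (by rw [z2, mul_inv_cancel_right]; exact isT_congr _ _)

end O34

open Geo in
theorem max_om_34 [Fintype F] (hodd : Odd (Fintype.card F)) (hq : 4 ≤ Fintype.card F) {ι : Type}
    [Fintype ι] [DecidableEq ι] {Q : QuadraticForm F (ι → F)} {e : ι ≃ Fin 3 × Fin 4} {P : GL ι F}
    {f₁ : (Fin 3 → F) → (Fin 3 → F) → F} {f₂ : (Fin 4 → F) → (Fin 4 → F) → F}
    (hf₁ : IsSymmetricForm f₁) (hf₂ : IsSymmetricForm f₂)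
    (h4 : ¬ IsPlusTypeOn (fun v => f₂ v v) ⊤) (hT : IsTensorFormStructure id (polar Q) f₁ f₂ e P) :
    IsMaximalIn (omegaGL ⇑Q) (tensorProductSubgroup 3 4 e P ⊓ omegaGL ⇑Q) := by
  have h2 := two_ne_zero_of_odd hodd
  obtain ⟨c, hc, hT⟩ := tensor_form hT (bilOf hf₁.bilinear) (fun _ _ => rfl) (bilOf hf₂.bilinear)
    fun _ _ => rfl
  obtain ⟨R, r1, r2⟩ := exists_quad h2 hf₁ hc
  obtain ⟨S, s1, s2⟩ := exists_quad h2 hf₂ one_ne_zero
  have hS : ∀ M, (∀ g ∈ OM (Q.comp (tenE e P).symm.toLinearMap), IsT g → g ∈ M) →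
      M ≤ OM (Q.comp (tenE e P).symm.toLinearMap) → O34 R S _ M := fun M a b =>
    ⟨⟨one_mul 1, fun x y => by simp [polar_comm _ x], fun x y => by simp [polar_comm _ x],
      r1.nondeg, s1.nondeg, fun u w u' w' => by
        simp only [polarBilin_apply_apply, r2, s2, one_mul]
        simpa [polar, mul_assoc, bilOf_apply] using hT u w u' w',
      fun g hg _ x => mul_left_cancel₀ h2 (by simpa using hg x x), by simp, by simp, a, b⟩,
      h2, by simp, by simp, fun ⟨T, t1, t2⟩ => h4 ⟨T, le_top, fun x hx => by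
        simpa [t1 x hx] using (s2 x x).symm, by simpa using t2⟩, by simpa⟩
  refine isMaximalIn_Om' (tenE e P) IsT (mem_tensor_iff e P) ?_ fun M a b ⟨g, hg, hn⟩ =>
    (hS M a b).le_of_not_std fun k => hn ((hS M a b).isT_of_std k hg)
  have h := hS _ (fun g hg _ => hg) le_rfl
  have := h.ntW
  obtain ⟨u, hu, hu0⟩ := exists_singular R h.k3.ge
  obtain ⟨w, hw⟩ := exists_ne (0 : Fin 4 → F)
  obtain ⟨v, -, hv⟩ := exists_ker_not_mem h.l3 0 w
  exact not_isT_eich h.toTO hu hw hv (by simp [h.qq, hu0]) (by simp [h.qq, hu0]) (by simp [hu0])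

end Cfsg.Agent.Max
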