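import Mathlib
import Cfsg.Agent.Max2.TenF
import Cfsg.Agent.Max2.TenSL
import Cfsg.Agent.Max2.Quad
import Cfsg.Agent.Max.Frame
import Cfsg.Agent.Max.Sp3

/-!
# Groups containing `1 ⊗ SL(W)`: conjugates of the tensor factor are equal or commute
-/

set_option autoImplicit false

namespace Cfsg.Agent.Max

open Module Cfsg.Agent.Max2 TensorProduct

variable {F U W V : Type*} [Field F] [AddCommGroup U] [Module F U] [AddCommGroup W] [Module F W]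
  [AddCommGroup V] [Module F V]

open Polynomial in
theorem even_of_quad [FiniteDimensional F V] {c : V →ₗ[F] V} {T N : F}
    (h : ∀ u, c (c u) = T • c u + N • u) (hx : ∀ x : F, x ^ 2 ≠ T * x + N) :
    Even (finrank F V) := by
  classical
  let A := LinearMap.toMatrix (finBasis F V) (finBasis F V) c
  have hA : A * A = T • A + N • 1 := by
    rw [← LinearMap.toMatrix_mul, show c * c = T • c + N • 1 from LinearMap.ext h]
    simp [A]
  let f : F[X] := X ^ 2 - C T * X - C N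
  have hm : f.Monic := by unfold f; monicity!
  have hd : f.natDegree = 2 := by unfold f; compute_degree!
  have hi : Irreducible f := (hm.irreducible_iff_roots_eq_zero_of_degree_le_three hd.ge
    (by omega)).2 (Multiset.eq_zero_of_forall_notMem fun x e => hx x (by
      have := (mem_roots hm.ne_zero).1 e
      simp [f] at this
      linear_combination this))
  have e : A.charmatrix * (Matrix.scalar _ (X - C T) + A.map C) = Matrix.scalar _ f := by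
    have h1 : A.map C * A.map C = Matrix.scalar _ (C T) * A.map C + Matrix.scalar _ (C N) := by
      rw [← Matrix.map_mul (f := (C : F →+* F[X])), hA]
      ext i j
      by_cases e : i = j <;> simp [Matrix.one_apply, e, Matrix.diagonal_apply]
    have h2 : A.map C * Matrix.scalar _ (X - C T) = Matrix.scalar _ (X - C T) * A.map C :=
      (Matrix.scalar_commute _ (fun _ => Commute.all _ _) _).eq.symm
    rw [Matrix.charmatrix, RingHom.mapMatrix_apply, sub_mul, mul_add, mul_add, h1, h2, ← map_mul]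
    simp only [f, map_sub, sub_mul, mul_sub, map_mul, pow_two, mul_comm X (C T)]
    abel
  have e2 := congrArg Matrix.det e
  rw [Matrix.det_mul, Matrix.scalar_apply f, Matrix.det_diagonal, Finset.prod_const] at e2
  obtain ⟨i, -, hi⟩ := (dvd_prime_pow hi.prime _).1 ⟨_, e2.symm⟩
  have := natDegree_eq_of_degree_eq (degree_eq_degree_of_associated hi)
  rw [← Matrix.charpoly, Matrix.charpoly_natDegree_eq_dim, natDegree_pow, hd,
    Fintype.card_fin] at this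
  exact ⟨i, by omega⟩

theorem exists_step {ν : V →ₗ[F] V} {Y S : Submodule F V} (hY : ∀ y ∈ Y, ν y ∈ Y) (n : ℕ) :
    ∀ y ∈ Y, y ∉ S → (ν ^ n) y ∈ S → ∃ y ∈ Y, y ∉ S ∧ ν y ∈ S := by
  induction n with
  | zero => intro y _ h1 h2; exact (h1 h2).elim
  | succ n ih =>
    intro y hy h1 h2
    by_cases h : ν y ∈ S
    · exact ⟨y, hy, h1, h⟩
    · exact ih _ (hY y hy) h (by rwa [pow_succ] at h2)

theorem pow_sub_one_eq_zero [Finite F] [Nontrivial V] {g : V ≃ₗ[F] V} {n : ℕ}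
    (e : g ^ ringChar F ^ n = 1) : (g.toLinearMap - 1) ^ ringChar F ^ n = 0 := by
  have : Fact (ringChar F).Prime := ⟨CharP.char_is_prime F _⟩
  have : CharP (Module.End F V) (ringChar F) :=
    charP_of_injective_algebraMap (algebraMap F (Module.End F V)).injective _
  let ρ : (V ≃ₗ[F] V) →* Module.End F V := LinearEquiv.automorphismGroup.toLinearMapMonoidHom
  change (ρ g - 1) ^ _ = 0
  rw [sub_pow_char_pow_of_commute _ _ (Commute.one_right _), ← map_pow, e, map_one, one_pow,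
    sub_self]

/-- Root elements of the right factor. -/
noncomputable abbrev Nr (U : Type*) [AddCommGroup U] [Module F U] (φ : Dual F W) (w : W) :
    U ⊗[F] W →ₗ[F] U ⊗[F] W := Dm LinearMap.id φ w

theorem Nr_apply (φ : Dual F W) (w : W) (x : U ⊗[F] W) : Nr U φ w x = cW U φ x ⊗ₜ w := rfl

theorem Nr_surj {φ : Dual F W} (h : φ ≠ 0) (w : W) (u : U) : ∃ x, Nr U φ w x = u ⊗ₜ w :=
  let ⟨y, hy⟩ := exists_apply_one h
  ⟨u ⊗ₜ y, by simp [Nr_apply, hy]⟩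

/-- Maps of the form `γ ⊗ 1`. -/
def Lt (θ : U ⊗[F] W →ₗ[F] U ⊗[F] W) : Prop := ∃ γ : U →ₗ[F] U, ∀ u w, θ (u ⊗ₜ w) = γ u ⊗ₜ w

theorem Lt.cW {θ : U ⊗[F] W →ₗ[F] U ⊗[F] W} {γ : U →ₗ[F] U} (h : ∀ u w, θ (u ⊗ₜ w) = γ u ⊗ₜ w)
    (φ : Dual F W) (x : U ⊗[F] W) : cW U φ (θ x) = γ (cW U φ x) := by
  induction x with
  | zero => simp
  | tmul u w => simp [h]
  | add x y hx hy => simp only [map_add, hx, hy]

theorem Lt.comm {θ : U ⊗[F] W →ₗ[F] U ⊗[F] W} (h : Lt θ) (φ : Dual F W) (w : W) (x : U ⊗[F] W) :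
    θ (Nr U φ w x) = Nr U φ w (θ x) := by
  obtain ⟨γ, h⟩ := h
  rw [Nr_apply, Nr_apply, h, Lt.cW h]

theorem mem_of_comm {θ : U ⊗[F] W →ₗ[F] U ⊗[F] W} {φ : Dual F W} (h0 : φ ≠ 0) {w : W}
    (h : ∀ x, θ (Nr U φ w x) = Nr U φ w (θ x)) (u : U) : θ (u ⊗ₜ w) ∈ LW F U w := by
  obtain ⟨x, hx⟩ := Nr_surj h0 w u
  rw [← hx, h]; exact Dm_mem _ _ _ _

theorem mem_span_of_LW {u : U} (hu : u ≠ 0) {w w' : W} (h : u ⊗ₜ w ∈ LW F U w') : w ∈ F ∙ w' :=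
  let ⟨_, e⟩ := h
  mem_span_of_tmul_eq' hu e.symm

variable [FiniteDimensional F W]

theorem lt_of_comm (hm : 3 ≤ finrank F W) {θ : U ⊗[F] W →ₗ[F] U ⊗[F] W}
    (h : ∀ φ w, φ w = 0 → ∀ x, θ (Nr U φ w x) = Nr U φ w (θ x)) : Lt θ := by
  have : Nontrivial W := Module.nontrivial_of_finrank_pos (R := F) (by omega)
  obtain ⟨w₀, hw⟩ := exists_ne (0 : W)
  obtain ⟨χ, hχ⟩ := exists_dual_one (F := F) hw
  obtain ⟨φ, h0, h1, -⟩ := exists_dual_pair hm w₀ w₀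
  have e := fun u => eq_of_mem_LW hχ (mem_of_comm h0 (h φ w₀ h1) u)
  refine ⟨cW U χ ∘ₗ θ ∘ₗ inW F U w₀, fun u w => ?_⟩
  by_cases hw' : w₀ ∈ F ∙ w
  · obtain ⟨c, rfl⟩ := Submodule.mem_span_singleton.1 hw'
    have c0 : c ≠ 0 := by rintro rfl; simp at hw
    refine smul_right_injective _ c0 ?_
    simp only [← tmul_smul, ← map_smul]
    exact (e u).symm
  by_cases w0 : w = 0
  · simp [w0]
  obtain ⟨ψ, e1, e2⟩ := exists_dual_two hw'
  have := h ψ w e1 (u ⊗ₜ w₀)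
  rw [← e u] at this
  simpa [Nr_apply, e2] using this

variable [FiniteDimensional F U]

theorem isT_cases (hm : 3 ≤ finrank F W) {t : (U ⊗[F] W) ≃ₗ[F] (U ⊗[F] W)} (ht : IsT t)
    {X : Submodule F (U ⊗[F] W)} (hX : finrank F X ≤ finrank F U) (e : ∀ x, t x - x ∈ X) :
    (∃ γ : U →ₗ[F] U, ∀ u w, t (u ⊗ₜ w) = γ u ⊗ₜ w) ∨ ∃ w, w ≠ 0 ∧ X = LW F U w := by
  obtain ⟨a, b, h⟩ := ht
  by_cases hb : ∃ c : F, (b : W →ₗ[F] W) = c • LinearMap.id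
  · obtain ⟨c, hc⟩ := hb
    refine .inl ⟨c • a.toLinearMap, fun u w => ?_⟩
    rw [h, show b w = c • w from LinearMap.congr_fun hc w]
    simp [smul_tmul']
  push Not at hb
  obtain ⟨w, hw⟩ := exists_not_eigen hb
  rcases subsingleton_or_nontrivial U with hU | hU
  · exact .inl ⟨0, fun u w => by simp [Subsingleton.elim u 0]⟩
  obtain ⟨χ, c1, c2⟩ := exists_dual_two hw
  replace c2 : χ (b w) = 1 := c2
  let f : U →ₗ[F] U ⊗[F] W := (t.toLinearMap - LinearMap.id) ∘ₗ inW F U w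
  have hf : ∀ u, f u = a u ⊗ₜ b w - u ⊗ₜ w := fun u => by simp [f, h]
  have e1 : LinearMap.range f = X := Submodule.eq_of_le_of_finrank_le
    (by rintro _ ⟨u, rfl⟩; exact e _) (by
      rwa [LinearMap.finrank_range_of_inj ((injective_iff_map_eq_zero _).2 fun u hu => by
        simpa [hf, c1, c2] using congrArg (cW U χ) hu)])
  obtain ⟨z, -, hz⟩ := exists_not_mem_of_finrank_lt (W := Submodule.span F {w, b w})
    (U := ⊤) (lt_of_le_of_lt (finrank_span_pair_le _ _) (by rw [finrank_top]; omega))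
  obtain ⟨ψ, d1, d2, d3⟩ := exists_dual_three hz
  have ha : ∀ u, ψ (b z) • a u = u := fun u => by
    obtain ⟨u', hu'⟩ := e1 ▸ e (u ⊗ₜ z)
    exact sub_eq_zero.1 (by simpa [hf, h, d1, d2, d3] using (congrArg (cW U ψ) hu').symm)
  obtain ⟨u₀, hu₀⟩ := exists_ne (0 : U)
  have κ0 : ψ (b z) ≠ 0 := fun e => hu₀ (by simpa [e] using (ha u₀).symm)
  have w0 : (ψ (b z))⁻¹ • b w - w ≠ 0 := fun e => by
    simpa [c1, c2, κ0] using congrArg χ e
  refine .inr ⟨_, w0, (Submodule.eq_of_le_of_finrank_le ?_ (by rwa [finrank_LW w0])).symm⟩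
  rintro _ ⟨u, rfl⟩
  rw [← e1]
  refine ⟨u, ?_⟩
  rw [hf, inW_apply, tmul_sub, tmul_smul, smul_tmul']
  conv_rhs => rw [← ha u, inv_smul_smul₀ κ0]
  rw [ha]

theorem finrank_mul_le {U₁ : Submodule F U} {X : Submodule F (U ⊗[F] W)}
    (f : ∀ u ∈ U₁, ∀ w, u ⊗ₜ w ∈ X) : finrank F U₁ * finrank F W ≤ finrank F X := by
  have d := Submodule.finrank_mono (show LinearMap.range (U₁.subtype.rTensor W) ≤ X by
    rintro _ ⟨s, rfl⟩
    induction s with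
    | zero => simp
    | tmul u w => exact f u u.2 w
    | add x y hx hy => rw [map_add]; exact add_mem hx hy)
  rwa [LinearMap.finrank_range_of_inj (Module.Flat.rTensor_preserves_injective_linearMap _
    U₁.subtype_injective), finrank_tensorProduct] at d

omit [FiniteDimensional F W] in
theorem finrank_LW_le (w : W) : finrank F (LW F U w) ≤ finrank F U := LinearMap.finrank_range_le _

omit [FiniteDimensional F U] [FiniteDimensional F W] in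
theorem fix_step (h2 : (2 : F) = 0) {σ : V →ₗ[F] V} (hσ : ∀ v, σ (σ v) = v) {T : Submodule F V}
    {P : V → Prop} (hP : ∀ v, P v → P (σ v - v)) {v : V} (hv : P v) (hv' : v ∉ T) :
    ∃ v, P v ∧ v ∉ T ∧ σ v - v ∈ T := by
  by_cases h : σ v - v ∈ T
  · exact ⟨v, hv, hv', h⟩
  · refine ⟨_, hP v hv, h, ?_⟩
    rw [map_sub, hσ, show v - σ v - (σ v - v) = (2 : F) • (v - σ v) by module, h2, zero_smul]
    exact T.zero_mem

/-- Root elements of the right factor. -/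
noncomputable def rt (U : Type*) [AddCommGroup U] [Module F U] {φ : Dual F W} {w : W}
    (h : φ w = 0) : (U ⊗[F] W) ≃ₗ[F] (U ⊗[F] W) := uni (Nr U φ w) (Dm_Dm _ _ _ _ h)

section

omit [FiniteDimensional F U] [FiniteDimensional F W]

theorem rt_apply {φ : Dual F W} {w : W} (h : φ w = 0) (x : U ⊗[F] W) :
    rt U h x = x + Nr U φ w x := rfl

theorem rt_symm {φ : Dual F W} {w : W} (h : φ w = 0) (x : U ⊗[F] W) :
    (rt U h).symm x = x - Nr U φ w x := rfl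

theorem cj_rt {φ : Dual F W} {w : W} (h : φ w = 0) (g : (U ⊗[F] W) ≃ₗ[F] (U ⊗[F] W))
    (x : U ⊗[F] W) : (g * rt U h * g⁻¹) x = x + cjm g (Nr U φ w) x := by simp [rt_apply]

theorem cj_rt_symm {φ : Dual F W} {w : W} (h : φ w = 0) (g : (U ⊗[F] W) ≃ₗ[F] (U ⊗[F] W))
    (x : U ⊗[F] W) : (g * rt U h * g⁻¹).symm x = x - cjm g (Nr U φ w) x := by
  rw [LinearEquiv.symm_apply_eq, cj_rt]; simp [Nr_apply, h]

theorem cj_mem (φ : Dual F W) (w : W) (g : (U ⊗[F] W) ≃ₗ[F] (U ⊗[F] W)) (x : U ⊗[F] W) :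
    cjm g (Nr U φ w) x ∈ im (LW F U w) g := apply_mem_im.2 (Dm_mem _ _ _ _)

theorem cj_ker {φ : Dual F W} {w : W} (h : φ w = 0) (g : (U ⊗[F] W) ≃ₗ[F] (U ⊗[F] W))
    {x : U ⊗[F] W} (hx : x ∈ im (LW F U w) g) : cjm g (Nr U φ w) x = 0 := by
  rw [cjm_apply, Dm_LW _ _ h (mem_im.1 hx), map_zero]

theorem cj_surj {φ : Dual F W} (h : φ ≠ 0) {w : W} (g : (U ⊗[F] W) ≃ₗ[F] (U ⊗[F] W))
    {x : U ⊗[F] W} (hx : x ∈ im (LW F U w) g) : ∃ y, cjm g (Nr U φ w) y = x := by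
  obtain ⟨_, ⟨u, rfl⟩, rfl⟩ := hx
  obtain ⟨y, hy⟩ := Nr_surj h w u
  exact ⟨g y, by simp [hy]⟩

end

/-- The conjugate of the right factor centralises the right factor. -/
def Cm (g : (U ⊗[F] W) ≃ₗ[F] (U ⊗[F] W)) : Prop :=
  ∀ (φ : Dual F W) w, φ w = 0 → Lt (cjm g (Nr U φ w))

omit [FiniteDimensional F U] in
theorem Cm.inv (hm : 3 ≤ finrank F W) {g : (U ⊗[F] W) ≃ₗ[F] (U ⊗[F] W)} (h : Cm g) : Cm g⁻¹ :=
  fun φ w _ => lt_of_comm hm fun φ' w' e x => g.injective (by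
    simpa [LinearEquiv.coe_inv, show g⁻¹.symm = g from rfl] using
      ((h φ' w' e).comm φ w (g x)).symm)

/-- A group containing `1 ⊗ SL(W)` with no further elements centralising some `U ⊗ w`
and its quotient. -/
structure WS (M : Subgroup ((U ⊗[F] W) ≃ₗ[F] (U ⊗[F] W))) : Prop where
  m3 : 3 ≤ finrank F W
  nt : Nontrivial U
  root : ∀ (φ : Dual F W) w, φ w = 0 → R M (Nr U φ w)
  std : Max2.Std M

namespace WS

variable {M : Subgroup ((U ⊗[F] W) ≃ₗ[F] (U ⊗[F] W))} (h : WS M)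
include h

omit [FiniteDimensional F U] [FiniteDimensional F W] in
theorem mem {φ : Dual F W} {w : W} (e : φ w = 0) : rt U e ∈ M := (h.root φ w e).uni_mem _

omit [FiniteDimensional F U] [FiniteDimensional F W] in
theorem cmem {φ : Dual F W} {w : W} (e : φ w = 0) {g : (U ⊗[F] W) ≃ₗ[F] (U ⊗[F] W)} (hg : g ∈ M) :
    g * rt U e * g⁻¹ ∈ M := M.mul_mem (M.mul_mem hg (h.mem e)) (M.inv_mem hg)

omit [FiniteDimensional F U] [FiniteDimensional F W] in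
theorem ax {φ : Dual F W} {w : W} (e : φ w = 0) : AX M (LW F U w) (Nr U φ w) :=
  ⟨h.root φ w e, fun _ hx => Dm_LW _ _ e hx, Dm_mem _ _ _⟩

omit [FiniteDimensional F U] in
theorem dstd {φ : Dual F W} (h0 : φ ≠ 0) {θ : U ⊗[F] W →ₗ[F] U ⊗[F] W} (hθ : R M θ)
    (e1 : ∀ x, cW U φ x = 0 → θ x = 0) (e2 : ∀ x, cW U φ (θ x) = 0) :
    ∃ w, ∀ x, θ x = cW U φ x ⊗ₜ w := by
  have := h.nt
  obtain ⟨y, hy⟩ := exists_apply_one h0
  obtain ⟨u₀, hu₀⟩ := exists_ne (0 : U)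
  obtain ⟨ψ, hψ⟩ := exists_dual_one (F := F) hu₀
  refine ⟨cU W ψ (θ (u₀ ⊗ₜ y)), fun x => ?_⟩
  rw [← sub_add_cancel x (cW U φ x ⊗ₜ y), map_add θ, e1 _ (by simp [hy]), zero_add, sub_add_cancel]
  refine sub_eq_zero.1 (eq_zero_of_cW fun χ => ?_)
  obtain ⟨w, -, w0, w1, w2⟩ := exists_ne_zero_two_ker (U := ⊤) (by simpa using h.m3) φ χ
  obtain ⟨φ', e⟩ := h.std w w0 (Nr U χ w ∘ₗ θ) ⟨(h.root χ w w2).comm hθ (h.ax w2).sq
    (fun x => e1 _ (e2 x)) fun x => e1 _ (by simp [Nr_apply, w1]), by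
      rintro _ ⟨u, rfl⟩; simp [e1 (u ⊗ₜ w) (by simp [w1])], fun x => Dm_mem _ _ _ _⟩
  replace e : ∀ x, cW U χ (θ x) = cW U φ' x := fun x => tmul_left_inj w0 (e x)
  simp [e, dual_cU, hψ]

theorem im_eq {g : (U ⊗[F] W) ≃ₗ[F] (U ⊗[F] W)} {w w' : W} (hw : w ≠ 0)
    (e : ∀ u, g (u ⊗ₜ w) ∈ LW F U w') : im (LW F U w) g = LW F U w' :=
  Submodule.eq_of_le_of_finrank_le (by rintro _ ⟨_, ⟨u, rfl⟩, rfl⟩; exact e u)
    (by rw [finrank_im, finrank_LW hw]; exact finrank_LW_le _)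

theorem isT_of_stab {g : (U ⊗[F] W) ≃ₗ[F] (U ⊗[F] W)} (hg : g ∈ M) {w w' : W} (hw : w ≠ 0)
    (e : ∀ u, g (u ⊗ₜ w) ∈ LW F U w') : IsT g := by
  have := h.nt
  obtain ⟨u₀, hu₀⟩ := exists_ne (0 : U)
  have hw' : w' ≠ 0 := by
    rintro rfl
    obtain ⟨u, hu⟩ := e u₀
    exact tmul_ne_zero (F := F) hu₀ hw (by simpa using hu.symm)
  refine isT_of_lines (by have := h.m3; omega) fun v => ?_
  obtain ⟨φ, h0, h1, h2⟩ := exists_dual_pair h.m3 w v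
  obtain ⟨φ', e'⟩ := h.std w' hw' _ (h.im_eq hw e ▸ (h.ax h1).conj hg)
  have k : ∀ y, cW U φ' (g y) = 0 ↔ cW U φ y = 0 := fun y => by
    have := e' (g y)
    rw [cjm_apply, LinearEquiv.symm_apply_apply, Nr_apply] at this
    refine ⟨fun e => by_contra fun e0 => tmul_ne_zero (F := F) e0 hw ?_,
      fun e => by_contra fun e0 => tmul_ne_zero (F := F) e0 hw' ?_⟩
    · simpa [e] using this
    · simpa [e] using this.symm
  obtain ⟨y, hy⟩ := exists_apply_one h0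
  obtain ⟨w'', e''⟩ := h.dstd (φ := φ') (fun e => hu₀ (by
      simpa [hy] using (k (u₀ ⊗ₜ y)).1 (by simp [e]))) ((h.root φ v h2).conj hg)
    (fun x hx => by
      obtain ⟨x, rfl⟩ := g.surjective x
      simp [Nr_apply, (k x).1 hx]) fun x => (k _).2 (by simp [Nr_apply, h2])
  exact ⟨w'', fun u => ⟨_, by simpa [Nr_apply, hy] using (e'' (g (u ⊗ₜ y))).symm⟩⟩

theorem isT_of_im {g : (U ⊗[F] W) ≃ₗ[F] (U ⊗[F] W)} (hg : g ∈ M) {w w' : W} (hw : w ≠ 0)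
    (e : im (LW F U w) g = LW F U w') : IsT g :=
  h.isT_of_stab hg hw fun u => e ▸ apply_mem_im.2 (tmul_mem_LW u w)

theorem cases_cj {g : (U ⊗[F] W) ≃ₗ[F] (U ⊗[F] W)} {φ : Dual F W} {w : W}
    (e : φ w = 0) (ht : IsT (g * rt U e * g⁻¹)) :
    Lt (cjm g (Nr U φ w)) ∨ ∃ w', w' ≠ 0 ∧ im (LW F U w) g = LW F U w' := by
  refine (isT_cases h.m3 ht (X := im (LW F U w) g) (by rw [finrank_im]; exact finrank_LW_le _)
    fun x => by rw [cj_rt, add_sub_cancel_left]; exact cj_mem _ _ _ _).imp_left fun ⟨γ, hγ⟩ =>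
    ⟨γ - LinearMap.id, fun u v => ?_⟩
  have := hγ u v
  rw [cj_rt, ← eq_sub_iff_add_eq'] at this
  simp [this, sub_tmul]

theorem cm_of_lt {g : (U ⊗[F] W) ≃ₗ[F] (U ⊗[F] W)} (hg : g ∈ M) (hn : ¬ IsT g) {φ : Dual F W}
    {w : W} (h0 : φ ≠ 0) (hw : w ≠ 0) (hL : Lt (cjm g (Nr U φ w))) : Cm g := by
  refine Cm.inv (g := g⁻¹) h.m3 fun φ' w' e => ?_
  by_cases w0 : w' = 0
  · exact ⟨0, fun u v => by simp [Nr_apply, w0]⟩
  refine (h.cases_cj e (h.isT_of_stab (h.cmem e (M.inv_mem hg)) hw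
    (mem_of_comm (θ := (g⁻¹ * rt U e * g⁻¹⁻¹).toLinearMap) h0 fun x => ?_))).resolve_right
    fun ⟨w'', _, e'⟩ => hn ((tSub F U W).inv_mem_iff.1 (h.isT_of_im (M.inv_mem hg) w0 e'))
  simp only [LinearEquiv.coe_coe, cj_rt, map_add, add_right_inj]
  exact g.injective (by simpa [show g⁻¹.symm = g from rfl] using (hL.comm φ' w' (g x)).symm)

theorem not_isT {g : (U ⊗[F] W) ≃ₗ[F] (U ⊗[F] W)} (hg : g ∈ M) (hn : ¬ IsT g) (hc : ¬ Cm g)
    {φ : Dual F W} {w : W} (h0 : φ ≠ 0) (hw : w ≠ 0) (e : φ w = 0) : ¬ IsT (g * rt U e * g⁻¹) :=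
  fun ht => (h.cases_cj e ht).elim (fun hL => hc (h.cm_of_lt hg hn h0 hw hL))
    fun ⟨_, _, e'⟩ => hn (h.isT_of_im hg hw e')

theorem cm_data {t : (U ⊗[F] W) ≃ₗ[F] (U ⊗[F] W)} (hc : Cm t) {w : W} (hw : w ≠ 0) :
    ∃ U₁ : Submodule F U, finrank F U₁ * 3 ≤ finrank F U ∧
      ∀ u (χ : Dual F W), cW U χ (t (u ⊗ₜ w)) ∈ U₁ := by
  obtain ⟨φ, h0, h1, -⟩ := exists_dual_pair h.m3 w w
  obtain ⟨γ, hγ⟩ := hc φ w h1
  refine ⟨LinearMap.range γ, (Nat.mul_le_mul_left _ h.m3).trans ((finrank_mul_le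
    (X := im (LW F U w) t) ?_).trans (by rw [finrank_im, finrank_LW hw])), fun u χ => ?_⟩
  · rintro _ ⟨u, rfl⟩ v
    exact hγ u v ▸ cj_mem _ _ _ _
  · obtain ⟨y, hy⟩ := cj_surj h0 t (apply_mem_im.2 (tmul_mem_LW u w))
    exact ⟨_, by rw [← hy, Lt.cW hγ]⟩

theorem not_cm_odd (h2 : (2 : F) ≠ 0) (g : (U ⊗[F] W) ≃ₗ[F] (U ⊗[F] W)) {φ : Dual F W} {w : W}
    (hw : w ≠ 0) (e : φ w = 0) : ¬ Cm (g * rt U e * g⁻¹) := fun hc => by
  have := h.nt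
  obtain ⟨U₁, d1, e1⟩ := h.cm_data hc hw
  obtain ⟨U₂, d2, e2⟩ := h.cm_data (hc.inv h.m3) hw
  obtain ⟨χ, hχ⟩ := exists_dual_one (F := F) hw
  have d3 := Submodule.finrank_mono (show ⊤ ≤ U₁ ⊔ U₂ from fun u _ =>
    (Submodule.smul_mem_iff _ h2).1 (by
      convert Submodule.add_mem_sup (e1 u χ) (e2 u χ) using 1
      rw [LinearEquiv.coe_inv, cj_rt, cj_rt_symm, ← map_add]
      simp [hχ, two_smul]))
  have d4 := Submodule.finrank_add_le_finrank_add_finrank U₁ U₂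
  have := finrank_pos (R := F) (M := U)
  rw [finrank_top] at d3
  omega

theorem not_cm_even (h2 : (2 : F) = 0) {g : (U ⊗[F] W) ≃ₗ[F] (U ⊗[F] W)} (hg : g ∈ M)
    {φ : Dual F W} {w : W} (h0 : φ ≠ 0) (hw : w ≠ 0) (e : φ w = 0) :
    ¬ Cm (g * rt U e * g⁻¹) := fun hc => by
  have := h.nt
  obtain ⟨u₀, hu₀⟩ := exists_ne (0 : U)
  have ng : ∀ x : U ⊗[F] W, -x = x := fun x => by
    rw [neg_eq_iff_add_eq_zero, ← two_smul F, h2, zero_smul]
  have ht := h.cmem e hg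
  have t1 := cj_rt e g
  have t2 : ∀ x, (g * rt U e * g⁻¹).symm x = (g * rt U e * g⁻¹) x := fun x => by
    rw [cj_rt_symm, t1, sub_eq_add_neg, ng]
  generalize g * rt U e * g⁻¹ = t at hc ht t1 t2
  have tt : ∀ x, t (t x) = x := fun x => by rw [← t2, LinearEquiv.symm_apply_apply]
  obtain ⟨e₁, e₂, e₃, c₁, c₂, c₃, a11, a12, a13, a21, a22, a23, a31, a32, a33⟩ :
      ∃ (e₁ e₂ e₃ : W) (c₁ c₂ c₃ : Dual F W), c₁ e₁ = 1 ∧ c₁ e₂ = 0 ∧ c₁ e₃ = 0 ∧ c₂ e₁ = 0 ∧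
        c₂ e₂ = 1 ∧ c₂ e₃ = 0 ∧ c₃ e₁ = 0 ∧ c₃ e₂ = 0 ∧ c₃ e₃ = 1 := by
    have := h.m3
    let b := finBasis F W
    exact ⟨b ⟨0, by omega⟩, b ⟨1, by omega⟩, b ⟨2, by omega⟩, b.coord ⟨0, by omega⟩,
      b.coord ⟨1, by omega⟩, b.coord ⟨2, by omega⟩, by simp, by simp, by simp, by simp, by simp,
      by simp, by simp, by simp, by simp⟩
  have e10 : e₁ ≠ 0 := by rintro rfl; simp at a11
  have e20 : e₂ ≠ 0 := by rintro rfl; simp at a22
  have e30 : e₃ ≠ 0 := by rintro rfl; simp at a33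
  have r1 : ∀ (c : Dual F W) e c' e' x, Nr U c e (Nr U c' e' x) = c e' • Nr U c' e x :=
    fun c e c' e' x => by simp [Nr_apply, smul_tmul']
  have r2 : ∀ (c : Dual F W) e c' e' x, cjm t (Nr U c e) (cjm t (Nr U c' e') x) =
      c e' • cjm t (Nr U c' e) x := fun c e c' e' x => by
    simp only [cjm_apply, LinearEquiv.symm_apply_apply, r1, map_smul]
  have r3 : ∀ {c : Dual F W} {e}, c e = 0 → ∀ c' e' x, cjm t (Nr U c e) (Nr U c' e' x) =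
      Nr U c' e' (cjm t (Nr U c e) x) := fun h0 => (hc _ _ h0).comm
  have r4 : ∀ (c : Dual F W) e x, t (Nr U c e x) = cjm t (Nr U c e) (t x) := fun c e x => by
    rw [cjm_apply, LinearEquiv.symm_apply_apply]
  have r5 : ∀ (c : Dual F W) e x, t (cjm t (Nr U c e) x) = Nr U c e (t x) := fun c e x => by
    rw [cjm_apply, tt, t2]
  let ν : Dual F W → U ⊗[F] W →ₗ[F] U ⊗[F] W := fun c =>
    Nr U c e₁ + cjm t (Nr U c e₁) + Nr U c e₁ ∘ₗ cjm t (Nr U c e₁)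
  have hν : ∀ c x, ν c x = Nr U c e₁ x + cjm t (Nr U c e₁) x + Nr U c e₁ (cjm t (Nr U c e₁) x) :=
    fun _ _ => rfl
  have hX : ∀ x, x + t x ∈ im (LW F U w) g := fun x => by
    rw [t1, ← add_assoc, ← two_smul F x, h2, zero_smul, zero_add]; exact cj_mem _ _ _ _
  -- the involutions centralising `t`
  have hz : ∀ {c : Dual F W} (hc1 : c e₁ = 0), ∃ z ∈ M, (∀ x, z x = x + ν c x) ∧
      (∀ x, z.symm x = z x) ∧ cjm z (cjm g (Nr U φ w)) = cjm g (Nr U φ w) ∧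
      im (im (LW F U w) g) z = im (LW F U w) g := fun {c} hc1 => by
    obtain ⟨z, hz, e1⟩ : R M (ν c) := (h.root c e₁ hc1).mul ((h.root c e₁ hc1).conj ht)
    have e2 : ∀ x, z (cjm g (Nr U φ w) x) = cjm g (Nr U φ w) (z x) := fun x => by
      have : z (t x) = t (z x) := by
        simp only [e1, hν, map_add, r4, r5, r3 hc1]; abel
      rwa [t1, t1, map_add, add_right_inj] at this
    refine ⟨z, hz, e1, fun x => ?_, LinearMap.ext fun x => by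
      rw [cjm_apply, e2, LinearEquiv.apply_symm_apply], Submodule.eq_of_le_of_finrank_le ?_
      (finrank_im _ _).ge⟩
    · rw [LinearEquiv.symm_apply_eq]
      simp only [e1, hν, map_add, r1, r2, r3 hc1, hc1, zero_smul, map_zero]
      linear_combination (norm := module) (-h2) • (Nr U c e₁ x + cjm t (Nr U c e₁) x +
        (2 : F) • Nr U c e₁ (cjm t (Nr U c e₁) x))
    · rintro _ ⟨x, hx, rfl⟩
      obtain ⟨y, rfl⟩ := cj_surj h0 g hx
      exact (e2 y).symm ▸ cj_mem _ _ _ _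
  obtain ⟨z₂, m2, f2, s2, k2, i2⟩ := hz a21
  obtain ⟨z₃, m3, f3, s3, k3, i3⟩ := hz a31
  have zz : ∀ x, z₂ (z₃ x) = z₃ (z₂ x) := fun x => by
    simp only [f2, f3, hν, map_add, r1, r2, r3 a21, r3 a31, a21, a31, zero_smul, map_zero]
    abel
  let σ : ((U ⊗[F] W) ≃ₗ[F] (U ⊗[F] W)) → Module.End F (Module.End F (U ⊗[F] W)) := fun z =>
    (z.conj : Module.End F (U ⊗[F] W) →ₗ[F] _)
  have hσ : ∀ z θ, σ z θ = cjm z θ := fun _ _ => rfl
  have hσ2 : ∀ z : (U ⊗[F] W) ≃ₗ[F] (U ⊗[F] W), (∀ x, z.symm x = z x) → ∀ θ, σ z (σ z θ) = θ :=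
    fun z s θ => LinearMap.ext fun x => by
      simp only [hσ, cjm_apply]
      rw [← s, s (z.symm x), z.symm_apply_apply, z.apply_symm_apply]
  obtain ⟨y, -, y0, y1⟩ : ∃ y ∈ (⊤ : Submodule F W), φ y = 0 ∧ y ∉ F ∙ w := by
    simpa using exists_ker_not_mem h.m3 φ w
  obtain ⟨ψ₀, p1, p2⟩ := exists_dual_two y1
  obtain ⟨θ₁, q1, q2, q3⟩ := fix_step h2 (hσ2 z₂ s2) (T := F ∙ cjm g (Nr U φ w))
    (P := AX M (im (LW F U w) g)) (fun θ hθ => (i2 ▸ hθ.conj m2).sub hθ) ((h.ax p1).conj hg)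
    fun e => by
      obtain ⟨c, hc⟩ := Submodule.mem_span_singleton.1 e
      exact tmul_ne_zero (F := F) hu₀ hw (by
        simpa [Nr_apply, y0, p2] using (LinearMap.congr_fun hc (g (u₀ ⊗ₜ y))).symm)
  obtain ⟨θ, ⟨q4, q5⟩, q6, q7⟩ := fix_step h2 (hσ2 z₃ s3) (T := F ∙ cjm g (Nr U φ w))
    (P := fun θ => AX M (im (LW F U w) g) θ ∧ σ z₂ θ - θ ∈ F ∙ cjm g (Nr U φ w))
    (fun θ hθ => ⟨(i3 ▸ hθ.1.conj m3).sub hθ.1, by
      obtain ⟨c, hc⟩ := Submodule.mem_span_singleton.1 hθ.2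
      have : σ z₂ (σ z₃ θ) = σ z₃ (σ z₂ θ) := LinearMap.ext fun x => by
        simp only [hσ, cjm_apply, s2, s3, zz]
      rw [map_sub, this, sub_sub_sub_comm, ← map_sub, ← hc, map_smul, hσ, k3, sub_self]
      exact zero_mem _⟩) ⟨q1, q3⟩ q2
  obtain ⟨ψ, hψ⟩ := h.std w hw _ (q4.conj_symm hg)
  replace hψ : ∀ x, θ (g x) = g (cW U ψ x ⊗ₜ w) := fun x => by rw [← hψ]; simp
  obtain ⟨v, v0, v1⟩ : ∃ v, φ v = 0 ∧ ψ v = 1 := by
    by_contra hn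
    obtain ⟨y, hy⟩ := exists_apply_one h0
    refine q6 (Submodule.mem_span_singleton.2 ⟨ψ y, LinearMap.ext fun x => ?_⟩)
    obtain ⟨x, rfl⟩ := g.surjective x
    have : ψ = ψ y • φ := LinearMap.ext fun v => by_contra fun e => hn
      ⟨(ψ (v - φ v • y))⁻¹ • (v - φ v • y), by simp [hy], by
        rw [map_smul, smul_eq_mul, inv_mul_cancel₀ fun e' => e (by
          simpa [sub_eq_zero, mul_comm] using e')]⟩
    rw [hψ, this, cW_smul]
    simp [Nr_apply, ← smul_tmul', hy]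
  let P := LW F U e₁ ⊓ im (LW F U e₁) t
  have hD : ∀ {c : Dual F W} {z : (U ⊗[F] W) ≃ₗ[F] (U ⊗[F] W)}, c e₁ = 0 →
      (∀ x, z x = x + ν c x) → σ z θ - θ ∈ F ∙ cjm g (Nr U φ w) →
      (∀ x, cjm g (Nr U φ w) x = 0 → cjm g (Nr U φ w) (z x) = 0) →
      ∀ x ∈ im (LW F U w) g, ν c x ∈ P.map θ := by
    rintro c z c1 f q k _ ⟨_, ⟨u, rfl⟩, rfl⟩
    obtain ⟨a, ha⟩ := Submodule.mem_span_singleton.1 q
    have k0 : cjm g (Nr U φ w) (g (u ⊗ₜ v)) = 0 := by simp [Nr_apply, v0]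
    have e1 := LinearMap.congr_fun ha (z (g (u ⊗ₜ v)))
    have e2 : θ (g (u ⊗ₜ v)) = g (u ⊗ₜ w) := by simp [hψ, v1]
    rw [LinearMap.smul_apply, k _ k0, smul_zero, LinearMap.sub_apply, hσ, cjm_apply,
      z.symm_apply_apply, eq_comm, sub_eq_zero, f, f, map_add, add_right_inj, e2, hν c (g (u ⊗ₜ v)),
      map_add] at e1
    have e3 := q4.ker _ (hX (Nr U c e₁ (g (u ⊗ₜ v))))
    rw [r4, t1, k0, add_zero] at e3
    exact ⟨_, ⟨Dm_mem _ _ _ _, r3 c1 _ _ _ ▸ cj_mem _ _ _ _⟩, by rw [e3, zero_add] at e1; exact e1.symm⟩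
  have kz : ∀ {z : (U ⊗[F] W) ≃ₗ[F] (U ⊗[F] W)}, cjm z (cjm g (Nr U φ w)) = cjm g (Nr U φ w) →
      ∀ x, cjm g (Nr U φ w) x = 0 → cjm g (Nr U φ w) (z x) = 0 := fun k x hx => by
    rw [← k, cjm_apply, LinearEquiv.symm_apply_apply, hx, map_zero]
  obtain ⟨χ₁, g1⟩ := hc c₁ e₂ a12
  obtain ⟨χ₂, g2⟩ := hc c₁ e₃ a13
  let j : U ⊗[F] W →ₗ[F] U ⊗[F] W :=
    (LinearMap.id + t.toLinearMap) ∘ₗ cjm t (Nr U c₁ e₂) ∘ₗ Nr U c₁ e₃
  have hj : ∀ p ∈ P, ∃ u u', p = u ⊗ₜ e₁ ∧ t p = u' ⊗ₜ e₁ ∧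
      ν c₂ (j p) = u ⊗ₜ e₃ + χ₂ u' ⊗ₜ e₁ ∧ ν c₃ (j p) = u' ⊗ₜ e₂ + χ₁ u ⊗ₜ e₁ := by
    rintro _ ⟨⟨u, rfl⟩, hp⟩
    obtain ⟨u', hu'⟩ := mem_im.1 hp
    simp only [inW_apply, t2] at hu' ⊢
    have b1 : cjm t (Nr U c₁ e₁) (u ⊗ₜ e₁) = u ⊗ₜ e₁ := by
      rw [cjm_apply, t2, ← hu', Nr_apply, cW_tmul, a11, one_smul, hu', tt]
    have b2 : cjm t (Nr U c₁ e₁) (u' ⊗ₜ e₁) = u' ⊗ₜ e₁ := by
      rw [cjm_apply, t2, hu', tt, Nr_apply, cW_tmul, a11, one_smul]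
    have b3 : j (u ⊗ₜ e₁) = Nr U c₁ e₃ (cjm t (Nr U c₁ e₂) (u ⊗ₜ e₁)) +
        Nr U c₁ e₂ (cjm t (Nr U c₁ e₃) (u' ⊗ₜ e₁)) := by
      change cjm t _ _ + t (cjm t _ _) = _
      rw [r5, r4, r3 a12, hu']
    refine ⟨u, u', rfl, hu'.symm, ?_, ?_⟩
    · simp only [b3, hν, map_add, r1, r2, r3 a21, a22, a23, one_smul, zero_smul, map_zero, b1]
      simp [g2, Nr_apply, a11]; abel
    · simp only [b3, hν, map_add, r1, r2, r3 a31, a32, a33, one_smul, zero_smul, map_zero, b2]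
      simp [g1, Nr_apply, a11]; abel
  have hP : P.map (ν c₂ ∘ₗ j) = P.map θ := Submodule.eq_of_le_of_finrank_le (by
      rintro _ ⟨p, -, rfl⟩
      exact hD a21 f2 q5 (kz k2) _ (hX _)) ((Submodule.finrank_map_le _ _).trans (by
      rw [← LinearMap.range_domRestrict, LinearMap.finrank_range_of_inj
        ((injective_iff_map_eq_zero _).2 fun ⟨p, hp⟩ e => by
          obtain ⟨u, u', rfl, -, e1, -⟩ := hj p hp
          have := congrArg (cW U c₃) (e1.symm.trans e)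
          simp [a33, a31] at this
          simp [this])]))
  obtain ⟨γ, hγ⟩ := hc c₂ e₁ a21
  obtain ⟨u, hu⟩ : ∃ u, γ u ≠ 0 := by
    by_contra hn
    push Not at hn
    have : cjm t (Nr U c₂ e₁) = 0 := TensorProduct.ext' fun u v => by simp [hγ, hn]
    exact tmul_ne_zero (F := F) hu₀ e10 (by
      simpa [Nr_apply, a22] using LinearMap.congr_fun this (t (u₀ ⊗ₜ e₂)))
  have hp : γ u ⊗ₜ e₁ ∈ P := ⟨tmul_mem_LW _ _, hγ u e₁ ▸ cj_mem _ _ _ _⟩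
  obtain ⟨p, hp', e1⟩ := hP ▸ hD a31 f3 q7 (kz k3) (j (γ u ⊗ₜ e₁)) (hX _)
  obtain ⟨_, u', -, e2, -, e3⟩ := hj _ hp
  obtain ⟨_, _, -, -, e4, -⟩ := hj _ hp'
  have := congrArg (cW U c₂) (e4.symm.trans (e1.trans e3))
  simp [a21, a22, a23] at this
  rw [← this, zero_tmul, t.map_eq_zero_iff] at e2
  exact tmul_ne_zero hu e10 e2

end WS

end Cfsg.Agent.Max
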