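import Mathlib
import Cfsg.Agent.Max.TW1

/-!
# Groups containing `1 ⊗ SL(W)`: the main dichotomy
-/

set_option autoImplicit false
set_option linter.unusedSectionVars false

namespace Cfsg.Agent.Max

open Module Cfsg.Agent.Max2 TensorProduct

variable {F U W : Type*} [Field F] [AddCommGroup U] [Module F U] [AddCommGroup W] [Module F W]
  [FiniteDimensional F U] [FiniteDimensional F W]

/-- Elements moving vectors only inside `Y`. -/
def mvG {V : Type*} [AddCommGroup V] [Module F V] (M : Subgroup (V ≃ₗ[F] V)) (Y : Submodule F V) :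
    Subgroup (V ≃ₗ[F] V) where
  carrier := {k | k ∈ M ∧ ∀ x, k x - x ∈ Y}
  mul_mem' {a b} ha hb := ⟨M.mul_mem ha.1 hb.1, fun x => by
    simpa using Y.add_mem (ha.2 (b x)) (hb.2 x)⟩
  one_mem' := ⟨M.one_mem, fun x => by simp⟩
  inv_mem' {a} ha := ⟨M.inv_mem ha.1, fun x => by
    simpa using Y.neg_mem (ha.2 (a.symm x))⟩

/-- A bad element with maximal intersection. -/
structure MP (M : Subgroup ((U ⊗[F] W) ≃ₗ[F] (U ⊗[F] W))) (w₀ : W)
    (g : (U ⊗[F] W) ≃ₗ[F] (U ⊗[F] W)) : Prop where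
  ws : WS M
  w0 : w₀ ≠ 0
  mem : g ∈ M
  nT : ¬ IsT g
  nC : ¬ Cm g
  max : ∀ g' ∈ M, ¬ IsT g' → ¬ Cm g' →
    finrank F ↥(LW F U w₀ ⊓ im (LW F U w₀) g') ≤ finrank F ↥(LW F U w₀ ⊓ im (LW F U w₀) g)

namespace MP

variable {M : Subgroup ((U ⊗[F] W) ≃ₗ[F] (U ⊗[F] W))} {w₀ : W}
  {g : (U ⊗[F] W) ≃ₗ[F] (U ⊗[F] W)} (h : MP M w₀ g)
include h

theorem symm : MP M w₀ g⁻¹ :=
  ⟨h.ws, h.w0, M.inv_mem h.mem, fun e => h.nT ((tSub F U W).inv_mem_iff.1 e),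
    fun e => h.nC (by simpa using e.inv h.ws.m3), fun g' a b c => (h.max g' a b c).trans (by
      rw [← finrank_im _ g⁻¹, im_inf, ← im_mul, inv_mul_cancel, im_one, inf_comm])⟩

theorem p1 {φ : Dual F W} (h0 : φ ≠ 0) (e : φ w₀ = 0) {y : U ⊗[F] W} (hy : y ∈ LW F U w₀)
    (hN : cjm g (Nr U φ w₀) y ∈ LW F U w₀) : y ∈ im (LW F U w₀) g := by
  have e1 := Submodule.eq_of_le_of_finrank_le (S₁ := LW F U w₀ ⊓ im (LW F U w₀) g)
    (S₂ := LW F U w₀ ⊓ im (LW F U w₀) (g * rt U e * g⁻¹)) (fun s hs => ⟨hs.1, mem_im.2 (by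
      rw [cj_rt_symm, cj_ker e g hs.2, sub_zero]; exact hs.1)⟩)
    (h.max _ (h.ws.cmem e h.mem) (h.ws.not_isT h.mem h.nT h.nC h0 h.w0 e) (by
      by_cases h2 : (2 : F) = 0
      exacts [h.ws.not_cm_even h2 h.mem h0 h.w0 e, h.ws.not_cm_odd h2 g h.w0 e]))
  have e2 : (g * rt U e * g⁻¹) y ∈ LW F U w₀ ⊓ im (LW F U w₀) g :=
    e1 ▸ ⟨by rw [cj_rt]; exact add_mem hy hN, apply_mem_im.2 hy⟩
  rw [cj_rt] at e2
  exact (Submodule.add_mem_iff_left _ (cj_mem _ _ _ _)).1 e2.2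

theorem p2 {φ : Dual F W} (h0 : φ ≠ 0) (e : φ w₀ = 0) {x : U ⊗[F] W} (hx : x ∈ im (LW F U w₀) g)
    (hN : Nr U φ w₀ x ∈ im (LW F U w₀) g) : x ∈ LW F U w₀ := by
  simpa [mem_im, show g⁻¹.symm = g from rfl] using h.symm.p1 h0 e (mem_im.1 hx)
    (by simpa [show g⁻¹.symm = g from rfl] using mem_im.1 hN)

theorem not_le : ¬ im (LW F U w₀) g ≤ LW F U w₀ := fun e =>
  h.nT (h.ws.isT_of_stab h.mem h.w0 fun u => e (apply_mem_im.2 (tmul_mem_LW u w₀)))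

theorem k1 {φ : Dual F W} (h0 : φ ≠ 0) (e : φ w₀ = 0) {y : U ⊗[F] W}
    (hy : y ∈ LW F U w₀ ⊔ im (LW F U w₀) g) (e' : cW U φ y = 0) : y ∈ LW F U w₀ := by
  obtain ⟨l, hl, x, hx, rfl⟩ := Submodule.mem_sup.1 hy
  rw [map_add, cW_LW e hl, zero_add] at e'
  exact add_mem hl (h.p2 h0 e hx (by simp [Nr_apply, e']))

theorem k2 {u : U} {w : W} (hw : w ∉ F ∙ w₀) (hy : u ⊗ₜ w ∈ LW F U w₀ ⊔ im (LW F U w₀) g) :
    u = 0 := by
  obtain ⟨φ, h0, h1, h2⟩ := exists_dual_pair h.ws.m3 w₀ w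
  exact by_contra fun hu => hw (mem_span_of_LW hu (h.k1 h0 h1 hy (by simp [h2])))

theorem s_mem {φ : Dual F W} (e : φ w₀ = 0) :
    rt U e ∈ mvG M (LW F U w₀ ⊔ im (LW F U w₀) g) :=
  ⟨h.ws.mem e, fun x => by
    rw [rt_apply, add_sub_cancel_left]; exact Submodule.mem_sup_left (Dm_mem _ _ _ _)⟩

theorem t_mem {φ : Dual F W} (e : φ w₀ = 0) :
    g * rt U e * g⁻¹ ∈ mvG M (LW F U w₀ ⊔ im (LW F U w₀) g) :=
  ⟨h.ws.cmem e h.mem, fun x => by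
    rw [cj_rt, add_sub_cancel_left]; exact Submodule.mem_sup_right (cj_mem _ _ _ _)⟩

theorem lemH {k : (U ⊗[F] W) ≃ₗ[F] (U ⊗[F] W)} (hk : k ∈ mvG M (LW F U w₀ ⊔ im (LW F U w₀) g))
    {a : U ≃ₗ[F] U} {b : W ≃ₗ[F] W} (e : ∀ u w, k (u ⊗ₜ w) = a u ⊗ₜ b w) {w : W}
    (hw : w ∉ F ∙ w₀) (hb : b w ∈ Submodule.span F {w₀, w}) :
    ∃ ψ, ∀ x, k x = x + Nr U ψ w₀ x := by
  have := h.ws.nt
  obtain ⟨u₀, hu₀⟩ := exists_ne (0 : U)
  obtain ⟨μ, l, hb⟩ := Submodule.mem_span_pair.1 hb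
  have ha : ∀ u, l • a u = u := fun u => sub_eq_zero.1 (h.k2 hw (by
    convert sub_mem (hk.2 (u ⊗ₜ w)) (Submodule.mem_sup_left (tmul_mem_LW (μ • a u) w₀)) using 1
    rw [e, ← hb, sub_tmul, tmul_add, tmul_smul, tmul_smul, smul_tmul', smul_tmul']
    abel))
  have l0 : l ≠ 0 := fun e => hu₀ (by simpa [e] using (ha u₀).symm)
  have e1 : ∀ u v, k (u ⊗ₜ v) - u ⊗ₜ v = u ⊗ₜ (l⁻¹ • b v - v) := fun u v => by
    rw [e, tmul_sub, tmul_smul, smul_tmul']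
    conv_rhs => rw [← ha u, inv_smul_smul₀ l0]
    rw [ha]
  obtain ⟨χ, hχ⟩ := exists_dual_one (F := F) h.w0
  refine ⟨χ ∘ₗ (l⁻¹ • b.toLinearMap - LinearMap.id), fun x => ?_⟩
  induction x with
  | zero => simp
  | add x y hx hy => simp only [map_add, hx, hy]; abel
  | tmul u v =>
    obtain ⟨c, hc⟩ := Submodule.mem_span_singleton.1
      (by_contra fun hn => hu₀ (h.k2 hn (e1 u₀ v ▸ hk.2 _)))
    rw [← sub_eq_iff_eq_add', e1, Nr_apply, cW_tmul]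
    change _ = (χ (l⁻¹ • b v - v) • u) ⊗ₜ w₀
    rw [← hc, map_smul, hχ, smul_eq_mul, mul_one, tmul_smul, smul_tmul']

theorem isT {k : (U ⊗[F] W) ≃ₗ[F] (U ⊗[F] W)} (hk : k ∈ M) {φ φ' : Dual F W} (h0 : φ ≠ 0)
    (e : ∀ x, k (Nr U φ w₀ x) = Nr U φ' w₀ (k x)) : IsT k :=
  h.ws.isT_of_stab hk h.w0 (w' := w₀) fun u => by
    obtain ⟨x, hx⟩ := Nr_surj h0 w₀ u
    rw [← hx, e]; exact Dm_mem _ _ _ _

theorem odd [Finite F] (h2 : (2 : F) ≠ 0) : False := by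
  have := h.ws.nt
  obtain ⟨u₀, hu₀⟩ := exists_ne (0 : U)
  have : Nontrivial (U ⊗[F] W) := ⟨_, _, tmul_ne_zero hu₀ h.w0⟩
  obtain ⟨φ, h0, e, -⟩ := exists_dual_pair h.ws.m3 w₀ w₀
  have hG := (Subgroup.closure_le (mvG M (LW F U w₀ ⊔ im (LW F U w₀) g))).2
    (Set.pair_subset (h.s_mem e) (h.t_mem e))
  rcases quad_cases h2 (rt_apply e) (cj_rt e g) (h.ws.ax e).sq ((h.ws.ax e).conj h.mem).sq with
    hp | ⟨j, hj, j1, j2, j3, -⟩
  · obtain ⟨n, hn⟩ := hp ⟨_, mul_mem (Subgroup.subset_closure (.inl rfl))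
      (Subgroup.subset_closure (.inr rfl))⟩
    obtain ⟨x, hx, hxL⟩ := SetLike.not_le_iff_exists.1 h.not_le
    have hν : ∀ y, ((rt U e * (g * rt U e * g⁻¹)).toLinearMap - 1) y = cjm g (Nr U φ w₀) y +
        (Nr U φ w₀ y + Nr U φ w₀ (cjm g (Nr U φ w₀) y)) := fun y => by
      change rt U e ((g * rt U e * g⁻¹) y) - y = _
      rw [cj_rt, rt_apply, map_add]; abel
    obtain ⟨y, hy, hyS, hS⟩ := exists_step (S := LW F U w₀ ⊓ im (LW F U w₀) g)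
      (fun y _ => (mul_mem (h.s_mem e) (h.t_mem e)).2 y) _ x (Submodule.mem_sup_right hx)
      (fun e => hxL e.1) (by rw [pow_sub_one_eq_zero (congrArg Subtype.val hn)]; simp)
    rw [hν] at hS
    have e1 := (Submodule.add_mem_iff_left _ (add_mem (Dm_mem _ _ _ _) (Dm_mem _ _ _ _))).1 hS.1
    have e2 := (Submodule.add_mem_iff_right _ (cj_mem _ _ _ _)).1 hS.2
    rw [(h.ws.ax e).ker _ e1, add_zero] at e2
    obtain ⟨l, hl, x, hx, rfl⟩ := Submodule.mem_sup.1 hy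
    rw [map_add, cj_ker e g hx, add_zero] at e1
    rw [map_add, (h.ws.ax e).ker _ hl, zero_add] at e2
    exact hyS ⟨add_mem hl (h.p2 h0 e hx e2), add_mem (h.p1 h0 e hl e1) hx⟩
  obtain ⟨a, b, hab⟩ := h.isT (hG hj).1 h0 j3
  obtain ⟨μ, hμ⟩ := Submodule.mem_span_singleton.1 (mem_span_of_LW (a.map_ne_zero_iff.2 hu₀)
    (hab u₀ w₀ ▸ mem_of_comm (θ := j.toLinearMap) h0 j3 u₀))
  have e1 : ∀ v, b (b v) = μ • μ • v := fun v => by
    have e2 := j2 (u₀ ⊗ₜ w₀)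
    rw [hab, hab, ← hμ, map_smul, ← hμ, tmul_smul, tmul_smul, smul_tmul', smul_tmul'] at e2
    refine tmul_right_inj (F := F) (a.map_ne_zero_iff.2 (a.map_ne_zero_iff.2 hu₀)) ?_
    rw [← hab, ← hab, j2, tmul_smul, tmul_smul, smul_tmul', smul_tmul', tmul_left_inj h.w0 e2]
  obtain ⟨v, hv⟩ := exists_not_mem_span (K := F) (by have := h.ws.m3; omega) w₀
  obtain ⟨ψ, hψ⟩ : ∃ ψ, ∀ x, j x = x + Nr U ψ w₀ x := by
    by_cases hw : b v + μ • v ∈ F ∙ w₀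
    · obtain ⟨c, hc⟩ := Submodule.mem_span_singleton.1 hw
      exact h.lemH (hG hj) hab hv (Submodule.mem_span_pair.2 ⟨c, -μ, by rw [hc]; module⟩)
    · exact h.lemH (hG hj) hab hw (Submodule.mem_span_pair.2 ⟨0, μ, by
        rw [map_add, map_smul, e1]; module⟩)
  obtain ⟨y, hy⟩ := exists_apply_one h0
  have e2 : ψ w₀ = 0 := by
    have := j3 (u₀ ⊗ₜ y)
    simpa [hψ, Nr_apply, hy, e, hu₀, tmul_ne_zero (F := F) hu₀ h.w0, ← smul_tmul'] using this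
  refine j1 (LinearEquiv.ext fun x => ?_)
  have := j2 x
  rw [hψ, hψ, map_add, (h.ws.ax e2).sq, add_zero, add_assoc, add_eq_left, ← two_smul F,
    smul_eq_zero] at this
  simp [hψ, this.resolve_left h2]

theorem lemZ {z k : (U ⊗[F] W) ≃ₗ[F] (U ⊗[F] W)} (hz : z ∈ M) (hk : k ∈ M) (z1 : z ≠ 1)
    {φ φ' φ'' : Dual F W} (h0 : φ ≠ 0) (h0' : φ' ≠ 0) (h0'' : φ'' ≠ 0) (e : φ w₀ = 0)
    (e' : φ' w₀ = 0) (e'' : φ'' w₀ = 0) (c1 : z * rt U e = rt U e * z)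
    (c2 : z * (g * rt U e' * g⁻¹) = g * rt U e' * g⁻¹ * z) (c3 : k * rt U e'' * k⁻¹ = z * rt U e)
    (hY : im (LW F U w₀) k ≤ LW F U w₀ ⊔ im (LW F U w₀) g) : False := by
  have := h.ws.nt
  obtain ⟨u₀, hu₀⟩ := exists_ne (0 : U)
  have d1 : ∀ x, z (Nr U φ w₀ x) = Nr U φ w₀ (z x) := fun x => by
    simpa [rt_apply] using LinearEquiv.congr_fun c1 x
  have d2 : ∀ x, z (cjm g (Nr U φ' w₀) x) = cjm g (Nr U φ' w₀) (z x) := fun x => by
    have := LinearEquiv.congr_fun c2 x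
    rwa [LinearEquiv.mul_apply z, LinearEquiv.mul_apply _ z, cj_rt, cj_rt, map_add,
      add_right_inj] at this
  obtain ⟨v, hv⟩ := exists_not_mem_span (K := F) (by have := h.ws.m3; omega) w₀
  rcases h.ws.cases_cj e'' (c3 ▸ (tSub F U W).mul_mem (h.isT hz h0 d1)
    (h.isT (φ' := φ) (h.ws.mem e) h0 fun x => by simp [rt_apply])) with ⟨γ, hγ⟩ | ⟨w', w0, e1⟩
  · have : cjm k (Nr U φ'' w₀) = 0 := TensorProduct.ext' fun u w => by
      rw [hγ, h.k2 (u := γ u) hv (hγ u v ▸ hY (cj_mem _ _ _ _))]; simp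
    obtain ⟨y, hy⟩ := exists_apply_one h0''
    exact tmul_ne_zero (F := F) hu₀ h.w0 (by
      simpa [Nr_apply, hy] using LinearMap.congr_fun this (k (u₀ ⊗ₜ y)))
  obtain ⟨c, rfl⟩ := Submodule.mem_span_singleton.1
    (by_contra fun hn => hu₀ (h.k2 hn (hY (e1 ▸ tmul_mem_LW u₀ w'))))
  rw [LW_eq_of (tmul_mem_LW u₀ (c • w₀)) ⟨c • u₀, smul_tmul _ _ _⟩ (tmul_ne_zero hu₀ w0)] at e1
  have hA := e1 ▸ (h.ws.ax e'').conj hk
  obtain ⟨ψ, hψ⟩ := h.ws.std w₀ h.w0 _ hA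
  have p0 : ψ w₀ = 0 := by
    simpa [tmul_ne_zero (F := F) hu₀ h.w0, ← smul_tmul', hψ] using hA.ker _ (tmul_mem_LW u₀ w₀)
  have e2 : ∀ x, z x = x + Nr U (ψ - φ) w₀ x := fun x => by
    have := LinearEquiv.congr_fun c3 ((rt U e).symm x)
    rw [LinearEquiv.mul_apply z, LinearEquiv.apply_symm_apply, cj_rt, hψ, rt_symm] at this
    rw [← this]
    simp [Nr_apply, p0, cW_sub, sub_tmul]
    abel
  refine h.not_le fun x hx => h.p2 (φ := ψ - φ) (fun e => z1 (LinearEquiv.ext fun x => by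
    simp [e2, e, Nr_apply])) (by simp [e, p0]) hx ?_
  obtain ⟨y, rfl⟩ := cj_surj h0' g hx
  have := d2 y ▸ cj_mem φ' w₀ g (z y)
  rw [e2] at this
  exact (Submodule.add_mem_iff_right _ hx).1 this

theorem conj_ex [Finite F] (h2 : (2 : F) = 0) {φ φ' : Dual F W} (h0 : φ ≠ 0) (h0' : φ' ≠ 0)
    (e : φ w₀ = 0) (e' : φ' w₀ = 0) : ∃ x ∈ mvG M (LW F U w₀ ⊔ im (LW F U w₀) g),
      x * (g * rt U e' * g⁻¹) * x⁻¹ = rt U e := by
  have : Finite (U ⊗[F] W) := Module.finite_of_finite F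
  have : Finite ((U ⊗[F] W) ≃ₗ[F] (U ⊗[F] W)) := DFunLike.finite _
  have sq : ∀ {φ : Dual F W} (e : φ w₀ = 0), rt U e * rt U e = 1 := fun {φ} e =>
    LinearEquiv.ext fun x => by
      rw [LinearEquiv.mul_apply, rt_apply, rt_apply, map_add, (h.ws.ax e).sq, add_zero, add_assoc,
        ← two_smul F, h2, zero_smul, add_zero]; rfl
  refine (dih (h.t_mem e') (h.s_mem e) (by
    rw [mul_assoc, mul_assoc, ← mul_assoc g⁻¹, ← mul_assoc g⁻¹, inv_mul_cancel, one_mul,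
      ← mul_assoc (rt U e'), sq, one_mul, mul_inv_cancel]) (sq e)).resolve_right ?_
  rintro ⟨c, hc, c1, c2, c3, x, hx, c4⟩
  have hY : im (LW F U w₀) (x * g) ≤ LW F U w₀ ⊔ im (LW F U w₀) g := by
    rintro _ ⟨l, hl, rfl⟩
    simpa using add_mem (hx.2 (g l)) (Submodule.mem_sup_right (apply_mem_im.2 hl))
  rcases c4 with c4 | c4
  · refine h.symm.lemZ (z := g⁻¹ * c * g) (k := g⁻¹ * (x * g))
      (M.mul_mem (M.mul_mem (M.inv_mem h.mem) hc.1) h.mem)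
      (M.mul_mem (M.inv_mem h.mem) (M.mul_mem hx.1 h.mem)) (fun e => c1 ?_) h0' h0 h0' e' e e' ?_ ?_
      ?_ ?_
    · rw [show c = g * (g⁻¹ * c * g) * g⁻¹ by group, e]; group
    · simpa [mul_assoc] using congrArg (fun y => g⁻¹ * y * g) c2
    · simpa [mul_assoc] using congrArg (fun y => g⁻¹ * y * g) c3
    · simpa [mul_assoc] using congrArg (fun y => g⁻¹ * y * g) c4
    · rw [im_mul]
      refine (Submodule.map_mono hY).trans ?_
      rw [Submodule.map_sup, sup_comm]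
      exact sup_le_sup_right (by rw [← im, ← im_mul, inv_mul_cancel, im_one]) _
  · exact h.lemZ hc.1 (M.mul_mem hx.1 h.mem) c1 h0 h0' h0' e e' e' c3 c2
      (by simpa [mul_assoc] using c4) hY

theorem even [Finite F] (h2 : (2 : F) = 0) (ho : finrank F W = 3 → Odd (finrank F U)) : False := by
  have := h.ws.nt
  obtain ⟨u₀, hu₀⟩ := exists_ne (0 : U)
  obtain ⟨φ₁, h1, e1, -⟩ := exists_dual_pair h.ws.m3 w₀ w₀
  obtain ⟨y, y1, y2⟩ := exists_ker_not_mem h.ws.m3 φ₁ w₀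
  obtain ⟨φ₂, e2, y3⟩ := exists_dual_two y2
  have h2' : φ₂ ≠ 0 := by rintro rfl; simp at y3
  obtain ⟨x₁, m1, c1⟩ := h.conj_ex h2 h1 h1 e1 e1
  obtain ⟨x₂, m2, c2⟩ := h.conj_ex h2 h2' h1 e2 e1
  have hk := mul_mem m2 (inv_mem m1)
  have c3 : x₂ * x₁⁻¹ * rt U e1 = rt U e2 * (x₂ * x₁⁻¹) := by rw [← c1, ← c2]; group
  generalize x₂ * x₁⁻¹ = k at hk c3
  have c4 : ∀ x, k (Nr U φ₁ w₀ x) = Nr U φ₂ w₀ (k x) := fun x => by
    simpa [rt_apply] using LinearEquiv.congr_fun c3 x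
  obtain ⟨a, b, hab⟩ := h.isT hk.1 h1 c4
  have ne : ∀ w, w ∉ F ∙ w₀ → b w ∉ Submodule.span F {w₀, w} := fun w hw hb => by
    obtain ⟨ψ, hψ⟩ := h.lemH hk hab hw hb
    have := c4 (u₀ ⊗ₜ y)
    exact tmul_ne_zero (F := F) hu₀ h.w0 (by simpa [hψ, Nr_apply, y1, y3, e2] using this.symm)
  obtain ⟨χ₂, a1, a2, a3⟩ := exists_dual_three (ne y y2)
  obtain ⟨χ₁, b1, b2, b3⟩ : ∃ χ₁ : Dual F W, χ₁ w₀ = 0 ∧ χ₁ y = 1 ∧ χ₁ (b y) = 0 :=
    ⟨φ₂ - φ₂ (b y) • χ₂, by simp [e2, a1], by simp [y3, a2], by simp [a3]⟩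
  let f : U →ₗ[F] U ⊗[F] W := (k.toLinearMap - LinearMap.id) ∘ₗ inW F U y
  have hf : ∀ u, f u = a u ⊗ₜ b y - u ⊗ₜ y := fun u => by simp [f, hab]
  have hY : LW F U w₀ ⊔ LinearMap.range f = LW F U w₀ ⊔ im (LW F U w₀) g := by
    refine Submodule.eq_of_le_of_finrank_le (sup_le le_sup_left (by
      rintro _ ⟨u, rfl⟩; exact hk.2 _)) ((Submodule.finrank_add_le_finrank_add_finrank _ _).trans ?_)
    have := Submodule.finrank_sup_add_finrank_inf_eq (LW F U w₀) (LinearMap.range f)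
    rw [show LW F U w₀ ⊓ LinearMap.range f = ⊥ from (Submodule.eq_bot_iff _).2 (by
      rintro _ ⟨hu, u, rfl⟩
      have := cW_LW b1 hu
      simp [hf, b2, b3] at this
      simp [this]), finrank_bot, LinearMap.finrank_range_of_inj ((injective_iff_map_eq_zero _).2
        fun u hu => by simpa [hf, b2, b3] using congrArg (cW U χ₁) hu)] at this
    rw [finrank_im, ← finrank_LW (F := F) (U := U) h.w0] at *
    omega
  have hr : ∀ v, v - χ₁ v • y - χ₂ v • b y ∈ F ∙ w₀ := fun v => by_contra fun hn => by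
    obtain ⟨χ, d1, d2⟩ := exists_dual_two hn
    refine h.not_le fun x hx => h.k1 (φ := χ - χ y • χ₁ - χ (b y) • χ₂) (fun e => ?_)
      (by simp [d1, a1, b1]) (Submodule.mem_sup_right hx) ?_
    · have := LinearMap.congr_fun e v
      simp [mul_comm] at this d2
      simp [this] at d2
    · obtain ⟨l, hl, _, ⟨u, rfl⟩, e⟩ := Submodule.mem_sup.1 (hY ▸ Submodule.mem_sup_right hx)
      rw [← e, map_add, cW_LW (by simp [d1, a1, b1]) hl, hf]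
      simp [a2, a3, b2, b3]
  have h3 : finrank F W = 3 := le_antisymm (by
    classical
    rw [← finrank_top, ← show Submodule.span F (({w₀, y, b y} : Finset W) : Set W) = ⊤ from
      eq_top_iff.2 fun v _ => by
        obtain ⟨c, hc⟩ := Submodule.mem_span_singleton.1 (hr v)
        rw [show v = c • w₀ + χ₁ v • y + χ₂ v • b y by rw [hc]; module]
        refine add_mem (add_mem ?_ ?_) ?_ <;>
          exact Submodule.smul_mem _ _ (Submodule.subset_span (by simp))]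
    exact (finrank_span_finset_le_card _).trans Finset.card_le_three) h.ws.m3
  refine Nat.not_even_iff_odd.2 (ho h3) (even_of_quad (c := a.symm.toLinearMap)
    (T := χ₂ (b (b y))) (N := χ₁ (b (b y))) (fun u => ?_) fun θ hθ => ?_)
  · obtain ⟨u, rfl⟩ := a.surjective u
    obtain ⟨u, rfl⟩ := a.surjective u
    obtain ⟨l, hl, _, ⟨u', rfl⟩, e⟩ := Submodule.mem_sup.1 (hY ▸ hk.2 (u ⊗ₜ b y))
    have d1 := congrArg (cW U χ₁) e
    have d2 := congrArg (cW U χ₂) e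
    simp only [map_add, map_sub, cW_LW b1 hl, cW_LW a1 hl, hf, hab, cW_tmul, a2, a3, b2, b3,
      zero_smul, one_smul, zero_add, zero_sub, sub_zero, neg_eq_iff_eq_neg] at d1 d2
    simp only [LinearEquiv.coe_coe, LinearEquiv.symm_apply_apply]
    rw [d1, map_neg, map_smul] at d2
    linear_combination (norm := module) d2
  · obtain ⟨c, hc⟩ := Submodule.mem_span_singleton.1 (hr (b (b y)))
    refine ne (b y - (χ₂ (b (b y)) - θ) • y) (fun e => ?_) (Submodule.mem_span_pair.2 ⟨c, θ, ?_⟩)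
    · obtain ⟨c, hc⟩ := Submodule.mem_span_singleton.1 e
      simpa [a1, a2, a3] using congrArg χ₂ hc
    · rw [hc, map_sub, map_smul]
      linear_combination (norm := module) hθ • y

end MP

theorem WS.dich [Finite F] {M : Subgroup ((U ⊗[F] W) ≃ₗ[F] (U ⊗[F] W))} (h : WS M)
    (ho : (2 : F) = 0 → finrank F W = 3 → Odd (finrank F U)) {g : (U ⊗[F] W) ≃ₗ[F] (U ⊗[F] W)}
    (hg : g ∈ M) : IsT g ∨ Cm g := by
  by_contra hn
  push Not at hn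
  have : Nontrivial W := Module.nontrivial_of_finrank_pos (R := F) (by have := h.m3; omega)
  obtain ⟨w₀, hw⟩ := exists_ne (0 : W)
  have : Finite (U ⊗[F] W) := Module.finite_of_finite F
  have : Finite ((U ⊗[F] W) ≃ₗ[F] (U ⊗[F] W)) := DFunLike.finite _
  obtain ⟨g, ⟨a, b, c⟩, hm⟩ := Set.exists_max_image {g | g ∈ M ∧ ¬ IsT g ∧ ¬ Cm g}
    (fun g => finrank F ↥(LW F U w₀ ⊓ im (LW F U w₀) g)) (Set.toFinite _) ⟨g, hg, hn⟩
  have hM : MP M w₀ g := ⟨h, hw, a, b, c, fun g' a b c => hm g' ⟨a, b, c⟩⟩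
  by_cases h2 : (2 : F) = 0
  exacts [hM.even h2 (ho h2), hM.odd h2]

end Cfsg.Agent.Max
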