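import Mathlib
import Cfsg.Agent.Max.TW2

/-!
# Matrix units, and invariant subalgebras of tensor powers
-/

set_option autoImplicit false
set_option linter.unusedSectionVars false

namespace Cfsg.Agent.Max

open Module

section Units

variable {B : Type*} [Ring B]

/-- `1 + x` lies in `M`. -/
def RM (M : Subgroup Bˣ) (x : B) : Prop := ∃ g ∈ M, (g : B) = 1 + x

namespace RM

variable {M : Subgroup Bˣ} {x y : B}

theorem zero : RM M 0 := ⟨1, one_mem _, by simp⟩

theorem mul (h : RM M x) (h' : RM M y) : RM M (x + y + x * y) := by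
  obtain ⟨g, hg, e⟩ := h
  obtain ⟨g', hg', e'⟩ := h'
  exact ⟨_, mul_mem hg hg', by rw [Units.val_mul, e, e']; noncomm_ring⟩

theorem add (h : RM M x) (h' : RM M y) (e : x * y = 0) : RM M (x + y) := by
  simpa [e] using h.mul h'

theorem neg (h : RM M x) (e : x * x = 0) : RM M (-x) := by
  obtain ⟨g, hg, e'⟩ := h
  refine ⟨_, inv_mem hg, Units.inv_eq_of_mul_eq_one_right ?_⟩
  rw [e', add_mul, mul_add x, mul_neg, e]; simp

theorem comm (h : RM M x) (h' : RM M y) (e : x * x = 0) (e' : y * y = 0) (e'' : y * x = 0) :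
    RM M (x * y) := by
  convert (h.mul h').mul ((h.neg e).mul (h'.neg e')) using 1
  simp only [mul_add, add_mul, mul_neg, neg_mul, neg_neg, mul_assoc, e, e', e'', ← mul_assoc x x,
    ← mul_assoc y x, zero_mul, mul_zero]
  abel

theorem conj (h : RM M x) {g : Bˣ} (hg : g ∈ M) : RM M (g * x * (g⁻¹ : Bˣ)) := by
  obtain ⟨k, hk, e⟩ := h
  exact ⟨_, mul_mem (mul_mem hg hk) (inv_mem hg), by simp [e, mul_add, add_mul]⟩

end RM

/-- The commutator operation. -/
def opU (n x : B) : B := n * x - x * n - n * x * n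

theorem RM.op {M : Subgroup Bˣ} {n x : B} (h : RM M x) (hn : RM M n) (e : n * n = 0)
    (e' : x * x = 0) (e'' : opU n x * x = 0) : RM M (opU n x) := by
  obtain ⟨g, hg, e1⟩ := hn
  have e2 : ((g⁻¹ : Bˣ) : B) = 1 - n := Units.inv_eq_of_mul_eq_one_right (by
    rw [e1, add_mul, mul_sub n, e]; simp)
  have e3 : g * x * (g⁻¹ : Bˣ) = opU n x + x := by rw [e1, e2, opU]; noncomm_ring
  simpa [e3] using (h.conj hg).add (h.neg e') (by rw [e3, mul_neg, add_mul, e', e'']; simp)

variable {α : Type*} [Fintype α] [DecidableEq α]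

/-- A system of matrix units. -/
structure MU (E : α → α → B) : Prop where
  mul : ∀ a b c d, E a b * E c d = if b = c then E a d else 0
  sum : ∑ a, E a a = 1

namespace MU

variable {E : α → α → B} (h : MU E)
include h

theorem mul' (a b c d : α) (x : B) : E a b * (E c d * x) = if b = c then E a d * x else 0 := by
  rw [← mul_assoc, h.mul]; split_ifs <;> simp

theorem comp_mul (γ : B) (p q a b : α) : (∑ c, E c p * γ * E q c) * E a b = E a p * γ * E q b := by
  simp [Finset.sum_mul, mul_assoc, h.mul]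

theorem comp_comm (γ : B) (p q a b : α) : Commute (∑ c, E c p * γ * E q c) (E a b) := by
  rw [Commute, SemiconjBy, h.comp_mul]
  simp [Finset.mul_sum, mul_assoc, h.mul']

theorem decomp (γ : B) : ∑ a, ∑ b, E a a * γ * E b b = γ := by
  simp only [← Finset.mul_sum, ← Finset.sum_mul, h.sum, one_mul, mul_one]

theorem ind {P : B → Prop} (h3 : ∀ a b : α, ∃ c, c ≠ a ∧ c ≠ b)
    (hm : ∀ x y, P x → P y → P (x * y)) (h0 : ∀ a b, a ≠ b → P (E a b)) (a b : α) : P (E a b) := by
  obtain ⟨c, h1, h2⟩ := h3 a b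
  simpa [h.mul] using hm _ _ (h0 a c h1.symm) (h0 c b h2)

theorem move {D : AddSubgroup B} (h3 : ∀ a b : α, ∃ c, c ≠ a ∧ c ≠ b)
    (hD : ∀ a b, a ≠ b → ∀ x ∈ D, opU (E a b) x ∈ D) {δ : B} (hδ : ∀ a b, Commute δ (E a b))
    {p q : α} (hpq : q ≠ p) (h0 : δ * E q p ∈ D) {a b : α} (hab : a ≠ b) : δ * E a b ∈ D := by
  have c : ∀ a b y, E a b * (δ * y) = δ * (E a b * y) := fun a b y => by
    rw [← mul_assoc, ← (hδ a b).eq, mul_assoc]
  have m1 : ∀ {p q x}, q ≠ p → x ≠ p → δ * E q p ∈ D → δ * E x p ∈ D := fun {p q x} h1 h2 h0 => by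
    by_cases e : x = q
    · rwa [e]
    simpa [opU, mul_assoc, c, h.mul, h2.symm] using hD x q e _ h0
  have m2 : ∀ {p q y}, q ≠ p → q ≠ y → δ * E q p ∈ D → δ * E q y ∈ D := fun {p q y} h1 h2 h0 => by
    by_cases e : p = y
    · rwa [← e]
    simpa [opU, mul_assoc, c, h.mul, h.mul', h2.symm] using hD p y e _ h0
  by_cases e : a = p
  · obtain ⟨r, r1, r2⟩ := h3 p q
    exact m2 (e ▸ r1.symm) hab (m1 r2.symm (e ▸ r1.symm) (m2 hpq r2.symm h0))
  · exact m2 e hab (m1 hpq e h0)

theorem ext {D : AddSubgroup B} (h3 : ∀ a b : α, ∃ c, c ≠ a ∧ c ≠ b)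
    (hD : ∀ a b, a ≠ b → ∀ x ∈ D, opU (E a b) x ∈ D) : (∀ γ ∈ D, ∀ a b, Commute γ (E a b)) ∨
      ∃ γ ∈ D, ∃ p q, (∑ c, E c p * γ * E q c) ≠ 0 ∧
        ∀ a b, a ≠ b → (∑ c, E c p * γ * E q c) * E a b ∈ D := by
  by_cases h1 : ∀ γ ∈ D, ∀ p q, p ≠ q → E p p * γ * E q q = 0
  · refine .inl fun γ hγ => h.ind h3 (P := Commute γ) (fun _ _ => Commute.mul_right) fun a b hab => ?_
    have e1 := h1 _ (hD a b hab γ hγ) a b hab
    have e2 : E a b * γ * E a b = 0 := by
      simpa [mul_assoc, h.mul, h.mul'] using congrArg (E a b * · * E a b) (h1 γ hγ b a hab.symm)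
    have e3 : ∀ c, γ * E c c = E c c * γ * E c c := fun c => by
      conv_lhs => rw [← one_mul γ, ← h.sum, Finset.sum_mul, Finset.sum_mul]
      exact Finset.sum_eq_single c (fun d _ hd => h1 γ hγ d c hd) (by simp)
    have e4 : ∀ c, E c c * γ = E c c * γ * E c c := fun c => by
      conv_lhs => rw [← mul_one γ, ← h.sum, Finset.mul_sum, Finset.mul_sum]
      rw [Finset.sum_eq_single c (fun d _ hd => by rw [← mul_assoc, h1 γ hγ c d hd.symm]) (by simp),
        mul_assoc]
    have e5 := congrArg (· * E a b) (e3 a)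
    have e6 := congrArg (E a b * ·) (e4 b)
    rw [opU, e2, sub_zero] at e1
    simp only [mul_sub, sub_mul, mul_assoc, h.mul, h.mul', if_true, sub_eq_zero] at e1 e5 e6
    rw [Commute, SemiconjBy, e5, e6, e1]
  push Not at h1
  obtain ⟨γ, hγ, p, q, hpq, h0⟩ := h1
  refine .inr ⟨γ, hγ, p, q, fun e => h0 (by rw [← h.comp_mul, e, zero_mul]), fun a b hab =>
    h.move h3 hD (h.comp_comm γ p q) hpq.symm ?_ hab⟩
  obtain ⟨r, r1, r2⟩ := h3 p q
  rw [h.comp_mul]
  simpa [opU, mul_sub, sub_mul, mul_assoc, h.mul, h.mul', hpq, r1, r2, r2.symm, r1.symm] using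
    hD r p r1 _ (hD q p hpq.symm _ (hD q r r2.symm γ hγ))

end MU

variable {F : Type*} [Field F] [Algebra F B] {τ : Type*} [DecidableEq τ] {E : τ → α → α → B}

theorem inv_alg (h : ∀ j, MU (E j)) (h3 : ∀ a b : α, ∃ c, c ≠ a ∧ c ≠ b)
    (hc : ∀ j k, j ≠ k → ∀ a b c d, Commute (E j a b) (E k c d))
    (hz : ∀ γ, (∀ j a b, Commute γ (E j a b)) → ∃ c : F, γ = c • 1) (s : Finset τ) :
    ∀ D : Submodule F B, (∀ x ∈ D, ∀ y ∈ D, x * y ∈ D) →
      (∀ j ∈ s, ∀ a b, a ≠ b → ∀ x ∈ D, opU (E j a b) x ∈ D) →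
      (∀ x ∈ D, ∀ j ∉ s, ∀ a b, Commute x (E j a b)) →
      (∀ x ∈ D, ∃ c : F, x = c • 1) ∨ ∃ j ∈ s, ∀ a b, E j a b ∈ D := by
  induction s using Finset.induction_on with
  | empty => exact fun D _ _ h1 => .inl fun x hx => hz x fun j => h1 x hx j (by simp)
  | insert j s hj ih =>
    intro D hm ho hx
    rcases (h j).ext (D := D.toAddSubgroup) h3 (ho j (by simp)) with h1 | ⟨γ, hγ, p, q, h1, h2⟩
    · refine (ih D hm (fun k hk => ho k (by simp [hk])) fun x e k hk => ?_).imp_right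
        fun ⟨k, hk, e⟩ => ⟨k, by simp [hk], e⟩
      by_cases e' : k = j
      exacts [e' ▸ h1 x e, hx x e k (by simp [e', hk])]
    let D' : Submodule F B :=
      { carrier := {δ | (∀ k ∉ s, ∀ a b, Commute δ (E k a b)) ∧ ∀ a b, a ≠ b → δ * E j a b ∈ D}
        add_mem' := fun {x y} e e' => ⟨fun k hk a b => (e.1 k hk a b).add_left (e'.1 k hk a b),
          fun a b hab => add_mul x y _ ▸ add_mem (e.2 a b hab) (e'.2 a b hab)⟩
        zero_mem' := ⟨fun _ _ _ _ => Commute.zero_left _, fun _ _ _ => by simp⟩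
        smul_mem' := fun c x e => ⟨fun k hk a b => (e.1 k hk a b).smul_left c,
          fun a b hab => smul_mul_assoc c x _ ▸ D.smul_mem c (e.2 a b hab)⟩ }
    have h4 : (1 : B) ∈ D' := by
      have hm' : ∀ x ∈ D', ∀ y ∈ D', x * y ∈ D' := fun x e y e' =>
        ⟨fun k hk a b => (e.1 k hk a b).mul_left (e'.1 k hk a b), fun a b hab => by
          obtain ⟨c, c1, c2⟩ := h3 a b
          have := hm _ (e.2 a c c1.symm) _ (e'.2 c b c2)
          rwa [mul_assoc, ← mul_assoc (E j a c), ← (e'.1 j hj a c).eq, mul_assoc, (h j).mul,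
            if_pos rfl, ← mul_assoc] at this⟩
      have ho' : ∀ k ∈ s, ∀ a b, a ≠ b → ∀ x ∈ D', opU (E k a b) x ∈ D' := by
        refine fun k hk a b hab x e => ⟨fun l hl c d => ?_, fun c d hcd => ?_⟩
        · have e1 := hc k l (fun e => hl (e ▸ hk)) a b c d
          have e2 := e.1 l hl c d
          exact ((e1.mul_left e2).sub_left (e2.mul_left e1)).sub_left ((e1.mul_left e2).mul_left e1)
        · have e1 := (hc k j (fun e => hj (e ▸ hk)) a b c d).eq
          convert ho k (by simp [hk]) a b hab _ (e.2 c d hcd) using 1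
          simp only [opU, sub_mul, mul_assoc, e1]
      rcases ih D' hm' ho' (fun x e => e.1) with h5 | ⟨k, -, h5⟩
      · suffices h6 : (∑ c, E j c p * γ * E j q c) ∈ D' by
          obtain ⟨c, e⟩ := h5 _ h6
          have c0 : c ≠ 0 := by rintro rfl; exact h1 (by simpa using e)
          rwa [e, D'.smul_mem_iff c0] at h6
        refine ⟨fun k hk a b => ?_, h2⟩
        by_cases e : k = j
        · rw [e]; exact (h j).comp_comm _ _ _ _ _
        exact Commute.sum_left _ _ _ fun c _ => ((hc j k (Ne.symm e) _ _ _ _).mul_left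
          (hx γ hγ k (by simp [e, hk]) a b)).mul_left (hc j k (Ne.symm e) _ _ _ _)
      · exact (h k).sum ▸ sum_mem fun a _ => h5 a a
    exact .inr ⟨j, by simp, (h j).ind h3 (P := (· ∈ D)) (fun x y e e' => hm x e y e')
      fun a b hab => by simpa using h4.2 a b hab⟩

end Units

section NonStd

open Cfsg.Agent.Max2 TensorProduct

variable {F U W : Type*} [Field F] [AddCommGroup U] [Module F U] [AddCommGroup W] [Module F W]
  [FiniteDimensional F U] [FiniteDimensional F W] {M : Subgroup ((U ⊗[F] W) ≃ₗ[F] (U ⊗[F] W))}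

theorem Dm_all' (hH : ∀ (φ : Dual F W) w, φ w = 0 → R M (Nr U φ w)) (hn : 3 ≤ finrank F W)
    {γ : U →ₗ[F] U} {φ : Dual F W} {w : W} (hφ : φ ≠ 0) (hw : w ≠ 0) (h0 : φ w = 0)
    (h : R M (Dm γ φ w)) (w' : W) (φ' : Dual F W) (h' : φ' w' = 0) : R M (Dm γ φ' w') := by
  have step : ∀ (φ χ : Dual F W) v, φ w = 0 → R M (Dm γ φ w) → φ v = 1 → χ v = 0 → χ w = 0 →
      R M (Dm γ χ w) := fun φ χ v h0 h h1 h2 h3 =>
    (h.comm (hH _ _ h2) (Dm_Dm _ _ _ _ h0) (Dm_Dm _ _ _ _ h2) (Dm_Dm _ _ _ _ h3)).congr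
      fun x => by simp [Dm_apply, h1]
  obtain ⟨v, hv⟩ := exists_apply_one hφ
  have hP : ∀ χ : Dual F W, χ w = 0 → R M (Dm γ χ w) := by
    intro χ hχ
    obtain ⟨χ₁, e0, e1, e2⟩ := exists_dual_pair hn w v
    obtain ⟨v', hv'⟩ := exists_apply_one e0
    have h1 := step χ₁ (χ v • φ) (v' - φ v' • v) e1 (step φ χ₁ v h0 h hv e2 e1)
      (by simp [hv', e2]) (by simp [hv]) (by simp [h0])
    have h2 := step φ (χ - χ v • φ) v h0 h hv (by simp [hv]) (by simp [h0, hχ])
    refine (h1.add h2 (Dm_Dm _ _ _ _ (by simp [h0]))).congr fun x => ?_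
    rw [LinearMap.add_apply, Dm_apply, Dm_apply, Dm_apply, ← add_tmul, ← map_add, ← cW_add,
      add_sub_cancel]
  by_cases hw' : w' = 0
  · exact R.zero.congr fun x => by simp [Dm_apply, hw']
  refine move_ind (K := F) (by omega) (P := fun w => ∀ χ : Dual F W, χ w = 0 → R M (Dm γ χ w))
    ?_ hw hP hw' φ' h'
  intro s χ v hχ hP ψ hψ
  obtain ⟨t, ht, e⟩ := hH _ _ hχ
  refine (hP (ψ + ψ v • χ) (by simpa [mul_comm] using hψ)).conj' ht fun x => ?_
  simp [e, Dm_apply, cW_add, cW_smul, tmul_add, smul_tmul', add_tmul]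

theorem exists_of_not_std [Nontrivial U] (hH : ∀ (φ : Dual F W) w, φ w = 0 → R M (Nr U φ w))
    (hn : 3 ≤ finrank F W) (hS : ¬ Max2.Std M) : ∃ γ : U →ₗ[F] U,
      (∀ c : F, γ ≠ c • LinearMap.id) ∧ ∀ w (φ : Dual F W), φ w = 0 → R M (Dm γ φ w) := by
  simp only [Max2.Std, not_forall, not_exists] at hS
  obtain ⟨w₀, hw₀, θ, hθ, hS⟩ := hS
  obtain ⟨χ, hχ⟩ := exists_dual_one (F := F) hw₀
  have hθ' : ∀ x, cW U χ (θ x) ⊗ₜ w₀ = θ x := fun x => eq_of_mem_LW hχ (hθ.rg x)
  obtain ⟨w, hw⟩ : ∃ w, ∀ c : F, cW U χ ∘ₗ θ ∘ₗ inW F U w ≠ c • LinearMap.id := by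
    by_contra hn'
    push Not at hn'
    obtain ⟨u₀, hu₀⟩ := exists_ne (0 : U)
    obtain ⟨ψ, hψ⟩ := exists_dual_one (F := F) hu₀
    obtain ⟨x, hx⟩ := hS (ψ ∘ₗ cW U χ ∘ₗ θ ∘ₗ TensorProduct.mk F U W u₀)
    apply hx
    rw [← hθ']
    congr 1
    rw [← LinearMap.comp_apply]
    congr 1
    refine TensorProduct.ext' fun u w => ?_
    obtain ⟨c, hc⟩ := hn' w
    have e : ∀ u, cW U χ (θ (u ⊗ₜ w)) = c • u := fun u => LinearMap.congr_fun hc u
    simp [e, hψ]
  obtain ⟨φ, h0, h1, h2⟩ := exists_dual_pair hn w₀ w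
  exact ⟨_, hw, Dm_all' hH hn h0 hw₀ h1 ((hθ.mem.comm (hH _ _ h2) hθ.sq (Dm_Dm _ _ _ _ h2)
    fun x => Dm_LW _ _ h1 (hθ.rg x)).congr fun x => by simp [Dm_apply, hθ'])⟩

end NonStd

section Mat

open Cfsg.Agent.Max2 TensorProduct Geo Asch Matrix
open scoped Kronecker

variable {F : Type*} [Field F] {τ : Type} [Fintype τ] [DecidableEq τ] {m : ℕ}

/-- The matrix units of the tensor factors. -/
def EU (F : Type*) [Field F] (j : τ) (a b : Fin m) : Matrix (τ → Fin m) (τ → Fin m) F :=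
  emb F j (single a b 1)

theorem mu_single : MU fun a b : Fin m => (single a b 1 : Matrix (Fin m) (Fin m) F) :=
  ⟨fun a b c d => by split_ifs with h <;> simp [h], by
    ext a b; simp [Matrix.sum_apply, single_apply, one_apply, Finset.sum_ite_eq', ite_and]⟩

theorem mu_EU (j : τ) : MU (EU (m := m) F j) :=
  ⟨fun a b c d => by
    rw [EU, EU, ← map_mul, mu_single.mul]; split_ifs <;> simp [EU], by
    simp only [EU, ← map_sum, mu_single.sum, map_one]⟩

theorem emb_comm {j k : τ} (h : j ≠ k) (x y : Matrix (Fin m) (Fin m) F) :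
    Commute (emb F j x) (emb F k y) :=
  (Pi.mulSingle_commute (f := fun _ : τ => Matrix (Fin m) (Fin m) F) h x y).map (pt τ (Fin m) F)

theorem emb_eq (j : τ) (x : Matrix (Fin m) (Fin m) F) :
    emb F j x = ∑ a, ∑ b, x a b • EU F j a b := by
  conv_lhs => rw [matrix_eq_sum_single x]
  simp only [map_sum, EU, ← map_smul, smul_single, smul_eq_mul, mul_one]

theorem comm_emb {j : τ} {γ : Matrix (τ → Fin m) (τ → Fin m) F}
    (h : ∀ a b, Commute γ (EU F j a b)) (x : Matrix (Fin m) (Fin m) F) : Commute γ (emb F j x) :=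
  emb_eq j x ▸ Commute.sum_right _ _ _ fun a _ => Commute.sum_right _ _ _ fun b _ =>
    (h a b).smul_right _

theorem scalar_of_comm {γ : Matrix (τ → Fin m) (τ → Fin m) F}
    (h : ∀ j a b, Commute γ (EU F j a b)) : ∃ c : F, γ = c • 1 :=
  eq_smul_of_comm_emb fun i x => (comm_emb (h i) x).eq

theorem exists_third_fin (hm : 3 ≤ m) (a b : Fin m) : ∃ c, c ≠ a ∧ c ≠ b :=
  Fin.exists_ne_and_ne_of_two_lt a b (by omega)

theorem EU_ne_zero (j : τ) (a b : Fin m) : EU F j a b ≠ 0 := fun e => by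
  have : Nonempty (Fin m) := ⟨a⟩
  have := (emb F j).toRingHom.injective (a₁ := single a b 1) (a₂ := 0) (by simpa [EU] using e)
  simpa using congrFun (congrFun this a) b

/-- Splitting off the `i`-th factor. -/
noncomputable def spl (m : ℕ) (i : τ) :
    (τ → Fin m) ≃ Fin (Fintype.card ({j // j ≠ i} → Fin m)) × Fin m :=
  (Equiv.funSplitAt i _).trans ((Equiv.prodComm _ _).trans
    ((Fintype.equivFin _).prodCongr (Equiv.refl _)))

theorem emb_spl (i : τ) (x : Matrix (Fin m) (Fin m) F) : emb F i x = fr (spl m i) 1 (1 ⊗ₖ x) := by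
  ext u v
  rw [emb_apply, Pi.mulSingle, pt_update, fr_apply]
  simp [spl, one_apply, mul_comm, Finset.prod_ite_zero, funext_iff]

theorem det_one_add' {ι : Type} [Fintype ι] [DecidableEq ι] {x : Matrix ι ι F} (h : x * x = 0) :
    (1 + x).det = 1 := by
  rw [← LinearMap.det_toLin', map_add, toLin'_one]
  exact det_one_add ⟨2, by rw [pow_two, Module.End.mul_eq_comp, ← toLin'_mul, h, map_zero]⟩

/-- `1 + x` as a unit. -/
def uG {B : Type*} [Ring B] (x : B) (h : x * x = 0) : Bˣ :=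
  ⟨1 + x, 1 - x, by rw [add_mul, mul_sub x, h]; simp, by rw [sub_mul, mul_add x, h]; simp⟩

theorem mat_dich [Finite F] (hm : 3 ≤ m) {M : Subgroup (GL (τ → Fin m) F)} (i : τ)
    (hr : ∀ x : Matrix (Fin m) (Fin m) F, x * x = 0 → RM M (emb F i x)) :
    (∃ δ, (∀ c : F, δ ≠ c • 1) ∧ (∀ a b, Commute δ (EU F i a b)) ∧
      ∀ a b, a ≠ b → ∀ c : F, RM M (c • δ * EU F i a b)) ∨
    ∀ g ∈ M, (∀ x, ∃ y, cj g (emb F i x) = emb F i y) ∨
      ∀ x y, Commute (cj g (emb F i x)) (emb F i y) := by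
  let E := tenE (F := F) (spl m i) 1
  let Φ := (toLinAlgEquiv' (R := F) (n := τ → Fin m)).trans (E.conjAlgEquiv F)
  let ρ := (Orth.glEquiv (τ → Fin m) F).trans (cong E)
  have hρ : ∀ g x, ρ g x = Φ g.1 x := fun _ _ => rfl
  have hΦ : ∀ x u w, Φ (emb F i x) (u ⊗ₜ w) = u ⊗ₜ (x *ᵥ w) := fun x u w => by
    change E (emb F i x *ᵥ E.symm _) = _
    rw [emb_spl, fr_kron_tenE, one_mulVec, LinearEquiv.apply_symm_apply]
  have hc : ∀ g x, Φ (cj g x) = cjm (ρ g) (Φ x) := fun g x => LinearMap.ext fun v => by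
    obtain ⟨v, rfl⟩ := (ρ g).surjective v
    rw [cjm_apply, LinearEquiv.symm_apply_apply, hρ, hρ, ← Module.End.mul_apply, ← map_mul,
      cj_mul_self, map_mul, Module.End.mul_apply]
  have hN : ∀ φ w, Nr _ φ w = Φ (emb F i (LinearMap.toMatrix' (φ.smulRight w))) := fun φ w =>
    TensorProduct.ext' fun u v => by
      rw [hΦ, LinearMap.toMatrix'_mulVec]; simp [Nr_apply, smul_tmul]
  have hE : ∀ a b, Φ (EU F i a b) = Nr _ (LinearMap.proj b) (Pi.single a 1) := fun a b =>
    TensorProduct.ext' fun u v => by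
      rw [EU, hΦ, single_mulVec, Nr_apply, cW_tmul, smul_tmul]
      congr 1
      ext k
      simp [Function.update_apply, Pi.single_apply]
  let M' := M.comap ρ.symm.toMonoidHom
  have hR : ∀ x, RM M x ↔ R M' (Φ x) := fun x => ⟨fun ⟨g, hg, e⟩ => ⟨ρ g, by simpa [M'] using hg,
    fun v => by rw [hρ, e, map_add, map_one]; rfl⟩, fun ⟨g, hg, e⟩ => ⟨ρ.symm g, hg,
      Φ.injective (LinearMap.ext fun v => by
        rw [← hρ, ρ.apply_symm_apply, e, map_add, map_one]; rfl)⟩⟩
  have hm' : 3 ≤ finrank F (Fin m → F) := by simpa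
  have : Nonempty (Fin m) := ⟨⟨0, by omega⟩⟩
  have : Nonempty (Fin (Fintype.card ({j // j ≠ i} → Fin m))) := ⟨⟨0, Fintype.card_pos⟩⟩
  have root : ∀ (φ : Dual F (Fin m → F)) w, φ w = 0 → R M' (Nr _ φ w) := fun φ w e => by
    rw [hN, ← hR]
    refine hr _ ?_
    rw [← LinearMap.toMatrix'_comp, map_eq_zero_iff _ LinearMap.toMatrix'.injective]
    ext; simp [e]
  by_cases hS : Max2.Std M'
  · refine .inr fun g hg => (WS.dich ⟨hm', inferInstance, root, hS⟩ (fun _ h3 => ?_)
      (g := ρ g) (by simpa [M'] using hg)).imp ?_ fun h x y => ?_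
    · obtain rfl : m = 3 := by simpa using h3
      simpa using (show Odd 3 by decide).pow
    · rintro ⟨a, b, h⟩ x
      refine ⟨LinearMap.toMatrix' (cjm b (toLin' x)),
        Φ.injective (TensorProduct.ext' fun u w => ?_)⟩
      obtain ⟨u, rfl⟩ := a.surjective u
      obtain ⟨w, rfl⟩ := b.surjective w
      rw [hc, hΦ, ← h, cjm_apply, LinearEquiv.symm_apply_apply, hΦ, h, LinearMap.toMatrix'_mulVec]
      simp
    · have key : ∀ a b, Commute (cj g (EU F i a b)) (emb F i y) :=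
        (mu_EU i).ind (P := fun z => Commute (cj g z) (emb F i y)) (exists_third_fin hm)
          (fun _ _ e e' => map_mul (cj g) _ _ ▸ e.mul_left e') fun a b hab => by
            obtain ⟨γ, hγ⟩ := h (LinearMap.proj b) (Pi.single a 1) (by simp [hab.symm])
            refine Φ.injective (TensorProduct.ext' fun u w => ?_)
            rw [map_mul, map_mul, hc, hE, Module.End.mul_apply, Module.End.mul_apply, hΦ, hγ, hγ,
              hΦ]
      rw [emb_eq, map_sum]
      refine Commute.sum_left _ _ _ fun a _ => ?_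
      rw [map_sum]
      exact Commute.sum_left _ _ _ fun b _ => map_smul (cj g) _ _ ▸ (key a b).smul_left _
  obtain ⟨γ, h1, h2⟩ := exists_of_not_std root hm' hS
  refine .inl ⟨Φ.symm (γ.rTensor _), fun c e => h1 c (LinearMap.ext fun u => ?_), fun a b =>
    Φ.injective (TensorProduct.ext' fun u w => ?_), fun a b hab c => (hR _).2
      ((h2 (Pi.single a 1) (c • LinearMap.proj b) (by simp [hab.symm])).congr fun x => ?_)⟩
  · obtain ⟨w, hw⟩ := exists_ne (0 : Fin m → F)
    rw [AlgEquiv.symm_apply_eq, map_smul, map_one] at e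
    exact tmul_left_inj (F := F) hw (by simpa [smul_tmul'] using LinearMap.congr_fun e (u ⊗ₜ w))
  · simp [hE, Nr_apply]
  · simp [hE, Nr_apply, Dm_apply, cW_smul, smul_tmul']

theorem det_fp_three (i j k : τ) (hij : i ≠ j) (hik : i ≠ k) :
    (fp (Fin m) F (Equiv.swap i k * Equiv.swap i j)).det = 1 := by
  let f : Equiv.Perm τ →* F := ⟨⟨fun σ => (fp (Fin m) F σ).det, by rw [fp_one, det_one]⟩,
    fun _ _ => by simp only [← fp_mul_fp]; exact det_mul _ _⟩
  change f _ = 1
  have : f (Equiv.swap i k) = f (Equiv.swap i j) := by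
    rw [show Equiv.swap i k = Equiv.swap j k * Equiv.swap i j * (Equiv.swap j k)⁻¹ by
      rw [← Equiv.swap_apply_apply, Equiv.swap_apply_left,
        Equiv.swap_apply_of_ne_of_ne hij hik], map_mul, map_mul, mul_right_comm, ← map_mul,
      mul_inv_cancel, map_one, one_mul]
  rw [map_mul, this, ← map_mul, Equiv.swap_mul_self, map_one]

/-- The standard tensor-wreath group. -/
def IsW (g : GL (τ → Fin m) F) : Prop :=
  ∃ (a : τ → GL (Fin m) F) (σ : Equiv.Perm τ), g = ptG a * fpG (Fin m) F σ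

variable {M : Subgroup (GL (τ → Fin m) F)}

theorem w_root (hH : ∀ g : GL (τ → Fin m) F, g.1.det = 1 → IsW g → g ∈ M) (i : τ)
    (x : Matrix (Fin m) (Fin m) F) (h : x * x = 0) : RM M (emb F i x) := by
  have e : (ptG (Pi.mulSingle i (uG x h)) * fpG (Fin m) F 1).1 = 1 + emb F i x := by
    rw [Units.val_mul, fpG_coe, fp_one, mul_one, ptG_coe, ← map_one (emb F i), ← map_add, emb_apply]
    congr 1
    funext j
    by_cases e : j = i
    · subst e; simp [uG]
    · simp [e]
  exact ⟨_, hH _ (e ▸ det_one_add' (by rw [← map_mul, h, map_zero])) ⟨_, _, rfl⟩, e⟩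

theorem w_three (hH : ∀ g : GL (τ → Fin m) F, g.1.det = 1 → IsW g → g ∈ M) {i j k : τ}
    (hij : i ≠ j) (hik : i ≠ k) (hjk : j ≠ k) : ∃ n ∈ M, (∀ x, cj n (emb F i x) = emb F j x) ∧
      ∀ x, cj n (emb F k x) = emb F i x :=
  ⟨fpG (Fin m) F (Equiv.swap i k * Equiv.swap i j), hH _ (det_fp_three i j k hij hik)
    ⟨1, _, by rw [ptG_one, one_mul]⟩, fun x => by
      simp [cj_fpG_emb, Equiv.swap_apply_of_ne_of_ne hij.symm hjk], fun x => by
      simp [cj_fpG_emb, Equiv.swap_apply_of_ne_of_ne hik.symm hjk.symm]⟩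

theorem w_sl (hm : 3 ≤ m) (hH : ∀ g : GL (τ → Fin m) F, g.1.det = 1 → IsW g → g ∈ M) (i : τ)
    {δ : Matrix (τ → Fin m) (τ → Fin m) F} (h1 : ∀ c : F, δ ≠ c • 1)
    (h2 : ∀ a b, Commute δ (EU F i a b)) (h3 : ∀ a b, a ≠ b → ∀ c : F, RM M (c • δ * EU F i a b))
    (g : GL (τ → Fin m) F) (hg : g.1.det = 1) : g ∈ M := by
  have z : ∀ {x y : Matrix (τ → Fin m) (τ → Fin m) F} {a b c d}, Commute y (EU F i a b) →
      x * EU F i a b * (y * EU F i c d) = if b = c then x * y * EU F i a d else 0 :=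
    fun {x y a b c d} e => by
      rw [mul_assoc, ← mul_assoc _ y, ← e.eq, mul_assoc, (mu_EU i).mul, ← mul_assoc]
      split_ifs <;> simp
  let D : Submodule F (Matrix (τ → Fin m) (τ → Fin m) F) :=
    { carrier := {δ | (∀ a b, Commute δ (EU F i a b)) ∧
        ∀ a b, a ≠ b → ∀ c : F, RM M (c • δ * EU F i a b)}
      add_mem' := fun {x y} e e' => ⟨fun a b => (e.1 a b).add_left (e'.1 a b), fun a b hab c => by
        rw [smul_add, add_mul]
        exact (e.2 a b hab c).add (e'.2 a b hab c)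
          (by rw [z ((e'.1 a b).smul_left c), if_neg hab.symm])⟩
      zero_mem' := ⟨fun _ _ => Commute.zero_left _, fun _ _ _ _ => by simpa using RM.zero⟩
      smul_mem' := fun c x e => ⟨fun a b => (e.1 a b).smul_left c, fun a b hab d => by
        rw [smul_smul]; exact e.2 a b hab _⟩ }
  have hM : ∀ x ∈ D, ∀ y ∈ D, x * y ∈ D := fun x e y e' =>
    ⟨fun a b => (e.1 a b).mul_left (e'.1 a b), fun a b hab c => by
      obtain ⟨r, r1, r2⟩ := exists_third_fin hm a b
      have := (e.2 a r r1.symm c).comm (e'.2 r b r2 1)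
        (by rw [z ((e.1 _ _).smul_left c), if_neg r1])
        (by rw [z ((e'.1 _ _).smul_left 1), if_neg r2.symm])
        (by rw [z ((e.1 _ _).smul_left c), if_neg hab.symm])
      rwa [z ((e'.1 _ _).smul_left 1), if_pos rfl, one_smul, smul_mul_assoc c x y] at this⟩
  have sq : ∀ (j : τ) (a b : Fin m), a ≠ b → EU F j a b * EU F j a b = 0 := fun j a b hab => by
    rw [(mu_EU j).mul, if_neg hab.symm]
  obtain ⟨j, hj, e⟩ := (inv_alg (F := F) mu_EU (exists_third_fin hm)
    (fun j k h a b c d => emb_comm h _ _) (fun _ => scalar_of_comm) (Finset.univ.erase i) D hM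
    (fun j hj a b hab x e => by
      have e1 := fun c d => emb_comm (F := F) (Finset.ne_of_mem_erase hj) (single a b 1)
        (single c d 1)
      have e2 : ∀ c d, Commute (opU (EU F j a b) x) (EU F i c d) := fun c d =>
        (((e1 c d).mul_left (e.1 c d)).sub_left ((e.1 c d).mul_left (e1 c d))).sub_left
          (((e1 c d).mul_left (e.1 c d)).mul_left (e1 c d))
      refine ⟨e2, fun c d hcd l => ?_⟩
      have e3 : opU (EU F j a b) (l • x * EU F i c d) = l • opU (EU F j a b) x * EU F i c d := by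
        have : EU F j a b * EU F i c d = EU F i c d * EU F j a b := (e1 c d).eq
        simp only [opU, sub_mul, mul_assoc, this, smul_sub, smul_mul_assoc, mul_smul_comm]
      rw [← e3]
      refine (e.2 c d hcd l).op (w_root hH j _ (by rw [mu_single.mul, if_neg hab.symm]))
        (sq j a b hab) ?_ ?_
      · rw [z ((e.1 _ _).smul_left l), if_neg hcd.symm]
      · rw [e3, z ((e.1 _ _).smul_left l), if_neg hcd.symm])
    fun x e j hj => by
      obtain rfl : j = i := by simpa using hj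
      exact e.1).resolve_left fun h => let ⟨c, e⟩ := h δ ⟨h2, h3⟩; h1 c e
  have hj := Finset.ne_of_mem_erase hj
  have e4 : ∀ k, k ≠ i → ∀ x, emb F k x ∈ D := fun k hk x => by
    refine emb_eq k x ▸ sum_mem fun a _ => sum_mem fun b _ => D.smul_mem _ ?_
    by_cases hjk : k = j
    · exact hjk ▸ e a b
    refine (mu_EU k).ind (P := (· ∈ D)) (exists_third_fin hm) (fun x y e e' => hM x e y e')
      (fun a b hab => ⟨fun _ _ => emb_comm hk _ _, fun c d hcd l => ?_⟩) a b
    obtain ⟨n, hn, n1, n2⟩ := w_three hH hk.symm hj.symm hjk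
    have := ((e c d).2 a b hab l).conj hn
    rwa [← cj_apply, map_mul, map_smul, EU, EU, n1, n2, smul_mul_assoc,
      ← (emb_comm (F := F) hk _ _).eq, ← smul_mul_assoc] at this
  have e5 : ∀ a : τ → Matrix (Fin m) (Fin m) F, pt τ (Fin m) F (Function.update a i 1) ∈ D :=
    pi_ind (p := fun a => pt τ (Fin m) F (Function.update a i 1) ∈ D)
    (by rw [Function.update_one, map_one]; exact (mu_EU (F := F) j).sum ▸ sum_mem fun a _ => e a a)
    (fun a b ha hb => by
      rw [← mul_one (1 : Matrix (Fin m) (Fin m) F), Function.update_mul, map_mul]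
      exact hM _ ha _ hb) fun k x => by
      by_cases hk : k = i
      · rw [hk, Pi.mulSingle, Function.update_idem, Function.update_one, map_one]
        exact (mu_EU (F := F) j).sum ▸ sum_mem fun a _ => e a a
      · rw [Function.update_eq_self_iff.2 (by simp [Ne.symm hk])]
        exact e4 k hk x
  have e6 : ∀ x y : τ → Fin m, x i ≠ y i → ∀ c : F, RM M (single x y c) := fun x y h c => by
    have := (e5 fun k => single (x k) (y k) 1).2 _ _ h c
    rwa [smul_mul_assoc, EU, emb_apply, ← map_mul, Pi.mulSingle, ← Function.update_mul, mul_one,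
      one_mul, Function.update_eq_self, pt_single, smul_single, smul_eq_mul, mul_one] at this
  have key := Classical.SLBasic.eq_top_of_transvection_mem
    (M.comap Matrix.SpecialLinearGroup.toGL) fun x y hxy c => by
      suffices RM M (single x y c) by
        obtain ⟨g, hg, e⟩ := this
        rwa [Subgroup.mem_comap, show Matrix.SpecialLinearGroup.toGL
          (Matrix.SpecialLinearGroup.transvection hxy c) = g from Units.ext e.symm]
      by_cases h : x i = y i
      · obtain ⟨r, r1, -⟩ := exists_third_fin hm (x i) (x i)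
        have k1 : Function.update x i r ≠ x := fun e => r1 (by simpa using congrFun e i)
        have k2 : y ≠ Function.update x i r := fun e => r1 (by simpa [h] using (congrFun e i).symm)
        simpa using (e6 x (Function.update x i r) (by simpa using r1.symm) c).comm
          (e6 (Function.update x i r) y (by simpa [← h] using r1) 1) (by simp [k1]) (by simp [k2])
          (by simp [hxy.symm])
      · exact e6 x y h c
  exact (show Matrix.SpecialLinearGroup.toGL ⟨g.1, hg⟩ = g from Units.ext rfl) ▸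
    key.ge (Subgroup.mem_top _)

theorem w_isW [Nontrivial τ] (hm : 3 ≤ m)
    (hH : ∀ g : GL (τ → Fin m) F, g.1.det = 1 → IsW g → g ∈ M)
    (hd : ∀ i, ∀ g ∈ M, (∀ x, ∃ y, cj g (emb F i x) = emb F i y) ∨
      ∀ x y, Commute (cj g (emb F i x)) (emb F i y)) {g : GL (τ → Fin m) F} (hg : g ∈ M) :
    IsW g := by
  have : Nonempty (Fin m) := ⟨⟨0, by omega⟩⟩
  have key : ∀ i, ∃ j, ∀ x, ∃ y, cj g (emb F i x) = emb F j y := fun i => by
    by_contra hn
    push Not at hn
    have h0 := (hd i g hg).resolve_left fun h => let ⟨x, e⟩ := hn i; let ⟨y, e'⟩ := h x; e y e'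
    by_cases h3 : ∀ j, j ≠ i → ∃ k, k ≠ i ∧ k ≠ j
    · obtain ⟨x, hx⟩ := hn i
      obtain ⟨c, e⟩ := eq_smul_of_comm_emb (M := cj g (emb F i x)) fun j y => by
        by_cases hj : j = i
        · exact hj ▸ h0 x y
        obtain ⟨k, k1, k2⟩ := h3 j hj
        obtain ⟨n, hn', n1, -⟩ := w_three hH (Ne.symm hj) k1.symm k2.symm
        rcases hd i _ (mul_mem (inv_mem hn') hg) with h | h
        · obtain ⟨x, e⟩ := hn j
          obtain ⟨y, e'⟩ := h x
          exact (e y (by rw [← n1, ← e', cj_mul, cj_cj_inv])).elim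
        · simpa [cj_mul, n1] using ((h x y).map (cj n)).eq
      exact hx (c • 1) (by rw [e, map_smul, map_one])
    push Not at h3
    obtain ⟨j, hj, h3⟩ := h3
    obtain ⟨x, hx⟩ := hn j
    choose c hc using fun a b => scalar_of_comm
      (γ := ∑ d, EU F j d a * cj g (emb F i x) * EU F j b d) fun k a' b' => by
        by_cases hk : k = i
        · rw [hk]
          exact Commute.sum_left _ _ _ fun d _ => ((emb_comm hj _ _).mul_left
            (h0 x _)).mul_left (emb_comm hj _ _)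
        · rw [h3 k hk]; exact (mu_EU j).comp_comm _ _ _ _ _
    refine hx (of c) ?_
    rw [emb_eq j, ← (mu_EU j).decomp (cj g _)]
    refine Finset.sum_congr rfl fun a _ => Finset.sum_congr rfl fun b _ => ?_
    have := (mu_EU j).comp_mul (cj g (emb F i x)) a b a b
    rw [hc] at this
    rw [← this, smul_mul_assoc, one_mul, of_apply]
  choose σ hσ using key
  have inj : Function.Injective σ := fun i i' e => by_contra fun hne => by
    obtain ⟨a, ha⟩ := exists_cj_of_range ((cj g).toAlgHom.comp (emb F i)) (emb F (σ i)) (hσ i)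
    obtain ⟨a', ha'⟩ := exists_cj_of_range ((cj g).toAlgHom.comp (emb F i')) (emb F (σ i))
      (e ▸ hσ i')
    obtain ⟨p⟩ := this
    obtain ⟨q, hq, -⟩ := exists_third_fin hm p p
    have := ((emb_comm (F := F) hne (cj a⁻¹ (single p q 1)) (cj a'⁻¹ (single q q 1))).map (cj g)).eq
    erw [ha, ha'] at this
    rw [cj_cj_inv, cj_cj_inv] at this
    exact EU_ne_zero (F := F) (σ i) p q (by
      simpa [(mu_EU (σ i)).mul, hq] using (show EU F (σ i) p q * EU F (σ i) q q =
        EU F (σ i) q q * EU F (σ i) p q from this))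
  exact (exists_ptG g (Equiv.ofBijective σ (Finite.injective_iff_bijective.1 inj)) hσ).imp
    fun _ e => ⟨_, e⟩

theorem exists_not_isW [Nontrivial τ] (hm : 3 ≤ m) :
    ∃ g : GL (τ → Fin m) F, g.1.det = 1 ∧ ¬ IsW g := by
  obtain ⟨i, j, hij⟩ := exists_pair_ne τ
  obtain ⟨b, hb, -⟩ := exists_third_fin hm ⟨0, by omega⟩ ⟨0, by omega⟩
  generalize (⟨0, by omega⟩ : Fin m) = a at hb
  have c : ∀ (a b c d : Fin m) x, EU F j a b * (EU F i c d * x) = EU F i c d * (EU F j a b * x) :=
    fun a b c d x => by rw [← mul_assoc, ← mul_assoc, EU, EU, (emb_comm hij _ _).eq]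
  have c' : ∀ a b c d : Fin m, EU F j a b * EU F i c d = EU F i c d * EU F j a b :=
    fun a b c d => (emb_comm hij _ _).eq.symm
  have h0 : EU F i a b * EU F j a b ≠ 0 := fun e => EU_ne_zero (F := F) j a b (by
    simpa [mul_assoc, c', (mu_EU i).mul', ← Finset.sum_mul, (mu_EU i).sum] using
      congrArg (fun x => ∑ d, EU F i d a * x * EU F i b d) e)
  have h1 : EU F i a b * EU F j a b * (EU F i a b * EU F j a b) = 0 := by
    simp [mul_assoc, c, (mu_EU i).mul', hb]
  refine ⟨uG _ h1, det_one_add' h1, fun ⟨x, σ, e⟩ => h0 ?_⟩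
  have h2 : cj (uG _ h1) (EU F i b b) = EU F i b b + EU F i a b * EU F j a b := by
    change (1 + EU F i a b * EU F j a b) * EU F i b b * (1 - EU F i a b * EU F j a b) = _
    simp [mul_assoc, add_mul, mul_sub, c, c', (mu_EU i).mul', hb]
  rw [e, cj_mul, EU, cj_fpG_emb, cj_ptG_emb] at h2
  by_cases h : σ i = j
  · have := (emb_comm (F := F) (h ▸ hij.symm : σ i ≠ i) (cj (x (σ i)) (single b b 1))
      (single b b 1)).eq
    rw [h2] at this
    change (EU F i b b + _) * EU F i b b = EU F i b b * (EU F i b b + _) at this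
    simpa [mul_assoc, add_mul, mul_add, c', (mu_EU i).mul', hb] using this
  · have := (emb_comm (F := F) h (cj (x (σ i)) (single b b 1)) (single b b 1)).eq
    rw [h2] at this
    change (EU F i b b + _) * EU F j b b = EU F j b b * (EU F i b b + _) at this
    simpa [mul_assoc, add_mul, mul_add, c, c', (mu_EU j).mul, hb] using this

theorem max_wreath_SL [Finite F] {ι : Type} [Fintype ι] [DecidableEq ι] {t : ℕ} (hm : 3 ≤ m)
    (ht : 2 ≤ t) (e : ι ≃ (Fin t → Fin m)) (P : GL ι F) :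
    IsMaximalIn (specialLinear ι F) (tensorWreathSubgroup m t e P ⊓ specialLinear ι F) := by
  have : Nontrivial (Fin t) := Fin.nontrivial_iff_two_le.2 ht
  refine isMaximalIn_of_equiv (frG e P).symm (fun g => g.1.det = 1) IsW (fun g => ?_)
    (fun g => ?_) (exists_not_isW hm) fun M hH _ ⟨g, hg, hg'⟩ => ?_
  · rw [← frG_mem_SL e P, MulEquiv.apply_symm_apply]
  · simp only [mem_tensorWreathSubgroup, IsW, MulEquiv.symm_apply_eq]
  · by_contra hn
    exact hg' (w_isW hm hH (fun i => (mat_dich hm i (w_root hH i)).resolve_left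
      fun ⟨δ, h1, h2, h3⟩ => hn (w_sl hm hH i h1 h2 h3)) hg)

end Mat

end Cfsg.Agent.Max
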