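import Mathlib
import Cfsg.Agent.Max.Un2
import Cfsg.Agent.Max.Frame6

/-!
# Stabilisers of orthonormal frames in special unitary groups
-/

set_option autoImplicit false
set_option linter.unusedSectionVars false

namespace Cfsg.Agent.Max

open Module Herm

variable {F V κ : Type*} [Field F] [AddCommGroup V] [Module F V] [FiniteDimensional F V]
  [Fintype κ] [DecidableEq κ] {σ : F →+* F} {B : V →ₛₗ[σ] V →ₗ[F] F} {hB : HF B}
  {M : Subgroup (UG B)} {e : Basis κ F V}

theorem coef_inv {y : F} (hy : y + σ y = -1) : y ≠ 0 ∧ y⁻¹ + σ y⁻¹ + y⁻¹ * σ y⁻¹ = 0 := by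
  have h0 : y ≠ 0 := by rintro rfl; simp at hy
  have h1 : σ y ≠ 0 := by simpa using h0
  refine ⟨h0, ?_⟩
  rw [map_inv₀]
  field_simp
  linear_combination hy

theorem exists_trace_ne (h : Inv σ) : ∃ y, y + σ y = -1 ∧ σ y ≠ y := by
  obtain ⟨y, hy⟩ := h.exists_trace (c := -1) (by simp)
  obtain ⟨d, hd0, hd⟩ := h.exists_skew
  by_cases h1 : σ y = y
  · refine ⟨y + d, by rw [map_add]; linear_combination hy + hd, fun h2 => hd0 ?_⟩
    rw [map_add] at h2
    linear_combination d * hy - d * h1 - y * (hd - h2 + h1)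
  · exact ⟨y, hy, h1⟩

theorem exists_coef_ne (h : Inv σ) : ∃ c, c + σ c + c * σ c = 0 ∧ σ c ≠ c := by
  obtain ⟨y, hy, h1⟩ := exists_trace_ne h
  exact ⟨y⁻¹, (coef_inv hy).2, fun h2 => h1 (inv_injective (by rwa [← map_inv₀]))⟩

theorem exists_coef_pair [Finite F] (h : Inv σ) {a b : F} (ha : a ≠ 0) (hb : b ≠ 0) :
    ∃ c d, c + σ c + c * σ c = 0 ∧ d + σ d + d * σ d = 0 ∧ c ≠ 0 ∧ d ≠ 0 ∧
      σ (c * a) * (c * a) + σ (d * b) * (d * b) = 0 := by
  have ha' : σ a ≠ 0 := by simpa using ha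
  have hb' : σ b ≠ 0 := by simpa using hb
  obtain ⟨t, ht, ht'⟩ : ∃ t, σ t * t = -(σ a * a) / (σ b * b) ∧ σ t ≠ t := by
    obtain ⟨t, ht⟩ := h.exists_norm (μ := -(σ a * a) / (σ b * b)) (by simp [h.invol, mul_comm])
    by_cases h1 : σ t = t
    swap
    · exact ⟨t, ht, h1⟩
    obtain ⟨c, hc, hc'⟩ := exists_coef_ne h
    have t0 : t ≠ 0 := by
      rintro rfl
      exact div_ne_zero (neg_ne_zero.mpr (mul_ne_zero ha' ha)) (mul_ne_zero hb' hb)
        (by simpa using ht.symm)
    refine ⟨t * (1 + c), ?_, fun h2 => hc' ?_⟩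
    · rw [← ht, map_mul, map_add, map_one]
      linear_combination σ t * t * hc
    · rw [map_mul, map_add, map_one, h1] at h2
      exact add_left_cancel (mul_left_cancel₀ t0 h2)
  have h1 := sub_ne_zero.mpr ht'
  have h2 := sub_ne_zero.mpr ht'.symm
  have t0 : t ≠ 0 := by rintro rfl; simp at ht'
  have t1 : σ t ≠ 0 := by simpa using t0
  obtain ⟨y, hy⟩ : ∃ y, y = (σ t - 1) / (t - σ t) := ⟨_, rfl⟩
  have e1 : y + σ y = -1 := by
    simp only [hy, map_div₀, map_sub, map_one, h.invol]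
    field_simp
    ring
  have e2 : t * y + σ (t * y) = -1 := by
    simp only [hy, map_mul, map_div₀, map_sub, map_one, h.invol]
    field_simp
    ring
  have y0 := (coef_inv e1).1
  have y1 : σ y ≠ 0 := by simpa using y0
  refine ⟨_, _, (coef_inv e2).2, (coef_inv e1).2, inv_ne_zero (coef_inv e2).1, inv_ne_zero y0, ?_⟩
  simp only [map_mul, map_inv₀]
  field_simp at ht ⊢
  linear_combination ht

theorem eq_top_of_coef [Finite F] (h : Inv σ) (A : AddSubgroup F)
    (hA : ∀ c, c + σ c + c * σ c = 0 → ∀ a ∈ A, (1 + c) * a ∈ A) {a : F} (ha : a ∈ A) (h0 : a ≠ 0)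
    (z : F) : z ∈ A := by
  let R : Subring F :=
    { carrier := {r | ∀ a ∈ A, r * a ∈ A}
      mul_mem' := fun hr hs a ha => by rw [mul_assoc]; exact hr _ (hs a ha)
      one_mem' := fun a ha => by rwa [one_mul]
      add_mem' := fun hr hs a ha => by rw [add_mul]; exact add_mem (hr a ha) (hs a ha)
      zero_mem' := fun a _ => by rw [zero_mul]; exact zero_mem _
      neg_mem' := fun hr a ha => by rw [neg_mul]; exact neg_mem (hr a ha) }
  have h1 : ∀ r ∈ R, r⁻¹ ∈ R := fun r hr => by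
    by_cases hr0 : r = 0
    · simpa [hr0] using R.zero_mem
    haveI := Fintype.ofFinite F
    have h2 := FiniteField.pow_card_sub_one_eq_one r hr0
    have h3 := Fintype.one_lt_card (α := F)
    rw [show Fintype.card F - 1 = Fintype.card F - 2 + 1 by omega, pow_succ] at h2
    rw [← eq_inv_of_mul_eq_one_left h2]
    exact pow_mem hr _
  have h2 : ∀ y, y + σ y = -1 → y ∈ R := fun y hy => by
    have := h1 _ (sub_mem (show 1 + y⁻¹ ∈ R from hA _ (coef_inv hy).2) R.one_mem)
    rwa [add_sub_cancel_left, inv_inv] at this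
  obtain ⟨y, hy, -⟩ := exists_trace_ne h
  have h3 : ∀ d, d + σ d = 0 → d ∈ R := fun d hd => by
    simpa using sub_mem (h2 (y + d) (by rw [map_add]; linear_combination hy + hd)) (h2 y hy)
  obtain ⟨d, hd0, hd⟩ := h.exists_skew
  have h4 : ∀ t, σ t = t → t ∈ R := fun t ht => by
    have := mul_mem (h3 (t * d) (by rw [map_mul, ht]; linear_combination t * hd)) (h1 d (h3 d hd))
    rwa [mul_inv_cancel_right₀ hd0] at this
  have h5 : ∀ z, z ∈ R := fun z => by
    have h6 : σ (z + σ z) = z + σ z := by rw [map_add, h.invol, add_comm]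
    simpa using sub_mem (h3 (z + (z + σ z) * y) (by
      rw [map_add, map_mul, h6]
      linear_combination (z + σ z) * hy)) (mul_mem (h4 _ h6) (h2 y hy))
  simpa [h0] using h5 (z / a) a ha

/-- Quasi-reflections available in `M` up to a correction at the spare index `l`. -/
def US (hB : HF B) (e : Basis κ F V) (M : Subgroup (UG B)) (l : κ) (u : V) : Prop :=
  B u u = 1 ∧ B (e l) u = 0 ∧ ∀ c, hB.qr u c * hB.qr (e l) (σ c) ∈ M

/-- An orthonormal frame whose stabiliser lies in `M`. -/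
structure UFr (hB : HF B) (e : Basis κ F V) (M : Subgroup (UG B)) : Prop where
  one : ∀ i, B (e i) (e i) = 1
  orth : ∀ i j, i ≠ j → B (e i) (e j) = 0
  le : ∀ g ∈ SUG B, g.1 ∈ mon e → g ∈ M

namespace UFr
variable (h : UFr hB e M) {i j k l : κ} {u x : V} {c : F}
include h

theorem bl (i : κ) (x : V) : B (e i) x = e.repr x i :=
  LinearMap.congr_fun (e.ext (f₁ := B (e i)) (f₂ := e.coord i) fun j => by
    by_cases hj : i = j
    · simp [hj, h.one]
    · simp [h.orth i j hj, Ne.symm hj]) x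

theorem br (x : V) (i : κ) : B x (e i) = σ (e.repr x i) := by rw [← hB.symm, h.bl]

theorem qr_e (hc : c + σ c + c * σ c = 0) (i : κ) (x : V) :
    (hB.qr (e i) c).1 x = x + (c * e.repr x i) • e i := by
  rw [hB.qr_apply (by rwa [h.one, mul_one]), h.bl]

theorem qr_mon (i : κ) (c : F) : (hB.qr (e i) c).1 ∈ mon e := mem_mon fun j => by
  obtain ⟨k, hk⟩ := qr_apply' hB (e i) c (e j)
  rw [hk, h.bl]
  by_cases hj : j = i
  · exact ⟨i, fun m hm => by simp [hj, hm]⟩
  · simpa [hj] using FV.basis j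

theorem pair (i j : κ) (c : F) : hB.qr (e i) c * hB.qr (e j) (σ c) ∈ M :=
  h.le _ (qr_pair_mem hB ((h.one j).trans (h.one i).symm) c)
    (mul_mem (h.qr_mon i c) (h.qr_mon j _))

theorem pair_apply (hc : c + σ c + c * σ c = 0) (hij : i ≠ j) (x : V) :
    (hB.qr (e i) c * hB.qr (e j) (σ c)).1 x =
      x + (c * e.repr x i) • e i + (σ c * e.repr x j) • e j := by
  rw [UG.mul_apply, h.qr_e hc, h.qr_e (by rw [hB.invol]; linear_combination hc)]
  simp [hij, hij.symm, add_right_comm]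

theorem swap_eq (hij : i ≠ j) : (hB.qr (e i - e j) (-1)).1 = pm e (Equiv.swap i j) :=
  e.ext' fun m => by
    rw [hB.qr_apply (by simp [h.one, h.orth i j hij, h.orth j i hij.symm]), b_sub_left,
      h.bl, h.bl, pm_basis]
    by_cases h1 : m = i
    · simp [h1, hij]
    by_cases h2 : m = j
    · simp [h2, hij.symm]
    simp [h1, h2, Equiv.swap_apply_of_ne_of_ne]

theorem det_swap (hij : i ≠ j) : (detU B (hB.qr (e i - e j) (-1)) : F) = -1 := by
  rw [hB.detU_qr (by simp [h.one, h.orth i j hij, h.orth j i hij.symm])]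
  simp [h.one, h.orth i j hij, h.orth j i hij.symm]

theorem neg_two : (-2 : F) + σ (-2) + -2 * σ (-2) = 0 := by
  rw [map_neg, map_ofNat]
  ring

theorem swap (hij : i ≠ j) (k : κ) : hB.qr (e i - e j) (-1) * hB.qr (e k) (-2) ∈ M := by
  refine h.le _ ?_ (mul_mem (h.swap_eq hij ▸ pm_mem _) (h.qr_mon k _))
  rw [mem_SUG, map_mul, Units.val_mul, h.det_swap hij, hB.detU_qr (by
    rw [h.one, mul_one]; exact h.neg_two), h.one]
  ring

theorem us_basis (hj : j ≠ l) : US hB e M l (e j) := ⟨h.one j, h.orth l j hj.symm, h.pair j l⟩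

theorem us_conj (hu : US hB e M l u) {g : UG B} (hg : g ∈ M) {s : F} (hs : g.1 (e l) = s • e l) :
    US hB e M l (g.1 u) := by
  have h1 : s * σ s = 1 := by simpa [hs, h.one] using UG.map_b g (e l) (e l)
  have h0 := left_ne_zero_of_mul_eq_one h1
  refine ⟨by simp [hu.1], by simpa [hs, h0, hu.2.1] using UG.map_b g (e l) u, fun c => ?_⟩
  have := mul_mem (mul_mem hg (hu.2.2 c)) (inv_mem hg)
  rwa [← conj_mul, hB.qr_conj, hB.qr_conj, hs, hB.qr_smul _ _ _ h0, h1, one_mul] at this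

theorem us_act (hu : US hB e M l u) (hx : US hB e M l x) (hc : c + σ c + c * σ c = 0) :
    US hB e M l (x + (c * B u x) • u) := by
  have := h.us_conj hx (hu.2.2 c) (s := 1 + σ c) (by
    rw [UG.mul_apply, h.qr_e (by rw [hB.invol]; linear_combination hc),
      hB.qr_apply_of_orth _ (by simp [hB.zero_symm hu.2.1])]
    simp [add_smul])
  rwa [UG.mul_apply, hB.qr_apply_of_orth _ hx.2.1, hB.qr_apply (by rwa [hu.1, mul_one])] at this

theorem ua_of_us (hu : US hB e M l (e k + x)) (hx : B x x = 0) (hk : B (e k) x = 0)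
    (hc : c + σ c + c * σ c = 0) : (-c) • e k ∈ UA hB M x := by
  have hk' := hB.zero_symm hk
  have h1 : -c + σ (-c) = B ((-c) • e k) ((-c) • e k) := by
    simp [h.one]
    linear_combination -hc
  refine ⟨by simp [hk'], -c, h1, ?_⟩
  convert mul_mem (hu.2.2 c) (inv_mem (h.pair k l c)) using 1
  rw [mul_inv_rev, mul_assoc, mul_inv_cancel_left, hB.qr_inv]
  refine UG.ext fun y => ?_
  rw [hB.eich_apply hx (by simp [hk']) h1, UG.mul_apply,
    h.qr_e (by rw [hB.invol]; linear_combination hc), hB.qr_apply (by rwa [hu.1, mul_one])]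
  simp only [b_smul_left, LinearMap.add_apply, map_add, map_smul, h.one, hk', h.bl, smul_eq_mul,
    map_neg]
  match_scalars
  · ring
  · linear_combination -e.repr y k * hc
  · linear_combination -e.repr y k * hc

variable [Finite F]

theorem of_iso {p r : F} (hij : i ≠ j) (hik : i ≠ k) (hjk : j ≠ k) (hil : i ≠ l) (hjl : j ≠ l)
    (hkl : k ≠ l) (hp : p ≠ 0) (hr : r ≠ 0) (h0 : σ p * p + σ r * r = 0)
    (hu : US hB e M l (e k + (p • e i + r • e j))) : SUG B ≤ M := by
  have hn : 3 ≤ finrank F V := by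
    rw [finrank_eq_card_basis e, ← Finset.card_univ, ← Finset.card_eq_three.mpr
      ⟨i, j, k, hij, hik, hjk, rfl⟩]
    exact Finset.card_le_univ _
  obtain ⟨x, hx⟩ : ∃ x, x = p • e i + r • e j := ⟨_, rfl⟩
  have h1 : ∀ y, B x y = σ p * e.repr y i + σ r * e.repr y j := fun y => by
    simp [hx, h.bl]
  have xi : e.repr x i = p := by simp [hx, hij.symm]
  have xj : e.repr x j = r := by simp [hx, hij]
  have xm : ∀ m, m ≠ i → m ≠ j → e.repr x m = 0 := fun m a b => by simp [hx, a.symm, b.symm]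
  have x0 : B x x = 0 := by rw [h1, xi, xj, h0]
  rw [← hx] at hu
  obtain ⟨c, hc, hc'⟩ := exists_coef_ne hB.toInv
  have c0 : c ≠ 0 := by rintro rfl; simp at hc'
  have h2 : e k ∈ UE hB M x := fun z => eq_top_of_coef hB.toInv
    ((UA hB M x).comap ((smulAddHom F V).flip (e k))) (fun d hd a ha => by
      have := UA.map_fix ha (h.pair k l d) (by
        rw [h.pair_apply hd hkl]
        simp [xm k hik.symm hjk.symm, xm l hil.symm hjl.symm])
      rw [h.pair_apply hd hkl] at this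
      simpa [hkl, add_mul, add_smul] using this)
    (h.ua_of_us hu x0 (by rw [h.bl, xm k hik.symm hjk.symm]) hc) (neg_ne_zero.mpr c0) z
  have h3 : ∀ m, m ≠ i → m ≠ j → e m ∈ UE hB M x := fun m a b => by
    by_cases hm : k = m
    · exact hm ▸ h2
    have := UE.map_fix h2 (h.swap hm k) (by
      rw [UG.mul_apply, hB.qr_apply_of_orth _ (x := x) (by rw [h.bl, xm k hik.symm hjk.symm]),
        hB.qr_apply_of_orth _ (by simp [h.bl, xm k hik.symm hjk.symm, xm m a b])])
    rw [UG.mul_apply, h.qr_e h.neg_two, h.swap_eq hm] at this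
    simp only [Basis.repr_self, Finsupp.single_eq_same, mul_one, map_add, map_smul, pm_basis,
      Equiv.swap_apply_left] at this
    convert neg_mem this using 1
    module
  have h4 : UP hB M x := ⟨x0, fun y hy => UE.ua (by
    rw [← sub_add_cancel y ((e.repr y i / p) • x), ← e.sum_repr (y - _)]
    refine add_mem (Submodule.sum_mem _ fun m _ => ?_) (Submodule.smul_mem _ _ (UE.self x0))
    by_cases a : m = i
    · simp [a, xi, hp]
    by_cases b : m = j
    · have : e.repr y j - e.repr y i / p * r = 0 := by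
        rw [h1] at hy
        field_simp
        exact mul_left_cancel₀ (show σ r ≠ 0 by simpa using hr) (by
          linear_combination p * hy - e.repr y i * h0)
      simp [b, xj, this]
    exact Submodule.smul_mem _ _ (h3 m a b))⟩
  refine un_le_of_pair hn h4 (h4.map (h.pair i l c)) ?_
  rw [h.pair_apply hc hil]
  simp [x0, h.br, xi, xm l hil.symm hjl.symm, c0, hp]

theorem of_three (hu : US hB e M l u) (hij : i ≠ j) (hik : i ≠ k) (hjk : j ≠ k)
    (hi : e.repr u i ≠ 0) (hj : e.repr u j ≠ 0) (hk : e.repr u k ≠ 0) : SUG B ≤ M := by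
  have hl : ∀ {m}, e.repr u m ≠ 0 → m ≠ l := fun hm e' => hm (by rw [e', ← h.bl, hu.2.1])
  obtain ⟨c, d, hc, hd, c0, d0, h0⟩ := exists_coef_pair hB.toInv hi hj
  have h1 := h.us_act (h.us_basis (hl hj)) (h.us_act (h.us_basis (hl hi)) hu hc) hd
  simp only [h.bl, map_add, map_smul, Finsupp.add_apply, Finsupp.smul_apply, Basis.repr_self,
    Finsupp.single_eq_of_ne' hij, smul_zero, add_zero, add_assoc] at h1
  obtain ⟨w, hw⟩ : ∃ w, w = (c * e.repr u i) • e i + (d * e.repr u j) • e j := ⟨_, rfl⟩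
  have w0 : B w w = 0 := by
    simpa [hw, h.one, h.orth i j hij, h.orth j i hij.symm, mul_comm] using h0
  have wk : B w (e k) = 0 := by simp [hw, h.orth, hik, hjk]
  rw [← hw] at h1
  have h2 : B u w + σ (B u w) = 0 := by
    have := h1.1
    simp only [LinearMap.add_apply, map_add, hu.1, w0, ← hB.symm u w] at this
    linear_combination this
  obtain ⟨y, hy, -⟩ := exists_trace_ne hB.toInv
  have hy' : -(1 + B u w) - y + σ (-(1 + B u w) - y) = -1 := by
    simp only [map_sub, map_neg, map_add, map_one]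
    linear_combination -h2 - hy
  have h3 := h.us_act hu (h.us_act h1 (h.us_basis (hl hk)) (coef_inv hy).2) (coef_inv hy').2
  have y0 := (coef_inv hy).1
  have y1 := (coef_inv hy').1
  have k0 : B u (e k) ≠ 0 := by simpa [h.br] using hk
  refine h.of_iso hij hik hjk (hl hi) (hl hj) (hl hk)
    (p := y⁻¹ * B u (e k) * (c * e.repr u i)) (r := y⁻¹ * B u (e k) * (d * e.repr u j))
    (by positivity) (by positivity) ?_ ?_
  · simp only [map_mul] at h0 ⊢
    linear_combination σ y⁻¹ * σ (B u (e k)) * y⁻¹ * B u (e k) * h0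
  · convert h3 using 1
    rw [mul_smul _ (c * _), mul_smul _ (d * _), ← smul_add, ← hw]
    simp only [LinearMap.add_apply, map_add, map_smul, wk, hu.1, smul_eq_mul]
    match_scalars
    · ring
    · ring
    · field_simp
      ring

theorem of_us (hn : 4 ≤ Fintype.card κ) (hu : US hB e M l u) (hu' : ¬ FV e u) : SUG B ≤ M := by
  have hl : ∀ {m}, e.repr u m ≠ 0 → m ≠ l := fun hm e' => hm (by rw [e', ← h.bl, hu.2.1])
  obtain ⟨i, hi⟩ := exists_repr_ne (e := e) (x := u) fun e' => by simpa [e'] using hu.1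
  obtain ⟨k, hk, hk'⟩ : ∃ k, k ≠ i ∧ e.repr u k ≠ 0 := by
    by_contra h6
    push Not at h6
    exact hu' ⟨i, h6⟩
  by_cases h1 : ∃ j, j ≠ i ∧ j ≠ k ∧ e.repr u j ≠ 0
  · obtain ⟨j, h1, h2, h3⟩ := h1
    exact h.of_three hu h1.symm hk.symm h2 hi h3 hk'
  push Not at h1
  obtain ⟨j, -, hj⟩ := exists_mem_not_mem (I := Finset.univ) (s := {i, k, l})
    (Finset.card_le_three.trans_lt (by rw [Finset.card_univ]; omega))
  simp only [Finset.mem_insert, Finset.mem_singleton, not_or] at hj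
  obtain ⟨a, ha⟩ : ∃ a, a = e.repr u i := ⟨_, rfl⟩
  obtain ⟨b, hb⟩ : ∃ b, b = e.repr u k := ⟨_, rfl⟩
  have h2 : u = a • e i + b • e k := e.ext_elem fun m => by
    by_cases e1 : m = i
    · simp [e1, ha, hk]
    by_cases e2 : m = k
    · simp [e2, hb, hk.symm]
    simp [h1 m e1 e2, Ne.symm e1, Ne.symm e2]
  have h3 := h.us_conj hu (h.swap (Ne.symm hj.2.1) l) (s := -1) (by
    rw [UG.mul_apply, h.qr_e h.neg_two, h.swap_eq (Ne.symm hj.2.1)]
    simp only [Basis.repr_self, Finsupp.single_eq_same, mul_one, map_add, map_smul, pm_basis,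
      Equiv.swap_apply_of_ne_of_ne (hl hk').symm (Ne.symm hj.2.2)]
    module)
  rw [UG.mul_apply, hB.qr_apply_of_orth _ hu.2.1, h.swap_eq (Ne.symm hj.2.1), h2] at h3
  simp only [map_add, map_smul, pm_basis, Equiv.swap_apply_left,
    Equiv.swap_apply_of_ne_of_ne hk.symm (Ne.symm hj.1)] at h3
  obtain ⟨c, hc, hc'⟩ := exists_coef_ne hB.toInv
  have c0 : c ≠ 0 := by rintro rfl; simp at hc'
  have h4 := h.us_act hu h3 hc
  rw [← ha] at hi
  rw [← hb] at hk'
  have h5 : B u (a • e i + b • e j) = σ a * a := by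
    simp [h.br, ← ha, h1 j hj.1 hj.2.1, mul_comm]
  rw [h5, h2] at h4
  refine h.of_three h4 (Ne.symm hj.1) hk.symm hj.2.1 ?_ ?_ ?_
  · simp only [map_add, map_smul, Basis.repr_self, Finsupp.add_apply, Finsupp.smul_apply,
      Finsupp.single_eq_same, Finsupp.single_eq_of_ne' hj.1, Finsupp.single_eq_of_ne' hk,
      smul_eq_mul]
    intro e'
    have h6 : c * (σ a * a) = -1 := mul_right_cancel₀ hi (by linear_combination e')
    have h7 := congrArg σ h6
    simp only [map_mul, hB.invol, map_neg, map_one] at h7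
    exact hc' (mul_right_cancel₀ (show σ a * a ≠ 0 by simp [hi]) (by linear_combination h7 - h6))
  · simpa [Ne.symm hj.1, Ne.symm hj.2.1] using hk'
  · simp [hk.symm, hj.2.1, c0, hi, hk']

theorem fix (hn : 4 ≤ Fintype.card κ) (hc : ¬ SUG B ≤ M) : ∀ g ∈ M.map (UG B).subtype, ∀ l,
    (∀ i, i ≠ l → e.repr (g (e l)) i = 0) → (∀ i, i ≠ l → e.repr (g (e i)) l = 0) → g ∈ mon e := by
  rintro _ ⟨g, hg, rfl⟩ l h1 -
  refine mem_mon fun a => ?_
  by_cases ha : a = l
  · exact ⟨l, ha ▸ h1⟩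
  by_contra h4
  exact hc (h.of_us hn (h.us_conj (h.us_basis ha) hg (eq_smul_basis h1)) h4)

theorem fr (hn : 4 ≤ Fintype.card κ) (hc : ¬ SUG B ≤ M) (h2 : (2 : F) ≠ 0) :
    Fr e (M.map (UG B).subtype) := by
  refine ⟨h2, fun a b hab => ⟨_, h.pair a b (-2), e.ext' fun m => ?_⟩,
    fun a b c h3 h4 => ⟨hB.qr (e a - e b) (-1) * hB.qr (e a - e c) (-1), h.le _ ?_ ?_, ?_⟩,
    h.fix hn hc⟩
  · rw [Subgroup.coe_subtype, h.pair_apply h.neg_two hab, sgn_basis, map_neg, map_ofNat]
    by_cases h5 : m = a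
    · simp [h5, hab]
      module
    by_cases h6 : m = b
    · simp [h6, hab.symm]
      module
    simp [h5, h6]
  · rw [mem_SUG, map_mul, Units.val_mul, h.det_swap h3, h.det_swap h4]
    ring
  · exact mul_mem (h.swap_eq h3 ▸ pm_mem _) (h.swap_eq h4 ▸ pm_mem _)
  · rw [← h.swap_eq h3, ← h.swap_eq h4]
    rfl

theorem fr2 (hn : 4 ≤ Fintype.card κ) (hc : ¬ SUG B ≤ M) (h2 : (2 : F) = 0) {S : Finset F}
    (hS : ∀ c ∈ S, σ c * c = 1) : Fr2 e (M.map (UG B).subtype) S := by
  refine ⟨h2, fun c hc => right_ne_zero_of_mul_eq_one (hS c hc), fun a b hab c hc => ?_,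
    h.fix hn hc⟩
  have h0 := hS c hc
  have hc0 := right_ne_zero_of_mul_eq_one h0
  have h3 : (1 : F) + 1 = 0 := by linear_combination h2
  have h4 : B (e a + c • e b) (e a + c • e b) = 0 := by
    simpa [h.one, h.orth a b hab, h.orth b a hab.symm, mul_comm c, h0] using h3
  have h5 : (hB.qr (e a + c • e b) 1).1 = tv (e a + c • e b) (e.coord a + c⁻¹ • e.coord b)
      (by simp [hab, hab.symm, hc0, h3]) := LinearEquiv.ext fun x => by
    simp [hB.tv_apply h4 (c := 1) (by simpa using h3), h.bl, eq_inv_of_mul_eq_one_left h0]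
  refine .of_tv ⟨_, h.le _ (hB.tv_mem_SUG h4 1) (h5 ▸ mem_mon fun i => ?_), h5⟩
  by_cases h4 : i = a
  · refine ⟨b, fun j hj => ?_⟩
    by_cases h5 : j = a <;> simp [h4, h5, hab, hab.symm, hj, h3]
  by_cases h5 : i = b
  · refine ⟨a, fun j hj => ?_⟩
    by_cases h6 : j = b <;> simp [h5, h6, hab, hab.symm, hj, h3, hc0]
  simpa [h4, h5, Ne.symm h4, Ne.symm h5] using FV.basis i

theorem tv_mon (hn : 7 ≤ Fintype.card κ) (hc : ¬ SUG B ≤ M) (h2 : (2 : F) = 0)
    (hq : ∀ c, σ c = c → c ≠ 0 → c = 1) {b : V} {ψ : Dual F V}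
    (hb : T (M.map (UG B).subtype) b ψ) : tv b ψ hb.1 ∈ mon e := by
  by_contra hm
  have H := h.fr2 (by omega) hc h2 (S := ∅) (by simp)
  have h3 : (1 : F) + σ 1 = 0 := by rw [map_one]; linear_combination h2
  obtain ⟨g, hg, hg'⟩ := hb.tv_mem
  have h4 : ∀ x, g.1 x = x + ψ x • b := fun x => LinearEquiv.congr_fun hg' x
  have b0 : b ≠ 0 := fun e' => hm (by
    convert one_mem (mon e)
    ext x
    simp [e'])
  obtain ⟨x, hx⟩ := exists_apply_one (φ := ψ) fun e' => hm (by
    convert one_mem (mon e)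
    ext x
    simp [e'])
  have h5 : ∀ y, B b y = -(B x b + B b b) * ψ y := fun y => by
    have := UG.map_b g x y
    simp only [h4, hx, one_smul, LinearMap.add_apply, map_add, map_smul, smul_eq_mul] at this
    linear_combination this
  have h6 : -(B x b + B b b) ≠ 0 := fun e' => b0 (hB.nd b fun y => by rw [h5, e', zero_mul])
  have h7 : B b b = 0 := by rw [h5, hb.1, mul_zero]
  have h8 : ∀ y, g.1 y = y + ((-(B x b + B b b))⁻¹ * B b y) • b := fun y => by
    rw [h4, h5 y, inv_mul_cancel_left₀ h6]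
  have h9 := hB.cond_of_isom b0 (c := (-(B x b + B b b))⁻¹) fun y z => by
    rw [← h8, ← h8, UG.map_b]
  rw [h7, mul_zero, add_zero] at h9
  have h10 := hq _ (by linear_combination h9 - (-(B x b + 0))⁻¹ * h2) (h7 ▸ inv_ne_zero h6)
  have h11 : UT hB M b := ⟨h7, fun s => by
    by_cases hs : s + σ s = 0
    swap
    · rw [hB.qr_of_not (by simpa [h7] using hs)]
      exact one_mem M
    by_cases s0 : s = 0
    · simp [s0]
    rw [hq s (by linear_combination hs - s * h2) s0, ← hB.qr_of_apply (g := g) (by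
      rw [← h10, ← h7]; exact h8)]
    exact hg⟩
  have h12 : ∀ m, e.repr b m ≠ 0 := fun m e' => hm (H.spare hb e' (by
    have := h5 (e m)
    rw [h.br, e', map_zero] at this
    exact (mul_eq_zero.mp this.symm).resolve_left h6))
  have h13 : ∀ m, σ (e.repr b m) * e.repr b m = 1 := fun m =>
    hq _ (by simp [hB.invol, mul_comm]) (by simp [h12])
  obtain ⟨c, hc, hc'⟩ := exists_coef_ne hB.toInv
  have c0 : c ≠ 0 := by rintro rfl; simp at hc'
  have c1 : c + σ c = 1 := hq _ (by simp [hB.invol, add_comm]) fun e' =>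
    hc' (by linear_combination e' - c * h2)
  obtain ⟨f⟩ : Nonempty (Fin 7 ↪ κ) := Function.Embedding.nonempty_of_card_le (by simpa)
  have hf : ∀ {a a'}, a ≠ a' → f a ≠ f a' := fun h => f.injective.ne h
  have h14 := h11.add (((h11.map (h.pair (f 0) (f 1) c)).map (h.pair (f 2) (f 3) c)).map
    (h.pair (f 4) (f 5) c)) h3
  rw [h.pair_apply hc (hf (by decide)), h.pair_apply hc (hf (by decide)),
    h.pair_apply hc (hf (by decide))] at h14
  simp only [map_add, map_smul, Basis.repr_self, Finsupp.add_apply, Finsupp.smul_apply,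
    Finsupp.single_apply, f.injective.eq_iff, Fin.reduceEq, if_false, smul_zero, add_zero, h7,
    h.br, smul_eq_mul, mul_assoc, mul_comm (e.repr b _) (σ _), h13, mul_one, one_mul,
    zero_add, mul_zero] at h14
  rw [show c + σ c + c + σ c + c + σ c = 1 by linear_combination 3 * c1 + h2, one_smul] at h14
  generalize hv : _ + b = v at h14
  have v1 : e.repr v (f 0) ≠ 0 ∧ e.repr v (f 1) ≠ 0 ∧ e.repr v (f 2) ≠ 0 ∧ e.repr v (f 6) = 0 := by
    have : ∀ a d : F, a + d + a = d := fun a d => by linear_combination a * h2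
    simp [← hv, Finsupp.single_apply, this, c0, h12, ← two_mul, h2]
  have h15 : T (M.map (UG B).subtype) v (B v) := ⟨h14.1, _, ⟨_, h14.2 1, rfl⟩, fun y => by
    simp [hB.tv_apply h14.1 h3]⟩
  have := Fr2.not_mon (H.spare h15 v1.2.2.2 (by simp [h.br, v1])) (m := f 0) (i := f 1) (j := f 2)
    (by simp [h.br, v1]) (hf (by decide)) (hf (by decide)) v1.2.1
  simp [h.br, v1] at this

theorem main {q : ℕ} (hF : Nat.card F = q ^ 2) (hn : 9 ≤ Fintype.card κ)
    (hg : ∃ g ∈ M, g.1 ∉ mon e) : SUG B ≤ M := by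
  classical
  by_contra hc
  obtain ⟨g, hg, hg'⟩ := hg
  refine hg' ((?_ : M.map (UG B).subtype ≤ mon e) ⟨g, hg, rfl⟩)
  by_cases h2 : (2 : F) = 0
  swap
  · exact (h.fr (by omega) hc h2).le_mon hn
  haveI := Fintype.ofFinite F
  have H := h.fr2 (by omega) hc h2 (S := Finset.univ.filter fun c => σ c * c = 1) (by simp)
  have h3 : (Finset.univ.filter fun c : F => σ c * c = 1).card = q + 1 := by
    rw [← hB.toInv.card_norm hF one_ne_zero (map_one σ), Nat.card_eq_fintype_card,
      Fintype.card_subtype]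
  have h4 := two_le_of_card hF
  by_cases hq : q = 2
  · refine fun g hg => H.of_conj (by omega) (by omega) hg fun b ψ hb =>
      h.tv_mon (by omega) hc h2 (fun c h5 h6 => ?_) hb
    rw [hB.toInv.apply_pow hF, hq] at h5
    exact mul_left_cancel₀ h6 (by linear_combination h5)
  · exact H.le_mon (by omega) (by omega)

end UFr

section geo
variable [Finite F] {n q t k : ℕ} (hF : Nat.card F = q ^ 2) {D : Fin t → Submodule F (Fin n → F)}
include hF

theorem max_un_dec (hn : k + 3 ≤ n) (hD : Geo.IsNondegenerateMDecomposition (hermForm n F q) k D)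
    (H : ∀ π M, UDec (hf_sB hF n) M D π k → (∃ g ∈ M, ¬ PermD D g.1) → SUG (sB hF n) ≤ M) :
    Geo.IsMaximalIn (Cfsg.GU n F q ⊓ Geo.specialLinear (Fin n) F)
      (Geo.decompositionStabilizer D ⊓ (Cfsg.GU n F q ⊓ Geo.specialLinear (Fin n) F)) := by
  obtain ⟨π, h⟩ := exists_isDec hD.decomp.indep hD.decomp.iSup_eq_top
  have := hD.decomp.two_le
  exact isMaximalIn_SU hF (PermD D) mem_decStab (exists_su_not_perm (hf_sB hF n) h
    hD.decomp.finrank_eq hD.decomp.pos (by simpa) ⟨0, by omega⟩) fun M hH _ => H π M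
      ⟨h, hD.decomp.finrank_eq, fun i => ndu_of hF (hD.nondegenerate i), fun i j hij x hx y hy =>
        (hermForm_eq hF n _ _).symm.trans (hD.orthogonal j i hij.symm y hy x hx), hH⟩

theorem max_un_frame (hn : 9 ≤ n) (hD : Geo.IsNondegenerateMDecomposition (hermForm n F q) 1 D) :
    Geo.IsMaximalIn (Cfsg.GU n F q ⊓ Geo.specialLinear (Fin n) F)
      (Geo.decompositionStabilizer D ⊓ (Cfsg.GU n F q ⊓ Geo.specialLinear (Fin n) F)) := by
  refine max_un_dec hF (by omega) hD fun π M h hg => ?_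
  choose v hv hv1 using fun i => (h.nd i).exists_norm (hf_sB hF n) (h.rk i).ge (map_one _)
  obtain ⟨e, he, rfl⟩ := exists_frame h.dec hv (fun i => ne_zero_of_b (hv1 i ▸ one_ne_zero)) h.rk
  have h1 := finrank_eq_card_basis e
  simp only [← mem_mon_iff] at hg
  refine UFr.main (hB := hf_sB hF n) ⟨fun i => he i ▸ hv1 i, fun i j hij => h.orth i j hij _
    (Submodule.mem_span_singleton_self _) _ (Submodule.mem_span_singleton_self _),
    fun g hg hg' => h.le g hg (mem_mon_iff.mp hg')⟩ hF (by simp at h1 ⊢; omega) hg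

theorem max_un_blocks (hn : k + 3 ≤ n) (hk : 2 ≤ k) (hex : ¬ (k = 2 ∧ q = 2))
    (hD : Geo.IsNondegenerateMDecomposition (hermForm n F q) k D) :
    Geo.IsMaximalIn (Cfsg.GU n F q ⊓ Geo.specialLinear (Fin n) F)
      (Geo.decompositionStabilizer D ⊓ (Cfsg.GU n F q ⊓ Geo.specialLinear (Fin n) F)) := by
  refine max_un_dec hF hn hD fun π M h hg => ?_
  by_cases hq : q = 2
  · exact h.of_three (by simp; omega) (by omega) hg
  · obtain ⟨b, h1, h2, h3⟩ := (inv_frob hF).exists_fix_ne hF hq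
    exact h.of_fix (by simp; omega) hk h1 h2 h3 hg

end geo

end Cfsg.Agent.Max
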