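import Mathlib
import Cfsg.Agent.Max.UFrame
import Cfsg.Agent.Max.Sub

/-!
# Maximal subgroups of `SU₆(q)`: subspaces, frames and totally isotropic pairs
-/

set_option autoImplicit false
set_option linter.unusedSectionVars false

namespace Cfsg.Agent.Max

open Module Herm

section frame
variable {F V : Type*} [Field F] [AddCommGroup V] [Module F V] [FiniteDimensional F V]
  {σ : F →+* F} {B : V →ₛₗ[σ] V →ₗ[F] F} {hB : HF B}
  {M : Subgroup (UG B)} {e : Basis (Fin 6) F V} [Finite F]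

theorem UFr.main6 (h : UFr hB e M) {q : ℕ} (hF : Nat.card F = q ^ 2) (hq : 3 ≤ q)
    (hg : ∃ g ∈ M, g.1 ∉ mon e) : SUG B ≤ M := by
  classical
  by_contra hc
  obtain ⟨g, hg, hg'⟩ := hg
  refine hg' ((?_ : M.map (UG B).subtype ≤ mon e) ⟨g, hg, rfl⟩)
  by_cases h2 : (2 : F) = 0
  · haveI := Fintype.ofFinite F
    have H := h.fr2 (by simp) hc h2 (S := Finset.univ.filter fun c => σ c * c = 1) (by simp)
    have h3 : (Finset.univ.filter fun c : F => σ c * c = 1).card = q + 1 := by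
      rw [← hB.toInv.card_norm hF one_ne_zero (map_one σ), Nat.card_eq_fintype_card,
        Fintype.card_subtype]
    exact H.le_mon (by simp) (by omega)
  obtain ⟨c, h3, h4⟩ := exists_coef_ne hB.toInv
  have h5 : (1 + c) * (1 + σ c) = 1 := by linear_combination h3
  refine Fr3.le_mon (s := Units.mkOfMulEqOne _ _ h5) ⟨h.fr (by simp) hc h2, fun e' => h4 ?_,
    fun e' => h4 ?_, fun i j hij => ⟨_, h.pair i j c, e.ext' fun m => ?_⟩⟩
  · have : c = 0 := by simpa using e'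
    simp [this]
  · have : c = -2 := by
      simp only [Units.val_mkOfMulEqOne] at e'
      linear_combination e'
    rw [this, map_neg, map_ofNat]
  · rw [Subgroup.coe_subtype, h.pair_apply h3 hij, dg_basis]
    have h6 : (((Units.mkOfMulEqOne _ _ h5)⁻¹ : Fˣ) : F) = 1 + σ c := rfl
    by_cases h7 : m = i
    · subst h7
      simp [hij, add_smul]
    by_cases h8 : m = j
    · subst h8
      simp only [Basis.repr_self, Finsupp.single_eq_of_ne' h7, mul_zero, zero_smul, add_zero,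
        Finsupp.single_eq_same, mul_one, Pi.mul_apply, Pi.mulSingle_eq_of_ne h7,
        Pi.mulSingle_eq_same, one_mul, h6, add_smul, one_smul]
    simp [h7, h8]

end frame

section lag
variable {F V : Type*} [Field F] [AddCommGroup V] [Module F V] [FiniteDimensional F V]
  {σ : F →+* F} {B : V →ₛₗ[σ] V →ₗ[F] F} {hB : HF B} {M : Subgroup (UG B)} [Finite F]
  {E E' : Submodule F V}

omit [Finite F] in
theorem ue_of_zero {u f : V} (h1 : B u f = 0) (h2 : B f f = 0)
    (h3 : ∀ c : F, hB.eich u (c • f) 0 ∈ M) : f ∈ UE hB M u :=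
  fun c => ⟨by simp [h1], 0, by simp [h2], h3 c⟩

omit [Finite F] in
theorem ue_split {x w z b : V} (hw : w ∈ UE hB M x) (hz : B z z = 0) (hzb : B z b = 0)
    (hb : B b b = 0) (h1 : B z x = 0) (h2 : B b x = 0) (h3 : ∀ c : F, hB.eich z (c • b) 0 ∈ M) :
    B b w • z ∈ UE hB M x ∧ B z w • b ∈ UE hB M x := by
  have key : ∀ c : F, (σ c * B b w) • z - (c * B z w) • b ∈ UE hB M x := fun c => by
    have := (UE hB M x).sub_mem (UE.map_fix hw (h3 c)
      (hB.eich_apply_of_orth 0 h1 (by simp [h2]))) hw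
    rw [hB.eich_apply hz (by simp [hzb]) (by simp [hb])] at this
    convert this using 1
    simp only [b_smul_left]
    module
  obtain ⟨t, ht⟩ := hB.ne
  have h4 : σ t - t ≠ 0 := sub_ne_zero.mpr ht
  constructor
  · refine ((UE hB M x).smul_mem_iff h4).mp ?_
    convert (UE hB M x).sub_mem (key t) ((UE hB M x).smul_mem t (key 1)) using 1
    rw [map_one]
    module
  · refine ((UE hB M x).smul_mem_iff h4).mp ?_
    convert (UE hB M x).sub_mem (key t) ((UE hB M x).smul_mem (σ t) (key 1)) using 1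
    rw [map_one]
    module

theorem LagPair.eq_zero (h : LagPair B E E') (hB : HF B) {x : V} (hx : x ∈ E) (hx' : x ∈ E') :
    x = 0 := hB.nd x fun v => by
  obtain ⟨a, ha, b, hb, rfl⟩ := h.dec v
  rw [map_add, h.iso x hx a ha, h.iso' x hx' b hb, add_zero]

theorem un_lagC (hn : 3 ≤ finrank F V) (h : LagPair B E E') (hm : 3 ≤ finrank F E)
    (hS : ∀ u ∈ E, ∀ f ∈ E', B u f = 0 → f ∈ UE hB M u)
    (hw : ∃ w ∈ M, ∀ x ∈ E, w.1 x ∈ E') {x y p : V} {k : F} (hx : x ∈ E) (hy : y ∈ E') (hp : p ∈ E)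
    (hx0 : x ≠ 0) (hp0 : p ≠ 0) (h1 : B (x + y) (x + y) = 0) (h2 : B (x + y) (p + k • y) = 0)
    (h3 : B (p + k • y) (p + k • y) = 0) (h4 : ∀ c : F, hB.eich (x + y) (c • (p + k • y)) 0 ∈ M) :
    SUG B ≤ M := by
  have d : ∀ a : V, ¬ E ⊓ LinearMap.ker (B y) ≤ F ∙ a := fun a e => by
    have := Submodule.finrank_mono e
    have := finrank_le_inf_ker E (B y)
    have := finrank_span_one_le (F := F) a
    omega
  obtain ⟨u, ⟨hu, h5⟩, h6, h7⟩ := exists_not_mem_two (d x) (d p)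
  replace h5 : B y u = 0 := h5
  obtain ⟨φ, h8, h9⟩ := exists_dual_two (not_mem_span_swap hx0 h6)
  obtain ⟨f, hf, hf'⟩ := h.exists_dual hB.exists_dual_eq φ
  have h10 := (ue_split (hS u hu f hf (hB.zero_symm ((hf' u hu).trans h8))) h1 h2 h3
    (by simp [h.iso x hx u hu, h5]) (by simp [h.iso p hp u hu, h5]) h4).2
  rw [map_add, LinearMap.add_apply, hB.one_symm ((hf' x hx).trans h9), h.iso' y hy f hf, add_zero,
    one_smul] at h10
  refine un_lagA hn h hm hS hw hu (by rintro rfl; exact h6 (zero_mem _)) h10 fun e => ?_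
  obtain ⟨c, hc, _, hz, e⟩ := Submodule.mem_sup.mp e
  obtain ⟨l, rfl⟩ := Submodule.mem_span_singleton.mp hz
  have h11 : p - l • u = 0 := h.eq_zero hB (E.sub_mem hp (E.smul_mem l hu)) (by
    rw [show p - l • u = c - k • y by linear_combination (norm := module) -e]
    exact E'.sub_mem hc (E'.smul_mem k hy))
  exact not_mem_span_swap hp0 h7 (Submodule.mem_span_singleton.mpr ⟨l, (sub_eq_zero.mp h11).symm⟩)

/-- The stabiliser of a pair of complementary totally isotropic subspaces. -/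
theorem un_lag3 (hB : HF B) {D : Fin 2 → Submodule F V} {π : Fin 2 → V →ₗ[F] V} (h : IsDec D π)
    {m : ℕ} (hm : ∀ i, finrank F (D i) = m) (hm3 : 3 ≤ m)
    (hi : ∀ i, ∀ x ∈ D i, ∀ y ∈ D i, B x y = 0)
    (hH : ∀ g ∈ SUG B, PermD D g.1 → g ∈ M) (hg : ∃ g ∈ M, ¬ PermD D g.1) : SUG B ≤ M := by
  obtain ⟨g, hg, hg'⟩ := hg
  by_contra hc
  have hn : 3 ≤ finrank F V := by have := Submodule.finrank_le (D 0); rw [hm] at this; omega
  have hL := lagPair_of h hi
  have hS0 : ∀ i j, i ≠ j → ∀ u ∈ D i, ∀ f ∈ D j, B u f = 0 → ∀ c : F, hB.eich u (c • f) 0 ∈ M :=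
    fun i j hij u hu f hf e c => hH _
      (hB.eich_mem_SUG _ _ _) (h.permD_of_fix fun l x hx => by
        rw [hB.eich_apply (hi i u hu u hu) (by simp [e]) (by simp [hi j f hf f hf])]
        by_cases hl : l = i
        · subst hl
          simpa [hi l u hu x hx] using (D l).add_mem hx ((D l).smul_mem _ hu)
        · obtain rfl : l = j := by omega
          simpa [hi l f hf x hx] using (D l).sub_mem hx ((D l).smul_mem _ ((D l).smul_mem c hf)))
  have hS : ∀ i j, i ≠ j → ∀ u ∈ D i, ∀ f ∈ D j, B u f = 0 → f ∈ UE hB M u :=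
    fun i j hij u hu f hf e => ue_of_zero e (hi j f hf f hf) (hS0 i j hij u hu f hf e)
  obtain ⟨w, hw, hw1, hw2⟩ := un_lag_swap hB hL (hm 0) (hm 1) (by omega)
  have hwM := hH w hw (permD_two h hm (by omega) hw1 hw2)
  obtain ⟨i, a, ha, hga⟩ := h.exists_not_mem hm (by omega) hg'
  obtain ⟨x, hx, y, hy, e⟩ := hL.dec (g.1 a)
  have hx0 : x ≠ 0 := by
    rintro rfl
    exact hga 1 (by simpa [← e] using hy)
  have hy0 : y ≠ 0 := by
    rintro rfl
    exact hga 0 (by simpa [← e] using hx)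
  have ha0 : a ≠ 0 := by
    rintro rfl
    exact hga 0 (by simp)
  obtain ⟨j, hj⟩ := exists_ne i
  have hq : B (x + y) (x + y) = 0 := by rw [e, UG.map_b, hi i a ha a ha]
  have h1 : ∀ d ∈ D j, B a d = 0 → B (x + y) (g.1 d) = 0 ∧ B (g.1 d) (g.1 d) = 0 ∧
      ∀ c : F, hB.eich (x + y) (c • g.1 d) 0 ∈ M := fun d hd h1 =>
    ⟨by rw [e, UG.map_b, h1], by rw [UG.map_b, hi j d hd d hd], fun c => by
      rw [e, ← map_smul, ← hB.eich_conj]
      exact mul_mem (mul_mem hg (hS0 i j hj.symm a ha d hd h1 c)) (inv_mem hg)⟩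
  have A : ∀ d ∈ D j, B a d = 0 → ∀ p ∈ D 0, ∀ r ∈ D 1, p + r = g.1 d → (p ∈ F ∙ x ∨ r ∈ F ∙ y) →
      d = 0 := fun d hd h2 p hp r hr e1 h3 => by
    obtain ⟨h4, h5, h6⟩ := h1 d hd h2
    rw [← e1] at h4 h5 h6
    have A1 : r ∈ F ∙ y → p = 0 := fun h7 => by_contra fun h8 => by
      obtain ⟨k, rfl⟩ := Submodule.mem_span_singleton.mp h7
      exact hc (un_lagC hn hL (by rw [hm]; exact hm3) (hS 0 1 (by simp)) ⟨w, hwM, hw1⟩ hx hy hp
        hx0 h8 hq h4 h5 h6)
    have A2 : p ∈ F ∙ x → r = 0 := fun h7 => by_contra fun h8 => by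
      obtain ⟨k, rfl⟩ := Submodule.mem_span_singleton.mp h7
      rw [add_comm x y] at hq h4 h6
      rw [add_comm _ r] at h4 h5 h6
      exact hc (un_lagC hn hL.symm (by rw [hm]; exact hm3) (hS 1 0 (by simp)) ⟨w, hwM, hw2⟩ hy hx
        hr hy0 h8 hq h4 h5 h6)
    refine (UG.apply_eq_zero g).mp ?_
    rcases h3 with h3 | h3
    · have h7 := A2 h3
      rw [← e1, A1 (h7 ▸ zero_mem _), h7, add_zero]
    · have h7 := A1 h3
      rw [← e1, A2 (h7 ▸ zero_mem _), h7, add_zero]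
  obtain ⟨b, ⟨hb, h2⟩, hb0⟩ := exists_not_mem_of_finrank_lt (W := ⊥)
    (U := D j ⊓ LinearMap.ker (B a)) (by
      have := finrank_le_inf_ker (D j) (B a)
      rw [hm] at this
      rw [finrank_bot]
      omega)
  obtain ⟨p, hp, r, hr, e1⟩ := hL.dec (g.1 b)
  have h3 : p ∉ F ∙ x := fun h3 => hb0 (A b hb h2 p hp r hr e1 (.inl h3))
  obtain ⟨φ, h4, h5⟩ := exists_dual_two h3
  obtain ⟨f, hf, hf'⟩ := hL.exists_dual hB.exists_dual_eq φ
  obtain ⟨u, ⟨⟨hu, h6⟩, h7⟩, hu0⟩ := exists_not_mem_of_finrank_lt (W := ⊥)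
    (U := D 0 ⊓ LinearMap.ker (B y) ⊓ LinearMap.ker (B f)) (by
      have := finrank_le_inf_ker (D 0) (B y)
      have := finrank_le_inf_ker (D 0 ⊓ LinearMap.ker (B y)) (B f)
      rw [hm] at *
      rw [finrank_bot]
      omega)
  replace h6 : B y u = 0 := h6
  replace h7 : B u f = 0 := hB.zero_symm h7
  obtain ⟨h8, h9, h10⟩ := h1 b hb h2
  have h11 := (ue_split (ue_of_zero h8 h9 h10) (hi 0 u hu u hu) h7 (hi 1 f hf f hf)
    (by simp [hi 0 u hu x hx, hB.zero_symm h6]) (by simp [hf' x hx, h4, hi 1 f hf y hy])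
    (hS0 0 1 (by simp) u hu f hf h7)).1
  rw [← e1, map_add, hf' p hp, h5, hi 1 f hf r hr, add_zero, one_smul, e] at h11
  have h12 := UE.map h11 (inv_mem hg)
  rw [UG.inv_apply_self] at h12
  have h13 : g⁻¹.1 u ∈ D j ⊔ F ∙ a := by_contra fun h13 => hc (by
    by_cases hi0 : i = 0
    · obtain rfl : j = 1 := by omega
      subst hi0
      exact un_lagA hn hL (by rw [hm]; exact hm3) (hS 0 1 (by simp)) ⟨w, hwM, hw1⟩ ha ha0 h12 h13
    · obtain rfl : i = 1 := by omega
      obtain rfl : j = 0 := by omega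
      exact un_lagA hn hL.symm (by rw [hm]; exact hm3) (hS 1 0 (by simp)) ⟨w, hwM, hw2⟩ ha ha0
        h12 h13)
  obtain ⟨d, hd, _, hz, e2⟩ := Submodule.mem_sup.mp h13
  obtain ⟨k, rfl⟩ := Submodule.mem_span_singleton.mp hz
  have e3 : u - k • x + -k • y = g.1 d := by
    have := congrArg g.1 e2
    rw [UG.apply_inv_self, map_add, map_smul, ← e] at this
    linear_combination (norm := module) -this
  have h14 := A d hd (by
    have := UE.orth h12
    rw [← e2] at this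
    simpa [hi i a ha a ha] using this) _
    ((D 0).sub_mem hu ((D 0).smul_mem k hx)) _ ((D 1).smul_mem _ hy) e3
    (.inr (Submodule.smul_mem _ _ (Submodule.mem_span_singleton_self y)))
  rw [h14, map_zero] at e3
  have h15 : k • y = 0 := hL.eq_zero hB (by
    rw [show k • y = u - k • x by linear_combination (norm := module) -e3]
    exact (D 0).sub_mem hu ((D 0).smul_mem k hx)) ((D 1).smul_mem _ hy)
  have h16 : k = 0 := (smul_eq_zero.mp h15).resolve_right hy0
  exact hu0 (by simpa [h16] using e3)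

end lag

section geo
variable {F : Type*} [Field F] [Finite F] {q : ℕ} (hF : Nat.card F = q ^ 2)
include hF

theorem max_un_nondeg6 {W : Submodule F (Fin 6 → F)} (h0 : W ≠ ⊥)
    (hW : Geo.IsNondegenerateOn (hermForm 6 F q) W) (hd : 2 * finrank F W < 6) :
    Geo.IsMaximalIn (Cfsg.GU 6 F q ⊓ Geo.specialLinear (Fin 6) F)
      (Geo.subspaceStabilizer W ⊓ (Cfsg.GU 6 F q ⊓ Geo.specialLinear (Fin 6) F)) := by
  have hn' : finrank F (Fin 6 → F) = 6 := by simp
  have h2 := (hf_sB hF 6).finrank_perp_add W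
  refine isMaximalIn_SU hF (fun g => ∀ v, v ∈ W ↔ g v ∈ W) (fun _ => Iff.rfl)
    (exists_su_not_stab (hf_sB hF 6) (by omega) h0 ?_) fun M hH _ ⟨g, hg, hg'⟩ =>
      un_nondeg (hf_sB hF 6) (ndu_of hF hW) (by omega) hH ⟨g, hg, hg', fun e => ?_⟩
  · rintro rfl
    rw [finrank_top] at hd
    omega
  · have h1 := Submodule.finrank_mono (show (perp _ W).map (g.1 : _ →ₗ[F] _) ≤ W from
      Submodule.map_le_iff_le_comap.mpr e)
    rw [LinearEquiv.finrank_map_eq] at h1
    omega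

theorem max_un_frame6 (hq : 3 ≤ q) {D : Fin 6 → Submodule F (Fin 6 → F)}
    (hD : Geo.IsNondegenerateMDecomposition (hermForm 6 F q) 1 D) :
    Geo.IsMaximalIn (Cfsg.GU 6 F q ⊓ Geo.specialLinear (Fin 6) F)
      (Geo.decompositionStabilizer D ⊓ (Cfsg.GU 6 F q ⊓ Geo.specialLinear (Fin 6) F)) := by
  refine max_un_dec hF (by omega) hD fun π M h hg => ?_
  choose v hv hv1 using fun i => (h.nd i).exists_norm (hf_sB hF 6) (h.rk i).ge (map_one _)
  obtain ⟨e, he, rfl⟩ := exists_frame h.dec hv (fun i => ne_zero_of_b (hv1 i ▸ one_ne_zero)) h.rk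
  simp only [← mem_mon_iff] at hg
  exact UFr.main6 (hB := hf_sB hF 6) ⟨fun i => he i ▸ hv1 i, fun i j hij => h.orth i j hij _
    (Submodule.mem_span_singleton_self _) _ (Submodule.mem_span_singleton_self _),
    fun g hg hg' => h.le g hg (mem_mon_iff.mp hg')⟩ hF hq hg

theorem max_un_lag3 {D : Fin 2 → Submodule F (Fin 6 → F)}
    (hD : Geo.IsMDecomposition 3 D) (hts : ∀ i, Geo.IsTotallySingularFor (hermForm 6 F q) (D i)) :
    Geo.IsMaximalIn (Cfsg.GU 6 F q ⊓ Geo.specialLinear (Fin 6) F)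
      (Geo.decompositionStabilizer D ⊓ (Cfsg.GU 6 F q ⊓ Geo.specialLinear (Fin 6) F)) := by
  obtain ⟨π, h⟩ := exists_isDec hD.indep hD.iSup_eq_top
  exact isMaximalIn_SU hF (PermD D) mem_decStab (exists_su_not_perm (hf_sB hF 6) h hD.finrank_eq
      hD.pos (by simp) 0)
    fun M hH _ hg => un_lag3 (hf_sB hF 6) h hD.finrank_eq le_rfl
      (fun i u hu v hv => (hermForm_eq hF 6 _ _).symm.trans (hts i v hv u hu)) hH hg

end geo

end Cfsg.Agent.Max
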