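import Mathlib
import Cfsg.Agent.Max.U6a

/-!
# Maximal subgroups of `SU₄(q)`: points and pairs of planes
-/

set_option autoImplicit false
set_option linter.unusedSectionVars false

namespace Cfsg.Agent.Max

open Module Herm

variable {F V : Type*} [Field F] [AddCommGroup V] [Module F V] [FiniteDimensional F V]
  {σ : F →+* F} {B : V →ₛₗ[σ] V →ₗ[F] F} {hB : HF B} {M : Subgroup (UG B)} [Finite F]

theorem un_nondeg1 (hB : HF B) {W : Submodule F V} (hW : NDU B W) (h1 : finrank F W ≤ 1)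
    (h3 : 3 ≤ finrank F (perp B W))
    (hH : ∀ g ∈ SUG B, (∀ v, v ∈ W ↔ g.1 v ∈ W) → g ∈ M)
    (hg : ∃ g ∈ M, ¬ ∀ v, v ∈ W ↔ g.1 v ∈ W) : SUG B ≤ M := by
  obtain ⟨g, hg, hg1⟩ := hg
  have hn : 3 ≤ finrank F V := by have := Submodule.finrank_le (perp B W); omega
  obtain ⟨u, hu, hu0, hu2⟩ := (hW.perp hB).exists_iso hB (by omega)
    (X := (perp B W).comap (g.1 : V →ₗ[F] V))
    fun h => hg1 (hB.perp_perp W ▸ ustab_perp (mem_iff_of_le h))
  replace hu2 : g.1 u ∉ perp B W := hu2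
  have hE : ∀ x ∈ perp B W, ∀ v ∈ perp B W, B x v = 0 → v ∈ UE hB M x := fun x hx v hv h =>
    ue_of_stab hH h (Or.inr ⟨hx, hv⟩)
  have hy := (ut_of_stab (hB := hB) hH hu0 (Or.inr hu)).map hg
  obtain ⟨w, hw, b, hb, e⟩ := hW.dec hB (g.1 u)
  rw [← e] at hy hu2
  have hw0 : w ≠ 0 := by rintro rfl; exact hu2 (by simpa using hb)
  have hWw : W = F ∙ w := (Submodule.eq_of_le_of_finrank_le
    ((Submodule.span_singleton_le_iff_mem w W).mpr hw)
    (by rw [finrank_span_singleton hw0]; exact h1)).symm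
  have hwb : B w b = 0 := mem_perp.mp hb w hw
  have hbb : B b b ≠ 0 := fun h => hw0 (hW w hw fun x hx => by
    obtain ⟨c, rfl⟩ := Submodule.mem_span_singleton.mp (hWw ▸ hx)
    have := hy.1
    simp only [map_add, LinearMap.add_apply, hwb, hB.zero_symm hwb, h, add_zero] at this
    simp [this])
  obtain ⟨x, ⟨hx, hx2⟩, hx0, hx1⟩ := herm_exists_iso hB (perp B W ⊓ LinearMap.ker (B b)) (by
    have := finrank_le_inf_ker (perp B W) (B b)
    omega)
  replace hx2 : B b x = 0 := hx2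
  have hz := hy.grow (hE x hx b hb (hB.zero_symm hx2)) (by simp [hx2, mem_perp.mp hx w hw])
    (by simpa [hwb] using hbb)
  have h4 : w ∈ UE hB M x :=
    ((UE hB M x).add_mem_iff_left (hE x hx b hb (hB.zero_symm hx2))).mp hz
  have h2 : W ≤ UE hB M x := hWw ▸ (Submodule.span_singleton_le_iff_mem _ _).mpr h4
  obtain ⟨f, hf, hf1, hf2, -⟩ := (hW.perp hB).exists_hyp hB hx hx0 hx1
  refine un_le_of_ut (hB := hB) hn ⟨hx1, fun y hy => ?_⟩ (ut_of_stab hH hf1 (Or.inr hf))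
    (by simp [hB.one_symm hf2])
  obtain ⟨a, ha, b, hb, rfl⟩ := hW.dec hB y
  exact UE.ua ((UE hB M x).add_mem (h2 ha) (hE x hx b hb (by
    simpa [hB.mem_perp'.mp hx a ha] using hy)))

theorem exists_su_not_perm' {κ : Type*} [Fintype κ] {D : κ → Submodule F V} {π : κ → V →ₗ[F] V}
    (hB : HF B) (h : IsDec D π) (hn : 3 ≤ finrank F V) {i j : κ} (hij : i ≠ j) {x y : V}
    (hx : x ∈ D i) (hy : y ∈ D j) (hx0 : x ≠ 0) (hy0 : y ≠ 0) (h1 : B x x = 0) (h2 : B x y = 0)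
    (h3 : B y y = 0) : ∃ g ∈ SUG B, ¬ PermD D g.1 := by
  have h4 : π i (x + y) = x := by rw [map_add, h.of_mem hx, h.of_ne hij hy, add_zero]
  have h5 : π j (x + y) = y := by rw [map_add, h.of_mem hy, h.of_ne hij.symm hx, zero_add]
  obtain ⟨g, hg, hg'⟩ := hB.SUG_trans_iso hn hx0 (y := x + y)
    (fun e => hx0 (by rw [← h4, e, map_zero])) h1 (by simp [h1, h2, hB.zero_symm h2, h3])
  refine ⟨g, hg, fun ⟨s, hs⟩ => ?_⟩
  have h6 : x + y ∈ D (s i) := hs i ▸ ⟨x, hx, hg'⟩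
  by_cases e : i = s i
  · exact hy0 (by rw [← h5, h.of_ne hij.symm (e ▸ h6)])
  · exact hx0 (by rw [← h4, h.of_ne e h6])

/-- A pair of complementary totally isotropic planes whose stabiliser lies in `M`. -/
structure Lag4 (hB : HF B) (M : Subgroup (UG B)) (E E' : Submodule F V) : Prop where
  lag : LagPair B E E'
  rk : finrank F E = 2
  rk' : finrank F E' = 2
  hn : 3 ≤ finrank F V
  fix : ∀ g ∈ SUG B, (∀ x ∈ E, g.1 x ∈ E) → (∀ x ∈ E', g.1 x ∈ E') → g ∈ M
  swap : ∃ w ∈ M, (∀ x ∈ E, w.1 x ∈ E') ∧ ∀ x ∈ E', w.1 x ∈ E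
  big : ∃ k, σ k = k ∧ k ≠ 0 ∧ k ^ 2 ≠ 1

theorem ut_of_line {p v a d : V} {k : F} (hk : σ k = k) (hk0 : k ≠ 0) (hk1 : k ≠ 1)
    (e : a + d = p) (ha : B a a = 0) (hd : B d d = 0) (had : B a d = 0) (hpv : B p v = 0)
    (hv : B v v = 0) (hdv : B d v ≠ 0) (h1 : ∀ t, σ t = t → hB.eich p (t • v) 0 ∈ M)
    (h2 : ∀ c : F, hB.eich a (c • d) 0 ∈ M) : UT hB M p := by
  have hda := hB.zero_symm had
  have hap : B a p = 0 := by simp [← e, ha, had]
  have hdp : B d p = 0 := by simp [← e, hd, hda]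
  have hp : B p p = 0 := by simp [← e, ha, hd, had, hda]
  have hav : B a v = -B d v := by
    rw [← e, map_add, LinearMap.add_apply] at hpv
    linear_combination hpv
  have hvd : B v d = σ (B d v) := (hB.symm d v).symm
  generalize B d v = b at hdv hav hvd
  have hpd := hB.zero_symm hdp
  have key : ∀ c t, σ t = t → hB.eich p ((t * (c - σ c) * b) • d)
      (t * (σ c * b - c * σ b) + t ^ 2 * (c - σ c) * (σ b * b)) ∈ M := fun c t ht => by
    have h3 := mul_mem (mul_mem (mul_mem (h2 c) (h1 t ht)) (inv_mem (h2 c))) (inv_mem (h1 t ht))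
    have h4 : (hB.eich a (c • d) 0).1 (t • v) =
        (t • v + (t * (c - σ c) * b) • d) + (t * σ c * b) • p := by
      rw [hB.eich_apply ha (by simp [had]) (by simp [hd]), ← e]
      simp only [b_smul_left, map_smul, smul_eq_mul, hav, show B d v = b by
        rw [← hB.symm v d, hvd, hB.invol]]
      module
    have h5 : B p (t • v + (t * (c - σ c) * b) • d) = 0 := by simp [hpv, hpd]
    have h6 : B (t • v + (t * (c - σ c) * b) • d) (t • v + (t * (c - σ c) * b) • d) = 0 := by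
      simp only [map_add, LinearMap.add_apply, b_smul_left, map_smul, smul_eq_mul, hv, hd, hvd,
        map_mul, map_sub, hB.invol, ht, show B d v = b by rw [← hB.symm v d, hvd, hB.invol]]
      ring
    rw [hB.eich_conj, hB.eich_apply_of_orth 0 hap (by simp [hdp]), h4,
      hB.eich_add_smul hp h5 (by rw [h6]; simp), hB.eich_inv hp (by simp [hpv]) (by simp [hv]),
      hB.eich_mul hp h5 (by rw [h6]; simp [hB.invol]) (by simp [hpv]) (by simp [hv])] at h3
    convert h3 using 2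
    · module
    · simp only [map_add, map_neg, LinearMap.add_apply, b_smul_left, map_smul, smul_eq_mul, hv,
        map_mul, map_sub, hB.invol, ht, map_zero,
        show B d v = b by rw [← hB.symm v d, hvd, hB.invol]]
      ring
  refine ⟨hp, fun s => ?_⟩
  by_cases hs : s + σ s = 0
  swap
  · rw [hB.qr_of_not (by simpa [hp] using hs)]
    exact one_mem M
  have hb' : σ b ≠ 0 := by simpa using hdv
  have hk2 : k - 1 ≠ 0 := sub_ne_zero.mpr hk1
  obtain ⟨c, hc⟩ := hB.toInv.exists_sub (c := -s / (k * (k - 1) * (σ b * b))) (by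
    simp only [map_div₀, map_neg, map_mul, map_sub, map_one, hk, hB.invol,
      eq_neg_of_add_eq_zero_right hs]
    field_simp
    ring)
  have h7 : ∀ c t, σ t = t → (t * (σ c * b - c * σ b) + t ^ 2 * (c - σ c) * (σ b * b)) +
      σ (t * (σ c * b - c * σ b) + t ^ 2 * (c - σ c) * (σ b * b)) =
      B ((t * (c - σ c) * b) • d) ((t * (c - σ c) * b) • d) := fun c t ht => by
    simp only [map_add, b_smul_left, map_smul, smul_eq_mul, hd, map_mul, map_sub, hB.invol, ht,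
      map_pow]
    ring
  have h3 := mul_mem (key c k hk) (inv_mem (key (k * c) 1 (map_one σ)))
  rw [hB.eich_inv hp (by simp [hpd]) (h7 _ _ (map_one σ)), hB.eich_mul hp (by simp [hpd])
    (h7 _ _ hk) (by simp [hpd]) (by rw [hB.invol, add_comm, h7 _ _ (map_one σ)]; simp [hd]),
    show (k * (c - σ c) * b) • d + -((1 * (k * c - σ (k * c)) * b) • d) = 0 by
      rw [map_mul, hk]; module, hB.eich_zero hp] at h3
  convert h3 using 2
  simp only [map_add, map_neg, b_smul_left, map_smul, smul_eq_mul, hd, map_mul, map_sub, hB.invol,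
    hk, map_pow, map_one]
  have : s = -(c - σ c) * (k * (k - 1) * (σ b * b)) := by
    rw [hc]
    field_simp
  rw [this]
  ring

namespace Lag4
variable {E E' : Submodule F V} (h : Lag4 hB M E E')
include h

theorem symm : Lag4 hB M E' E :=
  ⟨h.lag.symm, h.rk', h.rk, h.hn, fun g hg a b => h.fix g hg b a,
    let ⟨w, hw, a, b⟩ := h.swap; ⟨w, hw, b, a⟩, h.big⟩

theorem nd {a : V} (ha : a ∈ E) (h0 : ∀ f ∈ E', B a f = 0) : a = 0 := hB.nd a fun v => by
  obtain ⟨x, hx, y, hy, rfl⟩ := h.lag.dec v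
  rw [map_add, h.lag.iso a ha x hx, h0 y hy, add_zero]

theorem eich {u f : V} (hu : u ∈ E) (hf : f ∈ E') (e : B u f = 0) (c : F) :
    hB.eich u (c • f) 0 ∈ M := by
  refine h.fix _ (hB.eich_mem_SUG _ _ _) (fun x hx => ?_) fun x hx => ?_ <;>
    rw [hB.eich_apply (h.lag.iso u hu u hu) (by simp [e]) (by simp [h.lag.iso' f hf f hf])]
  · simpa [h.lag.iso u hu x hx] using E.add_mem hx (E.smul_mem _ hu)
  · simpa [h.lag.iso' f hf x hx] using E'.sub_mem hx (E'.smul_mem _ (E'.smul_mem c hf))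

theorem ue {u f : V} (hu : u ∈ E) (hf : f ∈ E') (e : B u f = 0) : f ∈ UE hB M u :=
  ue_of_zero e (h.lag.iso' f hf f hf) (h.eich hu hf e)

theorem exists_orth (a : V) : ∃ d ∈ E', d ≠ 0 ∧ B a d = 0 := by
  obtain ⟨b, ⟨hb, h2⟩, hb0⟩ := exists_not_mem_of_finrank_lt (W := ⊥)
    (U := E' ⊓ LinearMap.ker (B a)) (by
      have := finrank_le_inf_ker E' (B a)
      rw [h.rk'] at this
      rw [finrank_bot]
      omega)
  exact ⟨b, hb, hb0, h2⟩

theorem span_eq {a u : V} (ha : a ∈ E) (hu : u ∈ E) (hu0 : u ≠ 0) (h1 : a ∉ F ∙ u) :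
    Submodule.span F {u, a} = E := Submodule.eq_of_le_of_finrank_eq
  (Submodule.span_le.mpr (by rintro _ (rfl | rfl); exacts [hu, ha]))
  ((Orth.finrank_span_pair_eq (Orth.linearIndependent_pair_of_notMem hu0 h1)).trans h.rk.symm)

theorem line {a d f : V} (ha : a ∈ E) (ha0 : a ≠ 0) (hd : d ∈ E') (hd0 : d ≠ 0) (h1 : B a d = 0)
    (hf : f ∈ E') (h2 : B a f = 0) : f ∈ F ∙ d := by_contra fun e => ha0 (h.nd ha fun y hy => by
  rw [← h.symm.span_eq hf hd hd0 e] at hy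
  obtain ⟨s, t, rfl⟩ := Submodule.mem_span_pair.mp hy
  simp [h1, h2])

theorem fin {u : V} (hu : u ∈ E) (hu0 : u ≠ 0) (ht : UT hB M u) : SUG B ≤ M := by
  obtain ⟨w, hw, hw1, -⟩ := h.swap
  obtain ⟨a, ha, h1, h2⟩ := exists_not_mem_two (W := E) (X := LinearMap.ker (B (w.1 u)))
    (Y := F ∙ u) (fun e => hu0 ((UG.apply_eq_zero w).mp (h.symm.nd (hw1 u hu) e))) fun e => by
      have := Submodule.finrank_mono e
      have := finrank_span_one_le (F := F) u
      have := h.rk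
      omega
  obtain ⟨d, hd, hd0, h3⟩ := h.exists_orth a
  have h4 := h.span_eq ha hu hu0 h2
  have h5 := ht.grow (h.ue ha hd h3) (h.lag.iso u hu a ha) fun e => hd0 (h.symm.nd hd fun y hy => by
    obtain ⟨s, t, rfl⟩ := Submodule.mem_span_pair.mp (h4 ▸ hy)
    simp [hB.zero_symm e, hB.zero_symm h3])
  refine un_le_of_ut (hB := hB) h.hn ⟨h.lag.iso a ha a ha, fun v hv => UE.ua ?_⟩ (ht.map hw) h1
  obtain ⟨x, hx, y, hy, rfl⟩ := h.lag.dec v
  refine (UE hB M a).add_mem ?_ (h.ue ha hy (by simpa [h.lag.iso a ha x hx] using hv))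
  obtain ⟨s, t, rfl⟩ := Submodule.mem_span_pair.mp (h4 ▸ hx)
  exact (UE hB M a).add_mem ((UE hB M a).smul_mem _ h5)
    ((UE hB M a).smul_mem _ (UE.self (h.lag.iso a ha a ha)))

theorem of_pair {a d : V} (ha : a ∈ E) (ha0 : a ≠ 0) (hd : d ∈ E') (hd0 : d ≠ 0) (h1 : B a d = 0)
    {r s : F} (hr : r + σ r = 0) (hs : s + σ s = 0) (h0 : r ≠ 0 ∨ s ≠ 0)
    (hm : ∀ t, σ t = t → hB.qr a (t * r) * hB.qr d (t * s) ∈ M) : SUG B ≤ M := by
  have key : ∀ {a : V} {r : F}, B a a = 0 → r + σ r = 0 → r ≠ 0 →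
      (∀ t, σ t = t → hB.qr a (t * r) ∈ M) → UT hB M a := fun {a r} h1 h2 h3 h4 => ⟨h1, fun c => by
    by_cases hc : c + σ c = 0
    · have := h4 (c / r) (by
        rw [map_div₀, eq_neg_of_add_eq_zero_right hc, eq_neg_of_add_eq_zero_right h2, neg_div_neg_eq])
      rwa [div_mul_cancel₀ _ h3] at this
    · rw [hB.qr_of_not (by simpa [h1] using hc)]
      exact one_mem M⟩
  have haa := h.lag.iso a ha a ha
  by_cases hr0 : r = 0
  · refine h.symm.fin hd hd0 (key (h.lag.iso' d hd d hd) hs (h0.resolve_left fun e => e hr0)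
      fun t ht => ?_)
    simpa [hr0] using hm t ht
  obtain ⟨k, hk, hk0, hk1⟩ := h.big
  obtain ⟨φ, hφ⟩ := exists_dual_one (F := F) ha0
  obtain ⟨f, hf, hf'⟩ := h.lag.exists_dual hB.exists_dual_eq φ
  have h2 : B a f = 1 := hB.one_symm ((hf' a ha).trans hφ)
  obtain ⟨g, hg, hg'⟩ := hB.exists_diag haa (h.lag.iso' f hf f hf) h2 hk0
  have h3 : g ∈ M := h.fix g (mem_SUG.mpr (by rw [hg, hk, mul_inv_cancel₀ hk0])) (fun x hx => by
      rw [hg']
      simpa [h.lag.iso a ha x hx] using E.add_mem hx (E.smul_mem _ ha)) fun x hx => by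
    rw [hg']
    simpa [h.lag.iso' f hf x hx] using E'.add_mem hx (E'.smul_mem _ hf)
  have h4 : g.1 a = k • a := by
    rw [hg', haa, hB.one_symm h2]
    module
  have h5 : g.1 d = d := by simp [hg', h1, h.lag.iso' f hf d hd]
  refine h.fin ha ha0 (key (r := (k ^ 2 - 1) * r) haa (by
    simp only [map_mul, map_sub, map_pow, hk, map_one]
    linear_combination (k ^ 2 - 1) * hr) (mul_ne_zero (sub_ne_zero.mpr hk1) hr0) fun t ht => ?_)
  have h6 := mul_mem (mul_mem (mul_mem h3 (hm t ht)) (inv_mem h3)) (inv_mem (hm t ht))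
  rw [show g * (hB.qr a (t * r) * hB.qr d (t * s)) * g⁻¹ =
    (g * hB.qr a (t * r) * g⁻¹) * (g * hB.qr d (t * s) * g⁻¹) by group, hB.qr_conj, hB.qr_conj,
    h4, h5, hB.qr_smul _ _ _ hk0, mul_inv_rev, mul_assoc, mul_inv_cancel_left, hB.qr_inv,
    hB.tv_mul haa (by
      simp only [map_mul, hk, ht]
      linear_combination k * k * t * hr) (by
      simp only [map_mul, hB.invol, ht]
      linear_combination t * hr)] at h6
  convert h6 using 2
  simp only [map_mul, hk, ht]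
  linear_combination -t * hr

theorem of_mem {a d : V} (ha : a ∈ E) (ha0 : a ≠ 0) (hd : d ∈ E') (hd0 : d ≠ 0) (h1 : B a d = 0)
    {y z : V} (hy : y ∉ E) (hy' : y ∉ E') (hz : z ≠ 0) (h2 : B a y = 0) (h3 : B d y = 0)
    (h4 : B a z = 0) (h5 : B d z = 0) (hm : ∀ c : F, hB.eich y (c • z) 0 ∈ M) : SUG B ≤ M := by
  have haa := h.lag.iso a ha a ha
  have hdd := h.lag.iso' d hd d hd
  have hda := hB.zero_symm h1
  have key : ∀ {y}, B a y = 0 → B d y = 0 → ∃ s t : F, s • a + t • d = y := fun {y} h2 h3 => by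
    obtain ⟨x, hx, w, hw, rfl⟩ := h.lag.dec y
    obtain ⟨s, rfl⟩ := Submodule.mem_span_singleton.mp (h.symm.line hd hd0 ha ha0 hda hx (by
      simpa [h.lag.iso' d hd w hw] using h3))
    obtain ⟨t, rfl⟩ := Submodule.mem_span_singleton.mp (h.line ha ha0 hd hd0 h1 hw (by
      simpa [haa] using h2))
    exact ⟨s, t, rfl⟩
  obtain ⟨α, β, rfl⟩ := key h2 h3
  obtain ⟨γ, δ, rfl⟩ := key h4 h5
  have hα : σ α ≠ 0 := fun e => hy' (by simpa [show α = 0 by simpa using e] using E'.smul_mem β hd)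
  have hβ : σ β ≠ 0 := fun e => hy (by simpa [show β = 0 by simpa using e] using E.smul_mem α ha)
  have h6 : ∀ c : F, hB.qr a (σ c * σ γ * α - c * σ α * γ) *
      hB.qr d (σ c * σ δ * β - c * σ β * δ) ∈ M := fun c => by
    convert mul_mem (hm c) (h.eich ha hd h1 (σ c * σ γ * β - c * σ α * δ)) using 1
    refine UG.ext fun x => ?_
    rw [UG.mul_apply, UG.mul_apply, hB.tv_apply haa (by simp [hB.invol]; ring),
      hB.tv_apply hdd (by simp [hB.invol]; ring),
      hB.eich_apply (u := α • a + β • d) (by simp [haa, hdd, h1, hda]) (by simp [haa, hdd, h1, hda])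
        (by simp [haa, hdd, h1, hda]), hB.eich_apply haa (by simp [h1]) (by simp [hdd])]
    simp only [map_add, map_sub, map_smul, LinearMap.add_apply, b_smul_left, smul_eq_mul, haa,
      hdd, h1, hda, map_mul, hB.invol]
    module
  obtain ⟨θ, hθ⟩ := hB.ne
  obtain ⟨c, hc⟩ : ∃ c : F, σ c * σ γ * α - c * σ α * γ ≠ 0 ∨ σ c * σ δ * β - c * σ β * δ ≠ 0 := by
    have A : ∀ {α γ : F}, σ α ≠ 0 → γ ≠ 0 → ∃ c : F, σ c * σ γ * α - c * σ α * γ ≠ 0 :=
      fun {α γ} h1 h2 => ⟨θ / (σ α * γ), by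
        have h3 : α ≠ 0 := by simpa using h1
        have h4 : σ γ ≠ 0 := by simpa using h2
        rw [map_div₀, map_mul, hB.invol, show σ θ / (α * σ γ) * σ γ * α - θ / (σ α * γ) * σ α * γ =
          σ θ - θ by field_simp]
        exact sub_ne_zero.mpr hθ⟩
    by_cases hγ : γ = 0
    · obtain ⟨c, hc⟩ := A hβ (γ := δ) (by rintro rfl; exact hz (by simp [hγ]))
      exact ⟨c, .inr hc⟩
    · obtain ⟨c, hc⟩ := A hα hγ
      exact ⟨c, .inl hc⟩
  refine h.of_pair ha ha0 hd hd0 h1 (by simp [hB.invol]; ring) (by simp [hB.invol]; ring) hc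
    fun t ht => ?_
  convert h6 (t * c) using 3 <;> rw [map_mul, ht] <;> ring

theorem of_ut {a d : V} (ha : a ∈ E) (ha0 : a ≠ 0) (hd : d ∈ E') (hd0 : d ≠ 0) (h1 : B a d = 0)
    (ht : UT hB M (a + d)) : SUG B ≤ M := by
  have haa := h.lag.iso a ha a ha
  have hdd := h.lag.iso' d hd d hd
  have hda := hB.zero_symm h1
  obtain ⟨s, hs0, hs⟩ := hB.toInv.exists_skew
  refine h.of_pair ha ha0 hd hd0 h1 hs hs (.inl hs0) fun t ht' => ?_
  have h2 : t * s + σ (t * s) = 0 := by rw [map_mul, ht']; linear_combination t * hs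
  convert mul_mem (ht.2 (t * s)) (h.eich ha hd h1 (t * s)) using 1
  refine UG.ext fun x => ?_
  rw [UG.mul_apply, UG.mul_apply, hB.tv_apply haa h2, hB.tv_apply hdd h2, hB.tv_apply ht.1 h2,
    hB.eich_apply haa (by simp [h1]) (by simp [hdd])]
  simp only [map_add, map_sub, map_smul, LinearMap.add_apply, b_smul_left, smul_eq_mul, haa,
    hdd, h1, hda, eq_neg_of_add_eq_zero_right h2]
  module

theorem main {y z : V} (hy : y ∉ E) (hy' : y ∉ E') (hz : z ∉ F ∙ y) (h1 : B y y = 0)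
    (h2 : B y z = 0) (h3 : B z z = 0) (hm : ∀ c : F, hB.eich y (c • z) 0 ∈ M) : SUG B ≤ M := by
  have hz0 : z ≠ 0 := by rintro rfl; exact hz (zero_mem _)
  have h2' := hB.zero_symm h2
  obtain ⟨p, v, hp0, h4, h5, h6, h7, a, ha, d, hd, e, had⟩ : ∃ p v : V, p ≠ 0 ∧ B p v = 0 ∧
      B v v = 0 ∧ (∀ t, σ t = t → hB.eich p (t • v) 0 ∈ M) ∧
      (∀ x, B x p = 0 → B x v = 0 → B x y = 0 ∧ B x z = 0) ∧
      ∃ a ∈ E, ∃ d ∈ E', a + d = p ∧ B a d = 0 := by
    obtain ⟨y0, hy0, y1, hy1, ey⟩ := h.lag.dec y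
    obtain ⟨z0, hz0', z1, hz1, ez⟩ := h.lag.dec z
    by_cases ht : B z0 z1 = 0
    · refine ⟨z, y, hz0, h2', h1, fun t ht => ?_, fun x a b => ⟨b, a⟩, z0, hz0', z1, hz1, ez, ht⟩
      convert hm (-t) using 1
      refine UG.ext fun x => ?_
      rw [hB.eich_apply h3 (by simp [h2']) (by simp [h1]), hB.eich_apply h1 (by simp [h2])
        (by simp [h3])]
      simp only [b_smul_left, map_neg, ht]
      module
    have e1 : σ (B y0 y1) = -B y0 y1 := by
      rw [← ey] at h1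
      simp only [map_add, LinearMap.add_apply, h.lag.iso _ hy0 _ hy0, h.lag.iso' _ hy1 _ hy1] at h1
      rw [hB.symm]
      linear_combination h1
    have e2 : σ (B z0 z1) = -B z0 z1 := by
      rw [← ez] at h3
      simp only [map_add, LinearMap.add_apply, h.lag.iso _ hz0' _ hz0',
        h.lag.iso' _ hz1 _ hz1] at h3
      rw [hB.symm]
      linear_combination h3
    have e3 : B z0 y1 = -σ (B y0 z1) := by
      rw [← ey, ← ez] at h2'
      simp only [map_add, LinearMap.add_apply, h.lag.iso _ hz0' _ hy0,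
        h.lag.iso' _ hz1 _ hy1] at h2'
      rw [hB.symm]
      linear_combination h2'
    obtain ⟨n, hn⟩ := hB.toInv.exists_norm (μ := -(B y0 z1 * σ (B y0 z1)) / B z0 z1 ^ 2 -
      B y0 y1 / B z0 z1) (by
        simp only [map_sub, map_div₀, map_neg, map_mul, map_pow, hB.invol, e1, e2]
        field_simp)
    obtain ⟨β, hβ⟩ : ∃ β, B (y0 + β • z0) (y1 + β • z1) = 0 := ⟨n + σ (B y0 z1) / B z0 z1, by
      simp only [map_add, LinearMap.add_apply, b_smul_left, map_smul, smul_eq_mul, e3, map_div₀,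
        hB.invol, e2]
      field_simp at hn ⊢
      linear_combination hn⟩
    have e4 : y0 + β • z0 + (y1 + β • z1) = y + β • z := by rw [← ey, ← ez]; module
    have e5 : y + β • z ≠ 0 := fun e => hz (by
      have hβ0 : β ≠ 0 := by
        rintro rfl
        exact hy (by simpa [show y = 0 by simpa using e] using E.zero_mem)
      exact Submodule.mem_span_singleton.mpr ⟨-β⁻¹, by
        rw [eq_neg_of_add_eq_zero_left e]
        match_scalars
        field_simp⟩)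
    by_cases hβ0 : β = 0
    · subst hβ0
      exact ⟨y, z, by simpa using e5, h2, h3, fun t _ => hm t, fun x a b => ⟨a, b⟩, y0, hy0, y1, hy1,
        ey, by simpa using hβ⟩
    refine ⟨_, β • z, e5, by simp [h2, h3], by simp [h3], fun t ht => ?_, fun x a b => ?_, _,
      E.add_mem hy0 (E.smul_mem β hz0'), _, E'.add_mem hy1 (E'.smul_mem β hz1), e4, hβ⟩
    · convert hm (t * β) using 1
      refine UG.ext fun x => ?_
      rw [hB.eich_apply (by simp [h1, h2, h2', h3]) (by simp [h2, h3]) (by simp [h3]),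
        hB.eich_apply h1 (by simp [h2]) (by simp [h3])]
      simp only [b_smul_left, map_add, LinearMap.add_apply, map_mul, ht]
      module
    · have : B x z = 0 := by simpa [hβ0] using b
      exact ⟨by simpa [this] using a, this⟩
  have key : ∀ {E E' : Submodule F V}, Lag4 hB M E E' → y ∉ E → y ∉ E' → p ∈ E → SUG B ≤ M :=
    fun {E E'} h hy hy' hp => by
      obtain ⟨d, hd, hd0, h8⟩ := h.exists_orth p
      have hpp := h.lag.iso p hp p hp
      by_cases h9 : B v d = 0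
      · obtain ⟨a1, a2⟩ := h7 p hpp h4
        obtain ⟨a3, a4⟩ := h7 d (hB.zero_symm h8) (hB.zero_symm h9)
        exact h.of_mem hp hp0 hd hd0 h8 hy hy' hz0 a1 a3 a2 a4 hm
      · exact h.fin hp hp0 (UT.of_comm hpp ⟨h4, 0, by simp [h5], by simpa using h6 1 (map_one σ)⟩
          (h.ue hp hd h8) h9)
  by_cases hd0 : d = 0
  · exact key h hy hy' (by simpa [← e, hd0] using ha)
  by_cases ha0 : a = 0
  · exact key h.symm hy' hy (by simpa [← e, ha0] using hd)
  have haa := h.lag.iso a ha a ha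
  have hdd := h.lag.iso' d hd d hd
  by_cases h9 : B d v = 0
  · obtain ⟨a1, a2⟩ := h7 a (by simp [← e, haa, had]) (by simpa [← e, h9] using h4)
    obtain ⟨a3, a4⟩ := h7 d (by simp [← e, hdd, hB.zero_symm had]) h9
    exact h.of_mem ha ha0 hd hd0 had hy hy' hz0 a1 a3 a2 a4 hm
  obtain ⟨k, hk, hk0, hk1⟩ := h.big
  exact h.of_ut ha ha0 hd hd0 had (e ▸ ut_of_line hk hk0 (by rintro rfl; simp at hk1) e haa hdd had
    h4 h5 h9 h6 (h.eich ha hd had))

end Lag4

theorem un_lag2 (hB : HF B) {D : Fin 2 → Submodule F V} {π : Fin 2 → V →ₗ[F] V} (h : IsDec D π)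
    (hm : ∀ i, finrank F (D i) = 2) (hn : 3 ≤ finrank F V)
    (hi : ∀ i, ∀ x ∈ D i, ∀ y ∈ D i, B x y = 0) (hk : ∃ k, σ k = k ∧ k ≠ 0 ∧ k ^ 2 ≠ 1)
    (hH : ∀ g ∈ SUG B, PermD D g.1 → g ∈ M) (hg : ∃ g ∈ M, ¬ PermD D g.1) : SUG B ≤ M := by
  obtain ⟨g, hg, hg'⟩ := hg
  have hL := lagPair_of h hi
  obtain ⟨w, hw, hw1, hw2⟩ := un_lag_swap hB hL (hm 0) (hm 1) (by omega)
  have H : Lag4 hB M (D 0) (D 1) := ⟨hL, hm 0, hm 1, hn, fun g hg a b => hH g hg
    (h.permD_of_fix (Fin.forall_fin_two.mpr ⟨a, b⟩)),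
    ⟨w, hH w hw (permD_two h hm (by omega) hw1 hw2), hw1, hw2⟩, hk⟩
  obtain ⟨i, a, ha, hga⟩ := h.exists_not_mem hm (by omega) hg'
  have key : ∀ {E E' : Submodule F V}, Lag4 hB M E E' → a ∈ E → SUG B ≤ M := fun {E E'} H' ha => by
    obtain ⟨d, hd, hd0, h1⟩ := H'.exists_orth a
    refine H.main (z := g.1 d) (hga 0) (hga 1) (fun e => ?_) (by simp [H'.lag.iso a ha a ha])
      (by simp [h1]) (by simp [H'.lag.iso' d hd d hd]) fun c => ?_
    · obtain ⟨c, hc⟩ := Submodule.mem_span_singleton.mp e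
      rw [← map_smul] at hc
      exact hd0 (H'.lag.eq_zero hB (g.1.injective hc ▸ E.smul_mem c ha) hd)
    · rw [← map_smul, ← hB.eich_conj]
      exact mul_mem (mul_mem hg (H'.eich ha hd h1 c)) (inv_mem hg)
  by_cases hi0 : i = 0
  · exact key H (hi0 ▸ ha)
  · exact key H.symm ((show i = 1 by omega) ▸ ha)

theorem exists_fix_sq (h : Herm.Inv σ) {q : ℕ} (hF : Nat.card F = q ^ 2) (hq : 4 ≤ q) :
    ∃ k, σ k = k ∧ k ≠ 0 ∧ k ^ 2 ≠ 1 := by
  classical
  by_contra hc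
  push Not at hc
  have h1 : (fixF σ : Set F) ⊆ ({0, 1, -1} : Finset F) := fun k hk => by
    by_cases h0 : k = 0
    · simp [h0]
    · simpa [h0] using sq_eq_one_iff.mp (hc k hk h0)
  have h2 := Set.ncard_le_ncard h1 (Finset.finite_toSet _)
  rw [Set.ncard_coe_finset, ← Nat.card_coe_set_eq] at h2
  have h3 := h.card_fixF hF
  have h4 : ({0, 1, -1} : Finset F).card ≤ 3 := Finset.card_le_three
  change Nat.card (fixF σ) ≤ _ at h2
  omega

section geo
variable {q : ℕ} (hF : Nat.card F = q ^ 2)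
include hF

theorem max_un_nondeg4 {W : Submodule F (Fin 4 → F)} (h0 : W ≠ ⊥)
    (hW : Geo.IsNondegenerateOn (hermForm 4 F q) W) (hd : 2 * finrank F W < 4) :
    Geo.IsMaximalIn (Cfsg.GU 4 F q ⊓ Geo.specialLinear (Fin 4) F)
      (Geo.subspaceStabilizer W ⊓ (Cfsg.GU 4 F q ⊓ Geo.specialLinear (Fin 4) F)) := by
  have hn' : finrank F (Fin 4 → F) = 4 := by simp
  have h2 := (hf_sB hF 4).finrank_perp_add W
  refine isMaximalIn_SU hF (fun g => ∀ v, v ∈ W ↔ g v ∈ W) (fun _ => Iff.rfl)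
    (exists_su_not_stab (hf_sB hF 4) (by omega) h0 ?_) fun M hH _ hg =>
      un_nondeg1 (hf_sB hF 4) (ndu_of hF hW) (by omega) (by omega) hH hg
  rintro rfl
  rw [finrank_top] at hd
  omega

theorem max_un_blocks4 (hq : 3 ≤ q) {D : Fin 2 → Submodule F (Fin 4 → F)}
    (hD : Geo.IsNondegenerateMDecomposition (hermForm 4 F q) 2 D) :
    Geo.IsMaximalIn (Cfsg.GU 4 F q ⊓ Geo.specialLinear (Fin 4) F)
      (Geo.decompositionStabilizer D ⊓ (Cfsg.GU 4 F q ⊓ Geo.specialLinear (Fin 4) F)) := by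
  obtain ⟨π, h⟩ := exists_isDec hD.decomp.indep hD.decomp.iSup_eq_top
  have hB := hf_sB hF 4
  have ho : ∀ i j, i ≠ j → ∀ x ∈ D i, ∀ y ∈ D j, sB hF 4 x y = 0 := fun i j hij x hx y hy =>
    (hermForm_eq hF 4 _ _).symm.trans (hD.orthogonal j i hij.symm y hy x hx)
  obtain ⟨x, hx, hx0, hx1⟩ := herm_exists_iso hB (D 0) (hD.decomp.finrank_eq 0).ge
  obtain ⟨y, hy, hy0, hy1⟩ := herm_exists_iso hB (D 1) (hD.decomp.finrank_eq 1).ge
  obtain ⟨b, h1, h2, h3⟩ := (inv_frob hF).exists_fix_ne hF (show q ≠ 2 by omega)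
  exact isMaximalIn_SU hF (PermD D) mem_decStab (exists_su_not_perm' hB h (by simp) (by simp) hx hy
    hx0 hy0 hx1 (ho 0 1 (by simp) x hx y hy) hy1) fun M hH _ hg => UDec.of_fix (hB := hB)
      ⟨h, hD.decomp.finrank_eq, fun i => ndu_of hF (hD.nondegenerate i), ho, hH⟩ (by simp) le_rfl
      h1 h2 h3 hg

theorem max_un_lag2 (hq : 4 ≤ q) {D : Fin 2 → Submodule F (Fin 4 → F)}
    (hD : Geo.IsMDecomposition 2 D) (hts : ∀ i, Geo.IsTotallySingularFor (hermForm 4 F q) (D i)) :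
    Geo.IsMaximalIn (Cfsg.GU 4 F q ⊓ Geo.specialLinear (Fin 4) F)
      (Geo.decompositionStabilizer D ⊓ (Cfsg.GU 4 F q ⊓ Geo.specialLinear (Fin 4) F)) := by
  obtain ⟨π, h⟩ := exists_isDec hD.indep hD.iSup_eq_top
  have hB := hf_sB hF 4
  have hi : ∀ i, ∀ u ∈ D i, ∀ v ∈ D i, sB hF 4 u v = 0 := fun i u hu v hv =>
    (hermForm_eq hF 4 _ _).symm.trans (hts i v hv u hu)
  obtain ⟨x, hx, hx0, hx1⟩ := herm_exists_iso hB (D 0) (hD.finrank_eq 0).ge
  obtain ⟨y, ⟨hy, h2⟩, hy0⟩ := exists_not_mem_of_finrank_lt (W := ⊥)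
    (U := D 1 ⊓ LinearMap.ker (sB hF 4 x)) (by
      have := finrank_le_inf_ker (D 1) (sB hF 4 x)
      rw [hD.finrank_eq] at this
      rw [finrank_bot]
      omega)
  exact isMaximalIn_SU hF (PermD D) mem_decStab (exists_su_not_perm' hB h (by simp) (by simp) hx hy
    hx0 hy0 hx1 h2 (hi 1 y hy y hy)) fun M hH _ hg => un_lag2 hB h hD.finrank_eq (by simp) hi
      (exists_fix_sq (inv_frob hF) hF hq) hH hg

end geo

end Cfsg.Agent.Max
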