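import Mathlib
import Cfsg.Agent.Max.U4a
import Cfsg.Agent.Max.SubUn6

/-!
# Maximal subgroups of `SU₄(q)`: symplectic subfield subgroups
-/

set_option autoImplicit false
set_option linter.unusedSectionVars false

namespace Cfsg.Agent.Max

open Module Herm

variable {F V : Type*} [Field F] [AddCommGroup V] [Module F V] [FiniteDimensional F V]
  {σ : F →+* F} {B : V →ₛₗ[σ] V →ₗ[F] F} {hB : HF B} {M : Subgroup (UG B)} {ι : Type}
  {K : Subfield F} {e : Basis ι F V} {ζ : F} [Finite F] [Fintype ι]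

/-- A rational structure carrying a multiple of the form. -/
structure RatB (hB : HF B) (K : Subfield F) (e : Basis ι F V) (ζ : F) : Prop where
  z0 : ζ ≠ 0
  rat : ∀ u ∈ Rt K e, ∀ v ∈ Rt K e, ζ * B u v ∈ K

namespace RatB
variable (h : RatB hB K e ζ) {a b c x y z : V}
include h

theorem rd (hx : x ∈ Rt K e) : B (ζ • x) ∈ RD K e := fun v hv => by
  have := map_mem_subfield hB.toInv (h.rat v hv x hx)
  rwa [map_mul, hB.symm, ← b_smul_left] at this

theorem dual' {φ : Dual F V} (hφ : φ ∈ RD K e) : ∃ y ∈ Rt K e, B (ζ • y) = φ :=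
  exists_Rt_dual (Θ := fun y => B (ζ • y)) (fun x y e1 => smul_right_injective V h.z0
    (sub_eq_zero.mp (hB.nd _ fun z => by
      rw [map_sub, show B (ζ • x) = B (ζ • y) from e1, sub_self, LinearMap.zero_apply])))
    (fun _ => h.rd) hφ

theorem dual {U : Submodule K V} (hU : U ≤ Rt K e) (ha : a ∈ Rt K e) (h1 : a ∉ U) :
    ∃ c ∈ Rt K e, (∀ u ∈ U, B c u = 0) ∧ B (ζ • c) a = 1 := by
  obtain ⟨φ, h2, h3, h4⟩ := exists_RD hU ha h1
  obtain ⟨c, h5, rfl⟩ := h.dual' h2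
  exact ⟨c, h5, fun u hu => by simpa [h.z0] using h3 u hu, h4⟩

theorem dual1 (ha : a ∈ Rt K e) (hb : b ∈ Rt K e) (h1 : b ∉ K ∙ a) :
    ∃ c ∈ Rt K e, B c a = 0 ∧ B (ζ • c) b = 1 := by
  obtain ⟨c, hc, h2, h3⟩ := h.dual ((Submodule.span_singleton_le_iff_mem _ _).mpr ha) hb h1
  exact ⟨c, hc, h2 a (Submodule.mem_span_singleton_self a), h3⟩

theorem rk {U : Submodule K V} (hU : U ≤ Rt K e) (hx : x ∈ Rt K e) :
    finrank K U ≤ finrank K ↥(U ⊓ kr K (B x)) + 1 := by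
  have := finrank_le_kr' hU (h.rd hx)
  rwa [show kr K (B (ζ • x)) = kr K (B x) from Submodule.ext fun v => by simp [h.z0]] at this

theorem partner (hx : x ∈ Rt K e) (hx0 : x ≠ 0) : ∃ f ∈ Rt K e, ζ * B x f = 1 := by
  obtain ⟨f, hf, -, h6⟩ := h.dual bot_le hx (by simpa using hx0)
  exact ⟨f, hf, by rw [← map_one σ, ← h6, b_smul_left, map_mul, hB.invol, hB.symm]⟩

theorem perp_le (hy : y ∈ Rt K e) (hy0 : y ≠ 0) {W : Submodule F V}
    (hW : ∀ w ∈ Rt K e, B y w = 0 → w ∈ W) (h5 : B y z = 0) : z ∈ W := by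
  obtain ⟨f, hf, h7⟩ := h.partner hy hy0
  have h8 : z = ∑ i, e.repr z i • (e i - (ζ * B y (e i)) • f) := by
    have h9 := congrArg (B y) (e.sum_repr z)
    simp only [map_sum, map_smul, smul_eq_mul, h5] at h9
    simp only [smul_sub, Finset.sum_sub_distrib, e.sum_repr, smul_smul, ← Finset.sum_smul,
      mul_left_comm _ ζ, ← Finset.mul_sum, h9]
    simp
  rw [h8]
  exact sum_mem fun i _ => W.smul_mem _ (hW _ (sub_mem (basis_mem_Rt i)
    (smul_mem_Rt (h.rat y hy _ (basis_mem_Rt i)) hf)) (by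
      rw [map_sub, map_smul, smul_eq_mul, mul_right_comm, h7, one_mul, sub_self]))

theorem exists_not (hn : 3 ≤ Fintype.card ι) (hx : x ∈ Rt K e) (hx0 : x ≠ 0) (h1 : B x x = 0)
    {s : F} (hs : s ∉ K) : ∃ g ∈ SUG B, g.1 ∉ NR K e := by
  obtain ⟨w, ⟨hw, h3⟩, h4⟩ := exists_not_mem_of_finrank_lt (W := K ∙ x)
    (U := Rt K e ⊓ kr K (B x)) (by
      have := h.rk le_rfl hx
      have := finrank_span_one_le (F := K) x
      rw [finrank_Rt] at *
      omega)
  replace h3 : B x w = 0 := h3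
  obtain ⟨v, hv, h5, h6⟩ := h.dual1 hx hw h4
  obtain ⟨l, hl⟩ := hB.toInv.exists_trace (hB.fix (σ s • ζ • v))
  refine ⟨_, hB.eich_mem_SUG x (σ s • ζ • v) l, fun ⟨c, hc, h7⟩ => hs ?_⟩
  have h8 : c ∈ K := mem_of_smul_mem hx hx0 (by simpa [hB.eich_apply_left] using (h7 x).mp hx)
  have h9 := sub_mem ((h7 w).mp hw) (smul_mem_Rt h8 hw)
  rw [hB.eich_apply h1 (by simp [hB.zero_symm h5]) hl, b_smul_left, h6, h3, hB.invol] at h9
  simp only [mul_one, mul_zero, sub_zero, zero_smul, smul_add, add_sub_cancel_left] at h9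
  rw [smul_smul] at h9
  simpa [hc] using div_mem (mem_of_smul_mem hx hx0 h9) h8

end RatB

theorem exists_Rt_dec (hi : Inv σ) (hK : ∀ x, σ x = x → x ∈ K) {θ : F} (hθ : σ θ ≠ θ) (y : V) :
    ∃ a ∈ Rt K e, ∃ b ∈ Rt K e, a + θ • b = y := by
  have h1 : θ - σ θ ≠ 0 := sub_ne_zero.mpr hθ.symm
  have h2 : σ θ - θ ≠ 0 := sub_ne_zero.mpr hθ
  refine ⟨e.equivFun.symm fun i => (θ * σ (e.repr y i) - σ θ * e.repr y i) / (θ - σ θ),
    mem_Rt.mpr fun i => hK _ ?_, e.equivFun.symm fun i => (e.repr y i - σ (e.repr y i)) / (θ - σ θ),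
    mem_Rt.mpr fun i => hK _ ?_, e.equivFun.injective (funext fun i => ?_)⟩
  · rw [← Basis.equivFun_apply, LinearEquiv.apply_symm_apply]
    simp only [map_div₀, map_sub, map_mul, hi.invol]
    field_simp
    ring
  · rw [← Basis.equivFun_apply, LinearEquiv.apply_symm_apply]
    simp only [map_div₀, map_sub, hi.invol]
    field_simp
    ring
  · simp only [map_add, map_smul, LinearEquiv.apply_symm_apply, Pi.add_apply, Pi.smul_apply,
      smul_eq_mul, Basis.equivFun_apply]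
    field_simp
    ring

theorem ua_of_ut {a b : V} {θ s : F} (ha : UT hB M a) (hb : UT hB M b) (h : B a b = 0)
    (hy : UT hB M (a + θ • b)) (hs : s + σ s = 0) : (s * θ) • b ∈ UA hB M a := by
  refine ⟨by simp [h], 0, by simp [hb.1], ?_⟩
  have h1 : -s + σ (-s) = 0 := by rw [map_neg]; linear_combination -hs
  have h2 : s * (θ * σ θ) + σ (s * (θ * σ θ)) = 0 := by
    simp only [map_mul, hB.invol]
    linear_combination θ * σ θ * hs
  convert mul_mem (mul_mem (hy.2 (-s)) (ha.2 s)) (hb.2 (s * (θ * σ θ))) using 1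
  refine UG.ext fun x => ?_
  rw [UG.mul_apply, UG.mul_apply, hB.tv_apply hy.1 h1, hB.tv_apply ha.1 hs, hB.tv_apply hb.1 h2,
    hB.eich_apply ha.1 (by simp [h]) (by simp [hb.1])]
  simp only [map_add, map_smul, LinearMap.add_apply, b_smul_left, smul_eq_mul, ha.1,
    hb.1, h, hB.zero_symm h, map_mul, eq_neg_of_add_eq_zero_right hs]
  module

theorem exists_skew_dec (hi : Inv σ) {θ : F} (hθ : σ θ ≠ θ) (c : F) :
    ∃ s t : F, s + σ s = 0 ∧ t + σ t = 0 ∧ c = s + t * θ := by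
  have h1 : θ - σ θ ≠ 0 := sub_ne_zero.mpr hθ.symm
  have h2 : σ θ - θ ≠ 0 := sub_ne_zero.mpr hθ
  refine ⟨c - (c + σ c) / (θ - σ θ) * θ, (c + σ c) / (θ - σ θ), ?_, ?_, by ring⟩ <;>
    simp only [map_div₀, map_sub, map_mul, map_add, hi.invol] <;> field_simp <;> ring

theorem un_sp_sub (h : RatB hB K e ζ) (hn : 3 ≤ Fintype.card ι) (hζ : ζ + σ ζ = 0)
    (hK : ∀ x, σ x = x ↔ x ∈ K) (hi : ∀ u ∈ Rt K e, B u u = 0)
    (hH : ∀ g ∈ SUG B, g.1 ∈ NR K e → g ∈ M) (hg : ∃ g ∈ M, g.1 ∉ NR K e) : SUG B ≤ M := by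
  obtain ⟨g, hg, hg'⟩ := hg
  have hT : ∀ a ∈ Rt K e, UT hB M a := fun a ha => ⟨hi a ha, fun s => by
    by_cases hs : s + σ s = 0
    swap
    · rw [hB.qr_of_not (by simpa [hi a ha] using hs)]
      exact one_mem M
    refine hH _ (hB.tv_mem_SUG (hi a ha) s) (nr_of' fun w hw => ?_)
    rw [hB.tv_apply (hi a ha) hs]
    refine add_mem hw (smul_mem_Rt ?_ ha)
    convert mul_mem ((hK (s / ζ)).mp (by rw [map_div₀, eq_neg_of_add_eq_zero_right hs,
      eq_neg_of_add_eq_zero_right hζ, neg_div_neg_eq])) (h.rat a ha w hw) using 1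
    have := h.z0
    field_simp⟩
  obtain ⟨u, hu, h1⟩ : ∃ u ∈ Rt K e, ∀ c : F, c ≠ 0 → c • g.1 u ∉ Rt K e := by
    by_contra hc
    push Not at hc
    exact hg' (nr_of_prop hc)
  obtain ⟨θ, hθ⟩ := hB.ne
  obtain ⟨a, ha, b, hb, e1⟩ := exists_Rt_dec (e := e) hB.toInv (fun x => (hK x).mp) hθ (g.1 u)
  have hy := (hT u hu).map hg
  rw [← e1] at hy h1
  have hθ0 : θ ≠ 0 := by rintro rfl; simp at hθ
  have ha0 : a ≠ 0 := by
    rintro rfl
    exact h1 θ⁻¹ (inv_ne_zero hθ0) (by simpa [smul_smul, hθ0] using hb)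
  have h2 : b ∉ K ∙ a := fun e => by
    obtain ⟨k, rfl⟩ := Submodule.mem_span_singleton.mp e
    have h3 : 1 + θ * k ≠ 0 := fun e => hθ (by
      have hk : (k : F) ≠ 0 := fun e' => by simp [e'] at e
      have h4 : θ = -(k : F)⁻¹ := by field_simp; linear_combination e
      rw [h4, map_neg, map_inv₀, (hK k).mpr k.2])
    refine h1 _ (inv_ne_zero h3) ?_
    convert ha using 1
    rw [Subfield.smul_def]
    match_scalars
    field_simp
  have h3 : B a b = 0 := by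
    have h4 := (hK _).mpr (h.rat a ha b hb)
    rw [map_mul, eq_neg_of_add_eq_zero_right hζ, hB.symm] at h4
    have h5 := hy.1
    simp only [map_add, LinearMap.add_apply, b_smul_left, map_smul, smul_eq_mul, hi a ha,
      hi b hb] at h5
    have h6 : B b a = -B a b := mul_left_cancel₀ h.z0 (by linear_combination -h4)
    rw [h6] at h5
    exact (mul_eq_zero.mp (show (θ - σ θ) * B a b = 0 by linear_combination h5)).resolve_left
      (sub_ne_zero.mpr hθ.symm)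
  have h4 : b ∈ UE hB M a := fun c => by
    obtain ⟨s, t, hs, ht, rfl⟩ := exists_skew_dec hB.toInv hθ c
    rw [add_smul]
    exact add_mem (by simpa using ua_of_ut (θ := 1) (hT a ha) (hT b hb) h3 (hT _ (by
      simpa using add_mem ha hb)) hs) (ua_of_ut (hT a ha) (hT b hb) h3 hy ht)
  obtain ⟨z, hz, h5, h6⟩ := h.dual1 ha hb h2
  replace h6 : B z b ≠ 0 := fun e => by simp [e] at h6
  obtain ⟨f, hf, h7⟩ := h.partner ha ha0
  refine un_le_of_ut (hB := hB) (by rw [finrank_eq_card_basis e]; exact hn)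
    ⟨hi a ha, fun v hv => UE.ua (h.perp_le ha ha0 (fun w hw h8 => ?_) hv)⟩ (hT f hf)
    fun e => by simp [hB.zero_symm e] at h7
  by_cases h9 : B w b = 0
  · simpa using (UE hB M a).sub_mem ((hT _ (add_mem hw hz)).grow h4
      (by simp [h5, hB.zero_symm h8]) (by simpa [h9] using h6)) ((hT z hz).grow h4 h5 h6)
  · exact (hT w hw).grow h4 (hB.zero_symm h8) h9

section geo
variable {n q : ℕ} (hF : Nat.card F = q ^ 2)

theorem ratB_of (P : GL (Fin n) F) {ζ : F} (hζ : ζ ≠ 0)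
    (hP : Geo.IsFormRationalStructure (hermForm n F q) K ζ P) :
    RatB (hf_sB hF n) K ((Pi.basisFun F _).map (Orth.glEquiv _ F P)) ζ := by
  have key : ∀ w, (P : Matrix _ _ F).mulVec (fun i =>
      ((Pi.basisFun F _).map (Orth.glEquiv _ F P)).repr w i) = w :=
    (Orth.glEquiv _ F P).apply_symm_apply
  exact ⟨hζ, fun u hu v hv => by
    simpa only [key, hermForm_eq hF] using hP _ _ (mem_Rt.mp hv) (mem_Rt.mp hu)⟩

theorem frob_fix_iff (hq : Nat.card F = Nat.card K ^ 2) (x : F) : frob hF x = x ↔ x ∈ K := by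
  rw [mem_iff_pow, frob_apply, Nat.pow_left_injective two_ne_zero (hF.symm.trans hq)]

include hF in
theorem max_un_sp (hn : 3 ≤ n) (hq : Nat.card F = Nat.card K ^ 2) (P : GL (Fin n) F) {ζ : F}
    (hζ : ζ ≠ 0) (h2 : ζ + ζ ^ q = 0) (hP : Geo.IsFormRationalStructure (hermForm n F q) K ζ P)
    (h1 : ∀ w, (∀ i, w i ∈ K) → hermForm n F q (P.1.mulVec w) (P.1.mulVec w) = 0) :
    Geo.IsMaximalIn (Cfsg.GU n F q ⊓ Geo.specialLinear (Fin n) F)
      (Geo.subfieldSubgroup K P ⊓ (Cfsg.GU n F q ⊓ Geo.specialLinear (Fin n) F)) := by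
  have key : ∀ w, (P : Matrix _ _ F).mulVec (fun i =>
      ((Pi.basisFun F _).map (Orth.glEquiv _ F P)).repr w i) = w :=
    (Orth.glEquiv _ F P).apply_symm_apply
  have h4 : ∀ w ∈ Rt K ((Pi.basisFun F _).map (Orth.glEquiv _ F P)), sB hF n w w = 0 :=
    fun w hw => by simpa only [key, hermForm_eq hF] using h1 _ (mem_Rt.mp hw)
  have h := ratB_of hF P hζ hP
  obtain ⟨s, hs⟩ := exists_not_mem_subfield Nat.prime_two hq
  exact isMaximalIn_SU hF _ (mem_subfield_iff P) (h.exists_not (by simpa using hn)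
    (basis_mem_Rt ⟨0, by omega⟩) (Basis.ne_zero _ _) (h4 _ (basis_mem_Rt _)) hs)
    fun M h5 _ => un_sp_sub h (by simpa using hn) h2 (frob_fix_iff hF hq) h4 h5

end geo

end Cfsg.Agent.Max
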