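import Mathlib
import Cfsg.Agent.Max.Frame4
import Cfsg.Agent.Max.UFrame

/-!
# Orthonormal frames in `SU₄(q)`
-/

set_option autoImplicit false
set_option linter.unusedSectionVars false

namespace Cfsg.Agent.Max

open Module Herm

variable {F V : Type*} [Field F] [AddCommGroup V] [Module F V] {e : Basis (Fin 4) F V}
  {σ : F →+* F}

theorem exists_two_sol [Finite F] (hσ : Inv σ) (h2 : (2 : F) = 0) (A C : F) :
    ∃ t u t' u' : Fˣ, t ∈ normOne σ ∧ u ∈ normOne σ ∧ t' ∈ normOne σ ∧ u' ∈ normOne σ ∧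
      (t ≠ t' ∨ u ≠ u') ∧ A * t + σ (A * t) = C * u + σ (C * u) ∧
      A * t' + σ (A * t') = C * u' + σ (C * u') := by
  classical
  haveI := Fintype.ofFinite F
  obtain ⟨q, hF⟩ : ∃ q, Nat.card F = q ^ 2 := ⟨_, hσ.card_eq_sq⟩
  have h3 := hσ.card_normOne hF
  have h4 := two_le_of_card hF
  have h5 : Even q := by
    by_contra h5
    exact Orth.two_ne_zero_of_odd (by
      rw [← Nat.card_eq_fintype_card, hF]; exact (Nat.not_even_iff_odd.mp h5).pow) h2
  obtain ⟨s, hs, hs1⟩ : ∃ s ∈ normOne σ, s ≠ 1 := by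
    by_contra hc
    push Not at hc
    rw [(Subgroup.eq_bot_iff_forall _).mpr hc, Subgroup.card_bot] at h3
    omega
  have h7 : ∀ C : F, C ≠ 0 → ∃ u ∈ normOne σ, C * u + σ (C * u) = 0 := fun C hC => by
    obtain ⟨b, hb⟩ := Orth.isSquare_of_two_eq_zero h2 (σ C / C)
    have h8 : σ C ≠ 0 := by simpa using hC
    have h9 : b ≠ 0 := by
      rintro rfl
      simp [hC, h8] at hb
    have h10 : σ b * b = 1 := by
      have h11 := congrArg σ hb
      rw [map_div₀, hσ.invol, map_mul] at h11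
      have : (σ b * b - 1) ^ 2 = 0 := by
        have h12 : σ b * σ b * (b * b) = 1 := by
          rw [← hb, ← h11]
          field_simp
        linear_combination h12 - (σ b * b - 1) * h2
      exact sub_eq_zero.mp ((pow_eq_zero_iff two_ne_zero).mp this)
    refine ⟨Units.mk0 b h9, mem_normOne.mpr h10, ?_⟩
    rw [div_eq_iff hC] at hb
    rw [Units.val_mk0, map_mul, hb]
    linear_combination b * C * h10 + b * C * h2
  by_cases hA : A = 0
  · by_cases hC : C = 0
    · exact ⟨1, 1, s, 1, one_mem _, one_mem _, hs, one_mem _, .inl hs1.symm, by simp [hA, hC],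
        by simp [hA, hC]⟩
    · obtain ⟨u, hu, h8⟩ := h7 C hC
      exact ⟨1, u, s, u, one_mem _, hu, hs, hu, .inl hs1.symm, by simp [hA, h8, -map_mul],
        by simp [hA, h8, -map_mul]⟩
  by_cases hC : C = 0
  · obtain ⟨u, hu, h8⟩ := h7 A hA
    exact ⟨u, 1, u, s, hu, one_mem _, hu, hs, .inr hs1.symm, by simp [hC, h8, -map_mul],
      by simp [hC, h8, -map_mul]⟩
  let S : Finset Fˣ := Finset.univ.filter (· ∈ normOne σ)
  have hS : S.card = q + 1 := by
    rw [← h3, Nat.card_eq_fintype_card, Fintype.card_subtype]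
  let T : Finset F := Finset.univ.filter fun c => σ c = c
  have hT : T.card = q := by
    rw [← hσ.card_fixF hF, Nat.card_eq_fintype_card, Fintype.card_subtype]
    rfl
  have key : ∀ A : F, A ≠ 0 → (S.image fun t : Fˣ => A * t + σ (A * t)) ⊆ T ∧
      q + 1 ≤ 2 * (S.image fun t : Fˣ => A * t + σ (A * t)).card := fun A hA => by
    refine ⟨fun c hc => ?_, hS ▸ Finset.card_le_mul_card_image _ 2 fun c hc => ?_⟩
    · obtain ⟨t, -, rfl⟩ := Finset.mem_image.mp hc
      simp [T, hσ.invol, add_comm]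
    obtain ⟨t, ht, rfl⟩ := Finset.mem_image.mp hc
    have h8 : σ A ≠ 0 := by simpa using hA
    refine le_trans (Finset.card_le_card (t := {t, Units.mk0 (σ A / (A * t)) (by simp [hA])})
      fun x hx => ?_) Finset.card_le_two
    simp only [S, Finset.mem_filter, Finset.mem_univ, true_and, mem_normOne, map_mul] at hx ht
    obtain ⟨h9, h10⟩ := hx
    have h11 : ((x : F) - t) * (A * t * x - σ A) = 0 := by
      linear_combination x * t * h10 - σ A * t * h9 + σ A * x * ht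
    simp only [Finset.mem_insert, Finset.mem_singleton, Units.ext_iff, Units.val_mk0]
    refine (mul_eq_zero.mp h11).imp sub_eq_zero.mp fun h12 => ?_
    have := t.ne_zero
    field_simp
    linear_combination h12
  obtain ⟨a1, a2⟩ := key A hA
  obtain ⟨c1, c2⟩ := key C hC
  have h8 := Finset.card_union_add_card_inter (S.image fun t : Fˣ => A * t + σ (A * t))
    (S.image fun t : Fˣ => C * t + σ (C * t))
  have h9 := Finset.card_le_card (Finset.union_subset a1 c1)
  obtain ⟨x, hx, y, hy, hxy⟩ := Finset.one_lt_card.mp (show 1 < ((S.image fun t : Fˣ =>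
    A * t + σ (A * t)) ∩ (S.image fun t : Fˣ => C * t + σ (C * t))).card by
      obtain ⟨k, hk⟩ := h5
      omega)
  simp only [S, Finset.mem_inter, Finset.mem_image, Finset.mem_filter, Finset.mem_univ,
    true_and] at hx hy
  obtain ⟨⟨t, ht, e1⟩, u, hu, e2⟩ := hx
  obtain ⟨⟨t', ht', e3⟩, u', hu', e4⟩ := hy
  exact ⟨t, u, t', u', ht, hu, ht', hu', .inl fun h => hxy (by rw [← e1, ← e3, h]),
    e1.trans e2.symm, e3.trans e4.symm⟩

/-- The hypotheses of the reduction theorem for four orthonormal frame vectors. -/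
structure G4 (e : Basis (Fin 4) F V) (M U : Subgroup (V ≃ₗ[F] V)) (σ : F →+* F) (s : Fˣ) :
    Prop where
  hM : ∀ g, LinearEquiv.det g = 1 → g ∈ mon e → g ∈ U → g ∈ M
  pmU : ∀ π, pm e π ∈ U
  dgU : ∀ c, (∀ i, c i ∈ normOne σ) → dg e c ∈ U
  sS : s ∈ normOne σ
  fix : ∀ g ∈ M, ∀ l, (∀ i, i ≠ l → e.repr (g (e l)) i = 0) → g ∈ mon e
  adj : ∀ g ∈ M, ∀ i j, e.repr (g.symm (e j)) i = σ (e.repr (g (e i)) j)
  ord : (s : F) ^ 4 ≠ 1

namespace G4
variable {M U : Subgroup (V ≃ₗ[F] V)} {s : Fˣ} (h : G4 e M U σ s) {g : V ≃ₗ[F] V}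
include h

theorem sgU (J : Finset (Fin 4)) : sg e J ∈ U := h.dgU _ fun i => by
  unfold sgn
  split_ifs
  exacts [mem_normOne.mpr (by simp), one_mem _]

theorem fix' (hg : g ∈ M) {a m : Fin 4} (h1 : ∀ i, i ≠ m → e.repr (g (e a)) i = 0) :
    g ∈ mon e := by
  by_cases ha : a = m
  · exact h.fix g hg m (ha ▸ h1)
  have h2 := mul_mem (pm_mem (e := e) (Equiv.swap a m)) (sg_mem {a})
  refine (mul_mem_cancel_left h2).mp (h.fix _ (mul_mem (h.hM _ (by simp [det_pm, det_sg, ha]) h2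
    (mul_mem (h.pmU _) (h.sgU _))) hg) a fun i hi => ?_)
  rw [LinearEquiv.mul_apply, eq_smul_basis h1, map_smul]
  simp [sgn_basis, Ne.symm ha, hi]

theorem supp (hg : g ∈ M) {k l : Fin 4} (h2 : e.repr (g.symm (e l)) k = 0) :
    ∃ j j', ∀ m, m ≠ j → m ≠ j' → e.repr (g (e k)) m = 0 := by
  set d := dg e (fun _ => s) * dg e (Pi.mulSingle k (s⁻¹ ^ 4)) with hd
  set r : F := s * (s : F)⁻¹ ^ 4 - s with hr
  have hr0 : r ≠ 0 := fun e => h.ord (by
    have := s.ne_zero
    rw [hr] at e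
    field_simp at e
    linear_combination -e)
  have h3 : ∀ y, (g * d * g⁻¹) y = (s : F) • y + (r * e.repr (g.symm y) k) • g (e k) := fun y => by
    change g (d (g.symm y)) = _
    obtain ⟨y, rfl⟩ := g.surjective y
    simp only [← map_smul g, ← map_add g, g.symm_apply_apply]
    refine congrArg g (e.ext_elem fun i => ?_)
    by_cases hi : i = k
    · simp [hd, hi, hr]
      ring
    · simp [hd, hi, Ne.symm hi]
  have h4 := h.fix _ (mul_mem (mul_mem hg (h.hM d (by simp [hd, det_dg])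
    (mul_mem (dg_mem _) (dg_mem _)) (mul_mem (h.dgU _ fun _ => h.sS) (h.dgU _ fun i => by
      by_cases hi : i = k
      · simpa [hi] using pow_mem h.sS 4
      · simp [hi])))) (inv_mem hg)) l fun i hi => by simp [h3, h2, hi]
  obtain ⟨j, hj⟩ : ∃ j, e.repr (g.symm (e j)) k ≠ 0 := by
    by_contra hc
    push Not at hc
    simpa using repr_of_basis (e := e) (g := g.symm) (l := k) (l' := k) (a := 0)
      (by simpa using hc) (g (e k))
  obtain ⟨j', c, -, hc⟩ := mon_basis h4 j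
  exact ⟨j, j', fun m h6 h7 => by simpa [h3, h6, h7, hr0, hj] using congrArg (e.repr · m) hc⟩

/-- Orthogonal frame vectors lie in the same frame. -/
theorem one (hg : g ∈ M) {k l : Fin 4} (h1 : e.repr (g (e k)) l = 0)
    (h2 : e.repr (g.symm (e l)) k = 0) : g ∈ mon e := by
  obtain ⟨j, j', h3⟩ := h.supp hg h2
  obtain ⟨i, i', h4⟩ := h.supp (inv_mem hg) (k := l) (l := k) h1
  obtain ⟨l', a1, a2, a3⟩ : ∃ l' : Fin 4, l' ≠ l ∧ l' ≠ j ∧ l' ≠ j' :=
    (by decide : ∀ l j j' : Fin 4, ∃ l' : Fin 4, l' ≠ l ∧ l' ≠ j ∧ l' ≠ j') l j j'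
  set z := dg e (Pi.mulSingle l s * Pi.mulSingle l' s⁻¹) with hz
  have za : ∀ y, e.repr (z y) l = s * e.repr y l := fun y => by simp [hz, a1.symm]
  have zb : ∀ y, e.repr (z y) l' = (s : F)⁻¹ * e.repr y l' := fun y => by simp [hz, a1]
  have zc : ∀ y i, i ≠ l → i ≠ l' → e.repr (z y) i = e.repr y i := fun y i h3 h4 => by
    simp [hz, h3, h4]
  have h5 : z (g (e k)) = g (e k) := e.ext_elem fun x => by
    by_cases b1 : x = l
    · rw [b1, za, h1, mul_zero]
    by_cases b2 : x = l'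
    · rw [b2, zb, h3 l' a2 a3, mul_zero]
    exact zc _ _ b1 b2
  have h6 : g⁻¹ * z * g ∈ mon e := h.fix _ (mul_mem (mul_mem (inv_mem hg) (h.hM z (by
    simp [hz, det_dg, Finset.prod_mul_distrib]) (dg_mem _) (h.dgU _ fun x => mul_mem (by
      by_cases hx : x = l
      · simpa [hx] using h.sS
      · simp [hx]) (by
      by_cases hx : x = l'
      · simpa [hx] using h.sS
      · simp [hx])))) hg) k fun x hx => by simp [h5, hx]
  have h7 : (g⁻¹ * z * g) (g⁻¹ (e l)) = (s : F) • g⁻¹ (e l) := by simp [hz, a1.symm]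
  have hs := s.ne_zero
  obtain ⟨m, hm⟩ := exists_repr_ne (e := e) (x := g⁻¹ (e l)) (by simpa using e.ne_zero l)
  obtain ⟨m₁, t, ht, e1⟩ := mon_basis h6 m
  obtain ⟨m₂, t', ht', e2⟩ := mon_basis h6 m₁
  have b1 := repr_mon h6 e1 (g⁻¹ (e l))
  have b2 := repr_mon h6 e2 (g⁻¹ (e l))
  rw [h7, map_smul, Finsupp.smul_apply, smul_eq_mul] at b1 b2
  have b3 : e.repr (g⁻¹ (e l)) m₁ ≠ 0 := fun e' => mul_ne_zero ht hm (by rw [← b1, e', mul_zero])
  have b4 : e.repr (g⁻¹ (e l)) m₂ ≠ 0 := fun e' => mul_ne_zero ht' b3 (by rw [← b2, e', mul_zero])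
  have b5 : m₂ = m := by
    by_cases b6 : m₁ = m
    · subst b6
      by_contra b7
      simpa [b7, ht'] using congrArg (e.repr · m₂) (e2.symm.trans e1)
    have b7 : m₂ ≠ m₁ := by
      rintro rfl
      have := (g⁻¹ * z * g).injective (show (g⁻¹ * z * g) (t' • e m) = (g⁻¹ * z * g) (t • e m₂) by
        rw [map_smul, map_smul, e1, e2, smul_comm])
      simpa [b6, ht] using congrArg (e.repr · m₂) this.symm
    have b8 : ∀ x, e.repr (g⁻¹ (e l)) x ≠ 0 → x = i ∨ x = i' := fun x hx => by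
      by_contra hc
      push Not at hc
      exact hx (h4 x hc.1 hc.2)
    rcases b8 m hm with c1 | c1 <;> rcases b8 m₁ b3 with c2 | c2 <;>
      rcases b8 m₂ b4 with c3 | c3 <;> simp_all
  subst b5
  have b6 : t * t' = s ^ 2 := mul_right_cancel₀ hm (by linear_combination -t' * b1 - s * b2)
  have b7 : z (z (g (e m₂))) = (s : F) ^ 2 • g (e m₂) := by
    have := congrArg (fun x => g ((g⁻¹ * z * g) x)) e1
    simpa [e2, smul_smul, b6] using this
  refine h.fix' hg (a := m₂) (m := l) fun x hx => by_contra fun hc => h.ord ?_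
  have b8 := congrArg (e.repr · x) b7
  by_cases b9 : x = l'
  · subst b9
    simp only [zb, map_smul, Finsupp.smul_apply, smul_eq_mul, ← mul_assoc] at b8
    have := mul_right_cancel₀ hc b8
    field_simp at this
    linear_combination -this
  · simp only [zc _ _ hx b9, map_smul, Finsupp.smul_apply, smul_eq_mul] at b8
    have := mul_right_cancel₀ hc (b8.symm.trans (one_mul _).symm)
    linear_combination (s ^ 2 + 1) * this

theorem eig (hg : g ∈ M) {c t : V ≃ₗ[F] V} (hc : c ∈ mon e) (ht : t ∈ mon e) {ε : F}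
    (H : ∀ x, g (t x) = ε • c (g x)) {l a : Fin 4} {η η' : F} (h1 : c (e l) = η • e l)
    (h2 : t (e a) = η' • e a) (h3 : η' ≠ ε * η) : g ∈ mon e := by
  refine h.one hg (k := a) (l := l) ?_ ?_ <;> by_contra h4
  · have := congrArg (e.repr · l) (H (e a))
    simp only [h2, map_smul, Finsupp.smul_apply, repr_mon hc h1, smul_eq_mul, ← mul_assoc] at this
    exact h3 (mul_right_cancel₀ h4 this)
  · have h5 : t (g.symm (e l)) = (ε * η) • g.symm (e l) := g.injective (by simp [H, h1, smul_smul])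
    have := repr_mon ht h2 (g.symm (e l))
    rw [h5, map_smul, Finsupp.smul_apply, smul_eq_mul] at this
    exact h3 (mul_right_cancel₀ h4 this).symm

/-- A non-scalar diagonal element which is monomial and fixes a point in the second frame. -/
theorem diag (hg : g ∈ M) {d : V ≃ₗ[F] V} {c : Fin 4 → F} (hd : ∀ i, d (e i) = c i • e i)
    (H : g⁻¹ * d * g ∈ mon e) {m : Fin 4} {η : F} (h1 : (g⁻¹ * d * g) (e m) = η • e m)
    {i j : Fin 4} (h2 : c i ≠ c j) : g ∈ mon e := by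
  have h3 : d ∈ mon e := mem_mon fun i => hd i ▸ (FV.basis i).smul _
  by_cases h4 : η = c i
  · exact h.eig hg h3 H (ε := 1) (fun x => by simp) (hd j) h1 (by simpa [h4] using h2)
  · exact h.eig hg h3 H (ε := 1) (fun x => by simp) (hd i) h1 (by simpa using h4)

section odd
variable (h2 : (2 : F) ≠ 0)
include h2

theorem conj_fix (hg : g ∈ M) {J : Finset (Fin 4)} (hJ : J.card = 2)
    (H : g * sg e J * g⁻¹ ∈ mon e) {l : Fin 4} {η : F} (h1 : (g * sg e J * g⁻¹) (e l) = η • e l) :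
    g ∈ mon e := by
  obtain ⟨i, hi, j, hj⟩ : ∃ i ∈ J, ∃ j, j ∉ J :=
    (by decide : ∀ J : Finset (Fin 4), J.card = 2 → ∃ i ∈ J, ∃ j, j ∉ J) J hJ
  refine (inv_mem_iff (x := g)).mp (h.diag (inv_mem hg) (d := sg e J)
    (c := fun i => if i ∈ J then -1 else 1) (fun i => ?_) (by simpa using H) (m := l) (η := η)
    (by simpa using h1) (i := i) (j := j) ?_)
  · rw [sgn_basis]
    split_ifs <;> simp
  · simp only [hi, hj, if_true, if_false]
    exact fun e => h2 (by linear_combination -e)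

theorem conj_two (hg : g ∈ M) {J : Finset (Fin 4)} (hJ : J.card = 2)
    (H : g * sg e J * g⁻¹ ∈ mon e) : g ∈ mon e := by
  set c := g * sg e J * g⁻¹ with hc
  choose π t ht hπ using mon_basis H
  by_cases h1 : ∃ l, π l = l
  · obtain ⟨l, hl⟩ := h1
    exact h.conj_fix h2 hg hJ H (l := l) (η := t l) (by rw [hπ, hl])
  push Not at h1
  have h3 : ∀ i, π (π i) = i := fun i => by
    by_contra h3
    have h4 : c * c = 1 := by
      rw [hc, show g * sg e J * g⁻¹ * (g * sg e J * g⁻¹) = g * (sg e J * sg e J) * g⁻¹ by group,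
        sgn_sq]
      simp
    simpa [hπ, h3] using congrArg (e.repr · i) (LinearEquiv.congr_fun h4 (e i))
  obtain ⟨k, hk0, hk1⟩ : ∃ k, k ≠ 0 ∧ k ≠ π 0 :=
    (by decide : ∀ j : Fin 4, ∃ k, k ≠ 0 ∧ k ≠ j) (π 0)
  have h4 : ∀ i, (π i = 0 ∨ π i = π 0) ↔ (i = 0 ∨ i = π 0) := fun i =>
    ⟨fun h4 => h4.symm.imp (fun e' => by rw [← h3 i, e', h3]) fun e' => by rw [← h3 i, e'],
      fun h4 => h4.symm.imp (fun e' => by rw [e', h3]) fun e' => by rw [e']⟩
  set d := dg e (fun i => if i = 0 ∨ i = π 0 then s else s⁻¹) with hd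
  have hd1 : LinearEquiv.det d = 1 := by
    rw [hd, det_dg]
    have := h1 0
    generalize π 0 = j at this
    fin_cases j <;> simp [Fin.prod_univ_four] at this ⊢
  have hdc : d * c = c * d := e.ext' fun i => by
    simp only [LinearEquiv.mul_apply, hπ, hd, map_smul, dg_basis, h4 i]
    rw [smul_comm]
  have hδ : g⁻¹ * d * g ∈ M := mul_mem (mul_mem (inv_mem hg) (h.hM d hd1 (dg_mem _) (h.dgU _ fun i => by
    split_ifs
    exacts [h.sS, inv_mem h.sS]))) hg
  have h5 : g⁻¹ * d * g * sg e J * (g⁻¹ * d * g)⁻¹ = sg e J := by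
    rw [show g⁻¹ * d * g * sg e J * (g⁻¹ * d * g)⁻¹ = g⁻¹ * (d * c) * d⁻¹ * g by rw [hc]; group, hdc,
      hc]
    group
  have h6 : g⁻¹ * d * g ∈ mon e := h.conj_fix h2 hδ hJ (by rw [h5]; exact sg_mem J) (l := 0)
    (η := if (0 : Fin 4) ∈ J then -1 else 1) (by
      rw [h5, sgn_basis]
      split_ifs <;> simp)
  have hs := s.ne_zero
  have h7 : ∀ y, y + d (d y) = (s + (s : F)⁻¹) • d y := fun y => e.ext_elem fun i => by
    simp only [hd, map_add, map_smul, Finsupp.add_apply, Finsupp.smul_apply, repr_dg, smul_eq_mul]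
    split_ifs
    · field_simp
      ring
    · simp only [Units.val_inv_eq_inv_val]
      field_simp
  obtain ⟨η, h8⟩ : ∃ η : F, (g⁻¹ * (d * d) * g) (e 0) = η • e 0 := by
    have h9 : ∀ y, (g⁻¹ * (d * d) * g) y = (g⁻¹ * d * g) ((g⁻¹ * d * g) y) := fun y => by simp
    obtain ⟨η, h8 | h8 | h8⟩ := (FV.basis (e := e) 0).rel ((h6 _).mp ((h6 _).mp (FV.basis 0)))
      (((h6 _).mp (FV.basis 0)).smul (s + (s : F)⁻¹)) ((FV.basis 0).smul 0) (by
        apply g.injective
        simp [h7]) (e.ne_zero 0)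
    · exact ⟨η, by rw [h9, h8.1]⟩
    · have h10 : s + (s : F)⁻¹ ≠ 0 := fun e' => by
        rw [e', zero_smul] at h8
        exact e.ne_zero 0 (by simpa [h8.2] using h8.1.symm)
      have h11 : (g⁻¹ * d * g) (e 0) = ((s + (s : F)⁻¹)⁻¹ * η) • e 0 := by
        rw [← smul_smul, ← h8.1, smul_smul, inv_mul_cancel₀ h10, one_smul]
      exact ⟨_, by rw [h9, h11, map_smul, h11, smul_smul]⟩
    · exact absurd (by simpa [h8.2] using h8.1.symm) (e.ne_zero 0)
  refine h.diag hg (d := d * d) (c := fun i => if i = 0 ∨ i = π 0 then (s : F) ^ 2 else (s : F)⁻¹ ^ 2)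
    (fun i => ?_) ?_ h8 (i := 0) (j := k) ?_
  · simp only [hd, LinearEquiv.mul_apply, dg_basis, map_smul, smul_smul]
    split_ifs <;> simp [sq]
  · have := mul_mem h6 h6
    rwa [show g⁻¹ * d * g * (g⁻¹ * d * g) = g⁻¹ * (d * d) * g by group] at this
  · simp only [true_or, if_true, hk0, hk1, or_self, if_false]
    refine fun e' => h.ord ?_
    field_simp at e'
    linear_combination e'

theorem odd [Finite F] : M ≤ mon e := fun g hg => by
  haveI := Module.Finite.of_basis e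
  haveI := Module.finite_of_finite F (M := V)
  haveI : Finite (V ≃ₗ[F] V) := Finite.of_injective _ DFunLike.coe_injective
  by_contra hg'
  set ν := sg e Finset.univ with hν
  have n1 : ∀ x, ν x = -x := fun x => e.ext_elem fun i => by simp [hν]
  have n2 : ∀ a : V ≃ₗ[F] V, ν * a = a * ν := fun a => LinearEquiv.ext fun x => by simp [n1]
  have n3 : ∀ {a b : V ≃ₗ[F] V}, EqPm ν a b → b ∈ mon e → a ∈ mon e := by
    rintro a b (rfl | rfl) hb
    exacts [hb, mul_mem (sg_mem _) hb]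
  have n4 : ∀ {a b : V ≃ₗ[F] V}, EqPm ν a b → ∃ ε : F, (ε = 1 ∨ ε = -1) ∧ ∀ x, a x = ε • b x := by
    rintro a b (rfl | rfl)
    exacts [⟨1, .inl rfl, fun x => by simp⟩, ⟨-1, .inr rfl, fun x => by simp [n1]⟩]
  have n5 : ∀ {a b : V ≃ₗ[F] V} (x y), EqPm ν a b → EqPm ν (x * a * y) (x * b * y) := by
    rintro a b x y (rfl | rfl)
    · exact .inl rfl
    · exact .inr (by rw [← mul_assoc, ← n2 x]; group)
  have n6 : (-1 : F) ≠ 1 := fun e' => h2 (by linear_combination -e')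
  set z := sg e {0, 1} with hz
  set w := pm e (Equiv.swap 0 1) * sg e {3} with hw
  have w0 : w (e 0) = e 1 := by simp [hw, sgn_basis]
  have w1 : w (e 1) = e 0 := by simp [hw, sgn_basis]
  have w2 : w (e 2) = e 2 := by simp [hw, sgn_basis, Equiv.swap_apply_def]
  have w3 : w (e 3) = -e 3 := by simp [hw, sgn_basis, Equiv.swap_apply_def]
  have wm : w ∈ mon e := mul_mem (pm_mem _) (sg_mem _)
  have zc : ({0, 1} : Finset (Fin 4)).card = 2 := by decide
  have A : ∀ {x}, x ∈ M → x * z * x⁻¹ ∈ mon e → ∃ K : Finset (Fin 4), K.card = 2 ∧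
      x * z * x⁻¹ = sg e K := fun hx H => by
    obtain ⟨K, h3, h4⟩ := Fr.conj_sg (h.conj_two h2 hx zc H) {0, 1}
    exact ⟨K, h3.trans zc, h4⟩
  have hy : g * z * g⁻¹ ∈ M :=
    mul_mem (mul_mem hg (h.hM _ (by simp [hz, det_sg]) (sg_mem _) (h.sgU _))) (inv_mem hg)
  rcases dih_pm n2 (sgn_sq _) hy (h.hM w (by simp [hw, det_sg, det_pm]) wm
      (mul_mem (h.pmU _) (h.sgU _))) (by
      rw [show g * z * g⁻¹ * (g * z * g⁻¹) = g * (z * z) * g⁻¹ by group, sgn_sq]
      simp) (e.ext' fun i => by fin_cases i <;> simp [w0, w1, w2, w3]) with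
    ⟨x, hx, H⟩ | ⟨c, hc, h3, h4, h5, x, hx, H⟩
  · rw [show x * (g * z * g⁻¹) * x⁻¹ = x * g * z * (x * g)⁻¹ by group] at H
    obtain ⟨K, -, hK⟩ := A (mul_mem hx hg) (n3 H wm)
    obtain ⟨ε, h3, h4⟩ := n4 H
    have := congrArg (e.repr · 1) (h4 (e 0))
    rw [hK] at this
    rcases h3 with rfl | rfl <;> simp [w0] at this
  have h6 : g⁻¹ * c * g ∈ mon e := h.conj_two h2 (mul_mem (mul_mem (inv_mem hg) hc) hg) zc
    (n3 (by simpa [mul_assoc] using n5 g⁻¹ (c⁻¹ * g) h4) (sg_mem {0, 1}))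
  have h7 : c ∈ mon e := by
    obtain ⟨ε, rfl | rfl, h8⟩ := n4 h5
    · exact h.eig hc wm wm h8 (l := 2) (a := 3) (η := 1) (η' := -1) (by simp [w2]) (by simp [w3])
        (by simpa using n6)
    · exact h.eig hc wm wm h8 (l := 2) (a := 2) (η := 1) (η' := 1) (by simp [w2]) (by simp [w2])
        (by simpa using n6.symm)
  rcases H with H | H
  · replace H : EqPm ν (g⁻¹ * x * g * z * (g⁻¹ * x * g)⁻¹) (g⁻¹ * c * g * z) := by
      simpa [mul_assoc] using n5 g⁻¹ g H
    obtain ⟨K, hK, hK'⟩ := A (mul_mem (mul_mem (inv_mem hg) hx) hg)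
      (n3 H (mul_mem h6 (sg_mem _)))
    have h8 := n5 g (z * g⁻¹) H
    rw [hK', show g * sg e K * (z * g⁻¹) = g * (sg e K * z) * g⁻¹ by group, Fr.sg_mul',
      show g * (g⁻¹ * c * g * z) * (z * g⁻¹) = c * g * (z * z) * g⁻¹ by group, sgn_sq, mul_one,
      mul_inv_cancel_right] at h8
    rcases (by decide : ∀ K : Finset (Fin 4), K.card = 2 → (symmDiff K {0, 1}).card = 2 ∨
      symmDiff K {0, 1} = ∅ ∨ symmDiff K {0, 1} = Finset.univ) K hK with h9 | h9 | h9
    · exact hg' (h.conj_two h2 hg h9 (n3 h8 h7))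
    · have h10 : sg e ∅ = 1 := e.ext' fun i => by simp [sgn_basis]
      rw [h9, h10, mul_one, mul_inv_cancel] at h8
      refine h3 (h8.imp Eq.symm fun h11 => ?_)
      rw [mul_one, ← one_mul c, ← sgn_sq (e := e) Finset.univ, mul_assoc, ← h11, mul_one]
    · rw [h9, ← hν, ← n2, mul_inv_cancel_right] at h8
      exact h3 (h8.symm.imp (fun h11 => by simpa using h11.symm) fun h11 => by simp [h11])
  · rw [show x * (g * z * g⁻¹) * x⁻¹ = x * g * z * (x * g)⁻¹ by group] at H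
    obtain ⟨K, hK, hK'⟩ := A (mul_mem hx hg) (n3 H (mul_mem h7 wm))
    rw [hK'] at H
    obtain ⟨ε, h8, h9⟩ := n4 H
    obtain ⟨ε', h10, h11⟩ := n4 h5
    obtain ⟨ε'', h12, h13⟩ := n4 h4
    have hε : ε * ε = 1 := by rcases h8 with rfl | rfl <;> simp
    have h14 : ∀ x, c (w x) = ε • sg e K x := fun x => by
      rw [h9, smul_smul, hε, one_smul]; rfl
    have c0 := h14 (e 0)
    have c1 := h14 (e 1)
    have c2 := h14 (e 2)
    have c3 := h14 (e 3)
    have d0 := congrArg (e.repr · 0) (h11 (e 0))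
    have d2 := congrArg (e.repr · 2) (h11 (e 2))
    rw [w0, sgn_basis] at c0
    rw [w1, sgn_basis] at c1
    rw [w2, sgn_basis] at c2
    rw [w3, sgn_basis, map_neg, neg_eq_iff_eq_neg] at c3
    have hε0 : ε ≠ 0 := left_ne_zero_of_mul (hε ▸ one_ne_zero)
    have h15 : (2 : Fin 4) ∈ K ↔ (3 : Fin 4) ∈ K := by
      refine (by decide : ∀ K : Finset (Fin 4), K.card = 2 → (0 ∈ K ↔ 1 ∈ K) → (2 ∈ K ↔ 3 ∈ K))
        K hK ?_
      have h16 : ε' = 1 := by
        by_cases a2 : (2 : Fin 4) ∈ K <;> simpa [a2, c2, w2, hε0] using d2.symm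
      by_cases a0 : (0 : Fin 4) ∈ K <;> by_cases a1 : (1 : Fin 4) ∈ K <;>
        simp [a0, a1, c0, c1, w0, w1, h16] at d0 ⊢ <;>
        exact mul_ne_zero h2 hε0 (by first | linear_combination d0 | linear_combination -d0)
    have h16 : ∃ η : F, η ≠ 0 ∧ c (e 2) = η • e 2 ∧ c (e 3) = -η • e 3 := by
      by_cases a2 : (2 : Fin 4) ∈ K
      · exact ⟨-ε, by simpa, by simp [c2, a2], by simp [c3, h15.mp a2]⟩
      · exact ⟨ε, hε0, by simp [c2, a2], by simp [c3, mt h15.mpr a2]⟩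
    obtain ⟨η, h17, h18, h19⟩ := h16
    have h20 : ∀ x, (g * z * g⁻¹) (c x) = ε'' • c ((g * z * g⁻¹) x) := fun x => by
      have := h13 x
      simp only [LinearEquiv.mul_apply] at this ⊢
      rw [this, smul_smul]
      rcases h12 with rfl | rfl <;> simp
    have h21 : -η ≠ η := fun e' => mul_ne_zero h2 h17 (by linear_combination -e')
    refine hg' (h.conj_two h2 hg zc ?_)
    rcases h12 with rfl | rfl
    · exact h.eig hy h7 h7 h20 h18 h19 (by simpa using h21)
    · exact h.eig hy h7 h7 h20 h18 h18 (by simpa using h21.symm)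

end odd

section even
variable (h2 : (2 : F) = 0)
include h2

theorem diag2 (hg : g ∈ M) {d : V ≃ₗ[F] V} {c : Fin 4 → F} (hd : ∀ i, d (e i) = c i • e i)
    (H : g⁻¹ * d * g ∈ mon e) {i j : Fin 4} (h3 : c i ≠ c j) : g ∈ mon e := by
  obtain ⟨π, hπ⟩ := mem_mon_iff.mp H
  have h4 : ∀ i, ∃ t : F, (g⁻¹ * d * g) (e i) = t • e (π i) := fun i => by
    obtain ⟨c, hc⟩ := Submodule.mem_span_singleton.mp
      ((hπ i).le ⟨e i, Submodule.mem_span_singleton_self _, rfl⟩)
    exact ⟨c, hc.symm⟩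
  choose t ht using h4
  obtain ⟨m, hm⟩ : ∃ m, π (π (π (π m))) = m :=
    (by decide +kernel : ∀ π : Equiv.Perm (Fin 4), ∃ m, π (π (π (π m))) = m) π
  have h5 : g⁻¹ * d ^ 4 * g = (g⁻¹ * d * g) ^ 4 := by
    simpa using (conj_pow (a := g⁻¹) (b := d) (i := 4)).symm
  refine h.diag hg (d := d ^ 4) (c := fun i => c i ^ 4) (fun i => ?_) (h5 ▸ pow_mem H 4) (m := m)
    (η := t m * t (π m) * t (π (π m)) * t (π (π (π m)))) ?_ (i := i) (j := j) fun e' => h3 ?_
  · simp only [pow_succ, pow_zero, one_mul, LinearEquiv.mul_apply, hd, map_smul, smul_smul,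
      mul_assoc]
  · rw [h5]
    generalize g⁻¹ * d * g = δ at ht
    simp only [pow_succ, pow_zero, one_mul, LinearEquiv.mul_apply, ht, map_smul, smul_smul,
      mul_assoc, hm]
  · have : (c i - c j) ^ 4 = 0 := by
      linear_combination e' + (c j ^ 4 - 2 * c i ^ 3 * c j + 3 * c i ^ 2 * c j ^ 2 -
        2 * c i * c j ^ 3) * h2
    exact sub_eq_zero.mp ((pow_eq_zero_iff (by norm_num : 4 ≠ 0)).mp this)

theorem even [Finite F] (hσ : Inv σ) : M ≤ mon e := fun g hg => by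
  have inv : ∀ {t : Fˣ}, t ∈ normOne σ → ((t⁻¹ : Fˣ) : F) = σ t := fun {t} ht => by
    rw [Units.val_inv_eq_inv_val, eq_inv_of_mul_eq_one_left (mem_normOne.mp ht)]
  obtain ⟨t, u, t', u', ht, hu, ht', hu', h3, h4, h5⟩ := exists_two_sol hσ h2
    (e.repr (g (e 0)) 0 * σ (e.repr (g (e 0)) 1)) (e.repr (g (e 0)) 2 * σ (e.repr (g (e 0)) 3))
  have key : ∀ t ∈ normOne σ, ∀ u ∈ normOne σ,
      e.repr (g (e 0)) 0 * σ (e.repr (g (e 0)) 1) * t +
        σ (e.repr (g (e 0)) 0 * σ (e.repr (g (e 0)) 1) * t) =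
      e.repr (g (e 0)) 2 * σ (e.repr (g (e 0)) 3) * u +
        σ (e.repr (g (e 0)) 2 * σ (e.repr (g (e 0)) 3) * u) → ∃ n : V ≃ₗ[F] V,
      g⁻¹ * n * g ∈ mon e ∧ n (e 0) = (t : F) • e 1 ∧ n (e 1) = ((t⁻¹ : Fˣ) : F) • e 0 ∧
        n (e 2) = (u : F) • e 3 ∧ n (e 3) = ((u⁻¹ : Fˣ) : F) • e 2 := fun t ht u hu h6 => by
    set n := pm e (Equiv.swap 0 1 * Equiv.swap 2 3) * dg e ![t, t⁻¹, u, u⁻¹] with hn
    have n1 : n (e 0) = (t : F) • e 1 := by simp [hn, Equiv.swap_apply_def]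
    have n2 : n (e 1) = ((t⁻¹ : Fˣ) : F) • e 0 := by simp [hn, Equiv.swap_apply_def]
    have n3 : n (e 2) = (u : F) • e 3 := by simp [hn, Equiv.swap_apply_def]
    have n4 : n (e 3) = ((u⁻¹ : Fˣ) : F) • e 2 := by simp [hn, Equiv.swap_apply_def]
    have n6 : n ∈ M := h.hM _ (by simp [hn, det_dg, det_pm, Fin.prod_univ_four])
      (mul_mem (pm_mem _) (dg_mem _)) (mul_mem (h.pmU _) (h.dgU _ fun i => by
        fin_cases i
        exacts [ht, inv_mem ht, hu, inv_mem hu]))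
    have n7 : e.repr ((g⁻¹ * n * g) (e 0)) 0 = 0 := by
      change e.repr (g.symm (n (g (e 0)))) 0 = 0
      rw [← e.sum_repr (g (e 0)), Fin.sum_univ_four]
      simp only [map_add, map_smul, n1, n2, n3, n4, Finsupp.add_apply, Finsupp.smul_apply,
        smul_eq_mul, h.adj g hg, inv ht, inv hu]
      simp only [map_mul, hσ.invol] at h6
      linear_combination h6 + (e.repr (g (e 0)) 2 * σ (e.repr (g (e 0)) 3) * u +
        σ (e.repr (g (e 0)) 2) * e.repr (g (e 0)) 3 * σ u) * h2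
    have n8 := mul_mem (mul_mem (inv_mem hg) n6) hg
    exact ⟨n, h.one n8 n7 (by rw [h.adj _ n8, n7, map_zero]), n1, n2, n3, n4⟩
  obtain ⟨n, h7, n1, n2, n3, n4⟩ := key t ht u hu h4
  obtain ⟨n', h8, n1', n2', n3', n4'⟩ := key t' ht' u' hu' h5
  have h9 : ∀ {t t' : Fˣ}, t ≠ t' → (t' : F) * ((t⁻¹ : Fˣ) : F) ≠ ((t'⁻¹ : Fˣ) : F) * t :=
    fun {t t'} h9 h10 => h9 (Units.ext (sub_eq_zero.mp ((pow_eq_zero_iff two_ne_zero).mp (by
      have := t.ne_zero
      have := t'.ne_zero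
      simp only [Units.val_inv_eq_inv_val] at h10
      field_simp at h10
      linear_combination -h10 + (t' ^ 2 - t * t') * h2))))
  have h10 : ∀ x, (n * n') (e x) = (![t' * (t⁻¹ : Fˣ), (t'⁻¹ : Fˣ) * t, u' * (u⁻¹ : Fˣ),
      (u'⁻¹ : Fˣ) * u] : Fin 4 → F) x • e x := fun x => by
    fin_cases x <;> simp [-Units.val_inv_eq_inv_val, n1, n2, n3, n4, n1', n2', n3', n4', smul_smul]
  have h11 : g⁻¹ * (n * n') * g ∈ mon e := by simpa [mul_assoc] using mul_mem h7 h8
  rcases h3 with h3 | h3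
  · exact h.diag2 h2 hg h10 h11 (i := 0) (j := 1) (h9 h3)
  · exact h.diag2 h2 hg h10 h11 (i := 2) (j := 3) (h9 h3)

end even

end G4

section un
variable [FiniteDimensional F V] {B : V →ₛₗ[σ] V →ₗ[F] F} {hB : HF B} {M : Subgroup (UG B)}
  [Finite F]

theorem UFr.main4 (h : UFr hB e M) {q : ℕ} (hF : Nat.card F = q ^ 2) (hq : q ≠ 3)
    (hg : ∃ g ∈ M, g.1 ∉ mon e) : SUG B ≤ M := by
  by_contra hc
  obtain ⟨g, hg, hg'⟩ := hg
  refine hg' ((?_ : M.map (UG B).subtype ≤ mon e) ⟨g, hg, rfl⟩)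
  obtain ⟨s, hs⟩ := IsCyclic.exists_ofOrder_eq_natCard (α := normOne σ)
  rw [hB.toInv.card_normOne hF] at hs
  have iso : ∀ g : V ≃ₗ[F] V, (∀ i j, B (g (e i)) (g (e j)) = B (e i) (e j)) → g ∈ UG B :=
    fun g H x y => by
      rw [← e.sum_repr x, ← e.sum_repr y]
      simp only [map_sum, map_smul, b_smul_left, LinearMap.sum_apply, H]
  have H : G4 e (M.map (UG B).subtype) (UG B) σ s := ⟨fun g h1 h2 h3 => ⟨⟨g, h3⟩,
    h.le _ (mem_SUG.mpr (congrArg Units.val h1)) h2, rfl⟩, fun π => iso _ fun i j => by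
      by_cases hij : i = j
      · simp [hij, h.one]
      · simp [h.orth _ _ hij, h.orth _ _ (π.injective.ne hij)], fun c hc => iso _ fun i j => by
      by_cases hij : i = j
      · simpa [hij, h.one, mul_comm] using mem_normOne.mp (hc j)
      · simp [h.orth _ _ hij], s.2, ?_, ?_, fun h1 => ?_⟩
  · by_cases h2 : (2 : F) = 0
    · exact H.even h2 hB.toInv
    · exact H.odd h2
  · rintro _ ⟨g, hg, rfl⟩ l h1
    refine mem_mon fun a => ?_
    by_cases ha : a = l
    · exact ⟨l, ha ▸ h1⟩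
    by_contra h4
    exact hc (h.of_us (by simp) (h.us_conj (h.us_basis ha) hg (eq_smul_basis h1)) h4)
  · rintro _ ⟨g, -, rfl⟩ i j
    rw [← h.br, ← h.bl]
    exact UG.b_inv_right g _ _
  · have h2 := orderOf_dvd_of_pow_eq_one (x := s) (n := 4) (Subtype.ext (Units.ext (by simpa using h1)))
    have h3 := two_le_of_card hF
    have h4 := Nat.le_of_dvd (by norm_num) h2
    rw [hs] at h2 h4
    obtain rfl : q = 2 := by omega
    norm_num at h2

end un

theorem max_un_frame4 [Finite F] {q : ℕ} (hF : Nat.card F = q ^ 2) (hq : q ≠ 3)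
    {D : Fin 4 → Submodule F (Fin 4 → F)}
    (hD : Geo.IsNondegenerateMDecomposition (hermForm 4 F q) 1 D) :
    Geo.IsMaximalIn (Cfsg.GU 4 F q ⊓ Geo.specialLinear (Fin 4) F)
      (Geo.decompositionStabilizer D ⊓ (Cfsg.GU 4 F q ⊓ Geo.specialLinear (Fin 4) F)) := by
  refine max_un_dec hF (by omega) hD fun π M h hg => ?_
  choose v hv hv1 using fun i => (h.nd i).exists_norm (hf_sB hF 4) (h.rk i).ge (map_one _)
  obtain ⟨e, he, rfl⟩ := exists_frame h.dec hv (fun i => ne_zero_of_b (hv1 i ▸ one_ne_zero)) h.rk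
  simp only [← mem_mon_iff] at hg
  exact UFr.main4 (hB := hf_sB hF 4) ⟨fun i => he i ▸ hv1 i, fun i j hij => h.orth i j hij _
    (Submodule.mem_span_singleton_self _) _ (Submodule.mem_span_singleton_self _),
    fun g hg hg' => h.le g hg (mem_mon_iff.mp hg')⟩ hF hq hg

end Cfsg.Agent.Max
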