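import Mathlib
import Cfsg.Agent.Max2.UU3
import Cfsg.Agent.Max3.TW5

/-!
# Overgroups of `1 ⊗ SU(W)`: the stabiliser of `U ⊗ w`
-/

set_option autoImplicit false
set_option linter.unusedSectionVars false

namespace Cfsg.Agent.Max

open Module Cfsg.Agent.Max2 Cfsg.Agent.Max3 TensorProduct Cfsg.Agent.Herm

section Heis

variable {F V : Type*} [Field F] [AddCommGroup V] [Module F V] {M : Subgroup (V ≃ₗ[F] V)}
  {σ : F →+* F} {B : V →ₛₗ[σ] V →ₗ[F] F}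

theorem heisW (hR : ∀ x y, B x y = 0 → B y x = 0) {X : Submodule F V} {g g' : V ≃ₗ[F] V}
    (hg : g * g' * (g' * g)⁻¹ ∈ M) (hg1 : g ∈ UG B) (hg1' : g' ∈ UG B) (f : ∀ x ∈ X, g x = x)
    (f' : ∀ x ∈ X, g' x = x) (e : ∀ y, (∀ x ∈ X, B x y = 0) → g y - y ∈ X)
    (e' : ∀ y, (∀ x ∈ X, B x y = 0) → g' y - y ∈ X) :
    ∃ N : V →ₗ[F] V, R M N ∧ (∀ y, (∀ x ∈ X, B x y = 0) → N y = 0) ∧
      ∀ x y, B y (N x) = B (g' y - y) (g x - x) - B (g y - y) (g' x - x) := by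
  have o : ∀ {g : V ≃ₗ[F] V}, g ∈ UG B → (∀ x ∈ X, g x = x) → ∀ y, ∀ x ∈ X,
      B x (g y - y) = 0 := fun hg f y x hx => by
    rw [map_sub, ← hg x y, f x hx, sub_self]
  have k : ∀ {g : V ≃ₗ[F] V}, g ∈ UG B → (∀ x ∈ X, g x = x) →
      (∀ y, (∀ x ∈ X, B x y = 0) → g y - y ∈ X) → ∀ y z, (∀ x ∈ X, B x z = 0) →
      B y (g z - z) = - B (g y - y) z := fun {g} hg f e y z hz => by
    have h1 := hg y z
    have h2 := hR _ _ (o hg f y _ (e z hz))
    simp only [map_sub, LinearMap.sub_apply] at h2 ⊢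
    linear_combination h1 - h2
  let n : V →ₗ[F] V := (g : V →ₗ[F] V) - LinearMap.id
  let n' : V →ₗ[F] V := (g' : V →ₗ[F] V) - LinearMap.id
  have hn : ∀ x, n x = g x - x := fun _ => rfl
  have hn' : ∀ x, n' x = g' x - x := fun _ => rfl
  have h0 : ∀ y, (∀ x ∈ X, B x y = 0) → (n ∘ₗ n' - n' ∘ₗ n) y = 0 := fun y hy => by
    simp only [LinearMap.sub_apply, LinearMap.comp_apply, hn, hn']
    rw [f _ (e' y hy), f' _ (e y hy)]; simp
  refine ⟨n ∘ₗ n' - n' ∘ₗ n, ⟨g * g' * (g' * g)⁻¹, hg, fun x => ?_⟩, h0, fun x y => ?_⟩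
  · obtain ⟨x, rfl⟩ := (g' * g).surjective x
    have h1 := h0 ((g' * g) x - x) (o ((UG B).mul_mem hg1' hg1)
      (fun x hx => by simp [f x hx, f' x hx]) x)
    rw [map_sub, sub_eq_zero] at h1
    rw [h1]
    simp [hn, hn']; abel
  · rw [LinearMap.sub_apply, map_sub, LinearMap.comp_apply, LinearMap.comp_apply, hn, hn' x,
      hn' (n x), hn x, k hg1 f e _ _ (o hg1' f' x), k hg1' f' e' _ _ (o hg1 f x)]
    ring

/-- The square-zero maps with image in `Λ` and kernel containing `Λ`. -/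
def RSub (M : Subgroup (V ≃ₗ[F] V)) (Λ : Submodule F V) : AddSubgroup (Module.End F V) where
  carrier := {N | R M N ∧ (∀ x, N x ∈ Λ) ∧ ∀ x ∈ Λ, N x = 0}
  add_mem' := fun {a b} ha hb => ⟨ha.1.add hb.1 fun x => ha.2.2 _ (hb.2.1 x),
    fun x => Λ.add_mem (ha.2.1 x) (hb.2.1 x), fun x hx => by simp [ha.2.2 x hx, hb.2.2 x hx]⟩
  zero_mem' := ⟨R.zero, fun x => Λ.zero_mem, fun _ _ => rfl⟩
  neg_mem' := fun {a} ha => ⟨R.neg ha.1 fun x => ha.2.2 _ (ha.2.1 x),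
    fun x => Λ.neg_mem (ha.2.1 x), fun x hx => by simp [ha.2.2 x hx]⟩

end Heis

variable {F U W : Type*} [Field F] [AddCommGroup U] [Module F U] [AddCommGroup W] [Module F W]
  {σ : F →+* F}

/-- The map `b ↦ 1 ⊗ b`. -/
noncomputable def iW (U : Type*) [AddCommGroup U] [Module F U] :
    (W ≃ₗ[F] W) →* ((U ⊗[F] W) ≃ₗ[F] (U ⊗[F] W)) where
  toFun b := TensorProduct.congr 1 b
  map_one' := LinearEquiv.toLinearMap_injective (TensorProduct.ext' fun _ _ => rfl)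
  map_mul' _ _ := LinearEquiv.toLinearMap_injective (TensorProduct.ext' fun _ _ => rfl)

@[simp] theorem iW_tmul (b : W ≃ₗ[F] W) (u : U) (w : W) : iW U b (u ⊗ₜ w) = u ⊗ₜ b w := rfl

theorem cW_iW (b : W ≃ₗ[F] W) (φ : Dual F W) (x : U ⊗[F] W) :
    cW U φ (iW U b x) = cW U (φ ∘ₗ (b : W →ₗ[F] W)) x := congr_one_apply b φ x

theorem im_iW (b : W ≃ₗ[F] W) (w : W) : im (LW F U w) (iW U b) = LW F U (b w) := by
  refine le_antisymm ?_ ?_
  · rintro _ ⟨_, ⟨u, rfl⟩, rfl⟩; exact ⟨u, rfl⟩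
  · rintro _ ⟨u, rfl⟩; exact ⟨_, tmul_mem_LW u w, rfl⟩

theorem isT_iW (b : W ≃ₗ[F] W) : IsT (iW U b) := isT_congr _ _

theorem exists_line [Finite F] [FiniteDimensional F W] {β : W →ₛₗ[σ] W →ₗ[F] F} (hW : HF β)
    (hl : 4 ≤ finrank F W) {w : W} (hw : w ≠ 0) (iw : β w w = 0) :
    ∃ w', β w' w' = 0 ∧ β w w' = 0 ∧ w' ∉ F ∙ w := by
  obtain ⟨f, -, -, f1, Y, -, hY, d, hY'⟩ := NDU.exists_hyp hW (W := ⊤)
    (fun w _ e => hW.nd' w fun x => e x trivial) trivial hw iw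
  obtain ⟨w', hw', iw', w0⟩ := hY.exists_iso hW (by rw [finrank_top] at d; omega) (X := ⊥)
    fun e => by rw [le_bot_iff.1 e, finrank_bot, finrank_top] at d; omega
  refine ⟨w', iw', hW.zero_symm (hY' w' hw').1, fun e => w0 ?_⟩
  obtain ⟨c, rfl⟩ := Submodule.mem_span_singleton.1 e
  have := (hY' _ hw').2
  rw [b_smul_left, f1, mul_one, map_eq_zero] at this
  simp [this]

/-- An overgroup `M` of `1 ⊗ SU(W)` in the unitary group. -/
structure UW (p : U →ₛₗ[σ] U →ₗ[F] F) (β : W →ₛₗ[σ] W →ₗ[F] F)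
    (B : U ⊗[F] W →ₛₗ[σ] U ⊗[F] W →ₗ[F] F) (M : Subgroup ((U ⊗[F] W) ≃ₗ[F] (U ⊗[F] W))) :
    Prop where
  hU : HF p
  hW : HF β
  pure : ∀ u u' w w', B (u ⊗ₜ w) (u' ⊗ₜ w') = p u u' * β w w'
  k2 : 2 ≤ finrank F U
  l3 : 3 ≤ finrank F W
  big : (∃ b, σ b = b ∧ b ≠ 0 ∧ b ≠ 1) ∨ 4 ≤ finrank F W
  memW : ∀ {b : UG β}, b ∈ SUG β → iW U b.1 ∈ M
  hM : ∀ g ∈ M, g ∈ UG B

/-- The elements of `M` centralising `(U ⊗ w)^⊥` are the standard ones. -/
def StdAt (β : W →ₛₗ[σ] W →ₗ[F] F) (M : Subgroup ((U ⊗[F] W) ≃ₗ[F] (U ⊗[F] W))) (w : W) : Prop :=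
  ∀ g ∈ M, (∀ x, cW U (β w) x = 0 → g x = x) →
    ∃ c : F, ∀ x, g x = x + c • Dm LinearMap.id (β w) w x

namespace UW

variable {p : U →ₛₗ[σ] U →ₗ[F] F} {β : W →ₛₗ[σ] W →ₗ[F] F}
  {B : U ⊗[F] W →ₛₗ[σ] U ⊗[F] W →ₗ[F] F} {M : Subgroup ((U ⊗[F] W) ≃ₗ[F] (U ⊗[F] W))}
  (h : UW p β B M)
include h

theorem ntU : Nontrivial U := Module.nontrivial_of_finrank_pos (R := F) (by have := h.k2; omega)

theorem left (u : U) (w : W) (x : U ⊗[F] W) : B (u ⊗ₜ w) x = p u (cW U (β w) x) := by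
  induction x with
  | zero => simp
  | tmul u' w' => simp [h.pure, mul_comm]
  | add x y hx hy => simp only [map_add, hx, hy]

theorem symm (x y : U ⊗[F] W) : σ (B x y) = B y x := by
  induction x with
  | zero => simp
  | tmul u w =>
    induction y with
    | zero => simp
    | tmul u' w' => simp [h.pure, h.hU.symm, h.hW.symm]
    | add y z hy hz => simp only [map_add, LinearMap.add_apply, hy, hz]
  | add x z hx hz => simp only [map_add, LinearMap.add_apply, hx, hz]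

theorem congr_mem {a : U ≃ₗ[F] U} {b : W ≃ₗ[F] W} {μ : F}
    (ha : ∀ u v, μ * p (a u) (a v) = p u v) (hb : ∀ u v, β (b u) (b v) = μ * β u v) :
    TensorProduct.congr a b ∈ UG B := fun x y => by
  induction x with
  | zero => simp
  | tmul u w =>
    induction y with
    | zero => simp
    | tmul u' w' => rw [congr_tmul, congr_tmul, h.pure, h.pure, hb, ← ha u u']; ring
    | add y z hy hz => simp only [map_add, hy, hz]
  | add x z hx hz => simp only [map_add, LinearMap.add_apply, hx, hz]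

theorem perpL {w : W} {x : U ⊗[F] W} : (∀ y ∈ LW F U w, B y x = 0) ↔ cW U (β w) x = 0 :=
  ⟨fun e => h.hU.nd' _ fun u => by rw [← h.left]; exact e _ (tmul_mem_LW _ _), by
    rintro e _ ⟨u, rfl⟩; rw [inW_apply, h.left, e, map_zero]⟩

theorem perp_symm {w : W} {g : (U ⊗[F] W) ≃ₗ[F] (U ⊗[F] W)} (hg : g ∈ UG B)
    (h1 : ∀ x ∈ LW F U w, g x ∈ LW F U w) {x : U ⊗[F] W} (hx : cW U (β w) x = 0) :
    cW U (β w) (g.symm x) = 0 :=
  h.perpL.1 fun y hy => by rw [UG_symm hg]; exact h.perpL.2 hx _ (h1 y hy)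

theorem isom {g : (U ⊗[F] W) ≃ₗ[F] (U ⊗[F] W)} (hg : g ∈ UG B) {b : W → W}
    (e : ∀ u v, g (u ⊗ₜ v) = u ⊗ₜ b v) (x y : W) : β (b x) (b y) = β x y := by
  have := h.ntU
  obtain ⟨u, hu⟩ := h.hU.exists_nonisotropic
  have := hg (u ⊗ₜ x) (u ⊗ₜ y)
  rw [e, e, h.pure, h.pure] at this
  exact mul_left_cancel₀ hu this

theorem iso_of_im {w w' : W} (hw : w ≠ 0) (hw0 : β w w = 0) {g : (U ⊗[F] W) ≃ₗ[F] (U ⊗[F] W)}
    (hg : g ∈ UG B) (hL : im (LW F U w) g = LW F U w') : w' ≠ 0 ∧ β w' w' = 0 := by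
  have := h.ntU
  obtain ⟨u, hu⟩ := h.hU.exists_nonisotropic
  refine ⟨?_, ?_⟩
  · rintro rfl
    obtain ⟨u', e⟩ : g (u ⊗ₜ w) ∈ LW F U (0 : W) := hL ▸ apply_mem_im.2 (tmul_mem_LW u w)
    exact tmul_ne_zero (ne_zero_of_b hu) hw (by simpa using e.symm)
  · obtain ⟨_, ⟨u', rfl⟩, e⟩ : u ⊗ₜ w' ∈ im (LW F U w) g := hL ▸ tmul_mem_LW u w'
    have := hg (u' ⊗ₜ w) (u' ⊗ₜ w)
    rw [show g (u' ⊗ₜ w) = u ⊗ₜ w' from e] at this
    simpa [h.pure, hw0, hu] using this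

theorem iso_of_rt {φ : Dual F W} {w : W} (r : Max3.Rt M 1 φ w) : β w w = 0 := by
  obtain ⟨t, ht, e⟩ := r.mem
  obtain ⟨v, hv⟩ := exists_apply_one r.φ0
  have := h.isom (h.hM t ht) (b := fun x => x + φ x • w) (fun u v => by
    simp [e, rh_one_tmul, tmul_add]) v w
  simpa [hv, r.nil] using this

variable [FiniteDimensional F U] [FiniteDimensional F W]

theorem hB : HF B :=
  ⟨h.hU.toInv, h.symm, fun x hx => eq_zero_of_cW fun φ => by
    obtain ⟨w, rfl⟩ := h.hW.exists_dual_eq φ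
    exact h.perpL.1 fun y _ => by rw [← h.symm, hx, map_zero]⟩

omit h in
theorem iW_Dm (γ : U →ₗ[F] U) (b : UG β) (w v : W) (x : U ⊗[F] W) :
    Dm γ (β (b.1 w)) (b.1 v) (iW U b.1 x) = iW U b.1 (Dm γ (β w) v x) := by
  rw [Dm_apply, Dm_apply, cW_iW, iW_tmul,
    show β (b.1 w) ∘ₗ (b.1 : W →ₗ[F] W) = β w from LinearMap.ext (b.2 w)]

theorem cjW {γ : U →ₗ[F] U} {w : W} (e : R M (Dm γ (β w) w)) {b : UG β} (hb : b ∈ SUG β) :
    R M (Dm γ (β (b.1 w)) (b.1 w)) := e.conj' (h.memW hb) (iW_Dm γ b w w)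

theorem rootT {w : W} (hw : β w w = 0) {c : F} (hc : c + σ c = 0) :
    ∃ b ∈ SUG β, ∀ x, iW U b.1 x = x + c • Dm LinearMap.id (β w) w x := by
  refine ⟨_, h.hW.tv_mem_SUG hw c, fun x => ?_⟩
  induction x with
  | zero => simp
  | tmul u v => simp [h.hW.tv_apply hw hc, Dm_apply, tmul_add, smul_tmul', smul_smul]
  | add x y hx hy => simp only [map_add, hx, hy]; module

theorem rt {w : W} (hw0 : w ≠ 0) (hw : β w w = 0) {c : F} (hc0 : c ≠ 0) (hc : c + σ c = 0) :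
    Max3.Rt M 1 (c • β w) w := by
  obtain ⟨b, hb, e⟩ := h.rootT hw hc
  obtain ⟨y, hy, -⟩ := h.hW.exists_hyp hw0 hw
  exact ⟨fun e => by simpa [hy, hc0] using LinearMap.congr_fun e y, hw0, by simp [hw],
    _, h.memW hb, fun x => by rw [e, rh_one_r1, cW_smul, Dm_apply, smul_tmul']; rfl⟩

theorem memL {w : W} (hw : w ≠ 0) {x : U ⊗[F] W} (e : ∀ v, β v w = 0 → cW U (β v) x = 0) :
    x ∈ LW F U w :=
  mem_LW_of hw fun φ hφ => by
    obtain ⟨v, rfl⟩ := h.hW.exists_dual_eq φ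
    exact e v hφ

theorem zform {w : W} (hw : w ≠ 0) (hw0 : β w w = 0) {g : (U ⊗[F] W) ≃ₗ[F] (U ⊗[F] W)}
    (hg : g ∈ UG B) (e : ∀ x, cW U (β w) x = 0 → g x = x) : ∃ γ : U →ₗ[F] U,
      ∀ x, g x = x + Dm γ (β w) w x := by
  obtain ⟨y, hy, -⟩ := h.hW.exists_hyp hw hw0
  obtain ⟨χ, hχ⟩ := exists_dual_one (F := F) hw
  have h1 : ∀ x, g x - x ∈ LW F U w := fun x => h.memL hw fun v hv => h.hU.nd' _ fun u => by
    have := hg (u ⊗ₜ v) x
    rw [e _ (by simp [h.hW.zero_symm hv])] at this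
    rw [← h.left, map_sub, this, sub_self]
  let γ : U →ₗ[F] U := cW U χ ∘ₗ ((g : _ →ₗ[F] _) - LinearMap.id) ∘ₗ inW F U y
  have h2 : ∀ u, g (u ⊗ₜ y) = u ⊗ₜ y + γ u ⊗ₜ w := fun u => by
    rw [← sub_eq_iff_eq_add', ← eq_of_mem_LW hχ (h1 _)]; rfl
  refine ⟨γ, fun x => ?_⟩
  have := e (x - cW U (β w) x ⊗ₜ y) (by simp [hy])
  rw [map_sub, h2] at this
  rw [Dm_apply, sub_eq_iff_eq_add.1 this]; abel

theorem nu {w v : W} (hw : β w w = 0) (hv : β w v = 0) : ∃ b ∈ SUG β, ∃ l : F, ∀ x,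
    iW U b.1 x = x + cW U (β v) x ⊗ₜ w - l • cW U (β w) x ⊗ₜ w - cW U (β w) x ⊗ₜ v := by
  obtain ⟨l, hl⟩ := h.hU.toInv.exists_trace (h.hW.fix v)
  refine ⟨_, h.hW.eich_mem_SUG w v l, l, fun x => ?_⟩
  induction x with
  | zero => simp
  | tmul u z =>
    simp only [iW_tmul, h.hW.eich_apply hw hv hl, cW_tmul, tmul_add, tmul_sub, tmul_smul,
      ← smul_tmul']
    module
  | add x y hx hy => simp only [map_add, hx, hy, add_tmul]; module

theorem scalar_of_R {w : W} (hS : StdAt β M w) {γ : U →ₗ[F] U} (e : R M (Dm γ (β w) w)) :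
    ∃ c : F, ∀ x, Dm γ (β w) w x = c • Dm LinearMap.id (β w) w x := by
  obtain ⟨t, ht, et⟩ := e
  obtain ⟨c, hc⟩ := hS t ht fun x hx => by simp [et, Dm_apply, hx]
  exact ⟨c, fun x => add_left_cancel ((et x).symm.trans (hc x))⟩

variable [Finite F]

theorem scal {w : W} (hS : StdAt β M w) (hw : w ≠ 0) (hw0 : β w w = 0)
    {g : (U ⊗[F] W) ≃ₗ[F] (U ⊗[F] W)} (hc : ∀ b ∈ SUG β, g * iW U b.1 * g⁻¹ ∈ M)
    {γ : U →ₗ[F] U} (e : ∀ x, g x = x + Dm γ (β w) w x) :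
    ∃ c : F, ∀ x, Dm γ (β w) w x = c • Dm LinearMap.id (β w) w x := by
  have key : ∀ v, v ≠ 0 → β v v = 0 → β w v = 0 → R M (Dm γ (β w) w - Dm γ (β v) v) := by
    intro v hv hv0 hwv
    obtain ⟨b, hb, rfl⟩ := h.hW.SUG_trans_iso h.l3 hw hv hw0 hv0
    refine ⟨_, M.mul_mem (hc b hb) (M.inv_mem (h.memW hb)), fun x => ?_⟩
    obtain ⟨x, rfl⟩ := (iW U b.1).surjective x
    have : g.symm x = x - Dm γ (β w) w x := by
      rw [LinearEquiv.symm_apply_eq, e, map_sub, UU.AA _ _ hw0]; simp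
    simp only [LinearEquiv.mul_apply, LinearEquiv.coe_inv, LinearEquiv.symm_apply_apply, this,
      map_sub, ← iW_Dm, e, LinearMap.sub_apply, Dm_Dm _ _ _ _ hwv]
    abel
  rcases h.big with ⟨b, hb, hb0, hb1⟩ | hl
  · obtain ⟨μ, rfl⟩ := h.hU.toInv.exists_norm hb
    obtain ⟨c, hc⟩ := h.scalar_of_R hS (γ := (1 - σ μ * μ) • γ)
      ((key (μ • w) (smul_ne_zero (right_ne_zero_of_mul hb0) hw) (by simp [hw0])
        (by simp [hw0])).congr fun x => by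
        simp only [LinearMap.sub_apply, Dm_apply, map_smulₛₗ, cW_smul, map_smul,
          LinearMap.smul_apply, tmul_smul, ← smul_tmul', RingHom.id_apply]
        module)
    refine ⟨(1 - σ μ * μ)⁻¹ * c, fun x => ?_⟩
    rw [mul_smul, ← hc, eq_inv_smul_iff₀ (sub_ne_zero.2 hb1.symm)]
    simp [Dm_apply, smul_tmul']
  obtain ⟨w', iw', ww, hw'⟩ := exists_line h.hW hl hw hw0
  have ww' := h.hW.zero_symm ww
  have k : ∀ a b : F, b ≠ 0 → Dm γ (β w) w - Dm γ (β (a • w + b • w')) (a • w + b • w') ∈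
      RSub M (LW F U w ⊔ LW F U w') := fun a b hb => by
    refine ⟨key _ (fun e => hw' ?_) (by simp [hw0, iw', ww, ww']) (by simp [hw0, ww]),
      fun x => sub_mem (Submodule.mem_sup_left (Dm_mem _ _ _ _)) ?_, fun x hx => ?_⟩
    · exact Submodule.mem_span_singleton.2 ⟨-(b⁻¹ * a), by
        rw [← inv_smul_smul₀ hb w', eq_neg_of_add_eq_zero_right e]; module⟩
    · rw [Dm_apply, tmul_add, tmul_smul, tmul_smul]
      exact Submodule.add_mem_sup (Submodule.smul_mem _ _ (tmul_mem_LW _ _))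
        (Submodule.smul_mem _ _ (tmul_mem_LW _ _))
    · obtain ⟨_, ⟨a, rfl⟩, _, ⟨b, rfl⟩, rfl⟩ := Submodule.mem_sup.1 hx
      simp [Dm_apply, hw0, iw', ww, ww']
  obtain ⟨θ, hθ⟩ := h.hU.ne
  have θ0 : θ ≠ 0 := by rintro rfl; simp at hθ
  have θ1 : 1 + θ ≠ 0 := fun e => hθ (by rw [← neg_eq_of_add_eq_zero_right e]; simp)
  refine h.scalar_of_R hS ((add_mem (add_mem (sub_mem (k 0 1 one_ne_zero) (k 1 1 one_ne_zero))
    (sub_mem (k 0 θ θ0) (k 1 θ θ0))) (sub_mem (k 1 _ θ1) (k 0 _ θ1))).1.congr fun x => ?_)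
  simp only [LinearMap.sub_apply, LinearMap.add_apply, Dm_apply, map_smulₛₗ, cW_smul, map_smul,
    map_add, cW_add, tmul_smul, ← smul_tmul', tmul_add, add_tmul, map_one, map_zero]
  module

theorem d1b {w : W} (hS : StdAt β M w) (hw : w ≠ 0) (hw0 : β w w = 0)
    {g : (U ⊗[F] W) ≃ₗ[F] (U ⊗[F] W)} (hg' : g ∈ UG B) (hg : ∀ b ∈ SUG β, g * iW U b.1 * g⁻¹ ∈ M)
    (f : ∀ u, g (u ⊗ₜ w) = u ⊗ₜ w) (e : ∀ x, cW U (β w) x = 0 → g x - x ∈ LW F U w) :
    ∃ ν : W →ₗ[F] W, ∀ u v, g (u ⊗ₜ v) = u ⊗ₜ ν v := by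
  obtain ⟨y, hy, -⟩ := h.hW.exists_hyp hw hw0
  have hχ := h.hW.one_symm hy
  have := h.ntU
  obtain ⟨u₀, hu₀⟩ := exists_ne (0 : U)
  obtain ⟨ψ, hψ⟩ := exists_dual_one (F := F) hu₀
  obtain ⟨v, hv⟩ := h.hW.exists_dual_eq
    (ψ ∘ₗ cW U (β y) ∘ₗ ((g : _ →ₗ[F] _) - LinearMap.id) ∘ₗ TensorProduct.mk F U W u₀)
  have hv0 : β w v = 0 := h.hW.zero_symm (by simp [hv, f])
  have o : ∀ u x, B (u ⊗ₜ w) (g x) = B (u ⊗ₜ w) x := fun u x => by rw [← hg' _ x, f]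
  have e1 : ∀ x, cW U (β w) x = 0 → g x = x + cW U (β v) x ⊗ₜ w := fun x hx => by
    have := eq_zero_of_ker (f := (g : _ →ₗ[F] _) - LinearMap.id - Dm LinearMap.id (β v) w)
      (φ := β w) (fun e => by simp [e] at hy) (fun u z hz => ?_) hx
    · rw [← sub_eq_iff_eq_add']; exact sub_eq_zero.1 this
    let θ := cW U (β y) ∘ₗ ((g : _ →ₗ[F] _) - LinearMap.id) ∘ₗ inW F U z
    have hθ : ∀ u, g (u ⊗ₜ z) = u ⊗ₜ z + θ u ⊗ₜ w := fun u => by
      rw [← sub_eq_iff_eq_add']; exact (eq_of_mem_LW hχ (e _ (by simp [hz]))).symm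
    have k0 : ∀ u u', B (u' ⊗ₜ z) (g (u ⊗ₜ y)) = B (u' ⊗ₜ z) (u ⊗ₜ y) - p (θ u') u :=
      fun u u' => by
      have := hg' (u' ⊗ₜ z) (u ⊗ₜ y)
      rw [hθ, b_add_left, o, h.pure _ _ w, hy] at this
      linear_combination this
    have k : ∀ l : F, ∃ c : F, ∀ u u', c * p u' u = σ l * p (θ u') u - l * p u' (θ u) := fun l => by
      obtain ⟨b, hb, μ, eq⟩ := h.nu hw0 (v := l • z) (by simp [hz])
      have hq := h.memW hb
      have hq' := hg b hb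
      generalize iW U b.1 = q at eq hq hq'
      obtain ⟨N, ⟨t, ht, h1⟩, h2, h3⟩ := heisW (fun _ _ => h.hB.zero_symm) (X := LW F U w)
        (g := g) (g' := q) (by simpa [mul_assoc] using M.mul_mem hq' (M.inv_mem hq)) hg'
        (h.hM q hq) (by rintro _ ⟨u, rfl⟩; exact f u)
        (by rintro _ ⟨u, rfl⟩; simp [eq, hw0, h.hW.zero_symm hz])
        (fun y hy => e y (h.perpL.1 hy))
        (fun y hy => by rw [eq, h.perpL.1 hy]; simpa using tmul_mem_LW _ _)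
      obtain ⟨c, hc⟩ := hS t ht fun x hx => by rw [h1, h2 x (h.perpL.2 hx), add_zero]
      refine ⟨c, fun u u' => ?_⟩
      have := h3 (u ⊗ₜ y) (u' ⊗ₜ y)
      rw [add_left_cancel ((h1 _).symm.trans (hc _)), ← h.symm (q _ - _) (g _ - _)] at this
      have e2 : ∀ u, q (u ⊗ₜ y) - u ⊗ₜ y = (β (l • z) y - μ) • u ⊗ₜ w - l • u ⊗ₜ z := fun u => by
        simp only [eq, cW_tmul, hy, one_smul, tmul_smul, ← smul_tmul']; module
      simp only [e2, Dm_apply, cW_tmul, hy, one_smul, LinearMap.id_apply, map_smul, b_sub_left,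
        b_smul_left, map_sub (B _), map_sub σ, o, k0, h.pure _ _ y, hχ, smul_eq_mul, map_mul,
        h.hU.invol, h.hU.symm] at this
      linear_combination this
    obtain ⟨l, hl⟩ := h.hU.ne
    obtain ⟨c₁, k1⟩ := k 1
    obtain ⟨c₂, k2⟩ := k l
    have h1 : ∀ u, θ u = ((c₂ - σ l * c₁) / (σ l - l)) • u := fun u =>
      sub_eq_zero.1 (h.hU.nd' _ fun u' => by
        have := sub_ne_zero.2 hl
        have e1 := k1 u u'
        simp only [map_sub, map_smul, smul_eq_mul, map_one] at e1 ⊢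
        field_simp
        linear_combination σ l * e1 - k2 u u')
    have h2 : β v z = (c₂ - σ l * c₁) / (σ l - l) := by
      rw [hv]; exact (congrArg ψ (h1 u₀)).trans (by simp [hψ])
    simp [Dm_apply, h2, hθ, h1]
  obtain ⟨b, hb, μ, eq⟩ := h.nu hw0 hv0
  have hq := h.memW hb
  have hq' : ∀ b' ∈ SUG β, g * (iW U b.1)⁻¹ * iW U b'.1 * (g * (iW U b.1)⁻¹)⁻¹ ∈ M := fun b' hb' => by
    simpa [mul_assoc] using hg _ ((SUG β).mul_mem ((SUG β).mul_mem ((SUG β).inv_mem hb) hb') hb)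
  generalize iW U b.1 = q at eq hq hq'
  obtain ⟨γ, hγ⟩ := h.zform hw hw0 ((UG B).mul_mem hg' ((UG B).inv_mem (h.hM q hq))) fun x hx => by
    have : q.symm x = x - cW U (β v) x ⊗ₜ w := by
      rw [LinearEquiv.symm_apply_eq, eq]
      simp [hx, hw0, h.hW.zero_symm hv0]
    rw [LinearEquiv.mul_apply, LinearEquiv.coe_inv, this, map_sub, e1 x hx, f]; simp
  obtain ⟨c, hc⟩ := h.scal hS hw hw0 hq' hγ
  refine ⟨LinearMap.id + (β v + (c - μ) • β w).smulRight w - (β w).smulRight v, fun u z => ?_⟩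
  have := hγ (q (u ⊗ₜ z))
  rw [hc, LinearEquiv.mul_apply, LinearEquiv.coe_inv, LinearEquiv.symm_apply_apply, Dm_apply,
    show cW U (β w) (q (u ⊗ₜ z)) = β w z • u by simp [eq, hw0, hv0], eq] at this
  rw [this]
  simp only [cW_tmul, LinearMap.sub_apply, LinearMap.add_apply, LinearMap.id_apply,
    LinearMap.smulRight_apply, LinearMap.smul_apply, tmul_sub, tmul_add, tmul_smul, ← smul_tmul',
    smul_eq_mul]
  module

theorem isT_of_fix {w : W} (hS : StdAt β M w) (hw : w ≠ 0) (hw0 : β w w = 0)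
    {g : (U ⊗[F] W) ≃ₗ[F] (U ⊗[F] W)} (hg' : g ∈ UG B) (hg : ∀ b ∈ SUG β, g * iW U b.1 * g⁻¹ ∈ M)
    (hL : im (LW F U w) g = LW F U w) : IsT g := by
  have := h.ntU
  have h1 : ∀ x, g x ∈ LW F U w ↔ x ∈ LW F U w := fun x => by
    rw [← apply_mem_im (g := g) (v := x), hL]
  have gp : ∀ x, cW U (β w) x = 0 → cW U (β w) (g.symm x) = 0 := fun x =>
    h.perp_symm hg' fun x => (h1 x).2
  have gp' : ∀ x, cW U (β w) x = 0 → cW U (β w) (g x) = 0 := fun x =>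
    h.perp_symm ((UG B).inv_mem hg') fun x hx => (h1 _).1 (by simpa using hx)
  obtain ⟨y, hy, hy0⟩ := h.hW.exists_hyp hw hw0
  have hχ := h.hW.one_symm hy
  obtain ⟨s, hs0, hs⟩ := h.hU.toInv.exists_skew
  obtain ⟨t₀, ht₀, et₀⟩ := h.rootT hw0 hs
  obtain ⟨μ, hμ⟩ := hS _ (hg t₀ ht₀) fun x hx => by
    simp [et₀, Dm_apply, gp x hx]
  let a : U →ₗ[F] U := cW U (β y) ∘ₗ g.toLinearMap ∘ₗ inW F U w
  have ha : ∀ u, g (u ⊗ₜ w) = a u ⊗ₜ w := fun u =>
    (eq_of_mem_LW hχ ((h1 _).2 (tmul_mem_LW u w))).symm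
  have ha0 : ∀ u, s • a u = μ • cW U (β w) (g (u ⊗ₜ y)) := fun u => tmul_left_inj hw (by
    have := hμ (g (u ⊗ₜ y))
    rw [LinearEquiv.mul_apply, LinearEquiv.mul_apply, LinearEquiv.coe_inv,
      LinearEquiv.symm_apply_apply, et₀] at this
    simpa [Dm_apply, hy, ha, smul_tmul'] using this)
  have ai : Function.Injective a := fun u u' e =>
    tmul_left_inj hw (g.injective (by rw [ha, ha, e]))
  obtain ⟨u₀, hu₀⟩ := h.hU.exists_nonisotropic
  have au : a u₀ ≠ 0 := fun e => ne_zero_of_b hu₀ (ai (by simp [e]))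
  have hμ0 : μ ≠ 0 := by
    rintro rfl
    exact au (by simpa [hs0] using ha0 u₀)
  obtain ⟨ρ, hρ0, ha'⟩ : ∃ ρ : F, ρ ≠ 0 ∧ ∀ u, cW U (β w) (g (u ⊗ₜ y)) = ρ • a u :=
    ⟨μ⁻¹ * s, by simp [hμ0, hs0], fun u => by rw [mul_smul, ha0, inv_smul_smul₀ hμ0]⟩
  have pa : ∀ u v, ρ * p (a u) (a v) = p u v := fun u v => by
    have := hg' (u ⊗ₜ w) (v ⊗ₜ y)
    rw [ha, h.left, h.pure, hy, ha'] at this
    simpa using this
  have hρ : σ ρ = ρ := by
    have e := congrArg σ (pa u₀ u₀)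
    rw [map_mul, h.hU.fix, h.hU.fix, ← pa u₀ u₀] at e
    exact mul_right_cancel₀ (fun e' => hu₀ (by rw [← pa, e', mul_zero])) e
  obtain ⟨ψ, hψ⟩ := exists_dual_one (F := F) au
  let β' := cU W ψ ∘ₗ g.toLinearMap ∘ₗ TensorProduct.mk F U W u₀
  have k : ∀ v, β w v = 0 → ∀ u, g (u ⊗ₜ v) - a u ⊗ₜ β' v ∈ LW F U w := fun v hv => by
    obtain ⟨v', hv'⟩ : ∃ v', ∀ u, g (u ⊗ₜ v) - a u ⊗ₜ v' ∈ LW F U w := by
      obtain ⟨b, hb, l, eq⟩ := h.nu hw0 hv
      have hq := hg b hb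
      generalize iW U b.1 = q at eq hq
      have e2 : ∀ x, cW U (β w) x = 0 → (g * q * g⁻¹) x - x ∈ LW F U w := fun x hx => by
        simpa [eq, gp x hx, h1] using tmul_mem_LW _ _
      obtain ⟨ν, hν⟩ := h.d1b hS hw hw0 (h.hM _ hq)
        (fun b hb => M.mul_mem (M.mul_mem hq (h.memW hb)) (M.inv_mem hq)) (fun u => by
        obtain ⟨u', hu'⟩ := (h1 (g.symm (u ⊗ₜ w))).1 (by simpa using tmul_mem_LW u w)
        have : q (u' ⊗ₜ w) = u' ⊗ₜ w := by simp [eq, hw0, h.hW.zero_symm hv]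
        rw [inW_apply] at hu'
        rw [LinearEquiv.mul_apply, LinearEquiv.mul_apply, LinearEquiv.coe_inv, ← hu', this, hu',
          LinearEquiv.apply_symm_apply]) e2
      refine ⟨ρ • (y - ν y), fun u => ?_⟩
      have e3 := e2 (g (u ⊗ₜ y) - ρ • a u ⊗ₜ y) (by simp [ha', hy])
      rw [map_sub, map_smul, hν] at e3
      simp only [LinearEquiv.mul_apply, LinearEquiv.coe_inv, LinearEquiv.symm_apply_apply, eq,
        cW_tmul, hy, one_smul, map_sub, map_add, map_smul, ha] at e3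
      convert sub_mem (sub_mem (tmul_mem_LW (β v y • a u) w)
        ((LW F U w).smul_mem l (tmul_mem_LW (a u) w))) e3 using 1
      simp only [tmul_smul, tmul_sub]; module
    intro u
    obtain ⟨u', e⟩ := hv' u₀
    have : β' v = v' + ψ u' • w := by
      simpa [β', hψ, eq_sub_iff_add_eq', eq_comm] using congrArg (cU W ψ) e
    rw [this, tmul_add, ← sub_sub, tmul_smul]
    exact sub_mem (hv' u) ((LW F U w).smul_mem _ (tmul_mem_LW _ _))
  let π : W →ₗ[F] W := LinearMap.id - (β w).smulRight y - (β y).smulRight w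
  have hπ : ∀ x, π x = x - β w x • y - β y x • w := fun _ => rfl
  have π1 : ∀ x, β w (π x) = 0 := fun x => by simp [hπ, hy, hw0]
  have π2 : ∀ x, β y (π x) = 0 := fun x => by simp [hπ, hχ, hy0]
  have k' : ∀ v u, g (u ⊗ₜ π v) - a u ⊗ₜ π (β' (π v)) ∈ LW F U w := fun v u => by
    have : β w (β' (π v)) = 0 := by
      simpa [gp' (u₀ ⊗ₜ π v) (by simp [π1]), au] using cW_LW hw0 (k _ (π1 v) u₀)
    rw [hπ (β' _), this, zero_smul, sub_zero, tmul_sub, tmul_smul, ← sub_add]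
    exact add_mem (k _ (π1 v) u) ((LW F U w).smul_mem _ (tmul_mem_LW _ _))
  let b : W →ₗ[F] W := (β y).smulRight w + ρ • (β w).smulRight y + π ∘ₗ β' ∘ₗ π
  have hb : ∀ x, b x = β y x • w + (ρ * β w x) • y + π (β' (π x)) := fun x => by
    simp [b, smul_smul]
  have pb : ∀ x x', β (b x) (b x') = ρ * β x x' := fun x x' => by
    have e1 := hg' (u₀ ⊗ₜ π x) (u₀ ⊗ₜ π x')
    have e2 := h.perpL.2 (gp' (u₀ ⊗ₜ π x') (by simp [π1])) _ (k' x u₀)
    have e3 := h.hB.zero_symm ((h.perpL (x := a u₀ ⊗ₜ π (β' (π x)))).2 (by simp [π1]) _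
      (k' x' u₀))
    rw [b_sub_left, e1] at e2
    rw [map_sub] at e3
    have e4 : β (π (β' (π x))) (π (β' (π x'))) = ρ * β (π x) (π x') := by
      refine mul_left_cancel₀ hu₀ ?_
      rw [h.pure] at e2 e3
      linear_combination (-β (π (β' (π x))) (π (β' (π x')))) * pa u₀ u₀ - ρ * e2 - ρ * e3
    have e5 : β (π x) (π x') = β x x' - β x w * β y x' - β x y * β w x' := by
      rw [hπ x, b_sub_left, b_sub_left, b_smul_left, b_smul_left, π1, π2, hπ]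
      simp only [map_sub, map_smul, smul_eq_mul]; ring
    simp only [hb, map_add, LinearMap.add_apply, b_smul_left, map_smul, smul_eq_mul, π1, π2,
      h.hW.zero_symm (π1 _), h.hW.zero_symm (π2 _), hw0, hy0, hy, hχ, map_mul, hρ, h.hW.symm, e4,
      e5]
    ring
  have bi : Function.Injective b := (injective_iff_map_eq_zero _).2 fun x hx =>
    h.hW.nd x fun z => by simpa [hx, hρ0] using (pb x z).symm
  have bw : b w = w := by simp [hb, hχ, hw0, hπ]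
  obtain ⟨b', hb'⟩ : ∃ b' : W ≃ₗ[F] W, ∀ x, b' x = b x := ⟨LinearEquiv.ofInjectiveEndo b bi, fun _ => rfl⟩
  have hk := h.congr_mem (a := LinearEquiv.ofInjectiveEndo a ai) (b := b') pa
    (by simpa [hb'] using pb)
  have hkT := isT_congr (LinearEquiv.ofInjectiveEndo a ai) b'
  have ek : ∀ u v, TensorProduct.congr (LinearEquiv.ofInjectiveEndo a ai) b' (u ⊗ₜ v) =
    a u ⊗ₜ b v := fun _ _ => by rw [← hb']; rfl
  generalize TensorProduct.congr (LinearEquiv.ofInjectiveEndo a ai) b' = κ at hk hkT ek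
  have as := LinearMap.injective_iff_surjective.1 ai
  have f : ∀ u, (κ⁻¹ * g) (u ⊗ₜ w) = u ⊗ₜ w := fun u => by
    rw [LinearEquiv.mul_apply, LinearEquiv.coe_inv, LinearEquiv.symm_apply_eq, ha, ek, bw]
  have e : ∀ x, cW U (β w) x = 0 → (κ⁻¹ * g) x - x ∈ LW F U w := fun x hx => by
    rw [← Submodule.Quotient.mk_eq_zero]
    refine eq_zero_of_ker (f := (LW F U w).mkQ ∘ₗ ((κ⁻¹ * g).toLinearMap - LinearMap.id))
      (φ := β w) (fun e => by simp [e] at hy) (fun u z hz => ?_) hx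
    refine (Submodule.Quotient.mk_eq_zero _).2 ?_
    obtain ⟨u', e⟩ : g (u ⊗ₜ z) - κ (u ⊗ₜ z) ∈ LW F U w := by
      convert k' z u using 1
      rw [ek, hb, show u ⊗ₜ π z = u ⊗ₜ[F] z - β y z • u ⊗ₜ w by simp [hπ, hz, tmul_sub], map_sub g,
        map_smul, ha, hz]
      simp only [tmul_add, tmul_smul]; module
    obtain ⟨u', rfl⟩ := as u'
    refine ⟨u', κ.injective ?_⟩
    simpa [ek, bw] using e
  have h' : UW p β B (cM κ M) := { h with
    memW := fun {s} hs => by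
      have := h.memW (b := ⟨b' * s.1 * b'⁻¹, fun x y => mul_left_cancel₀ hρ0 (by
        obtain ⟨x, rfl⟩ := b'.surjective x
        obtain ⟨y, rfl⟩ := b'.surjective y
        simp only [LinearEquiv.mul_apply, LinearEquiv.coe_inv, LinearEquiv.symm_apply_apply]
        simp only [hb', pb, UG.map_b])⟩) (show LinearEquiv.det _ = 1 by simp [det_SUG hs])
      rw [mem_cM]
      convert this using 1
      rw [mul_inv_eq_iff_eq_mul]
      refine LinearEquiv.toLinearMap_injective (TensorProduct.ext' fun u v => ?_)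
      simp [ek, ← hb', LinearEquiv.coe_inv, -map_mul]
    hM := fun t ht => by
      simpa [mul_assoc] using (UG B).mul_mem ((UG B).mul_mem ((UG B).inv_mem hk) (h.hM _ ht)) hk }
  have kw : ∀ x, cW U (β w) (κ x) = ρ • a (cW U (β w) x) := fun x => by
    induction x with
    | zero => simp
    | tmul u v => rw [ek, cW_tmul, cW_tmul, ← bw, pb, bw, map_smul, mul_smul]
    | add x y hx hy => simp only [map_add, hx, hy, smul_add]
  obtain ⟨ν, hν⟩ := h'.d1b (g := κ⁻¹ * g) (fun t ht et => by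
      obtain ⟨c, hc⟩ := hS _ ht fun x hx => by
        obtain ⟨x, rfl⟩ := κ.surjective x
        rw [kw, smul_eq_zero, ← a.map_zero, ai.eq_iff] at hx
        simp [LinearEquiv.coe_inv, et x (hx.resolve_left hρ0)]
      refine ⟨c * ρ, fun x => κ.injective ?_⟩
      simpa [LinearEquiv.coe_inv, Dm_apply, kw, ek, bw, smul_tmul', smul_smul] using hc (κ x))
    hw hw0 ((UG B).mul_mem ((UG B).inv_mem hk) hg')
    (fun b hb => by simpa [mem_cM, mul_assoc] using hg b hb) f e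
  exact ((tSub F U W).mul_mem_cancel_left ((tSub F U W).inv_mem hkT)).1 (isT_of_left hν)

theorem isT_of_im {w w' : W} (hS : StdAt β M w) (hw : w ≠ 0) (hw0 : β w w = 0) (hw' : w' ≠ 0)
    (hw0' : β w' w' = 0) {g : (U ⊗[F] W) ≃ₗ[F] (U ⊗[F] W)} (hg' : g ∈ UG B)
    (hg : ∀ b ∈ SUG β, g * iW U b.1 * g⁻¹ ∈ M) (hL : im (LW F U w') g = LW F U w) : IsT g := by
  obtain ⟨b, hb, e⟩ := h.hW.SUG_trans_iso h.l3 hw hw' hw0 hw0'
  refine ((tSub F U W).mul_mem_cancel_right (isT_iW b.1)).1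
    (h.isT_of_fix hS hw hw0 ((UG B).mul_mem hg' (h.hM _ (h.memW hb))) (fun s hs => by
      simpa [mul_assoc] using
        hg _ ((SUG β).mul_mem ((SUG β).mul_mem hb hs) ((SUG β).inv_mem hb))) ?_)
  rw [im_mul, im_iW, e, hL]

end UW

end Cfsg.Agent.Max
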