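import Mathlib
import Cfsg.Agent.Max.UW1

/-!
# Overgroups of `1 ⊗ SU(W)`: there are no maximal pairs
-/

set_option autoImplicit false
set_option linter.unusedSectionVars false

namespace Cfsg.Agent.Max

open Module Cfsg.Agent.Max2 Cfsg.Agent.Max3 TensorProduct Cfsg.Agent.Herm

variable {F U W : Type*} [Field F] [AddCommGroup U] [Module F U] [AddCommGroup W] [Module F W]
  {σ : F →+* F}

theorem cj_mem_of {G : Type*} [Group G] {M : Subgroup G} {g x : G} (hg : g ∈ M) (hx : x ∈ M) :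
    g * x * g⁻¹ ∈ M := M.mul_mem (M.mul_mem hg hx) (M.inv_mem hg)

theorem Dm_scalar {γ : U →ₗ[F] U} {φ : Dual F W} {w y : W} (hw : w ≠ 0) (hy : φ y = 1) {c : F}
    (h : ∀ x, Dm γ φ w x = c • Dm LinearMap.id φ w x) (u : U) : γ u = c • u :=
  tmul_left_inj (F := F) hw (by simpa [Dm_apply, hy, smul_tmul'] using h (u ⊗ₜ y))

namespace UW

variable {p : U →ₛₗ[σ] U →ₗ[F] F} {β : W →ₛₗ[σ] W →ₗ[F] F}
  {B : U ⊗[F] W →ₛₗ[σ] U ⊗[F] W →ₗ[F] F} {M : Subgroup ((U ⊗[F] W) ≃ₗ[F] (U ⊗[F] W))}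
  (h : UW p β B M) [FiniteDimensional F U] [FiniteDimensional F W] [Finite F]
include h

theorem e22 {w₁ w₂ f₁ f₂ : W} (hS : StdAt β M w₁) (i1 : β w₁ w₁ = 0) (i2 : β w₂ w₂ = 0)
    (i12 : β w₁ w₂ = 0) (f11 : β w₁ f₁ = 1) (f12 : β w₁ f₂ = 0) (f22 : β w₂ f₂ = 1)
    {a b c d : U →ₗ[F] U} (e : R M (Dm a (β w₁) w₁ + Dm b (β w₂) w₁ + Dm c (β w₁) w₂ +
      Dm d (β w₂) w₂)) : (∃ k : F, ∀ u, b u = k • u) ∧ (∃ k : F, ∀ u, c u = k • u) ∧
      ∃ k : F, ∀ u, d u = k • u := by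
  have i21 := h.hW.zero_symm i12
  have w1 : w₁ ≠ 0 := ne_zero_of_b (f11 ▸ one_ne_zero)
  have w2 : w₂ ≠ 0 := ne_zero_of_b (f22 ▸ one_ne_zero)
  let Θ : (U →ₗ[F] U) → (U →ₗ[F] U) → (U →ₗ[F] U) → (U →ₗ[F] U) → Module.End F (U ⊗[F] W) :=
    fun a b c d => Dm a (β w₁) w₁ + Dm b (β w₂) w₁ + Dm c (β w₁) w₂ + Dm d (β w₂) w₂
  have m : ∀ a b c d, R M (Θ a b c d) → Θ a b c d ∈ RSub M (LW F U w₁ ⊔ LW F U w₂) :=
    fun a b c d e => ⟨e, fun x => add_mem (add_mem (add_mem (Submodule.mem_sup_left (Dm_mem _ _ _ _))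
      (Submodule.mem_sup_left (Dm_mem _ _ _ _))) (Submodule.mem_sup_right (Dm_mem _ _ _ _)))
      (Submodule.mem_sup_right (Dm_mem _ _ _ _)), fun x hx => by
        obtain ⟨_, ⟨a, rfl⟩, _, ⟨b, rfl⟩, rfl⟩ := Submodule.mem_sup.1 hx
        simp [Θ, Dm_apply, i1, i2, i12, i21]⟩
  have step : ∀ (k : F) a b c d, R M (Θ a b c d) →
      R M (Θ (k • c + σ k • b + (k * σ k) • d) (k • d) (σ k • d) 0) := fun k a b c d e => by
    obtain ⟨l, hl⟩ := h.hU.toInv.exists_trace (h.hW.fix (σ k • f₂))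
    have hv : β w₁ (σ k • f₂) = 0 := by simp [f12]
    have e1 := h.hW.eich_apply_left w₁ (σ k • f₂) l
    have e2 : (h.hW.eich w₁ (σ k • f₂) l).1 w₂ = w₂ + k • w₁ := by
      simp [h.hW.eich_apply i1 hv hl, i12, h.hW.one_symm f22, h.hU.invol]
    have hb := h.hW.eich_mem_SUG w₁ (σ k • f₂) l
    generalize h.hW.eich w₁ (σ k • f₂) l = s at e1 e2 hb
    refine (sub_mem (m (a + (k • c + σ k • b + (k * σ k) • d)) (b + k • d) (c + σ k • d) d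
      (e.conj' (h.memW hb) fun x => ?_)) (m _ _ _ _ e)).1.congr fun x => ?_
    · simp only [Θ, LinearMap.add_apply, map_add, ← iW_Dm, e1, e2]
      simp only [Dm_apply, map_add, map_smulₛₗ, cW_add, cW_smul, tmul_add, add_tmul, tmul_smul,
        ← smul_tmul', LinearMap.add_apply, LinearMap.smul_apply, RingHom.id_apply]
      module
    · simp only [Θ, LinearMap.add_apply, LinearMap.sub_apply, Dm_apply, add_tmul,
        LinearMap.zero_apply, zero_tmul]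
      abel
  have sc : ∀ a, R M (Θ a 0 0 0) → ∃ k : F, ∀ u, a u = k • u := fun a e => by
    obtain ⟨k, hk⟩ := h.scalar_of_R hS (γ := a) (e.congr fun x => by simp [Θ, Dm_apply])
    exact ⟨k, Dm_scalar w1 f11 hk⟩
  obtain ⟨θ, hθ⟩ := h.hU.toInv.exists_trace_one
  have e1 : R M (Θ d 0 0 0) := (step θ _ _ _ _ (step 1 _ _ _ _ e)).congr fun x => by
    simp [Θ, ← add_smul, hθ]
  obtain ⟨s, hs, es⟩ := h.hW.SUG_trans_iso h.l3 w1 w2 i1 i2
  have e2 : R M (Θ 0 0 0 d) := by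
    have := h.cjW (γ := d) (w := w₁) (e1.congr fun x => by simp [Θ, Dm_apply]) hs
    exact (es ▸ this).congr fun x => by simp [Θ, Dm_apply]
  have e3 : R M (Θ a b c 0) := (sub_mem (m _ _ _ _ e) (m _ _ _ _ e2)).1.congr fun x => by
    simp [Θ, Dm_apply]
  have e4 : ∀ k : F, ∃ l : F, ∀ u, k • c u + σ k • b u = l • u := fun k =>
    sc (k • c + σ k • b) (by simpa using step k _ _ _ _ e3)
  obtain ⟨t, ht⟩ := h.hU.ne
  obtain ⟨l₁, h1⟩ := e4 1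
  obtain ⟨l₂, h2⟩ := e4 t
  have ht' := sub_ne_zero.2 ht
  simp only [map_one, one_smul] at h1
  refine ⟨⟨(σ t - t)⁻¹ * (l₂ - t * l₁), fun u => ?_⟩, ⟨(σ t - t)⁻¹ * (σ t * l₁ - l₂), fun u => ?_⟩,
    sc _ e1⟩
  · rw [mul_smul, eq_inv_smul_iff₀ ht']
    linear_combination (norm := module) h2 u - t • h1 u
  · rw [mul_smul, eq_inv_smul_iff₀ ht']
    linear_combination (norm := module) σ t • h1 u - h2 u

theorem line_std (hS : UU.Std β M) {w₁ w₂ f₁ f₂ : W} (i1 : β w₁ w₁ = 0) (i2 : β w₂ w₂ = 0)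
    (i12 : β w₁ w₂ = 0) (f11 : β w₁ f₁ = 1) (f12 : β w₁ f₂ = 0) (f21 : β w₂ f₁ = 0)
    (f22 : β w₂ f₂ = 1) {θ : Module.End F (U ⊗[F] W)} (e : R M θ)
    (e1 : ∀ x, θ x ∈ LW F U w₁ ⊔ LW F U w₂)
    (e2 : ∀ x, cW U (β w₁) x = 0 → cW U (β w₂) x = 0 → θ x = 0) :
    ∃ ν : W →ₗ[F] W, ∀ u v, θ (u ⊗ₜ v) = u ⊗ₜ ν v := by
  have w1 : w₁ ≠ 0 := ne_zero_of_b (f11 ▸ one_ne_zero)
  have w2 : w₂ ≠ 0 := ne_zero_of_b (f22 ▸ one_ne_zero)
  let γ : W → W → U →ₗ[F] U := fun f f' => cW U (β f) ∘ₗ θ ∘ₗ inW F U f'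
  have k1 : ∀ x ∈ LW F U w₁ ⊔ LW F U w₂, cW U (β f₁) x ⊗ₜ w₁ + cW U (β f₂) x ⊗ₜ w₂ = x := by
    intro x hx
    obtain ⟨_, ⟨a, rfl⟩, _, ⟨b, rfl⟩, rfl⟩ := Submodule.mem_sup.1 hx
    simp [h.hW.one_symm f11, h.hW.one_symm f22, h.hW.zero_symm f12, h.hW.zero_symm f21]
  have k2 : ∀ x, θ x = (Dm (γ f₁ f₁) (β w₁) w₁ + Dm (γ f₁ f₂) (β w₂) w₁ + Dm (γ f₂ f₁) (β w₁) w₂ +
      Dm (γ f₂ f₂) (β w₂) w₂) x := fun x => by
    have := e2 (x - cW U (β w₁) x ⊗ₜ f₁ - cW U (β w₂) x ⊗ₜ f₂) (by simp [f11, f12])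
      (by simp [f21, f22])
    rw [map_sub, map_sub, sub_sub, sub_eq_zero, ← k1 _ (e1 (_ ⊗ₜ f₁)), ← k1 _ (e1 (_ ⊗ₜ f₂))] at this
    rw [this]
    simp only [LinearMap.add_apply, Dm_apply, γ, LinearMap.comp_apply, inW_apply]
    abel
  obtain ⟨⟨b, hb⟩, ⟨c, hc⟩, d, hd⟩ := h.e22 (hS w₁ w1 i1) i1 i2 i12 f11 f12 f22 (e.congr k2)
  obtain ⟨-, -, a, ha⟩ := h.e22 (hS w₂ w2 i2) i2 i1 (h.hW.zero_symm i12) f22 f21 f11
    (a := γ f₂ f₂) (b := γ f₂ f₁) (c := γ f₁ f₂) (d := γ f₁ f₁) (e.congr fun x => by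
      rw [k2]; simp only [LinearMap.add_apply]; abel)
  refine ⟨(a • β w₁ + b • β w₂).smulRight w₁ + (c • β w₁ + d • β w₂).smulRight w₂, fun u v => ?_⟩
  rw [k2]
  simp only [LinearMap.add_apply, Dm_apply, ha, hb, hc, hd, cW_tmul, LinearMap.smulRight_apply,
    LinearMap.smul_apply, tmul_add, tmul_smul, ← smul_tmul', smul_eq_mul]
  module

end UW

/-- A maximal pair. -/
structure UWP (p : U →ₛₗ[σ] U →ₗ[F] F) (β : W →ₛₗ[σ] W →ₗ[F] F)
    (B : U ⊗[F] W →ₛₗ[σ] U ⊗[F] W →ₗ[F] F) (M : Subgroup ((U ⊗[F] W) ≃ₗ[F] (U ⊗[F] W)))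
    (g : (U ⊗[F] W) ≃ₗ[F] (U ⊗[F] W)) (φ' : Dual F W) (w' w : W) : Prop where
  h1 : UW p β B M
  hS : UU.Std β M
  h2 : UW p β B (cM g M)
  hg : g ∈ UG B
  r' : Max3.Rt M g φ' w'
  hT : ¬ IsT g
  w0 : w ≠ 0
  iw : β w w = 0
  hm : MaxP M 1 g (finrank F ↥(LW F U w ⊓ Lg g w'))

namespace UWP

variable {p : U →ₛₗ[σ] U →ₗ[F] F} {β : W →ₛₗ[σ] W →ₗ[F] F}
  {B : U ⊗[F] W →ₛₗ[σ] U ⊗[F] W →ₗ[F] F} {M : Subgroup ((U ⊗[F] W) ≃ₗ[F] (U ⊗[F] W))}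
  {g : (U ⊗[F] W) ≃ₗ[F] (U ⊗[F] W)} {φ' : Dual F W} {w' w : W}
  (H : UWP p β B M g φ' w' w) [FiniteDimensional F U] [FiniteDimensional F W] [Finite F]
include H

theorem iw' : β w' w' = 0 := H.h2.iso_of_rt (Rt_cM.2 (by simpa using H.r'))

theorem not_le {v : W} (hv : v ≠ 0) : ¬ Lg g w' ≤ LW F U v := fun e => by
  have e' : Lg g w' = LW F U v :=
    Submodule.eq_of_le_of_finrank_eq e (by rw [finrank_Lg H.r'.w0, finrank_LW hv])
  have iv := (H.h1.iso_of_im H.r'.w0 H.iw' H.hg e').2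
  exact H.hT (H.h1.isT_of_im (H.hS v hv iv) hv iv H.r'.w0 H.iw' H.hg (fun b hb => H.h2.memW hb) e')

theorem P1 {ψ : Dual F W} {v : W} (r : Max3.Rt M 1 ψ v) (h0 : ψ w = 0) :
    ∀ x ∈ Lg g w', rh 1 (r1 ψ v) x ∈ Lg g w' → x ∈ LW F U w := fun _ hx hx' =>
  (DD_mem inf_le_right (fun y hy => by rw [rh_one_r1, cW_LW h0 hy.1, zero_tmul])
    (H.hm.a ψ v φ' w' r H.r') hx hx').1

theorem KX {v : W} (hv : v ≠ 0) (iv : β v v = 0) (h0 : β v w = 0) :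
    ∀ x ∈ Lg g w', cW U (β v) x = 0 → x ∈ LW F U w := fun x hx e => by
  obtain ⟨c, hc0, hc⟩ := H.h1.hU.toInv.exists_skew
  exact H.P1 (H.h1.rt hv iv hc0 hc) (by simp [h0]) x hx (by simp [rh_one_r1, cW_smul, e])

theorem P2 : ∀ x ∈ LW F U w, rh g (r1 φ' w') x ∈ LW F U w → x ∈ Lg g w' := fun _ hx hx' => by
  obtain ⟨c, hc0, hc⟩ := H.h1.hU.toInv.exists_skew
  exact (DD_mem inf_le_left (fun v hv => rh_Lg H.r'.nil _ hv.2)
    (by have := H.hm.b _ _ φ' w' (H.h1.rt H.w0 H.iw hc0 hc) H.r'; rwa [Lg_one] at this) hx hx').2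

theorem stabX {z : (U ⊗[F] W) ≃ₗ[F] (U ⊗[F] W)}
    (e : ∀ v, z (rh g (r1 φ' w') v) = rh g (r1 φ' w') (z v)) : ∀ x ∈ Lg g w', z x ∈ Lg g w' := by
  intro x hx
  rw [← range_rh H.r'.φ0] at hx ⊢
  obtain ⟨y, rfl⟩ := hx
  exact ⟨z y, (e y).symm⟩

theorem left {z : (U ⊗[F] W) ≃ₗ[F] (U ⊗[F] W)} (hz : z ∈ M) {Λ : Submodule F (U ⊗[F] W)}
    (h1 : ∀ x, z x - x ∈ Λ ⊔ Lg g w') {v e : W} (hv : v ≠ 0) (iv : β v v = 0) (h0 : β v w = 0)
    (h2 : ∀ x ∈ LW F U v, z x ∈ LW F U v) (h3 : ∀ x ∈ Λ, cW U (β v) x = 0) {χ : Dual F W}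
    (h4 : ∀ x ∈ Λ, cW U χ x = 0) (h5 : χ w = 0) (h6 : χ e = 1) (h7 : β v e = 0) :
    ∃ b : W ≃ₗ[F] W, (∀ u x, z (u ⊗ₜ x) = u ⊗ₜ b x) ∧ ∃ μ : F, b v = μ • v ∧
      (μ = 1 → ∀ x, z x - x ∈ Λ ⊔ LW F U w) := by
  have := H.h1.ntU
  have hz' := H.h1.hM z hz
  have k : ∀ x, cW U (β v) (z x - x) = 0 → z x - x ∈ Λ ⊔ LW F U w := fun x hx => by
    obtain ⟨l, hl, y, hy, e⟩ := Submodule.mem_sup.1 (h1 x)
    rw [← e] at hx ⊢
    rw [map_add, h3 l hl, zero_add] at hx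
    exact Submodule.add_mem_sup hl (H.KX hv iv h0 y hy hx)
  have hL := im_eq_of h2
  obtain ⟨b, hb⟩ := scalar_of (H.h1.isT_of_fix (H.hS v hv iv) hv iv hz'
    (fun b hb => cj_mem_of hz (H.h1.memW hb)) hL) h6 fun u => by
    obtain ⟨l, hl, y, hy, e⟩ := Submodule.mem_sup.1 (k (u ⊗ₜ e) (by
      have := H.h1.perp_symm ((UG B).inv_mem hz') (w := v) (x := u ⊗ₜ e)
        (fun x hx => by rw [← hL] at hx; exact mem_im.1 hx) (by simp [h7])
      rw [map_sub, show z (u ⊗ₜ e) = z⁻¹.symm (u ⊗ₜ e) from rfl, this]; simp [h7]))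
    rw [← e, map_add, h4 l hl, cW_LW h5 hy, add_zero]
  obtain ⟨u, hu⟩ := exists_ne (0 : U)
  obtain ⟨u', e'⟩ := h2 _ (tmul_mem_LW u v)
  rw [hb, inW_apply] at e'
  obtain ⟨μ, hμ⟩ := Submodule.mem_span_singleton.1 (mem_span_of_tmul_eq' hu e'.symm)
  refine ⟨b, hb, μ, hμ.symm, fun h1 x => k x ?_⟩
  rw [h1, one_smul] at hμ
  induction x with
  | zero => simp
  | tmul u y =>
    rw [hb, map_sub, cW_tmul, cW_tmul, ← H.h1.isom hz' hb v y, ← hμ, sub_self]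
  | add x y hx hy => rw [map_add, add_sub_add_comm, map_add, hx, hy, add_zero]

theorem RL {z : (U ⊗[F] W) ≃ₗ[F] (U ⊗[F] W)} (hz : z ∈ M) (h1 : z ≠ 1) {b : W ≃ₗ[F] W}
    (hb : ∀ u x, z (u ⊗ₜ x) = u ⊗ₜ b x) (h2 : ∀ x, b x - x ∈ F ∙ w)
    (h3 : ∀ x ∈ Lg g w', z x ∈ Lg g w') : False := by
  obtain ⟨f, hf, -⟩ := H.h1.hW.exists_hyp H.w0 H.iw
  let ψ : Dual F W := β f ∘ₗ (b.toLinearMap - LinearMap.id)
  have e1 : ∀ x, b x = x + ψ x • w := fun x => by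
    obtain ⟨c, hc⟩ := Submodule.mem_span_singleton.1 (h2 x)
    have : ψ x = c := by
      change β f (b x - x) = c
      rw [← hc, map_smul, H.h1.hW.one_symm hf, smul_eq_mul, mul_one]
    rw [this, hc, add_sub_cancel]
  have e2 : ∀ x, z x = x + rh 1 (r1 ψ w) x := fun x =>
    LinearMap.congr_fun (show z.toLinearMap = 1 + rh 1 (r1 ψ w) from TensorProduct.ext'
      fun u v => by simp [hb, e1 v, rh_one_tmul, tmul_add]) x
  have e3 : ψ w = 0 := by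
    have := H.h1.isom (H.h1.hM z hz) hb w f
    rw [e1, e1 f] at this
    simpa [H.iw, hf] using this
  refine H.not_le H.w0 fun x hx => H.P1 ⟨?_, H.w0, e3, z, hz, e2⟩ e3 x hx ?_
  · intro e; exact h1 (LinearEquiv.ext fun x => by simp [e2, e])
  · have := h3 x hx
    rwa [e2, Submodule.add_mem_iff_right _ hx] at this

theorem plane (hb : ∃ b, σ b = b ∧ b ≠ 0 ∧ b ≠ 1) : finrank F ↥(LW F U w ⊓ Lg g w') = 0 ∧
    ∃ y, Lg g w' ≤ LW F U w ⊔ LW F U y := by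
  have := H.h1.ntU
  obtain ⟨f, hf, -⟩ := H.h1.hW.exists_hyp H.w0 H.iw
  obtain ⟨u₀, hu₀⟩ := exists_ne (0 : U)
  let N := M ⊓ Nz (LW F U w ⊔ Lg g w') ⊥
  have Y : ∀ z ∈ N, (∀ x ∈ LW F U w, z x ∈ LW F U w) → ∃ b : W ≃ₗ[F] W,
      (∀ u x, z (u ⊗ₜ x) = u ⊗ₜ b x) ∧ ∃ μ : F, b w = μ • w ∧ (μ = 1 → ∀ x, b x - x ∈ F ∙ w) :=
    fun z hz hL => by
    obtain ⟨e, h1, h2⟩ := exists_ker_not_mem H.h1.l3 (β w) w
    obtain ⟨χ, h3, h4⟩ := exists_dual_two h2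
    obtain ⟨b, hb, μ, h5, h6⟩ := H.left hz.1 hz.2.1 H.w0 H.iw H.iw hL (fun x => cW_LW H.iw)
      (fun x => cW_LW h3) h3 h4 h1
    refine ⟨b, hb, μ, h5, fun e x => ?_⟩
    obtain ⟨u, hu⟩ := sup_idem (LW F U w) ▸ h6 e (u₀ ⊗ₜ x)
    rw [hb, ← tmul_sub] at hu
    exact mem_span_of_tmul_eq' hu₀ hu.symm
  obtain ⟨z, hz, b, hb, μ, h1, h2⟩ : ∃ z ∈ N, ∃ b : W ≃ₗ[F] W,
      (∀ u x, z (u ⊗ₜ x) = u ⊗ₜ b x) ∧ ∃ μ : F, b w = μ • w ∧ μ ≠ 1 := by
    by_contra hn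
    push Not at hn
    have t1 : ∀ (c : F) x, rh 1 (r1 (c • β w) w) x ∈ LW F U w := fun c x =>
      rh_one_r1 (c • β w) w x ▸ tmul_mem_LW _ _
    have sj : ∀ c : F, c ≠ 0 → ∀ x ∈ LW F U w, ∃ z, rh 1 (r1 (c • β w) w) z = x := by
      rintro c hc _ ⟨u, rfl⟩
      exact ⟨c⁻¹ • u ⊗ₜ f, by simp [rh_one_tmul, hf, smul_smul, hc]⟩
    have key : ∀ c : F, c ≠ 0 → c + σ c = 0 →
        ∃ y ∈ N, ∀ v, y (rh 1 (r1 (c • β w) w) v) = rh g (r1 φ' w') (y v) := fun c hc0 hc => by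
      have r := H.h1.rt H.w0 H.iw hc0 hc
      rcases pair_elt (N := N) (R_inf_Nz r.mem (fun v => Submodule.mem_sup_left (t1 c v))
        (by simp)) (R_inf_Nz H.r'.mem (fun v => Submodule.mem_sup_right (rh_mem _ _ _ v)) (by simp))
        (t1 c) (fun x hx => by rw [rh_one_r1, cW_LW r.nil hx, zero_tmul]) (rh_mem _ _ _)
        (fun v => rh_Lg H.r'.nil _) (H.P1 r r.nil) H.P2 (H.not_le H.w0) with
        ⟨z, hz, e1, -, e3, e4⟩ | ⟨-, hy⟩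
      swap
      · exact hy
      obtain ⟨b, hb, μ, h1, h2⟩ := Y z hz fun x hx => by
        obtain ⟨v, rfl⟩ := sj c hc0 x hx
        exact (LinearMap.congr_fun e3.eq v) ▸ t1 c _
      exact (H.RL hz.1 e1 hb (h2 (hn z hz b hb μ h1))
        (H.stabX (LinearMap.congr_fun e4.eq))).elim
    obtain ⟨k, k1, k2, k3⟩ := hb
    obtain ⟨c, hc0, hc⟩ := H.h1.hU.toInv.exists_skew
    obtain ⟨y₁, hy₁, e1⟩ := key c hc0 hc
    obtain ⟨y₂, hy₂, e2⟩ := key (k * c) (mul_ne_zero k2 hc0) (by rw [map_mul, k1, ← mul_add, hc, mul_zero])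
    have e3 : ∀ x, (y₂⁻¹ * y₁) (rh 1 (r1 (c • β w) w) x) =
        rh 1 (r1 ((k * c) • β w) w) ((y₂⁻¹ * y₁) x) := fun x => by
      apply y₂.injective
      rw [e2]; simp [e1, LinearEquiv.coe_inv]
    have hm := N.mul_mem (N.inv_mem hy₂) hy₁
    obtain ⟨b, hb, μ, h1, -⟩ := Y _ hm fun x hx => by
      obtain ⟨v, rfl⟩ := sj c hc0 x hx
      exact e3 v ▸ t1 _ _
    rw [hn _ hm b hb μ h1, one_smul] at h1
    have e4 := H.h1.isom (H.h1.hM _ hm.1) hb w f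
    have := e3 (u₀ ⊗ₜ f)
    rw [hb, rh_one_tmul, rh_one_tmul, hb] at this
    rw [h1, hf] at e4
    have := tmul_right_inj hu₀ this
    simp only [LinearMap.smulRight_apply, LinearMap.smul_apply, hf, e4, map_smul, h1, smul_eq_mul,
      mul_one] at this
    exact k3 (mul_right_cancel₀ hc0 (by
      rw [one_mul]; exact (smul_left_injective F H.w0 this).symm))
  have e4 := H.h1.isom (H.h1.hM _ hz.1) hb w f
  have hy : b f - f ∉ F ∙ w := fun e => by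
    obtain ⟨c, hc⟩ := Submodule.mem_span_singleton.1 e
    have := congrArg (β w) hc
    rw [h1, b_smul_left, hf] at e4
    rw [map_smul, H.iw, map_sub, hf, smul_zero, eq_comm, sub_eq_zero] at this
    rw [this, mul_one] at e4
    exact h2 (σ.injective (by rw [e4, map_one]))
  have hy0 : b f - f ≠ 0 := fun e => hy (e ▸ Submodule.zero_mem _)
  have hle : LW F U w ⊔ LW F U (b f - f) ≤ LW F U w ⊔ Lg g w' := sup_le le_sup_left (by
    rintro _ ⟨u, rfl⟩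
    rw [inW_apply, tmul_sub, ← hb]; exact hz.2.1 _)
  have d1 := Submodule.finrank_sup_add_finrank_inf_eq (LW F U w) (LW F U (b f - f))
  have d2 := Submodule.finrank_sup_add_finrank_inf_eq (LW F U w) (Lg g w')
  have d3 := Submodule.finrank_mono hle
  obtain ⟨χ, c1, c2⟩ := exists_dual_two hy
  rw [show LW F U w ⊓ LW F U (b f - f) = ⊥ from eq_bot_iff.2 fun x hx => by
    rw [← eq_of_mem_LW c2 hx.2, cW_LW c1 hx.1, zero_tmul]; exact zero_mem _, finrank_bot,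
    finrank_LW H.w0, finrank_LW hy0] at d1
  rw [finrank_LW H.w0, finrank_Lg H.r'.w0] at d2
  exact ⟨by omega, b f - f, by
    rw [Submodule.eq_of_le_of_finrank_le hle (by omega)]; exact le_sup_right⟩

theorem false_of_fix (hb : ∃ b, σ b = b ∧ b ≠ 0 ∧ b ≠ 1) : False := by
  have := H.h1.ntU
  obtain ⟨h0, y, hy⟩ := H.plane hb
  have hl := H.h1.l3
  obtain ⟨c, hc0, hc⟩ := H.h1.hU.toInv.exists_skew
  obtain ⟨v, -, iv, hv⟩ := NDU.exists_iso H.h1.hW (W := ⊤)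
    (fun w _ e => H.h1.hW.nd' w fun x => e x trivial) (by rw [finrank_top]; omega)
    (X := Submodule.span F {w, y}) fun e => by
      have := (Submodule.finrank_mono e).trans (finrank_span_pair_le _ _)
      rw [finrank_top] at this; omega
  have hv0 : v ≠ 0 := by rintro rfl; exact hv (Submodule.zero_mem _)
  have h1 := H.hm.c _ v φ' w' (H.h1.rt hv0 iv hc0 hc) H.r'
  rw [h0, Lg_one, Nat.le_zero] at h1
  obtain ⟨-, y', hy'⟩ := UWP.plane (w := v)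
    { H with w0 := hv0, iw := iv, hm := by rw [h1, ← h0]; exact H.hm } hb
  obtain ⟨χ, c1, c2, c3⟩ := exists_dual_three hv
  have hle : Lg g w' ≤ LW F U (y' - χ y' • v) := fun x hx => by
    obtain ⟨a, ha, b, hb, e⟩ := Submodule.mem_sup.1 (hy hx)
    obtain ⟨_, ⟨u, rfl⟩, _, ⟨u', rfl⟩, rfl⟩ := Submodule.mem_sup.1 (hy' hx)
    have := congrArg (cW U χ) e
    simp only [map_add, cW_LW c1 ha, cW_LW c2 hb, inW_apply, cW_tmul, c3, one_smul, zero_add] at this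
    refine ⟨u', ?_⟩
    rw [eq_neg_of_add_eq_zero_left this.symm]
    simp only [inW_apply, tmul_sub, tmul_smul, neg_tmul, ← smul_tmul']; abel
  refine H.not_le (fun e => ?_) hle
  obtain ⟨u, hu⟩ := exists_ne (0 : U)
  obtain ⟨u', e'⟩ := hle (mem_Lg.2 ⟨u, rfl⟩)
  rw [e, inW_apply, tmul_zero, eq_comm, g.map_eq_zero_iff] at e'
  exact tmul_ne_zero hu H.r'.w0 e'

theorem false_of_four (h2 : (2 : F) = 0) (hl : 4 ≤ finrank F W) : False := by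
  have := H.h1.ntU
  have : Finite (U ⊗[F] W) := Module.finite_of_finite F
  have : Finite ((U ⊗[F] W) ≃ₗ[F] (U ⊗[F] W)) := DFunLike.finite _
  have hW := H.h1.hW
  have sq : ∀ x : U ⊗[F] W, x + x = 0 := fun x => by rw [← two_smul F, h2, zero_smul]
  obtain ⟨u₀, hu₀⟩ := exists_ne (0 : U)
  obtain ⟨w₂, i2, i12, hw₂⟩ := exists_line hW hl H.w0 H.iw
  have i1 := H.iw
  have i21 := hW.zero_symm i12
  have w2 : w₂ ≠ 0 := by rintro rfl; exact hw₂ (Submodule.zero_mem _)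
  obtain ⟨f₂, g1, g22⟩ := hW.exists_orth_one _ hw₂
  obtain ⟨f₁, g2, g11⟩ := hW.exists_orth_one _ (not_mem_span_symm hw₂ H.w0)
  have g12 := g1 w (Submodule.mem_span_singleton_self _)
  have g21 := g2 w₂ (Submodule.mem_span_singleton_self _)
  have f11 := hW.one_symm g11
  have f22 := hW.one_symm g22
  have f12 := hW.zero_symm g12
  have f21 := hW.zero_symm g21
  set Λ := LW F U w ⊔ LW F U w₂ with hΛ
  have Λ1 : ∀ v ∈ Submodule.span F {w, w₂}, ∀ x ∈ Λ, cW U (β v) x = 0 := fun v hv x hx => by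
    obtain ⟨a, b, rfl⟩ := Submodule.mem_span_pair.1 hv
    obtain ⟨_, ⟨a, rfl⟩, _, ⟨b, rfl⟩, rfl⟩ := Submodule.mem_sup.1 hx
    simp [i1, i2, i12, i21]
  have Λ2 : ∀ v, u₀ ⊗ₜ v ∈ Λ → v ∈ Submodule.span F {w, w₂} := fun v hv => by
    by_contra hn
    obtain ⟨χ, c1, c2, c3⟩ := exists_dual_three hn
    obtain ⟨a, ha, b, hb, e⟩ := Submodule.mem_sup.1 hv
    have := congrArg (cW U χ) e
    simp [cW_LW c1 ha, cW_LW c2 hb, c3, hu₀.symm] at this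
  have m1 : w ∈ Submodule.span F {w, w₂} := Submodule.subset_span (by simp)
  have m2 : w₂ ∈ Submodule.span F {w, w₂} := Submodule.subset_span (by simp)
  have iso : ∀ v ∈ Submodule.span F {w, w₂}, ∀ v' ∈ Submodule.span F {w, w₂}, β v v' = 0 :=
    fun v hv v' hv' => by
    obtain ⟨a, b, rfl⟩ := Submodule.mem_span_pair.1 hv
    obtain ⟨a, b, rfl⟩ := Submodule.mem_span_pair.1 hv'
    simp [i1, i2, i12, i21]
  obtain ⟨s₁, hs₁, es₁⟩ := H.h1.rootT i1 (c := 1) (by rw [map_one]; linear_combination h2)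
  obtain ⟨s₂, hs₂, es₂⟩ := H.h1.rootT i2 (c := 1) (by rw [map_one]; linear_combination h2)
  have ht₁ := H.h1.memW hs₁
  have ht₂ := H.h1.memW hs₂
  generalize iW U s₁.1 = t₁ at es₁ ht₁
  generalize iW U s₂.1 = t₂ at es₂ ht₂
  let N₂ := Dm (LinearMap.id : U →ₗ[F] U) (β w) w + Dm LinearMap.id (β w₂) w₂
  have hN : ∀ x, N₂ x = cW U (β w) x ⊗ₜ w + cW U (β w₂) x ⊗ₜ w₂ := fun _ => rfl
  have NΛ : ∀ x, N₂ x ∈ Λ := fun x => Submodule.add_mem_sup (Dm_mem _ _ _ _) (Dm_mem _ _ _ _)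
  have N0 : ∀ x ∈ Λ, N₂ x = 0 := fun x hx => by simp [hN, Λ1 _ m1 x hx, Λ1 _ m2 x hx]
  have N1 : ∀ u, N₂ (u ⊗ₜ f₁) = u ⊗ₜ w := fun u => by simp [hN, f11, f21]
  have N2 : ∀ u, N₂ (u ⊗ₜ f₂) = u ⊗ₜ w₂ := fun u => by simp [hN, f12, f22]
  have ea : ∀ x, (t₁ * t₂) x = x + N₂ x := fun x => by
    simp [es₁, es₂, hN, Dm_apply, i12, add_right_comm, add_assoc]
  obtain ⟨t, ht, et⟩ := H.r'.mem
  rcases dihedral (M ⊓ Nz (Λ ⊔ Lg g w') ⊥) (a := t₁ * t₂) (b := t)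
    ⟨M.mul_mem ht₁ ht₂, fun v => by rw [ea, add_sub_cancel_left]; exact Submodule.mem_sup_left (NΛ v),
      by simp⟩
    ⟨ht, fun v => by rw [et, add_sub_cancel_left]; exact Submodule.mem_sup_right (rh_mem _ _ _ _),
      by simp⟩
    (LinearEquiv.ext fun x => by
      rw [LinearEquiv.mul_apply, ea, ea, map_add, N0 _ (NΛ x), add_zero, add_assoc, sq, add_zero]; rfl)
    (LinearEquiv.ext fun x => by
      rw [LinearEquiv.mul_apply, et, et, map_add, H.r'.sq, add_zero, add_assoc, sq, add_zero]; rfl)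
    with ⟨z, hz, z1, zz, c1, c2⟩ | ⟨y, -, e⟩
  swap
  · have e1 : ∀ x, y (N₂ x) ∈ Lg g w' := fun x => by
      have := LinearEquiv.congr_fun e x
      rw [LinearEquiv.mul_apply, LinearEquiv.mul_apply t, ea, et, map_add, add_right_inj] at this
      exact this ▸ rh_mem _ _ _ _
    have e2 : im (LW F U w) y = Lg g w' := Submodule.eq_of_le_of_finrank_eq (by
      rintro _ ⟨_, ⟨u, rfl⟩, rfl⟩; rw [inW_apply, ← N1]; exact e1 _)
      (by rw [finrank_im, finrank_LW H.w0, finrank_Lg H.r'.w0])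
    have := e1 (u₀ ⊗ₜ f₂)
    rw [N2, ← e2, apply_mem_im] at this
    simpa [g22, hu₀] using cW_LW g12 this
  have hz' := H.h1.hM z hz.1
  have zz' : ∀ x, z (z x) = x := LinearEquiv.congr_fun zz
  have zs : z.symm = z := inv_eq_of_mul_eq_one_right zz
  have zN : ∀ x, z (N₂ x) = N₂ (z x) := fun x => by
    have := LinearEquiv.congr_fun c1.eq x
    rwa [LinearEquiv.mul_apply, LinearEquiv.mul_apply _ z, ea, ea, map_add, add_right_inj] at this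
  have zX := H.stabX (z := z) fun x => by simpa [et] using LinearEquiv.congr_fun c2.eq x
  have zΛ : ∀ x ∈ Λ, z x ∈ Λ := fun x hx => by
    obtain ⟨_, ⟨a, rfl⟩, _, ⟨b, rfl⟩, rfl⟩ := Submodule.mem_sup.1 hx
    rw [inW_apply, inW_apply, ← N1, ← N2, ← map_add, zN]; exact NΛ _
  obtain ⟨ν, hν⟩ := H.h1.line_std H.hS i1 i2 i12 f11 f12 f21 f22
    (θ := cjm z (Dm LinearMap.id (β w) w)) (R.conj ⟨t₁, ht₁, by simpa using es₁⟩ hz.1)
    (fun x => zΛ _ (Submodule.mem_sup_left (Dm_mem _ _ _ _))) fun x h1 h2 => by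
      have : cW U (β w) (z x) = 0 := by
        have := congrArg (cW U (β f₁)) (zN x)
        simpa [hN, h1, h2, g11, g21] using this.symm
      rw [cjm_apply, zs, Dm_apply, this]; simp
  obtain ⟨w₃, e3⟩ := std_of_left' (g := z) (t := z * t₁ * z⁻¹) H.w0 f11 one_ne_zero
    (fun x => by simp [es₁, cjm_apply, LinearEquiv.coe_inv]) (ν := LinearMap.id + ν) fun u v => by
      simp [tmul_add, ← hν, es₁, cjm_apply, LinearEquiv.coe_inv]
  obtain ⟨k1, k2⟩ := H.h1.iso_of_im H.w0 i1 hz' e3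
  obtain ⟨a, b, hab⟩ := H.h1.isT_of_im (H.hS _ k1 k2) k1 k2 H.w0 i1 hz'
    (fun b hb => cj_mem_of hz.1 (H.h1.memW hb)) e3
  obtain ⟨v, hv, hv0, hvz⟩ : ∃ v ∈ Submodule.span F {w, w₂}, v ≠ 0 ∧
      ∀ x ∈ LW F U v, z x ∈ LW F U v := by
    obtain ⟨τ, hτ⟩ := exists_dual_one (F := F) hu₀
    obtain ⟨d, hd⟩ := FiniteField.isSquare_of_char_two
      (CharP.ringChar_of_prime_eq_zero Nat.prime_two (by exact_mod_cast h2)) (τ (a (a u₀)))
    have bb : ∀ x, d • b (d • b x) = x := fun x => by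
      have := congrArg (cU W τ) (zz' (u₀ ⊗ₜ x))
      rw [hab, hab, cU_tmul, cU_tmul, hτ, hd, one_smul] at this
      rw [map_smul, smul_smul, this]
    have hd0 : d ≠ 0 := by rintro rfl; exact H.w0 (by simpa using (bb w).symm)
    have bw : b w ∈ Submodule.span F {w, w₂} := Λ2 _ (by
      have := zΛ _ (Submodule.mem_sup_left (tmul_mem_LW (a.symm u₀) w))
      rwa [hab, LinearEquiv.apply_symm_apply] at this)
    have k : ∀ v, d • b v = v → ∀ x ∈ LW F U v, z x ∈ LW F U v := by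
      rintro v hv _ ⟨u, rfl⟩
      rw [inW_apply, hab, ← inv_smul_smul₀ hd0 (b v), hv, tmul_smul]
      exact Submodule.smul_mem _ _ (tmul_mem_LW _ _)
    by_cases h0 : w + d • b w = 0
    · exact ⟨w, m1, H.w0, k w (by linear_combination (norm := module) h0 - h2 • w)⟩
    · exact ⟨_, add_mem m1 (Submodule.smul_mem _ _ bw), h0, k _ (by
        rw [map_add, smul_add, bb, add_comm])⟩
  obtain ⟨e, he, he'⟩ := exists_not_mem_of_finrank_lt (W := Submodule.span F {w, w₂})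
    (U := ⊤ ⊓ LinearMap.ker (β v)) (by
      have := finrank_le_inf_ker (⊤ : Submodule F W) (β v)
      have := finrank_span_pair_le (F := F) w w₂
      rw [finrank_top] at *; omega)
  obtain ⟨χ, c1, c2, c3⟩ := exists_dual_three he'
  obtain ⟨b, hb, μ, h1, h3⟩ := H.left hz.1 hz.2.1 hv0 (iso v hv v hv) (iso v hv w m1) hvz (Λ1 v hv)
    (fun x hx => by
      obtain ⟨a, ha, b, hb, rfl⟩ := Submodule.mem_sup.1 hx
      rw [map_add, cW_LW c1 ha, cW_LW c2 hb, add_zero]) c1 c3 he.2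
  have bb : ∀ x, b (b x) = x := fun x => tmul_right_inj (F := F) hu₀ (by rw [← hb, ← hb, zz'])
  have h4 : μ = 1 := by
    have := bb v
    rw [h1, map_smul, h1, smul_smul] at this
    have e : μ * μ = 1 := smul_left_injective F hv0 (by simpa using this)
    exact sub_eq_zero.1 (pow_eq_zero_iff (two_ne_zero) |>.1 (by linear_combination e + (1 - μ) * h2))
  replace h3 : ∀ x, z x - x ∈ Λ := fun x =>
    (sup_le le_rfl (le_sup_left : LW F U w ≤ Λ)) (h3 h4 x)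
  have h5 : ∀ x, b x - x ∈ Submodule.span F {w, w₂} := fun x => Λ2 _ (by
    rw [tmul_sub, ← hb]; exact h3 _)
  have h6 : ∀ x, β (b f₂ - f₂) x = β f₂ (b x - x) := fun x => by
    rw [b_sub_left, map_sub, ← H.h1.isom hz' hb (b f₂), bb]
  by_cases h7 : b f₂ - f₂ = 0
  · refine H.RL hz.1 z1 hb (fun x => ?_) zX
    obtain ⟨c, d, e⟩ := Submodule.mem_span_pair.1 (h5 x)
    have := h6 x
    rw [h7, ← e] at this
    rw [← e, show d = 0 by simpa [g12, g22] using this.symm, zero_smul, add_zero]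
    exact Submodule.smul_mem _ _ (Submodule.mem_span_singleton_self _)
  refine H.not_le H.w0 fun x hx => H.KX h7 (iso _ (h5 _) _ (h5 _)) (iso _ (h5 _) _ m1) x hx ?_
  have h8 : ∀ x, cW U (β (b f₂ - f₂)) x = cW U (β f₂) (z x - x) := fun x => by
    induction x with
    | zero => simp
    | tmul u y => rw [hb, ← tmul_sub, cW_tmul, cW_tmul, h6]
    | add x y hx hy => rw [map_add, map_add, add_sub_add_comm, map_add, hx, hy]
  rw [h8]
  exact cW_LW g12 (H.KX H.w0 i1 i1 _ (sub_mem (zX x hx) hx) (Λ1 _ m1 _ (h3 x)))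

theorem false : False := by
  by_cases hb : ∃ b, σ b = b ∧ b ≠ 0 ∧ b ≠ 1
  · exact H.false_of_fix hb
  refine H.false_of_four (by_contra fun h2 => hb ⟨2, map_ofNat σ 2, h2, fun e => ?_⟩)
    (H.h1.big.resolve_left hb)
  exact one_ne_zero (α := F) (by linear_combination e)

end UWP

end Cfsg.Agent.Max
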