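import Mathlib
import Cfsg.Agent.Max.UW2

/-!
# Tensor decompositions `2 ⊗ 3` in special unitary groups
-/

set_option autoImplicit false
set_option linter.unusedSectionVars false

namespace Cfsg.Agent.Max

open Module Cfsg.Agent.Max2 Cfsg.Agent.Max3 TensorProduct Cfsg.Agent.Herm Function

variable {F U W : Type*} [Field F] [AddCommGroup U] [Module F U] [AddCommGroup W] [Module F W]
  {σ : F →+* F} {p : U →ₛₗ[σ] U →ₗ[F] F} {β : W →ₛₗ[σ] W →ₗ[F] F}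
  {B : U ⊗[F] W →ₛₗ[σ] U ⊗[F] W →ₗ[F] F} {M : Subgroup ((U ⊗[F] W) ≃ₗ[F] (U ⊗[F] W))}
  [FiniteDimensional F U] [FiniteDimensional F W] [Finite F]

theorem UW.rt_form (h : UW p β B M) {φ : Dual F W} {w : W} {t : (U ⊗[F] W) ≃ₗ[F] (U ⊗[F] W)}
    (r : Max3.Rt M 1 φ w) (ht : t ∈ M) (e : ∀ x, t x = x + rh 1 (r1 φ w) x) :
    ∃ c : F, c ≠ 0 ∧ ∀ x, t x = x + c • Dm LinearMap.id (β w) w x := by
  obtain ⟨v, hv⟩ := exists_apply_one r.φ0
  have h1 := fun y => h.isom (h.hM t ht) (b := fun x => x + φ x • w) (fun u v => by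
    simp [e, rh_one_tmul, tmul_add]) v y
  have h2 : ∀ y, β w y = -β v w * φ y := fun y => by
    have := h1 y
    simp only [hv, one_smul, map_add, map_smul, LinearMap.add_apply, smul_eq_mul,
      h.iso_of_rt r] at this
    linear_combination this
  have h3 : -β v w ≠ 0 := fun e => r.w0 (h.hW.nd w fun y => by rw [h2, e, zero_mul])
  refine ⟨_, inv_ne_zero h3, fun x => ?_⟩
  rw [e, rh_one_r1, Dm_apply, show β w = -β v w • φ from LinearMap.ext h2, cW_smul,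
    LinearMap.id_apply, ← smul_tmul', inv_smul_smul₀ h3]

theorem uu_three (h : UU p β B M) (hb : ∃ b, σ b = b ∧ b ≠ 0 ∧ b ≠ 1) (hS : UU.Std β M)
    {m : (U ⊗[F] W) ≃ₗ[F] (U ⊗[F] W)} (hm : m ∈ M) : IsT m := by
  by_contra hn
  have H : UW p β B M := ⟨h.hU, h.hW, h.pure, h.k2, h.l3, .inl hb, fun hb => h.memW hb, h.hM⟩
  have l3 := h.l3
  have : Nontrivial W := Module.nontrivial_of_finrank_pos (R := F) (by omega)
  obtain ⟨w, hw, iw⟩ := h.hW.exists_isotropic (by omega)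
  obtain ⟨s, hs0, hs⟩ := h.hW.toInv.exists_skew
  let S : Set ℕ := {d | ∃ g ∈ M, ¬ IsT g ∧ ∃ v v' φ', v ≠ 0 ∧ β v v = 0 ∧ Max3.Rt M g φ' v' ∧
    d = finrank F ↥(LW F U v ⊓ Lg g v')}
  have hne : S.Nonempty := ⟨_, m, hm, hn, w, w, _, hw, iw,
    by simpa using (H.rt hw iw hs0 hs).conj hm, rfl⟩
  have hbd : BddAbove S := ⟨finrank F (U ⊗[F] W), by
    rintro _ ⟨g, -, -, v, v', φ', -, -, -, rfl⟩
    exact Submodule.finrank_le _⟩
  obtain ⟨g, hg, hg', v, v', φ', hv, iv, r', e⟩ := Nat.sSup_mem hne hbd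
  have key : ∀ g ∈ M, ¬ IsT g → ∀ v v' ψ φ', Max3.Rt M 1 ψ v → Max3.Rt M g φ' v' →
      finrank F ↥(LW F U v ⊓ Lg g v') ≤ sSup S := fun g a b v v' ψ φ' r r' =>
    le_csSup hbd ⟨g, a, b, v, v', φ', r.w0, H.iso_of_rt r, r', rfl⟩
  have back : ∀ {ψ v}, Max3.Rt M g ψ v → Max3.Rt M 1 ψ v := fun r => by
    simpa using r.conj (inv_mem hg)
  refine UWP.false ⟨H, hS, (cM_of_mem hg).symm ▸ H, h.hM g hg, r', hg', hv, iv, e ▸ ⟨?_, ?_, ?_⟩⟩
  · intro ψ v ψ' v' r r'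
    obtain ⟨t, ht, e1⟩ := r.mem
    obtain ⟨c, hc, e2⟩ := H.rt_form r ht e1
    have h1 := mul_mem (mul_mem (inv_mem hg) ht) (inv_mem (inv_mem hg))
    refine (DD_le e1).trans (le_of_eq_of_le ?_ (key _ h1 (fun h2 => hg' ?_) v' v' ψ' ψ' (back r')
      (by simpa using (back r').conj h1)))
    · rw [← finrank_im (LW F U v' ⊓ _) g, im_inf, ← Lg_mul, ← Lg_mul, inf_comm,
        show g * (g⁻¹ * t * g⁻¹⁻¹) = t * g by group]
    · exact (inv_mem_iff (H := TG F U W)).mp (h.norm_T hS r.w0 (H.iso_of_rt r) hc (inv_mem hg) e2 h2)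
  · intro ψ v ψ' v' r r'
    obtain ⟨t, ht, e1⟩ := r'.mem
    obtain ⟨t0, ht0, e0⟩ := (back r').mem
    obtain ⟨c, hc, e2⟩ := H.rt_form (back r') ht0 e0
    refine (DD_le e1).trans (le_of_eq_of_le ?_ (key _ ht (fun h2 => hg' ?_) v v ψ ψ r
      (by simpa using r.conj ht)))
    · rw [Lg_one, inf_comm]
    · refine h.norm_T hS r'.w0 (H.iso_of_rt (back r')) hc hg e2 ?_
      convert h2 using 1
      ext x
      simp [e0, e1, rh_r1 g, rh_one_r1, LinearEquiv.coe_inv]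
  · intro ψ v ψ' v' r r'
    rw [Lg_one]
    exact key g hg hg' v v' ψ ψ' r r'

section Mat
open Geo
variable {q : ℕ} (hF : Nat.card F = q ^ 2)
include hF

theorem max_su_tensor3 {n n₁ n₂ : ℕ} (h1 : 2 ≤ n₁) (h12 : n₁ < n₂) (hq : 3 ≤ q)
    {e : Fin n ≃ Fin n₁ × Fin n₂} {P : GL (Fin n) F}
    {f₁ : (Fin n₁ → F) → (Fin n₁ → F) → F} {f₂ : (Fin n₂ → F) → (Fin n₂ → F) → F}
    (hf₁ : IsUnitaryFormPow q f₁) (hf₂ : IsUnitaryFormPow q f₂)
    (hT : IsTensorFormStructure (fun x : F => x ^ q) (hermForm n F q) f₁ f₂ e P) :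
    IsMaximalIn (GU n F q ⊓ specialLinear (Fin n) F)
      (tensorProductSubgroup n₁ n₂ e P ⊓ (GU n F q ⊓ specialLinear (Fin n) F)) := by
  obtain ⟨p, β, hp, hβ, k⟩ := uu_of hF hf₁ hf₂ (by omega) (by omega) hT
  have hS := fun M a b c => UU.mk (M := M) hp hβ k (by simpa) (by simpa) a b c
  have hb := (inv_frob hF).exists_fix_ne hF (show q ≠ 2 by omega)
  refine isMaximalIn_SU' hF (tenE e P) IsT (mem_tensor_iff e P) ?_ fun M a b c ⟨g, hg, hn⟩ =>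
    (hS M a b c).le_of_not_std (fun _ => hb) fun h => hn (uu_three (hS M a b c) hb h hg)
  have h := hS (UG _ ⊓ LinearEquiv.det.ker) (fun g a b _ => ⟨a, b⟩) (fun g h => h.1) fun g h => h.2
  obtain ⟨w, y, hw, -, hy⟩ := hβ.exists_hyp_pair (by simp; omega)
  obtain ⟨n, f, hn, -, hf⟩ := hp.exists_hyp_pair (by simpa)
  obtain ⟨s, hs0, hs⟩ := hp.toInv.exists_skew
  have hx : trU (sB hF _) (tenE e P) (n ⊗ₜ w) (n ⊗ₜ w) = 0 := by simp [k, hn]
  refine ⟨_, h.hB.tv_mem_SUG hx s, not_isT_Dm (γ := s • (p n).smulRight n) (φ := β w)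
    (by simp; omega) (fun a e => ?_) (fun e => by simp [e] at hy) (ne_zero_of_b (hy ▸ one_ne_zero))
    fun x => by rw [h.hB.tv_apply hx hs, h.left, Dm_apply, smul_tmul', mul_smul]; rfl⟩
  have h1 := LinearMap.congr_fun e f
  have h3 := LinearMap.congr_fun e n
  have hn0 : n ≠ 0 := ne_zero_of_b (hf ▸ one_ne_zero)
  simp only [LinearMap.smulRight_apply, LinearMap.smul_apply, LinearMap.id_apply, hf, hn] at h1 h3
  simp [show a = 0 by simpa [hn0] using h3.symm, hs0, hn0] at h1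

end Mat

end Cfsg.Agent.Max
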