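import Mathlib
import Cfsg.Agent.Max.UFrame
import Cfsg.Agent.Max.SubUn7

/-!
# Subfield subgroups of unitary groups in dimension at least seven
-/

set_option autoImplicit false

namespace Cfsg.Agent.Max

variable {F : Type*} [Field F] [Fintype F] {n q : ℕ} (hF : Fintype.card F = q ^ 2) (hn : 7 ≤ n)
include hF hn

theorem utab_odd (F₀ : Subfield F) (r : ℕ) (P : GL (Fin n) F) (hr : r.Prime) (hro : Odd r)
    (hcard : Fintype.card F = Nat.card F₀ ^ r)
    (hP : Geo.IsFormRationalStructure (hermForm n F q) F₀ 1 P) :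
    Geo.IsMaximalIn (GU n F q ⊓ Geo.specialLinear (Fin n) F)
      (Geo.subfieldSubgroup F₀ P ⊓ (GU n F q ⊓ Geo.specialLinear (Fin n) F)) := by
  have hF' := Herm.natCard_of_card hF
  have hq : Nat.card F = Nat.card F₀ ^ r := Nat.card_eq_fintype_card.trans hcard
  obtain ⟨t, ht, ht'⟩ := exists_frob_ne hF' hro hq
  have hi := Herm.inv_frob hF'
  have h1 : t - Herm.frob hF' t ≠ 0 := sub_ne_zero.mpr ht'.symm
  have h2 : Herm.frob hF' t - t ≠ 0 := sub_ne_zero.mpr ht'
  have h3 := sub_mem ht (map_mem_subfield hi ht)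
  refine max_un_subfield7 hF' hn hr hq P one_ne_zero hP (fun w _ hb hb' =>
    ⟨by simpa using hb', hermForm n F q (P.1.mulVec w) (P.1.mulVec w) * (t / (t - Herm.frob hF' t)),
      ?_, ?_⟩) (Or.inr ⟨hro, rfl, _, h3, h1, by simp [hi.invol]⟩)
  · simpa using mul_mem hb' (div_mem ht h3)
  · rw [map_mul, map_div₀, map_sub, hi.invol, hb]
    field_simp
    ring

theorem utab_orth (hodd : Odd q) (F₀ : Subfield F) (P : GL (Fin n) F)
    (hcard : Fintype.card F = Nat.card F₀ ^ 2)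
    (hP : Geo.IsFormRationalStructure (hermForm n F q) F₀ 1 P) :
    Geo.IsMaximalIn (GU n F q ⊓ Geo.specialLinear (Fin n) F)
      (Geo.subfieldSubgroup F₀ P ⊓ (GU n F q ⊓ Geo.specialLinear (Fin n) F)) := by
  have hF' := Herm.natCard_of_card hF
  have h2 : (2 : F) ≠ 0 := Orth.two_ne_zero_of_odd (hF ▸ hodd.pow)
  refine max_un_subfield7 hF' hn Nat.prime_two (Nat.card_eq_fintype_card.trans hcard) P
    one_ne_zero hP (fun w _ hb hb' => ⟨by simpa using hb',
      hermForm n F q (P.1.mulVec w) (P.1.mulVec w) / 2, ?_, ?_⟩) (Or.inl rfl)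
  · simpa using div_mem hb' (natCast_mem F₀ 2)
  · rw [map_div₀, hb, map_ofNat]
    field_simp
    ring

theorem utab_sp (F₀ : Subfield F) (P : GL (Fin n) F) (ζ : F)
    (hcard : Fintype.card F = Nat.card F₀ ^ 2) (hζ0 : ζ ≠ 0) (_ : ζ + ζ ^ q = 0)
    (hP : Geo.IsFormRationalStructure (hermForm n F q) F₀ ζ P)
    (halt : ∀ u : Fin n → F, (∀ i, u i ∈ F₀) → hermForm n F q (P.1.mulVec u) (P.1.mulVec u) = 0) :
    Geo.IsMaximalIn (GU n F q ⊓ Geo.specialLinear (Fin n) F)
      (Geo.subfieldSubgroup F₀ P ⊓ (GU n F q ⊓ Geo.specialLinear (Fin n) F)) :=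
  max_un_subfield7 (Herm.natCard_of_card hF) hn Nat.prime_two
    (Nat.card_eq_fintype_card.trans hcard) P hζ0 hP (fun w hw _ _ =>
      ⟨by simp [halt w hw], 0, by simp, by simp [halt w hw]⟩) (Or.inl rfl)

end Cfsg.Agent.Max
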