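import Mathlib
import Cfsg.Agent.Max.UW2
import Cfsg.Agent.Max3.TWSL

/-!
# Overgroups of `1 ⊗ SU(W)`: finding transvections
-/

set_option autoImplicit false
set_option linter.unusedSectionVars false

namespace Cfsg.Agent.Max

open Module Cfsg.Agent.Max2 Cfsg.Agent.Max3 TensorProduct Cfsg.Agent.Herm Function

section Ring

variable {F V : Type*} [Field F] [AddCommGroup V] [Module F V] {M : Subgroup (V ≃ₗ[F] V)}
  {N N' : Module.End F V}

theorem R_bracket (h : R M N) (h' : R M N') (e : N * N = 0) (e' : N' * N' = 0)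
    (f : N * N' * N = 0) (f' : N' * N * N' = 0) : R M (N * N' - N' * N) := by
  have h1 := R_conj h' h e
  obtain ⟨a, ha, ea⟩ := h1
  obtain ⟨b, hb, eb⟩ := R.neg h' (LinearMap.congr_fun e')
  refine ⟨a * b, M.mul_mem ha hb, fun x => ?_⟩
  have : (1 + (1 + N) * N' * (1 - N)) * (1 + -N') = 1 + (N * N' - N' * N) := by
    have : (1 + (1 + N) * N' * (1 - N)) * (1 + -N') = 1 + (N * N' - N' * N) - N * N' * N * (1 - N')
        - (1 + N) * (N' * N') + N' * N * N' := by noncomm_ring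
    rw [this, f, e', f']; simp
  rw [← coe_eq_one_add ea, ← coe_eq_one_add eb] at this
  exact LinearMap.congr_fun this x

end Ring

variable {F U W : Type*} [Field F] [AddCommGroup U] [Module F U] [AddCommGroup W] [Module F W]
  {σ : F →+* F} {β : W →ₛₗ[σ] W →ₗ[F] F} {M : Subgroup ((U ⊗[F] W) ≃ₗ[F] (U ⊗[F] W))}
  {g : (U ⊗[F] W) ≃ₗ[F] (U ⊗[F] W)} {γ : Module.End F (U ⊗[F] W)}

theorem coe_cj_iW (g : (U ⊗[F] W) ≃ₗ[F] (U ⊗[F] W)) (b : W ≃ₗ[F] W) :
    (g * iW U b * g⁻¹).toLinearMap = rh g b.toLinearMap :=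
  ext_g g fun u w => by simp [rh_tmul, LinearEquiv.coe_inv]

theorem R_cj {N : Module.End F (U ⊗[F] W)} (h : R M N) {b : W ≃ₗ[F] W}
    (hb : g * iW U b * g⁻¹ ∈ M) : R M (rh g b.toLinearMap * N * rh g b.symm.toLinearMap) :=
  h.conj' hb fun x => by
    rw [← LinearEquiv.coe_coe, coe_cj_iW, ← Module.End.mul_apply, mul_assoc, ← map_mul,
      show b.symm.toLinearMap * b.toLinearMap = 1 from LinearMap.ext b.symm_apply_apply, map_one,
      mul_one, Module.End.mul_apply]

theorem ca_smul (h : CA g γ) (c : F) : CA g (c • γ) := fun x => (h x).smul_left c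

/-- The additive span of the maps `β(w, ·) w` with `w` isotropic. -/
def HS (β : W →ₛₗ[σ] W →ₗ[F] F) : AddSubmonoid (Module.End F W) :=
  AddSubmonoid.closure {x | ∃ w, β w w = 0 ∧ x = r1 (β w) w}

theorem mem_HS {w : W} (h : β w w = 0) : r1 (β w) w ∈ HS β := AddSubmonoid.subset_closure ⟨w, h, rfl⟩

/-- The map `β(v, ·) w + β(w, ·) v`. -/
abbrev mm (β : W →ₛₗ[σ] W →ₗ[F] F) (v w : W) : Module.End F W := r1 (β v) w + r1 (β w) v

theorem mm_mul {v v' w : W} (hw : β w w = 0) (h : β v w = 0) (h' : β w v' = 0) :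
    mm β v w * mm β v' w = β v v' • r1 (β w) w := by
  simp [add_mul, mul_add, r1_mul, hw, h, h']

variable [FiniteDimensional F W] [Finite F] (hW : HF β)
include hW

theorem smul_HS {c : F} (hc : σ c = c) {x : Module.End F W} (h : x ∈ HS β) : c • x ∈ HS β := by
  obtain ⟨μ, rfl⟩ := hW.toInv.exists_norm hc
  induction h using AddSubmonoid.closure_induction with
  | mem x hx =>
    obtain ⟨w, hw, rfl⟩ := hx
    convert mem_HS (β := β) (w := μ • w) (by simp [hw]) using 1
    ext x; simp [smul_smul, mul_comm, mul_left_comm, mul_assoc]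
  | zero => simp
  | add x y _ _ hx hy => rw [smul_add]; exact add_mem hx hy

theorem mm_HS {v w : W} (hw0 : w ≠ 0) (hw : β w w = 0) (hv : β w v = 0) : mm β v w ∈ HS β := by
  obtain ⟨c, hc0, hc⟩ := hW.toInv.exists_skew
  have hc' : σ c = -c := eq_neg_of_add_eq_zero_right hc
  have k : ∀ x, β x x = 0 → β w x = 1 → mm β x (c • w) ∈ HS β := fun x hx e => by
    convert add_mem (add_mem (mem_HS (β := β) (w := x + c • w) (by
      simp [hx, e, hW.one_symm e, hw, hc'])) (smul_HS hW (c := -1) (by simp) (mem_HS hx)))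
      (smul_HS hW (c := c * c) (by simp [hc']) (mem_HS hw)) using 1
    ext y; simp [hc', add_smul]; module
  obtain ⟨f, hf, hf0⟩ := hW.exists_hyp hw0 hw
  obtain ⟨a, ha⟩ := hW.exists_iso_sub hw (x := f + (-c⁻¹) • v) (by simp [hf, hv])
  convert add_mem (add_mem (k _ ha (by simp [hf, hv, hw])) (smul_HS hW (c := -1) (by simp)
    (k f hf0 hf))) (smul_HS hW (c := σ a * c - a * c) (by simp [hc', hW.invol]; ring)
      (mem_HS hw)) using 1
  ext y
  simp only [LinearMap.add_apply, LinearMap.smulRight_apply, LinearMap.smul_apply, b_smul_left,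
    b_add_left, b_sub_left, hc', map_neg, map_inv₀]
  match_scalars <;> field_simp <;> ring

theorem sandwich_su (hn : 3 ≤ finrank F W) (P : Module.End F (U ⊗[F] W) → Prop)
    (hsub : ∀ a b, P a → P b → P (a - b))
    (hcj : ∀ b ∈ SUG β, ∀ a, P a → P (rh g b.1.toLinearMap * a * rh g b.1.symm.toLinearMap))
    (hγ : P γ) {u : W} (hu0 : u ≠ 0) (hu : β u u = 0) :
    ∃ c : F, c ≠ 0 ∧ P (c • (rh g (r1 (β u) u) * γ * rh g (r1 (β u) u))) := by
  obtain ⟨c, hc0, hc⟩ := hW.toInv.exists_skew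
  obtain ⟨f, hf, hf0⟩ := hW.exists_hyp hu0 hu
  obtain ⟨v, v1, -, v2⟩ := exists_perp_norm hW hn hu hf0 (by simp [hf]) (map_one σ)
  obtain ⟨θ, hθ⟩ := hW.ne
  have e1 : (hW.qr u c).1.toLinearMap = 1 + c • r1 (β u) u := LinearMap.ext fun x => by
    simp [hW.tv_apply hu hc, smul_smul]
  have e2 : (hW.qr u c).1.symm.toLinearMap = 1 - c • r1 (β u) u := LinearMap.ext fun x => by
    simp [LinearEquiv.symm_apply_eq, hW.tv_apply hu hc, smul_smul, hu]
  have k : ∀ v, β u v = 0 → ∃ b ∈ SUG β, ∃ l m : F,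
      b.1.toLinearMap = 1 + (r1 (β v) u - l • r1 (β u) u - r1 (β u) v) ∧
      b.1.symm.toLinearMap = 1 + (r1 (β u) v - m • r1 (β u) u - r1 (β v) u) := fun v hv => by
    obtain ⟨l, hl⟩ := hW.toInv.exists_trace (hW.fix v)
    refine ⟨_, hW.eich_mem_SUG u v l, l, σ l, LinearMap.ext fun x => ?_, LinearMap.ext fun x => ?_⟩
    · simp [hW.eich_apply hu hv hl]; module
    · have := congrArg (fun y : UG β => y.1 x) (hW.eich_inv hu hv hl)
      refine this.trans ?_
      simp [hW.eich_apply hu (v := -v) (l := σ l) (by simp [hv]) (by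
        simp [hW.invol, ← hl, add_comm])]
      module
  obtain ⟨b₁, hb₁, l₁, m₁, p1, q1⟩ := k v v1
  obtain ⟨b₂, hb₂, l₂, m₂, p2, q2⟩ := k (θ • v) (by simp [v1])
  have k1 := hsub _ _ (hcj _ (hW.tv_mem_SUG hu c) _ hγ) hγ
  have k2 := hsub _ _ (hcj _ hb₁ _ k1) k1
  have k3 := hsub _ _ (hcj _ hb₂ _ k2) k2
  refine ⟨c * (σ θ - θ), mul_ne_zero hc0 (sub_ne_zero.2 hθ), ?_⟩
  convert k3 using 1
  have v3 := hW.zero_symm v1
  have a1 : (r1 (β v) u - l₁ • r1 (β u) u - r1 (β u) v) * r1 (β u) u = 0 := by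
    simp [sub_mul, r1_mul, hu, v3]
  have a2 : (r1 (β (θ • v)) u - l₂ • r1 (β u) u - r1 (β u) (θ • v)) * r1 (β u) u = 0 := by
    simp [sub_mul, r1_mul, hu, v3]
  have a3 : r1 (β u) u * (r1 (β u) v - m₁ • r1 (β u) u - r1 (β v) u) = 0 := by
    simp [mul_sub, r1_mul, hu, v1]
  have a4 : r1 (β u) u * (r1 (β u) (θ • v) - m₂ • r1 (β u) u - r1 (β (θ • v)) u) = 0 := by
    simp [mul_sub, r1_mul, hu, v1]
  have a5 : (r1 (β (θ • v)) u - l₂ • r1 (β u) u - r1 (β u) (θ • v)) *
      (r1 (β v) u - l₁ • r1 (β u) u - r1 (β u) v) = -σ θ • r1 (β u) u := by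
    simp [sub_mul, mul_sub, r1_mul, hu, v1, v2, v3]
  have a6 : (r1 (β u) v - m₁ • r1 (β u) u - r1 (β v) u) *
      (r1 (β u) (θ • v) - m₂ • r1 (β u) u - r1 (β (θ • v)) u) = -θ • r1 (β u) u := by
    simp [sub_mul, mul_sub, r1_mul, hu, v1, v2, v3]
  rw [e1, e2, p1, q1, p2, q2]
  generalize r1 (β v) u - l₁ • r1 (β u) u - r1 (β u) v = n₁ at *
  generalize r1 (β (θ • v)) u - l₂ • r1 (β u) u - r1 (β u) (θ • v) = n₂ at *
  generalize r1 (β u) v - m₁ • r1 (β u) u - r1 (β v) u = n₃ at *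
  generalize r1 (β u) (θ • v) - m₂ • r1 (β u) u - r1 (β (θ • v)) u = n₄ at *
  generalize r1 (β u) u = A at *
  replace a1 := congrArg (rh g) a1
  replace a2 := congrArg (rh g) a2
  replace a3 := congrArg (rh g) a3
  replace a4 := congrArg (rh g) a4
  replace a5 := congrArg (rh g) a5
  replace a6 := congrArg (rh g) a6
  simp only [map_mul, map_zero, map_smul, map_add, map_sub, map_one] at a1 a2 a3 a4 a5 a6 ⊢
  generalize rh g n₁ = n₁ at *
  generalize rh g n₂ = n₂ at *
  generalize rh g n₃ = n₃ at *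
  generalize rh g n₄ = n₄ at *
  generalize rh g A = A at *
  have f1 : (1 + c • A) * γ * (1 - c • A) - γ = c • (A * γ - γ * A) - (c * c) • (A * γ * A) := by
    simp only [mul_add, add_mul, mul_sub, sub_mul, mul_one, one_mul, smul_mul_assoc, mul_smul_comm]
    module
  have f2 : (1 + n₁) * (c • (A * γ - γ * A) - (c * c) • (A * γ * A)) * (1 + n₃) -
      (c • (A * γ - γ * A) - (c * c) • (A * γ * A)) = c • (A * γ * n₃ - n₁ * γ * A) := by
    have b1 : ∀ x, n₁ * (A * x) = 0 := fun x => by rw [← mul_assoc, a1, zero_mul]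
    simp only [mul_add, add_mul, mul_sub, sub_mul, mul_one, one_mul, smul_mul_assoc, mul_smul_comm,
      mul_assoc, a3, b1, mul_zero, smul_zero, sub_zero, zero_sub, add_zero, zero_add, smul_sub]
    module
  rw [f1, f2]
  have b2 : ∀ x, n₂ * (A * x) = 0 := fun x => by rw [← mul_assoc, a2, zero_mul]
  have b5 : ∀ x, n₂ * (n₁ * x) = -σ θ • (A * x) := fun x => by
    rw [← mul_assoc, a5, smul_mul_assoc]
  simp only [mul_add, add_mul, mul_sub, sub_mul, mul_one, one_mul, smul_mul_assoc, mul_smul_comm,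
    mul_assoc, a4, b2, b5, a6, mul_zero, smul_zero, sub_zero, zero_sub, add_zero, zero_add, smul_sub]
  module

theorem ca_of_iso (hn : 2 ≤ finrank F W)
    (h : ∀ u, β u u = 0 → rh g (r1 (β u) u) * γ * rh g (r1 (β u) u) = 0) : CA g γ := by
  refine ca_of_lines fun u w => ?_
  by_cases hw : w = 0
  · simp [hw]
  refine mem_im.2 (mem_LW_of hw fun φ hφ => eq_zero_of_dual (F := F) fun τ => ?_)
  obtain ⟨c, hc⟩ := scalar_of_iso hW hn (γ := cU W τ ∘ₗ g.symm.toLinearMap ∘ₗ γ ∘ₗ g.toLinearMap ∘ₗ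
    TensorProduct.mk F U W u) fun n hn => by
    by_cases h0 : n = 0
    · simp [h0]
    obtain ⟨f, hf, -⟩ := hW.exists_hyp h0 hn
    have := LinearMap.congr_fun (h n hn) (g (u ⊗ₜ f))
    simp only [Module.End.mul_apply, rh_tmul, LinearMap.smulRight_apply, hf, one_smul,
      LinearMap.zero_apply] at this
    rw [rh_r1, g.map_eq_zero_iff] at this
    have := tmul_left_inj (F := F) h0 (this.trans (zero_tmul _ n).symm)
    simp [dual_cU, this]
  rw [← dual_cU, show cU W τ (g.symm (γ (g (u ⊗ₜ w)))) = c • w from LinearMap.congr_fun hc w,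
    map_smul, hφ, smul_zero]

theorem all_of_one_su (hn : 3 ≤ finrank F W) (hH : ∀ b ∈ SUG β, g * iW U b.1 * g⁻¹ ∈ M)
    (hγ : CA g γ) {w : W} (hw0 : w ≠ 0) (hw : β w w = 0) (h : R M (γ * rh g (r1 (β w) w)))
    {w' : W} (hw' : β w' w' = 0) : R M (γ * rh g (r1 (β w') w')) := by
  by_cases h0 : w' = 0
  · exact R.zero.congr fun x => by simp [h0, r1]
  obtain ⟨b, hb, rfl⟩ := hW.SUG_trans_iso hn hw0 h0 hw hw'
  convert R_cj h (hH b hb) using 1
  rw [← mul_assoc, ← (hγ _).eq, mul_assoc, mul_assoc, ← map_mul, ← map_mul]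
  congr 2
  ext x
  simp [UG_symm b.2]

theorem span_nonperp {b : W} (hb0 : b ≠ 0) (hb : β b b = 0) :
    Submodule.span F {a | β a a = 0 ∧ β a b ≠ 0} = ⊤ := by
  set S := Submodule.span F {a | β a a = 0 ∧ β a b ≠ 0}
  obtain ⟨f, hf, hf0⟩ := hW.exists_hyp hb0 hb
  obtain ⟨c, hc0, hc⟩ := hW.toInv.exists_skew
  have hf' := hW.one_symm hf
  have h1 : f ∈ S := Submodule.subset_span ⟨hf0, by simp [hf']⟩
  have h2 : b ∈ S := (S.smul_mem_iff hc0).1 ((S.add_mem_iff_right h1).1 (Submodule.subset_span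
    ⟨by simpa [hf0, hf, hf', hb] using hc, by simp [hf', hb]⟩))
  have h3 : ∀ x, β b x ≠ 0 → x ∈ S := fun x hx => by
    obtain ⟨a, ha⟩ := hW.exists_iso_sub hb hx
    simpa using S.add_mem (Submodule.subset_span (s := {a | β a a = 0 ∧ β a b ≠ 0})
      ⟨ha, by simpa [hb, hW.zero_iff (x := x)] using hx⟩) (S.smul_mem a h2)
  refine eq_top_iff.2 fun x _ => ?_
  by_cases hx : β b x = 0
  · exact (S.add_mem_iff_right h1).1 (h3 _ (by simp [hf, hx]))
  · exact h3 x hx

omit hW [Finite F] [FiniteDimensional F W] in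
theorem span_pt {I : Type} [DecidableEq I] [Finite I] (T : TP I F U W) {i : I} (hi : T.s i = 1)
    {G : I → Set W} (hG : ∀ l, Submodule.span F (G l) = ⊤) {w : W} (hw : w ≠ 0)
    {Z : Submodule F (U ⊗[F] W)} (h : ∀ a, (∀ l, a l ∈ G l) → T.pt (update a i w) ∈ Z) :
    LW F U w ≤ Z := by
  obtain ⟨χ, hχ⟩ := exists_dual_one (F := F) hw
  have h1 : (Z.mkQ ∘ₗ rh (T.s i) (r1 χ w)).compMultilinearMap T.pt = 0 :=
    MultilinearMap.ext_of_span_eq_top (g := fun l (x : G l) => x.1) (fun l => by simpa using hG l)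
      fun a => by
        simpa [T.rh_pt, T.pt.map_update_smul] using Or.inr (h (fun l => a l) fun l => (a l).2)
  rintro _ ⟨u, rfl⟩
  have := T.mem_of_pt (S := Z.comap (rh (T.s i) (r1 χ w))) (fun ws => by
    simpa using congrArg (fun f => f ws) h1) (u ⊗ₜ w)
  simpa [hi, rh_one_tmul, hχ] using this

section Power

variable {I : Type} [DecidableEq I] [Fintype I] {T : TP I F U W}

/-- `M` contains the elements `1 + γ ⊗ n_S`. -/
def PU (β : W →ₛₗ[σ] W →ₗ[F] F) (T : TP I F U W) (M : Subgroup ((U ⊗[F] W) ≃ₗ[F] (U ⊗[F] W)))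
    (S : Finset I) (γ : Module.End F (U ⊗[F] W)) : Prop :=
  (∀ j ∈ S, CA (T.s j) γ) ∧
    ∀ w, (∀ j ∈ S, β (w j) (w j) = 0) → R M (γ * SL.nS T S (fun j => β (w j)) w)

variable (hn : 3 ≤ finrank F W) (hH : ∀ i, ∀ b ∈ SUG β, T.s i * iW U b.1 * (T.s i)⁻¹ ∈ M)
include hn hH

theorem PU.step {S : Finset I} (h : PU β T M S γ) {i j : I} (hi : i ∈ S) (hj : j ∉ S)
    (hc : ¬ CA (T.s j) γ) : ∃ γ', γ' ≠ 0 ∧ PU β T M (insert j S) γ' := by
  obtain ⟨w, h0, h1⟩ : ∃ w : W, β w w = 0 ∧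
      rh (T.s j) (r1 (β w) w) * γ * rh (T.s j) (r1 (β w) w) ≠ 0 := by
    by_contra hn'; push Not at hn'; exact hc (ca_of_iso hW (by omega) hn')
  have hw : w ≠ 0 := by rintro rfl; simp [r1] at h1
  have hφ : β w ≠ 0 := fun e => by simp [r1, e] at h1
  have c1 : ∀ l ∈ S, ∀ x, CA (T.s l) (rh (T.s j) x) := fun l hl =>
    T.com j l (by rintro rfl; exact hj hl)
  have c2 : ∀ φ w, CA (T.s j) (SL.nS T S φ w) := fun φ w => T.ca_PM (by simp [hj])
  obtain ⟨c, hc0, h2⟩ := sandwich_su hW hn (PU β T M S) (fun a b ha hb =>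
    ⟨fun l hl => (ha.1 l hl).sub (hb.1 l hl), fun w e => by
      have k : ∀ a b, PU β T M S b → a * SL.nS T S (fun j => β (w j)) w *
          (b * SL.nS T S (fun j => β (w j)) w) = 0 := fun a b hb => by
        rw [mul_assoc, ← mul_assoc _ b, ← (SL.nS_comm T hb.1 _ w).eq, mul_assoc,
          SL.nS_mul T hi hi (e i hi), mul_zero, mul_zero]
      rw [sub_mul]
      exact R_sub (ha.2 w e) (hb.2 w e) (k b b hb) (k a b hb)⟩)
    (fun b hb a ha => ⟨fun l hl => ((c1 l hl _).mul (ha.1 l hl)).mul (c1 l hl _), fun w e => by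
      have := R_cj (ha.2 w e) (hH j b hb)
      rwa [mul_assoc, mul_assoc a, (c2 _ w _).eq, ← mul_assoc, ← mul_assoc] at this⟩) h hw h0
  obtain ⟨γ', k1, -, k2⟩ := exists_sand (T.s j) γ (β w) w
  rw [k2] at h1 h2
  rw [← smul_mul_assoc] at h2
  replace k1 := ca_smul k1 c
  have h3 : c • γ' ≠ 0 := smul_ne_zero hc0 (by rintro rfl; simp at h1)
  generalize c • γ' = γ' at h2 k1 h3
  refine ⟨γ', h3, fun l hl => ?_, fun w' e => ?_⟩
  · rcases Finset.mem_insert.1 hl with rfl | hl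
    · exact k1
    intro x
    have c3 := (c1 l hl (r1 (β w) w) x).symm
    refine sub_eq_zero.1 (((k1.mul ((T.com j l (by rintro rfl; exact hj hl)).symm x)).sub
      (((T.com j l (by rintro rfl; exact hj hl)).symm x).mul k1)).eq_zero (r1_ne hφ hw) ?_)
    rw [sub_mul, mul_assoc, c3.eq, ← mul_assoc, (h2.1 l hl x).eq, mul_assoc, sub_self]
  have := h2.2 w' fun l hl => e l (Finset.mem_insert_of_mem hl)
  rw [mul_assoc, ← (c2 _ _ _).eq, ← mul_assoc] at this
  have := all_of_one_su hW hn (hH j) (k1.mul (c2 _ _)) hw h0 this (e j (Finset.mem_insert_self _ _))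
  rwa [SL.nS_insert T hj, ← (c2 _ _ _).eq, ← mul_assoc]

omit hW hn hH [Finite F] [FiniteDimensional F W] in
theorem PU.ext {S : Finset I} {c : F} (h : PU β T M S (c • 1)) {i : I} (x : I → Module.End F W)
    (h1 : ∃ w, β w w = 0 ∧ x i = r1 (β w) w) (h2 : ∀ j ∈ S, x j ∈ HS β) (h3 : ∀ j ∉ S, x j = 1) :
    R M (c • T.PM x) := by
  have key : ∀ C : Finset I, ∀ x : I → Module.End F W, (∃ w, β w w = 0 ∧ x i = r1 (β w) w) →
      (∀ j ∈ S, x j ∈ HS β) → (∀ j ∈ S, j ∉ C → ∃ w, β w w = 0 ∧ x j = r1 (β w) w) →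
      (∀ j ∉ S, x j = 1) → R M (c • T.PM x) := by
    intro C
    induction C using Finset.induction_on with
    | empty =>
      intro x _ _ h2 h3
      simp only [Finset.notMem_empty, not_false_eq_true, forall_const] at h2
      choose! w hw hw' using h2
      have := h.2 w hw
      rw [smul_mul_assoc, one_mul, SL.nS] at this
      convert this using 3
      funext j
      by_cases hj : j ∈ S <;> simp [hj, hw', h3]
    | insert l C hl ih =>
      intro x h1 h2 h4 h3
      by_cases hl' : l ∈ S ∧ l ≠ i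
      swap
      · refine ih x h1 h2 (fun j hj hj' => ?_) h3
        by_cases e : j = l
        · subst e
          rw [show j = i by simpa [hj] using hl']; exact h1
        · exact h4 j hj (by simp [e, hj'])
      have k : ∀ y ∈ HS β, R M (c • T.PM (update x l y)) := fun y hy => by
        induction hy using AddSubmonoid.closure_induction with
        | mem y hy =>
          refine ih _ (by rwa [update_of_ne hl'.2.symm]) (fun j hj => ?_) (fun j hj hj' => ?_)
            fun j hj => by rw [update_of_ne (by rintro rfl; exact hj hl'.1), h3 j hj]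
          · by_cases e : j = l
            · subst e; rw [update_self]; exact AddSubmonoid.subset_closure hy
            · simpa [e] using h2 j hj
          · by_cases e : j = l
            · subst e; simpa using hy
            · simpa [e] using h4 j hj (by simp [e, hj'])
        | zero => rw [T.PM_zero (i := l) (by simp), smul_zero]; exact R.zero
        | add y z _ _ hy hz =>
          obtain ⟨w, hw, e⟩ := h1
          convert R_add hy hz (by
            rw [smul_mul_smul_comm, ← T.PM_mul, T.PM_zero (i := i) (by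
              simp [update_of_ne hl'.2.symm, e, r1_mul, hw]), smul_zero]) using 1
          rw [← smul_add]
          congr 1
          refine T.ext fun ws => ?_
          simp only [LinearMap.add_apply, T.PM_pt, apply_update fun j (y : Module.End F W) => y (ws j),
            T.pt.map_update_add]
      simpa using k _ (h2 l hl'.1)
  exact key Finset.univ x h1 h2 (by simp) h3

omit hW hn hH [FiniteDimensional F W] [Finite F] in
theorem PU.perm {S : Finset I} {c : F} (h : PU β T M S (c • 1)) {τ : Equiv.Perm I}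
    (hτ : T.PP τ ∈ M) : PU β T M (S.map τ.toEmbedding) (c • 1) :=
  ⟨fun _ _ => ca_smul CA.one c, fun w e => by
  have := (h.2 (w ∘ τ) fun j hj => e _ (Finset.mem_map_of_mem _ hj)).conj hτ
  rw [smul_mul_assoc, one_mul] at this ⊢
  rw [LinearMap.smul_comp, LinearMap.comp_smul] at this
  convert this using 2
  change _ = cjm _ _
  rw [SL.nS, SL.nS, T.cjm_PP]
  congr 1
  funext j
  simp [Finset.mem_map_equiv]⟩

omit hH in
theorem PU.union {S S' : Finset I} {c : F} (hc : c ≠ 0) (h : PU β T M S (c • 1))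
    (h' : PU β T M S' (c • 1)) {i j k : I} (hi : i ∈ S) (hi' : i ∉ S') (hj : j ∉ S) (hj' : j ∈ S')
    (hk : k ∈ S) (hk' : k ∈ S') : ∃ c' : F, c' ≠ 0 ∧ PU β T M (S ∪ S') (c' • 1) := by
  obtain ⟨θ, hθ⟩ := hW.ne
  refine ⟨c * c * (θ - σ θ), by simp [hc, sub_eq_zero, hθ.symm], fun _ _ => ca_smul CA.one _,
    fun w e => ?_⟩
  by_cases h0 : ∃ l ∈ S ∪ S', w l = 0
  · obtain ⟨l, hl, h0⟩ := h0
    rw [SL.nS, T.PM_zero (i := l) (by simp [hl, h0, r1]), mul_zero]; exact R.zero
  push Not at h0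
  have : ∀ l ∈ S ∪ S', ∃ v, β (w l) v = 0 ∧ β v v = 1 := fun l hl => by
    obtain ⟨f, hf, hf0⟩ := hW.exists_hyp (h0 l hl) (e l hl)
    obtain ⟨v, v1, -, v2⟩ := exists_perp_norm hW hn (e l hl) hf0 (by simp [hf]) (map_one σ)
    exact ⟨v, v1, v2⟩
  choose! v v1 v2 using this
  let d : I → F := update 1 k θ
  let x : I → Module.End F W := fun l =>
    if l ∈ S then if l ∈ S' then mm β (v l) (w l) else r1 (β (w l)) (w l) else 1
  let x' : I → Module.End F W := fun l =>
    if l ∈ S' then if l ∈ S then mm β (d l • v l) (w l) else r1 (β (w l)) (w l) else 1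
  have m1 : ∀ l ∈ S, l ∈ S ∪ S' := fun l => Finset.mem_union_left _
  have m2 : ∀ l ∈ S', l ∈ S ∪ S' := fun l => Finset.mem_union_right _
  have a1 := h.ext (i := i) x ⟨w i, e i (m1 i hi), by simp [x, hi, hi']⟩ (fun l hl => by
    simp only [x, hl, if_true]
    split_ifs
    exacts [mm_HS hW (h0 l (m1 l hl)) (e l (m1 l hl)) (v1 l (m1 l hl)), mem_HS (e l (m1 l hl))])
    fun l hl => by simp [x, hl]
  have a2 := h'.ext (i := j) x' ⟨w j, e j (m2 j hj'), by simp [x', hj, hj']⟩ (fun l hl => by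
    simp only [x', hl, if_true]
    split_ifs
    exacts [mm_HS hW (h0 l (m2 l hl)) (e l (m2 l hl)) (by simp [v1 l (m2 l hl)]),
      mem_HS (e l (m2 l hl))]) fun l hl => by simp [x', hl]
  have d1 : ∀ l, l ∉ S ∨ l ∉ S' → d l = 1 := fun l hl =>
    update_of_ne (by rintro rfl; simp [hk, hk'] at hl) _ _
  have b1 : x * x' = fun l => d l • if l ∈ S ∪ S' then r1 (β (w l)) (w l) else 1 := funext fun l => by
    by_cases b1 : l ∈ S <;> by_cases b2 : l ∈ S'
    · simp only [x, x', b1, b2, if_true, Pi.mul_apply, m1 l b1]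
      rw [mm_mul (e l (m1 l b1)) (hW.zero_symm (v1 l (m1 l b1))) (by simp [v1 l (m1 l b1)])]
      simp [v2 l (m1 l b1)]
    all_goals simp [x, x', b1, b2, d1 l]
  have b2 : x' * x = fun l => σ (d l) • if l ∈ S ∪ S' then r1 (β (w l)) (w l) else 1 :=
    funext fun l => by
    by_cases b1 : l ∈ S <;> by_cases b2 : l ∈ S'
    · simp only [x, x', b1, b2, if_true, Pi.mul_apply, m1 l b1]
      rw [mm_mul (e l (m1 l b1)) (by simp [hW.zero_symm (v1 l (m1 l b1))]) (v1 l (m1 l b1))]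
      simp [v2 l (m1 l b1)]
    all_goals simp [x, x', b1, b2, d1 l]
  have d2 : ∏ l, d l = θ := by simp [d, Finset.prod_update_of_mem]
  convert R_bracket a1 a2 ?_ ?_ ?_ ?_ using 1
  · simp only [mul_smul_comm, ← T.PM_mul, b1, b2, T.PM_smul, ← map_prod, d2, smul_mul_assoc,
      one_mul, SL.nS]
    module
  all_goals simp only [smul_mul_smul_comm, ← T.PM_mul]
  · rw [T.PM_zero (i := i) (by simp [x, hi, hi', r1_mul, e i (m1 i hi)]), smul_zero]
  · rw [T.PM_zero (i := j) (by simp [x', hj, hj', r1_mul, e j (m2 j hj')]), smul_zero]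
  · rw [T.PM_zero (i := i) (by simp [x, x', hi, hi', r1_mul, e i (m1 i hi)]), smul_zero]
  · rw [T.PM_zero (i := j) (by simp [x, x', hj, hj', r1_mul, e j (m2 j hj')]), smul_zero]

theorem PU.univ
    (hP : ∀ i j k : I, i ≠ j → k ≠ j → T.PP (Equiv.swap i j * Equiv.swap j k) ∈ M) (n : ℕ) :
    ∀ S : Finset I, Fintype.card I - S.card = n → 2 ≤ S.card → ∀ γ, γ ≠ 0 → PU β T M S γ →
      ∃ c : F, c ≠ 0 ∧ PU β T M Finset.univ (c • 1) := by
  have : Nontrivial W := Module.nontrivial_of_finrank_pos (R := F) (by omega)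
  induction n using Nat.strong_induction_on with
  | _ n ih =>
  intro S hS h2 γ h0 h
  obtain ⟨i, hi, i', hi', hii⟩ := Finset.one_lt_card.1 h2
  have lt : ∀ S' : Finset I, S ⊂ S' → ∀ γ, γ ≠ 0 → PU β T M S' γ →
      ∃ c : F, c ≠ 0 ∧ PU β T M Finset.univ (c • 1) :=
    fun S' hS' => ih _ (by
      have := Finset.card_lt_card hS'
      have := Finset.card_le_univ S'
      omega) S' rfl (h2.trans (Finset.card_le_card hS'.1))
  by_cases hc : ∃ j ∉ S, ¬ CA (T.s j) γ
  · obtain ⟨j, hj, hc⟩ := hc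
    obtain ⟨γ', k1, k2⟩ := h.step hW hn hH hi hj hc
    exact lt _ (Finset.ssubset_insert hj) _ k1 k2
  push Not at hc
  obtain ⟨c, rfl⟩ := T.cent γ fun j => by
    by_cases hj : j ∈ S
    exacts [h.1 j hj, hc j hj]
  have hc0 : c ≠ 0 := by rintro rfl; simp at h0
  by_cases hu : S = Finset.univ
  · exact ⟨c, hc0, hu ▸ h⟩
  obtain ⟨j, hj⟩ : ∃ j, j ∉ S := by
    by_contra hn'; push Not at hn'; exact hu (Finset.eq_univ_of_forall hn')
  have hij : i ≠ j := by rintro rfl; exact hj hi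
  have hij' : i' ≠ j := by rintro rfl; exact hj hi'
  have hj' : j ∈ S.map (Equiv.swap i' j * Equiv.swap j i).toEmbedding := Finset.mem_map.2
    ⟨i', hi', by simp [Equiv.swap_apply_of_ne_of_ne hij' hii.symm]⟩
  obtain ⟨c', k1, k2⟩ := h.union hW hn hc0 (h.perm (hP i' j i hij' hij)) hi (by
    rw [Finset.mem_map_equiv, ← Equiv.Perm.inv_def]
    simpa [Equiv.swap_apply_of_ne_of_ne hii hij] using hj) hj hj' hi'
    (Finset.mem_map.2 ⟨i, hi, by simp⟩)
  exact lt _ (Finset.ssubset_iff_of_subset Finset.subset_union_left |>.2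
    ⟨j, Finset.mem_union_right _ hj', hj⟩) _ (fun e => h0 (by
      rw [← mul_one (c • 1), ← inv_smul_smul₀ k1 1, e]; simp)) k2

end Power

end Cfsg.Agent.Max
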