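import Mathlib
import Cfsg.Agent.Max.UW3

/-!
# Maximality of the stabiliser of a tensor power decomposition in `SU`
-/

set_option autoImplicit false
set_option linter.unusedSectionVars false

namespace Cfsg.Agent.Max

open Module Cfsg.Agent.Max2 Cfsg.Agent.Max3 TensorProduct Cfsg.Agent.Herm Function

variable {F U W : Type*} [Field F] [AddCommGroup U] [Module F U] [AddCommGroup W] [Module F W]
  {σ : F →+* F}

namespace UW

variable {p : U →ₛₗ[σ] U →ₗ[F] F} {β : W →ₛₗ[σ] W →ₗ[F] F}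
  {B : U ⊗[F] W →ₛₗ[σ] U ⊗[F] W →ₗ[F] F} {M : Subgroup ((U ⊗[F] W) ≃ₗ[F] (U ⊗[F] W))}
  (h : UW p β B M) [FiniteDimensional F U] [FiniteDimensional F W] [Finite F]
include h

theorem le_of_all (all : ∀ m v, p m m = 0 → β v v = 0 → UT h.hB (M.subgroupOf (UG B)) (m ⊗ₜ v)) :
    SUG B ≤ M.subgroupOf (UG B) := by
  set M' := M.subgroupOf (UG B)
  have hB := h.hB
  let ιW : UG β → UG B := fun b => ⟨TensorProduct.congr 1 b.1,
    h.congr_mem (μ := 1) (by simp) (by simp)⟩
  have mW : ∀ {b : UG β}, b ∈ SUG β → ιW b ∈ M' := fun hb => h.memW hb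
  have aW : ∀ b u v, (ιW b).1 (u ⊗ₜ v) = u ⊗ₜ b.1 v := fun _ _ _ => rfl
  obtain ⟨s, hs0, hs⟩ := h.hU.toInv.exists_skew
  have hs' : σ s = -s := eq_neg_of_add_eq_zero_right hs
  have a1 : ∀ n w w₁, p n n = 0 → β w w = 0 → β w₁ w₁ = 0 → β w w₁ = 1 →
      n ⊗ₜ w₁ ∈ UA hB M' (n ⊗ₜ w) := fun n w w₁ hn hw hw₁ e => by
    have t1 := (all n (s⁻¹ • w₁) hn (by simp [hw₁])).2 (-s)
    have t2 := (all n (s⁻¹ • w₁ - w) hn (by
      simp [hw, hw₁, e, h.hW.one_symm e, hs', inv_neg])).2 s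
    refine ⟨by simp [h.pure, hn], -s, by simp [h.pure, hn, hs'], ?_⟩
    convert M'.mul_mem t1 t2 using 1
    refine UG.ext fun x => ?_
    rw [UG.mul_apply, hB.eich_apply (by simp [h.pure, hn]) (by simp [h.pure, hn])
      (by simp [h.pure, hn, hs']), hB.tv_apply (by simp [h.pure, hn]) (by simp [hs']),
      hB.tv_apply (by simp [h.pure, hn, tmul_sub]) hs]
    simp only [tmul_sub, tmul_smul, map_add, map_sub, map_smul, b_smul_left, LinearMap.sub_apply,
      h.pure, hn, hs', map_inv₀, smul_eq_mul]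
    match_scalars <;> field_simp <;> ring
  have a2 : ∀ n w v, p n n = 0 → β w w = 0 → w ≠ 0 → β w v = 0 →
      n ⊗ₜ v ∈ UA hB M' (n ⊗ₜ w) := fun n w v hn hw hw0 e => by
    obtain ⟨f, hf, hf0⟩ := h.hW.exists_hyp hw0 hw
    obtain ⟨a, ha⟩ := h.hW.exists_iso_sub hw (x := f + v) (by simp [hf, e])
    have := add_mem (sub_mem (a1 n w _ hn hw ha (by simp [hf, e, hw])) (a1 n w f hn hw hf0 hf))
      (UA.self (u := n ⊗ₜ w) (by simp [h.pure, hn]) a)
    convert this using 1
    simp only [tmul_sub, tmul_add, tmul_smul]; abel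
  have mv : ∀ {x y : U ⊗[F] W} {g : UG B}, g ∈ M' → g.1 x = x → y ∈ UA hB M' x →
      g.1 y - y ∈ UA hB M' x := fun hg e hy => sub_mem (UA.map_fix hy hg e) hy
  have a3 : ∀ n w u v, p n n = 0 → n ≠ 0 → β w w = 0 → w ≠ 0 → β w v = 0 →
      u ⊗ₜ v ∈ UA hB M' (n ⊗ₜ w) := fun n w u v hn hn0 hw hw0 e => by
    obtain ⟨f, hf, hf0⟩ := h.hW.exists_hyp hw0 hw
    have b1 : ∀ m v, p m m = 0 → p m n ≠ 0 → β w v = 0 → β f v = 0 →
        m ⊗ₜ v ∈ UA hB M' (n ⊗ₜ w) := fun m v hm hmn e1 e2 => by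
      have := mv ((all m w hm hw).eich_mem (a2 m w (-(p m n)⁻¹ • v) hm hw hw0 (by simp [e1])) 0)
        (hB.eich_apply_of_orth _ (by simp [h.pure, hw]) (by simp [h.pure, h.hW.zero_symm e1]))
        (a1 n w f hn hw hf0 hf)
      rw [hB.eich_apply (by simp [h.pure, hm]) (by simp [h.pure, hm]) (by simp [h.pure, hm])]
        at this
      simpa [h.pure, hf, h.hW.zero_symm e2, hmn, tmul_neg, smul_smul] using this
    obtain ⟨z, z1, z2, z3⟩ := exists_perp_norm h.hW h.l3 hw hf0 (by simp [hf]) (map_one σ)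
    have b2 : ∀ m v, p m m = 0 → p m n ≠ 0 → β w v = 0 →
        m ⊗ₜ v ∈ UA hB M' (n ⊗ₜ w) := fun m v hm hmn e1 => by
      obtain ⟨l, hl⟩ := h.hU.toInv.exists_trace (h.hW.fix z)
      have := add_mem (mv (mW (h.hW.eichGroup_le (h.hW.eich_mem w z l)))
        (by rw [aW, h.hW.eich_apply_left]) (b1 m (β f v • z) hm hmn (by simp [z1]) (by simp [z2])))
        (b1 m (v - β f v • w) hm hmn (by simp [e1, hw]) (by simp [h.hW.one_symm hf]))
      rw [aW, h.hW.eich_apply hw z1 hl] at this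
      simpa [z1, z3, tmul_add, tmul_sub] using this
    refine iso_ind h.hU h.k2 (P := fun u => u ⊗ₜ v ∈ UA hB M' (n ⊗ₜ w)) (fun m hm => ?_)
      (fun x y hx hy => by rw [add_tmul]; exact add_mem hx hy) u
    by_cases hmn : p m n = 0
    · obtain ⟨n₁, e1, e2⟩ := h.hU.exists_hyp hn0 hn
      obtain ⟨a, ha⟩ := h.hU.exists_iso_sub hn (x := n₁ + m) (by simp [e1, h.hU.zero_symm hmn])
      have := add_mem (sub_mem (b2 _ v ha (by simp [hn, hmn, h.hU.one_symm e1]) e)
        (b2 n₁ v e2 (by simp [h.hU.one_symm e1]) e)) (a2 n w (a • v) hn hw hw0 (by simp [e]))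
      convert this using 1
      simp only [sub_tmul, add_tmul, smul_tmul]; abel
    · exact b2 m v hm hmn e
  have up : ∀ n w, p n n = 0 → n ≠ 0 → β w w = 0 → w ≠ 0 → UP hB M' (n ⊗ₜ w) :=
    fun n w hn hn0 hw hw0 => ⟨by simp [h.pure, hn], fun x hx => by
    obtain ⟨f, hf, hf0⟩ := h.hW.exists_hyp hw0 hw
    have hf' : f ≠ 0 := by rintro rfl; simp at hf
    obtain ⟨n₁, e1, e2⟩ := h.hU.exists_hyp hn0 hn
    obtain ⟨z, z1, z2, z3⟩ := exists_perp_norm h.hW h.l3 hw hf0 (by simp [hf]) (map_one σ)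
    have c1 : ∀ c : F, c • n ⊗ₜ f ∈ UA hB M' (n ⊗ₜ w) := fun c => by
      obtain ⟨-, l, hl, hm⟩ := a3 n f n₁ z hn hn0 hf0 hf' z2
      have := mv hm (hB.eich_apply_of_orth _ (by simp [h.pure, hn])
        (by simp [h.pure, h.hW.zero_symm z1])) (a2 n w (c • z) hn hw hw0 (by simp [z1]))
      rw [hB.eich_apply (by simp [h.pure, hn]) (by simp [h.pure, z2]) hl] at this
      simpa [h.pure, hn, z3, h.hU.one_symm e1] using this
    have c2 : ∀ m, p n m = 0 → m ⊗ₜ f ∈ UA hB M' (n ⊗ₜ w) := fun m hm => by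
      obtain ⟨-, l, hl, hm'⟩ := a3 n f m f hn hn0 hf0 hf' hf0
      have := mv hm' (hB.eich_apply_of_orth _ (by simp [h.pure, hn])
        (by simp [h.pure, h.hU.zero_symm hm])) (a3 n w n₁ w hn hn0 hw hw0 hw)
      rw [hB.eich_apply (by simp [h.pure, hn]) (by simp [h.pure, hm]) hl] at this
      convert sub_mem (c1 (B (m ⊗ₜ f) (n₁ ⊗ₜ w) - l * B (n ⊗ₜ f) (n₁ ⊗ₜ w))) this using 1
      simp only [h.pure n n₁, e1, h.hW.one_symm hf, mul_one, one_smul]; abel
    have c3 : ∀ x, x - cW U (β w) x ⊗ₜ f ∈ UA hB M' (n ⊗ₜ w) := fun x => by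
      induction x with
      | zero => simp
      | tmul u v =>
        simpa [tmul_sub, smul_tmul'] using a3 n w u (v - β w v • f) hn hn0 hw hw0 (by simp [hf])
      | add x y hx hy => simpa [add_tmul, add_sub_add_comm] using add_mem hx hy
    convert add_mem (c3 x) (c2 _ (by rwa [← h.left])) using 1
    abel⟩
  obtain ⟨w, f, hw, hf0, hf⟩ := h.hW.exists_hyp_pair (by have := h.l3; omega)
  obtain ⟨n, n₁, hn, e2, e1⟩ := h.hU.exists_hyp_pair h.k2
  refine un_le_of_pair ?_ (up n w hn (by rintro rfl; simp at e1) hw (by rintro rfl; simp at hf))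
    (up n₁ f e2 (by rintro rfl; simp at e1)
    hf0 (by rintro rfl; simp at hf)) (by simp [h.pure, e1, hf])
  rw [finrank_tensorProduct]
  have := h.k2; have := h.l3; nlinarith


variable {I : Type} [DecidableEq I] [Fintype I] {T : TP I F U W} {κ : F}
  (hκ : ∀ x y, B (T.pt x) (T.pt y) = κ * ∏ l, β (x l) (y l)) (hκ0 : κ ≠ 0) (hκ1 : σ κ = κ)
  {i j : I} (hi : T.s i = 1) (hij : i ≠ j)
include hκ hκ0 hκ1 hi hij

theorem le_of_univ {c : F} (hc0 : c ≠ 0) (hc : PU β T M Finset.univ (c • 1)) :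
    SUG B ≤ M.subgroupOf (UG B) := by
  have hW := h.hW
  have e0 : ∀ a b : I → W, κ • T.PM (fun l => r1 (β (b l)) (a l)) = (B (T.pt b)).smulRight (T.pt a) :=
    fun a b => T.ext fun ws => by
      rw [LinearMap.smul_apply, T.PM_r1, LinearMap.smulRight_apply, hκ, mul_smul]
  have hc' : σ c = -c := by
    obtain ⟨w, f, hw, hf0, hf⟩ := hW.exists_hyp_pair (by have := h.l3; omega)
    obtain ⟨t, ht, et⟩ := hc.2 (fun _ => w) fun _ _ => hw
    have e1 : t (T.pt fun _ => f) = T.pt (fun _ => f) + c • T.pt fun _ => w := by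
      rw [et, smul_mul_assoc, one_mul, SL.nS]
      simp [T.PM_r1 (fun _ => β w) (fun _ => w), hf]
    have := h.hM t ht (T.pt fun _ => f) (T.pt fun _ => f)
    have hI : Fintype.card I ≠ 0 := (Fintype.card_pos_iff.2 ⟨i⟩).ne'
    rw [e1] at this
    simp only [map_add, map_smul, LinearMap.add_apply, b_smul_left, hκ, hw, hf0, hf, hW.one_symm hf,
      Finset.prod_const, Finset.card_univ, zero_pow hI, one_pow, smul_eq_mul] at this
    exact mul_right_cancel₀ hκ0 (by linear_combination this)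
  let E : U ⊗[F] W → U ⊗[F] W → Module.End F (U ⊗[F] W) := fun x y =>
    (B y).smulRight x - (B x).smulRight y
  have key : ∀ w, w ≠ 0 → β w w = 0 → ∀ y ∈ LW F U w, ∀ x ∈ LW F U w, R M (E x y) := by
    intro w hw0 hw
    have iso : ∀ x ∈ LW F U w, ∀ y ∈ LW F U w, B x y = 0 := fun x hx y hy =>
      h.perpL.2 (cW_LW hw hy) x hx
    have m : ∀ x ∈ LW F U w, ∀ y ∈ LW F U w, R M (E x y) → E x y ∈ RSub M (LW F U w) :=
      fun x hx y hy e => ⟨e, fun z => sub_mem (Submodule.smul_mem _ _ hx) (Submodule.smul_mem _ _ hy),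
        fun z hz => by simp [E, iso x hx z hz, iso y hy z hz]⟩
    have pL : ∀ a, T.pt (update a i w) ∈ LW F U w := fun a => by
      obtain ⟨χ, hχ⟩ := exists_dual_one (F := F) hw0
      have := T.rh_pt i (r1 χ w) (update a i w)
      rw [hi, rh_one_r1] at this
      simp only [update_self, update_idem, LinearMap.smulRight_apply, hχ, one_smul] at this
      exact this ▸ tmul_mem_LW _ _
    obtain ⟨f, hf, hf0⟩ := hW.exists_hyp hw0 hw
    obtain ⟨v, v1, -, v2⟩ := exists_perp_norm hW h.l3 hw hf0 (by simp [hf]) (map_one σ)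
    have base : ∀ a b : I → W, (∀ l, β (a l) (a l) = 0 ∧ β (a l) (b l) ≠ 0) →
        (∀ l, β (b l) (b l) = 0) → ∀ k : F,
        R M (E (k • T.pt (update a i w)) (T.pt (update b i w))) := fun a b ha hb k => by
      have hx : ∀ (a : I → W) (v : W), β w v = 0 → (∀ l, β (a l) (a l) = 0) →
          R M (c • T.PM (update (fun l => r1 (β (a l)) (a l)) i (mm β v w))) := fun a v hv ha =>
        hc.ext (i := j) _ ⟨a j, ha j, by simp [hij.symm]⟩ (fun l _ => by
          by_cases e : l = i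
          · subst e; simpa using mm_HS hW hw0 hw hv
          · simpa [e] using mem_HS (ha l)) (by simp)
      have pr : ∀ (a b : I → W) (v v' : W), β w v = 0 → β w v' = 0 →
          κ • T.PM (update (fun l => r1 (β (a l)) (a l)) i (mm β v w) *
            update (fun l => r1 (β (b l)) (b l)) i (mm β v' w)) =
          (β v v' * ∏ l ∈ Finset.univ \ {i}, β (a l) (b l)) •
            (B (T.pt (update b i w))).smulRight (T.pt (update a i w)) := fun a b v v' hv hv' => by
        rw [← e0, ← Finset.prod_update_of_mem (Finset.mem_univ i), smul_comm, ← T.PM_smul]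
        congr 2
        funext l
        by_cases e : l = i
        · subst e; simpa using mm_mul hw (hW.zero_symm hv) hv'
        · simp [e, r1_mul]
      have hP : ∏ l ∈ Finset.univ \ {i}, β (a l) (b l) ≠ 0 :=
        Finset.prod_ne_zero_iff.2 fun l _ => (ha l).2
      have hP' : ∏ l ∈ Finset.univ \ {i}, β (b l) (a l) =
          σ (∏ l ∈ Finset.univ \ {i}, β (a l) (b l)) := by simp [hW.symm]
      obtain ⟨μ, hμ⟩ : ∃ μ, μ * (c * c * ∏ l ∈ Finset.univ \ {i}, β (a l) (b l)) = κ * k :=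
        ⟨_, div_mul_cancel₀ _ (by simp [hc0, hP])⟩
      have hμ' := congrArg σ hμ
      simp only [map_mul, hc', hκ1] at hμ'
      convert R_bracket (hx a v v1 fun l => (ha l).1) (hx b (μ • v) (by simp [v1]) hb)
        ?_ ?_ ?_ ?_ using 1
      · refine smul_right_injective _ hκ0 ?_
        simp only [smul_mul_smul_comm, ← T.PM_mul, smul_sub, smul_comm κ (c * c)]
        rw [pr _ _ _ _ v1 (by simp [v1]), pr _ _ _ _ (by simp [v1]) v1, hP']
        refine LinearMap.ext fun x => ?_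
        simp only [E, LinearMap.smul_apply, LinearMap.sub_apply, LinearMap.smulRight_apply,
          b_smul_left, map_smul, v2, smul_eq_mul]
        match_scalars
        · linear_combination (-B (T.pt (update b i w)) x) * hμ
        · linear_combination B (T.pt (update a i w)) x * hμ'
      all_goals simp only [smul_mul_smul_comm, ← T.PM_mul]
      · rw [T.PM_zero (i := j) (by simp [hij.symm, r1_mul, ha j]), smul_zero]
      · rw [T.PM_zero (i := j) (by simp [hij.symm, r1_mul, hb j]), smul_zero]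
      · rw [T.PM_zero (i := i) (by
          simp [add_mul, mul_add, r1_mul, hw, v1, hW.zero_symm v1]), smul_zero]
      · rw [T.PM_zero (i := i) (by
          simp [add_mul, mul_add, r1_mul, hw, v1, hW.zero_symm v1]), smul_zero]
    let Z : Submodule F (U ⊗[F] W) :=
      { carrier := {y | y ∈ LW F U w ∧ ∀ x ∈ LW F U w, R M (E x y)}
        add_mem' := fun {y z} hy hz => ⟨add_mem hy.1 hz.1, fun x hx =>
          (add_mem (m x hx y hy.1 (hy.2 x hx)) (m x hx z hz.1 (hz.2 x hx))).1.congr fun u => by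
            simp [E, add_smul]; abel⟩
        zero_mem' := ⟨zero_mem _, fun x _ => R.zero.congr fun u => by simp [E]⟩
        smul_mem' := fun k y hy => ⟨Submodule.smul_mem _ _ hy.1, fun x hx =>
          (hy.2 _ (Submodule.smul_mem _ (σ k) hx)).congr fun u => by
            simp [E, hW.invol, smul_smul, mul_comm]⟩ }
    refine fun y hy => (span_pt T hi (G := fun _ => {b | β b b = 0 ∧ b ≠ 0}) (Z := Z)
      (fun l => eq_top_iff.2 fun x _ => iso_ind hW (by have := h.l3; omega) (fun v hv => ?_)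
        (fun _ _ => add_mem) x) hw0 (fun b hb => ⟨pL b, fun x hx => ?_⟩) hy).2
    · by_cases e : v = 0
      · rw [e]; exact zero_mem _
      · exact Submodule.subset_span ⟨hv, e⟩
    let Z' : Submodule F (U ⊗[F] W) :=
      { carrier := {x | x ∈ LW F U w ∧ ∀ k : F, R M (E (k • x) (T.pt (update b i w)))}
        add_mem' := fun {y z} hy hz => ⟨add_mem hy.1 hz.1, fun k =>
          (add_mem (m _ (Submodule.smul_mem _ k hy.1) _ (pL b) (hy.2 k))
            (m _ (Submodule.smul_mem _ k hz.1) _ (pL b) (hz.2 k))).1.congr fun u => by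
            simp [E, add_smul]; abel⟩
        zero_mem' := ⟨zero_mem _, fun x => R.zero.congr fun u => by simp [E]⟩
        smul_mem' := fun k y hy => ⟨Submodule.smul_mem _ _ hy.1, fun l => by
          rw [smul_smul]; exact hy.2 _⟩ }
    simpa using (span_pt T hi (G := fun l => {a | β a a = 0 ∧ β a (b l) ≠ 0}) (Z := Z')
      (fun l => span_nonperp hW (hb l).2 (hb l).1) hw0
      (fun a ha => ⟨pL a, base a b ha fun l => (hb l).1⟩) hx).2 1
  refine h.le_of_all fun m v hm hv => ⟨by simp [h.pure, hm], fun s => ?_⟩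
  by_cases hv0 : v = 0
  · simp [hv0, one_mem]
  by_cases hs : s + σ s = 0
  swap
  · rw [h.hB.qr_of_not (by simpa [h.pure, hm] using hs)]; exact one_mem _
  obtain ⟨l, rfl⟩ := hW.toInv.exists_sub hs
  obtain ⟨t, ht, e⟩ := key v hv0 hv _ (tmul_mem_LW m v) _ (Submodule.smul_mem _ l (tmul_mem_LW m v))
  rw [Subgroup.mem_subgroupOf, show (h.hB.qr (m ⊗ₜ v) (l - σ l)).1 = t from LinearEquiv.ext fun x => by
    rw [e, h.hB.tv_apply (by simp [h.pure, hm]) hs]
    simp only [E, LinearMap.sub_apply, LinearMap.smulRight_apply, b_smul_left]; module]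
  exact ht

omit hκ0 hκ1 hi hij [Finite F] [FiniteDimensional F U] [FiniteDimensional F W] h in
theorem PP_iso (τ : Equiv.Perm I) : T.PP τ ∈ UG B := fun x y => by
  have : (B.comp (T.PP τ).toLinearMap).compl₂ (T.PP τ).toLinearMap = B :=
    LinearMap.ext_on T.span (by
      rintro _ ⟨a, rfl⟩
      exact T.ext fun b => by
        simp [T.PP_pt, hκ, Equiv.prod_comp τ.symm fun l => β (a l) (b l)])
  exact LinearMap.congr_fun (LinearMap.congr_fun this x) y

theorem main (hH : ∀ l, ∀ b ∈ SUG β, T.s l * iW U b.1 * (T.s l)⁻¹ ∈ M)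
    (hP : ∀ i j k : I, i ≠ j → k ≠ j → T.PP (Equiv.swap i j * Equiv.swap j k) ∈ M)
    {g : (U ⊗[F] W) ≃ₗ[F] (U ⊗[F] W)} (hg : g ∈ M) (hg' : g ∉ T.Wr) :
    SUG B ≤ M.subgroupOf (UG B) := by
  have := h.ntU
  have hn := h.l3
  have hW := h.hW
  have : Nontrivial W := Module.nontrivial_of_finrank_pos (R := F) (by omega)
  have sI : ∀ l, T.s l ∈ UG B := fun l => by
    obtain ⟨τ, e⟩ := T.s_eq l; exact e ▸ PP_iso hκ τ
  have h' : ∀ l, UW p β B (cM (T.s l) M) := fun l => { h with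
    memW := fun hb => hH l _ hb
    hM := fun t ht => by
      simpa [mul_assoc] using
        (UG B).mul_mem ((UG B).mul_mem ((UG B).inv_mem (sI l)) (h.hM _ ht)) (sI l) }
  obtain ⟨w, hw, iw⟩ := hW.exists_isotropic (by omega)
  obtain ⟨s, hs0, hs⟩ := hW.toInv.exists_skew
  have rt : ∀ l v (c : F), v ≠ 0 → β v v = 0 → c ≠ 0 → c + σ c = 0 → Max3.Rt M (T.s l) (c • β v) v :=
    fun l v c h1 h2 h3 h4 => by simpa using Rt_cM.1 ((h' l).rt h1 h2 h3 h4)
  by_cases hS : ∀ l, UU.Std β (cM (T.s l) M)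
  · refine (hg' (T.mem_Wr (by omega) (Hyp.core (Iso := UG B)
      (Good := fun M => UW p β B M ∧ UU.Std β M) ⟨hn, h.hM, sI, fun l => ⟨h' l, hS l⟩, T.com, T.cent,
      fun l => ⟨_, w, rt l w s hw iw hs0 hs⟩, fun h2 l => ?_,
      fun M g a b c φ w φ' w' r r' e => b.1.isT_of_im (b.2 w r.w0 (b.1.iso_of_rt r)) r.w0
        (b.1.iso_of_rt r) r'.w0 (c.1.iso_of_rt (Rt_cM.2 (by simpa using r'))) a
        (fun _ hb => c.1.memW hb) e,
      fun M g a b c φ w φ' w' r r' e hm => UWP.false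
        ⟨b.1, b.2, c.1, a, r', e, r.w0, b.1.iso_of_rt r, hm⟩⟩ hg))).elim
    have sk : ∀ c : F, σ c = c → c + σ c = 0 := fun c e => by rw [e]; linear_combination c * h2
    rcases h.big with ⟨b, hb, hb0, hb1⟩ | hl
    · refine ⟨[((1 : F) • β w, w), (b • β w, w), ((1 + b) • β w, w)], ⟨1, rfl⟩, ?_, ?_⟩
      · simp only [List.mem_cons, List.not_mem_nil, or_false]
        rintro _ (rfl | rfl | rfl)
        exacts [rt l w 1 hw iw one_ne_zero (sk _ (map_one σ)), rt l w b hw iw hb0 (sk _ hb),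
          rt l w _ hw iw (fun e => hb1 (by linear_combination e - h2)) (sk _ (by simp [hb]))]
      · ext x
        simp [iw]
        linear_combination (norm := module) (((1 + b) * β w x) * h2) • w
    obtain ⟨w', iw', ww, hw'⟩ := exists_line hW hl hw iw
    have ww' := hW.zero_symm ww
    have k : ∀ a b : F, b ≠ 0 → Max3.Rt M (T.s l) ((1 : F) • β (a • w + b • w')) (a • w + b • w') :=
      fun a b hb => rt l _ 1 (fun e => hw' (Submodule.mem_span_singleton.2 ⟨-(b⁻¹ * a), by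
        rw [← inv_smul_smul₀ hb w', eq_neg_of_add_eq_zero_right e]; module⟩))
        (by simp [iw, iw', ww, ww']) one_ne_zero (sk _ (map_one σ))
    obtain ⟨θ, hθ⟩ := hW.ne
    have θ0 : θ ≠ 0 := by rintro rfl; simp at hθ
    have θ1 : 1 + θ ≠ 0 := fun e => hθ (by rw [← neg_eq_of_add_eq_zero_right e]; simp)
    let r : F → F → Dual F W × W := fun a b => ((1 : F) • β (a • w + b • w'), a • w + b • w')
    refine ⟨[((1 : F) • β w, w), r 0 1, r 1 1, r 0 θ, r 1 θ, r 0 (1 + θ), r 1 (1 + θ)], ⟨3, rfl⟩,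
      ?_, ?_⟩
    · simp only [List.mem_cons, List.not_mem_nil, or_false]
      rintro _ (rfl | rfl | rfl | rfl | rfl | rfl | rfl)
      exacts [rt l w 1 hw iw one_ne_zero (sk _ (map_one σ)), k _ _ one_ne_zero, k _ _ one_ne_zero,
        k _ _ θ0, k _ _ θ0, k _ _ θ1, k _ _ θ1]
    · ext x
      simp [r, iw, iw', ww, ww']
      linear_combination (norm := module) ((2 * β w x + (1 + σ θ) * β w' x) * h2) • w +
        ((β w x * (1 + θ) + β w' x * ((1 + σ θ) * (1 + θ) + σ θ * θ + 1)) * h2) • w'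
  push Not at hS
  obtain ⟨l, hS⟩ := hS
  simp only [UU.Std, not_forall, not_exists] at hS
  obtain ⟨v, hv, iv, t, ht, e, hS⟩ := hS
  obtain ⟨γ, hγ⟩ := h.zform hv iv ((h' l).hM t ht) e
  have c1 : CA (T.s l) (cjm (T.s l) (γ.rTensor W)) := ca_of (α := γ) fun u w => by simp [cjm_apply]
  have c2 : R M (cjm (T.s l) (γ.rTensor W) * rh (T.s l) (r1 (β v) v)) :=
    (R_cM.1 ⟨t, ht, hγ⟩).congr fun x => by simp [cjm_apply, rh_r1, Dm_apply]
  have c3 : PU β T M {l} (cjm (T.s l) (γ.rTensor W)) := ⟨by simpa using c1, fun w e => by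
    rw [← Finset.insert_empty, SL.nS_insert T (by simp), SL.nS]
    simpa [← Pi.one_def, T.PM_one] using
      all_of_one_su hW hn (hH l) c1 hv iv c2 (e l (by simp))⟩
  obtain ⟨k, hk⟩ : ∃ k, ¬ CA (T.s k) (cjm (T.s l) (γ.rTensor W)) := by
    by_contra hn'; push Not at hn'
    obtain ⟨c, e⟩ := T.cent _ hn'
    obtain ⟨x, hx⟩ := hS c
    refine hx ?_
    have := LinearMap.congr_fun e (T.s l (cW U (β v) x ⊗ₜ v))
    simp only [cjm_apply, LinearEquiv.symm_apply_apply, LinearMap.rTensor_tmul,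
      LinearMap.smul_apply, Module.End.one_apply, ← map_smul, (T.s l).injective.eq_iff] at this
    rw [hγ, Dm_apply, this]; rfl
  have hkl : k ∉ ({l} : Finset I) := by rw [Finset.mem_singleton]; rintro rfl; exact hk c1
  obtain ⟨γ', k7, k8⟩ := c3.step hW hn hH (Finset.mem_singleton_self l) hkl hk
  obtain ⟨c, k1, k2⟩ := PU.univ hW hn hH hP _ _ rfl
    (by simp [Finset.card_insert_of_notMem hkl]) _ k7 k8
  exact h.le_of_univ hκ hκ0 hκ1 hi hij k1 k2

end UW

section Glue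

variable {β : W →ₛₗ[σ] W →ₗ[F] F} {B : U ⊗[F] W →ₛₗ[σ] U ⊗[F] W →ₗ[F] F}
  {I : Type} [DecidableEq I] [Fintype I] {T : TP I F U W} {κ : F}
  (hκ : ∀ x y, B (T.pt x) (T.pt y) = κ * ∏ l, β (x l) (y l))
include hκ

theorem adj_rh (l : I) {a a' : Module.End F W} (h : ∀ u v, β (a u) v = β u (a' v))
    (x y : U ⊗[F] W) : B (rh (T.s l) a x) y = B x (rh (T.s l) a' y) := by
  have : B.comp (rh (T.s l) a) = B.compl₂ (rh (T.s l) a') :=
    LinearMap.ext_on T.span (by
      rintro _ ⟨u, rfl⟩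
      exact T.ext fun v => by
        simp only [LinearMap.comp_apply, LinearMap.compl₂_apply, T.rh_pt, hκ]
        congr 1
        refine Finset.prod_congr rfl fun k _ => ?_
        by_cases e : k = l
        · subst e; simp [h]
        · simp [e])
  exact LinearMap.congr_fun (LinearMap.congr_fun this x) y

theorem exists_left [Nontrivial W] (hB : HF B) (hW : HF β) {i : I} (hi : T.s i = 1) :
    ∃ p : U →ₛₗ[σ] U →ₗ[F] F, HF p ∧ ∀ u u' w w', B (u ⊗ₜ w) (u' ⊗ₜ w') = p u u' * β w w' := by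
  obtain ⟨w₁, hw₁⟩ := hW.exists_nonisotropic
  have k : ∀ u u' w w', B (u ⊗ₜ w) (u' ⊗ₜ w') =
      (β w₁ w₁)⁻¹ * B (u ⊗ₜ w₁) (u' ⊗ₜ w₁) * β w w' := fun u u' w w' => by
    have := adj_rh hκ i (a := r1 (β w₁) w) (a' := r1 (β w) w₁)
      (fun u v => by simp [hW.symm, mul_comm]) (u ⊗ₜ w₁) (u' ⊗ₜ w')
    simp only [hi, rh_one_tmul, LinearMap.smulRight_apply, tmul_smul, b_smul_left, map_smul,
      hW.fix, smul_eq_mul] at this
    field_simp
    linear_combination this
  refine ⟨(β w₁ w₁)⁻¹ • (B.comp (inW F U w₁)).compl₂ (inW F U w₁), ⟨hW.toInv, fun x y => by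
    simp [hW.fix, hB.symm], fun x hx => ?_⟩, fun u u' w w' => by rw [k]; simp⟩
  refine tmul_left_inj (F := F) (ne_zero_of_b hw₁) ((hB.nd _ fun y => ?_).trans (zero_tmul _ _).symm)
  induction y with
  | zero => simp
  | tmul u w => rw [k, show (β w₁ w₁)⁻¹ * B (x ⊗ₜ w₁) (u ⊗ₜ w₁) = 0 by simpa using hx u, zero_mul]
  | add y z hy hz => rw [map_add, hy, hz, add_zero]

variable [FiniteDimensional F U] [FiniteDimensional F W] [Finite F] (hB : HF B) (hW : HF β)
  (hn : 3 ≤ finrank F W)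
include hB hW hn

omit hB in
theorem exists_su_not_Wr [Nontrivial U] {i j : I} (hij : i ≠ j) : ∃ g ∈ SUG B, g.1 ∉ T.Wr := by
  obtain ⟨w, f, hw, -, hf⟩ := hW.exists_hyp_pair (by omega)
  obtain ⟨s, hs0, hs⟩ := hW.toInv.exists_skew
  have hw0 : w ≠ 0 := ne_zero_of_b (hf ▸ one_ne_zero)
  have hφ : β w ≠ 0 := fun e => by simp [e] at hf
  have c : CA (T.s j) (rh (T.s i) (r1 (β w) w)) := T.com i j hij _
  have e2 := LinearMap.congr_fun ((ca_smul c s).mul_r1 (s • rh (T.s i) (r1 (β w) w)) (β w) w hw)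
  have ad := fun l => adj_rh hκ l (a := r1 (β w) w) (a' := r1 (β w) w)
    fun u v => by simp [hW.symm, mul_comm]
  refine ⟨⟨uni (s • rh (T.s i) (r1 (β w) w) * rh (T.s j) (r1 (β w) w)) e2,
    fun x y => ?_⟩, det_uni _ e2, T.not_mem_Wr (by omega) (ca_smul c s)
    (fun k e => T.exists_not_scalar i hφ hw0 hw (s⁻¹ * k) (by
      rw [mul_smul, ← e, inv_smul_smul₀ hs0])) hφ hw0 hw fun x => rfl⟩
  have e3 := LinearMap.congr_fun (c (r1 (β w) w)).eq
  have e4 := LinearMap.congr_fun (rh_r1_mul (g := T.s i) (β w) w hw)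
  simp only [Module.End.mul_apply, LinearMap.zero_apply] at e3 e4
  simp only [uni_apply, Module.End.mul_apply, LinearMap.smul_apply, map_add, LinearMap.add_apply,
    b_smul_left, map_smul, ad, e4, ← e3, map_zero, smul_eq_mul]
  linear_combination B x (rh (T.s i) (r1 (β w) w) (rh (T.s j) (r1 (β w) w) y)) * hs

theorem su_le_of_wreath (hκ0 : κ ≠ 0) (hk : 2 ≤ finrank F U)
    (big : (∃ b, σ b = b ∧ b ≠ 0 ∧ b ≠ 1) ∨ 4 ≤ finrank F W) {i j : I} (hi : T.s i = 1) (hij : i ≠ j)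
    {M : Subgroup ((U ⊗[F] W) ≃ₗ[F] (U ⊗[F] W))}
    (a : ∀ g ∈ UG B, LinearEquiv.det g = 1 → g ∈ T.Wr → g ∈ M) (b : ∀ g ∈ M, g ∈ UG B)
    (c : ∃ g ∈ M, g ∉ T.Wr) : SUG B ≤ M.subgroupOf (UG B) := by
  obtain ⟨g, hg, hg'⟩ := c
  have : Nontrivial W := Module.nontrivial_of_finrank_pos (R := F) (by omega)
  have : Nontrivial U := Module.nontrivial_of_finrank_pos (R := F) (by omega)
  have hκ1 : σ κ = κ := by
    obtain ⟨w, hw⟩ := hW.exists_nonisotropic
    have := hB.fix (T.pt fun _ => w)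
    simpa [hκ, hW.fix, hw] using this
  obtain ⟨p, hp, hpure⟩ := exists_left hκ hB hW hi
  have h0 : ∀ b : UG β, iW U b.1 ∈ UG B := fun b x y => by
    induction x with
    | zero => simp
    | tmul u w =>
      induction y with
      | zero => simp
      | tmul u' w' => simp [hpure]
      | add y z hy hz => simp only [map_add, hy, hz]
    | add x z hx hz => simp only [map_add, LinearMap.add_apply, hx, hz]
  have sI : ∀ l, T.s l ∈ UG B := fun l => by
    obtain ⟨τ, e⟩ := T.s_eq l; exact e ▸ UW.PP_iso hκ τ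
  have hH : ∀ l, ∀ b ∈ SUG β, T.s l * iW U b.1 * (T.s l)⁻¹ ∈ M := fun l b hb =>
    a _ (cj_mem_of (sI l) (h0 b)) (by
      rw [map_mul, map_mul, map_inv, mul_inv_cancel_comm]
      exact (det_congr 1 b.1).trans (by simp [det_SUG hb]))
      (T.root_mem (by omega) l (x := b.1.toLinearMap - 1) fun v => by
        rw [← LinearEquiv.coe_coe, coe_cj_iW, map_sub, map_one]; simp)
  exact (UW.mk hp hW hpure hk hn big (fun hb => by simpa [hi] using hH i _ hb) b).main hκ hκ0 hκ1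
    hi hij hH (fun i j k x y => a _ (UW.PP_iso hκ _) (T.det_three x y) (T.PP_mem (by omega) _))
    hg hg'

end Glue

open Geo in
theorem max_wreath_SU [Fintype F] {n q : ℕ} (hF : Nat.card F = q ^ 2) {m t : ℕ} (hm : 3 ≤ m)
    (ht : 2 ≤ t) (hex : ¬ (q = 2 ∧ m = 3)) {e : Fin n ≃ (Fin t → Fin m)} {P : GL (Fin n) F}
    {f₁ : (Fin m → F) → (Fin m → F) → F} (hf₁ : IsUnitaryFormPow q f₁)
    (hT : IsTensorPowerFormStructure (fun x : F => x ^ q) (hermForm n F q) f₁ e P) :
    IsMaximalIn (GU n F q ⊓ specialLinear (Fin n) F)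
      (tensorWreathSubgroup m t e P ⊓ (GU n F q ⊓ specialLinear (Fin n) F)) := by
  obtain ⟨t, rfl⟩ : ∃ t', t = t' + 2 := ⟨t - 2, by omega⟩
  have : Nonempty (Fin m) := ⟨⟨0, by omega⟩⟩
  let T := tp0 F m (t + 1)
  have hn : 3 ≤ finrank F (Fin m → F) := by simpa
  have hW := uniOf_hf hF hf₁
  obtain ⟨κ, hκ0, hT⟩ := hT
  have hκ : ∀ x y, trU (sB hF n) (powE e P) (T.pt x) (T.pt y) =
      κ * ∏ l, uniOf hF hf₁ (x l) (y l) := fun x y => by
    change trU _ _ (E0 F m _ (pt0 F m _ x)) (E0 F m _ (pt0 F m _ y)) = _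
    rw [trU_apply, powE_symm, powE_symm, ← hermForm_eq, hT]
    congr 1
    have e1 : ∀ a b, uniOf hF hf₁ a b = formOfGram (frob hF) (gramMatrix f₁) b a := fun a b =>
      (formOfGram_gram (uniOf hF hf₁).flip (fun _ _ => rfl) b a).symm
    simp only [e1, formOfGram, Finset.prod_univ_sum, Fintype.piFinset_univ, pt0_apply,
      Finset.prod_mul_distrib, ← Finset.prod_pow]
    rfl
  have hB : HF (trU (sB hF n) (powE e P)) := ⟨inv_frob hF, fun x y => (hf_sB hF n).symm _ _,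
    fun x hx => by
      simpa using (hf_sB hF n).nd ((powE e P).symm x) fun y => by
        simpa [trU_apply] using hx (powE e P y)⟩
  refine isMaximalIn_SU' hF (powE e P) (· ∈ T.Wr) (mem_wreath_iff (by omega) e P)
    (exists_su_not_Wr hκ hW hn (zero_ne_one (α := Fin (t + 2)))) fun M a b _ c =>
    su_le_of_wreath hκ hB hW hn hκ0 ?_ ?_ (i := 0) (LinearEquiv.ext fun x => ?_) zero_ne_one a b c
  · simp only [finrank_fintype_fun_eq_card, Fintype.card_fun, Fintype.card_fin]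
    exact (show 2 ≤ m by omega).trans (Nat.le_self_pow (by omega) m)
  · by_cases h : q = 2
    · exact Or.inr (by simp; omega)
    · exact Or.inl ((inv_frob hF).exists_fix_ne hF h)
  · simp [T, tp0, cong_apply, PP0]

end Cfsg.Agent.Max
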